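import Mathlib
import Cfsg.Prelude.Def_GeometricClasses
import Cfsg.Prelude.Def_ClassicalGeometry
import Cfsg.Agent.H45.IsoForm

/-!
# S5961 team project: definitions and piece statements

Isometries of odd prime order `r ≠ p` of a symplectic space over a finite field and orthogonal
decompositions.  Everything is phrased with helper45's `Good` (nondegenerate form + semisimple
isometry) and `perp` from `Cfsg.Agent.H45.IsoForm`.
-/

set_option autoImplicit false

namespace Cfsg.Agent.H42.Spd

open Cfsg.Agent.H45 Module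

universe u v

/-- `c = i` if `i` is even and `c = 2 i` if `i` is odd, `i` the order of `|F|` modulo `r`. -/
noncomputable def cc (F : Type u) [Fintype F] (r : ℕ) : ℕ :=
  if Even (orderOf (Fintype.card F : ZMod r)) then orderOf (Fintype.card F : ZMod r)
  else 2 * orderOf (Fintype.card F : ZMod r)

section Basic

variable {F : Type u} [Field F] {V : Type v} [AddCommGroup V] [Module F V]

/-- `W` is a `T`-invariant subspace on which the form is nondegenerate. -/
def Nd (B : V →ₗ[F] V →ₗ[F] F) (T : Module.End F V) (W : Submodule F V) : Prop :=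
  W ∈ T.invtSubmodule ∧ W ⊓ perp B W = ⊥

/-- The dimension of the space of `T`-fixed vectors of `W`. -/
noncomputable def kk (T : Module.End F V) (W : Submodule F V) : ℕ :=
  Module.finrank F ↥(W ⊓ LinearMap.ker (T - 1))

/-- Standing hypotheses: `T` is an isometry with `T ^ r = 1` of a nondegenerate alternating
form, `r` an odd prime invertible in `F`. -/
structure Ctx (r : ℕ) (B : V →ₗ[F] V →ₗ[F] F) (T : Module.End F V) : Prop where
  prime : r.Prime
  ne_two : r ≠ 2
  cast_ne : (r : F) ≠ 0
  good : Good (RingHom.id F) (-1) B T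
  pow : T ^ r = 1

end Basic

/-- SPD-BLOCK: a fixed-point-free isometry of order `r` on a nonzero space has an invariant
nondegenerate subspace of dimension `c`. -/
def StBlock : Prop :=
  ∀ (F : Type u) [Field F] [Fintype F] (V : Type v) [AddCommGroup V] [Module F V]
    [FiniteDimensional F V] (r : ℕ) (B : V →ₗ[F] V →ₗ[F] F) (T : Module.End F V),
    Ctx r B T → LinearMap.ker (T - 1) = ⊥ → (⊤ : Submodule F V) ≠ ⊥ →
    ∃ U : Submodule F V, Nd B T U ∧ Module.finrank F U = cc F r

/-- SPD-REL: the same inside an invariant nondegenerate subspace `W`. -/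
def StBlockRel : Prop :=
  ∀ (F : Type u) [Field F] [Fintype F] (V : Type v) [AddCommGroup V] [Module F V]
    [FiniteDimensional F V] (r : ℕ) (B : V →ₗ[F] V →ₗ[F] F) (T : Module.End F V),
    Ctx r B T → ∀ W : Submodule F V, Nd B T W → W ⊓ LinearMap.ker (T - 1) = ⊥ → W ≠ ⊥ →
    ∃ U : Submodule F V, U ≤ W ∧ Nd B T U ∧ Module.finrank F U = cc F r

/-- SPD-HYP: a nonzero nondegenerate subspace contains a nondegenerate plane. -/
def StHyp : Prop :=
  ∀ (F : Type u) [Field F] [Fintype F] (V : Type v) [AddCommGroup V] [Module F V]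
    [FiniteDimensional F V] (B : V →ₗ[F] V →ₗ[F] F) (T : Module.End F V),
    Good (RingHom.id F) (-1) B T → ∀ K : Submodule F V, K ⊓ perp B K = ⊥ → K ≠ ⊥ →
    ∃ U : Submodule F V, U ≤ K ∧ U ⊓ perp B U = ⊥ ∧ Module.finrank F U = 2

/-- SPD-FIX: the fixed space of an invariant nondegenerate subspace is nondegenerate. -/
def StFix : Prop :=
  ∀ (F : Type u) [Field F] [Fintype F] (V : Type v) [AddCommGroup V] [Module F V]
    [FiniteDimensional F V] (r : ℕ) (B : V →ₗ[F] V →ₗ[F] F) (T : Module.End F V),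
    Ctx r B T → ∀ W : Submodule F V, Nd B T W → Nd B T (W ⊓ LinearMap.ker (T - 1))

/-- SPD-COMPL: the orthogonal complement of `U` inside `W`. -/
def StCompl : Prop :=
  ∀ (F : Type u) [Field F] [Fintype F] (V : Type v) [AddCommGroup V] [Module F V]
    [FiniteDimensional F V] (B : V →ₗ[F] V →ₗ[F] F) (T : Module.End F V),
    Good (RingHom.id F) (-1) B T → ∀ U W : Submodule F V, Nd B T U → Nd B T W → U ≤ W →
    Nd B T (W ⊓ perp B U) ∧ U ⊔ (W ⊓ perp B U) = W ∧
      Module.finrank F U + Module.finrank F ↥(W ⊓ perp B U) = Module.finrank F W ∧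
      kk T U + kk T (W ⊓ perp B U) = kk T W

/-- SPD-SUM: the orthogonal sum of two invariant nondegenerate subspaces. -/
def StSum : Prop :=
  ∀ (F : Type u) [Field F] [Fintype F] (V : Type v) [AddCommGroup V] [Module F V]
    [FiniteDimensional F V] (B : V →ₗ[F] V →ₗ[F] F) (T : Module.End F V),
    Good (RingHom.id F) (-1) B T → ∀ U U' : Submodule F V, Nd B T U → Nd B T U' →
    U' ≤ perp B U →
    Nd B T (U ⊔ U') ∧
      Module.finrank F ↥(U ⊔ U') = Module.finrank F U + Module.finrank F U' ∧
      kk T (U ⊔ U') = kk T U + kk T U'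

/-- SPD-SUB: invariant nondegenerate subspaces with prescribed numbers of blocks and of
fixed planes. -/
def StSub : Prop :=
  ∀ (F : Type u) [Field F] [Fintype F] (V : Type v) [AddCommGroup V] [Module F V]
    [FiniteDimensional F V] (r : ℕ) (B : V →ₗ[F] V →ₗ[F] F) (T : Module.End F V),
    Ctx r B T → ∀ W : Submodule F V, Nd B T W → ∀ j l : ℕ,
    kk T W + cc F r * j ≤ Module.finrank F W → 2 * l ≤ kk T W →
    ∃ U : Submodule F V, U ≤ W ∧ Nd B T U ∧ Module.finrank F U = cc F r * j + 2 * l ∧
      kk T U = 2 * l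

/-- SPD-MODC: the non-fixed part has dimension divisible by `c`. -/
def StModc : Prop :=
  ∀ (F : Type u) [Field F] [Fintype F] (V : Type v) [AddCommGroup V] [Module F V]
    [FiniteDimensional F V] (r : ℕ) (B : V →ₗ[F] V →ₗ[F] F) (T : Module.End F V),
    Ctx r B T → ∀ W : Submodule F V, Nd B T W →
    ∃ s : ℕ, Module.finrank F W = kk T W + cc F r * s

/-- SPD-DECOMP: an invariant orthogonal decomposition into `t` nondegenerate subspaces of
even dimension `a`, provided the fixed space is large enough. -/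
def StDecomp : Prop :=
  ∀ (F : Type u) [Field F] [Fintype F] (V : Type v) [AddCommGroup V] [Module F V]
    [FiniteDimensional F V] (r : ℕ) (B : V →ₗ[F] V →ₗ[F] F) (T : Module.End F V),
    Ctx r B T → ∀ (a t : ℕ) (W : Submodule F V), Nd B T W → Even a →
    Module.finrank F W = a * t → t * (a % cc F r) ≤ kk T W →
    ∃ D : Fin t → Submodule F V, (∀ j, D j ≤ W ∧ Nd B T (D j) ∧ Module.finrank F (D j) = a) ∧
      (∀ j j', j ≠ j' → D j' ≤ perp B (D j)) ∧ (⨆ j, D j) = W

/-- SPD-INDEP: pairwise orthogonal nondegenerate subspaces are independent. -/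
def StIndep : Prop :=
  ∀ (F : Type u) [Field F] (V : Type v) [AddCommGroup V] [Module F V]
    (B : V →ₗ[F] V →ₗ[F] F) (ι : Type) (D : ι → Submodule F V),
    (∀ j, D j ⊓ perp B (D j) = ⊥) → (∀ j j', j ≠ j' → D j' ≤ perp B (D j)) → iSupIndep D

/-- SPD-CYC: a linear map of prime order `r` permuting the summands of a decomposition
nontrivially moves at least `(r - 1) a` dimensions and fixes at least `a`. -/
def StCyc : Prop :=
  ∀ (F : Type u) [Field F] (V : Type v) [AddCommGroup V] [Module F V] [FiniteDimensional F V]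
    (T : Module.End F V) (r : ℕ), r.Prime → T ^ r = 1 → ∀ (a t : ℕ) (D : Fin t → Submodule F V),
    (∀ j, Module.finrank F (D j) = a) → iSupIndep D → ∀ σ : Equiv.Perm (Fin t),
    (∀ j, (D j).map T = D (σ j)) → (∃ j, σ j ≠ j) →
    (r - 1) * a ≤ Module.finrank F (LinearMap.range (T - 1)) ∧
      a ≤ Module.finrank F (LinearMap.ker (T - 1))

/-- SPD-KSUM: for an invariant decomposition the fixed space is the sum of the fixed spaces. -/
def StKsum : Prop :=
  ∀ (F : Type u) [Field F] (V : Type v) [AddCommGroup V] [Module F V] [FiniteDimensional F V]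
    (T : Module.End F V) (t : ℕ) (D : Fin t → Submodule F V), iSupIndep D → (⨆ j, D j) = ⊤ →
    (∀ j, D j ∈ T.invtSubmodule) →
    ∑ j, kk T (D j) = Module.finrank F (LinearMap.ker (T - 1))

/-- SPD-EX: symplectic matrices with `x ^ r = 1` and exactly `s` blocks. -/
def StEx : Prop :=
  ∀ (F : Type u) [Field F] [Fintype F] (p : ℕ) [Fact p.Prime] [CharP F p] (r : ℕ), r.Prime →
    r ≠ 2 → r ≠ p → ∀ d s : ℕ, cc F r * s ≤ 2 * d →
    ∃ x : ↥(Matrix.symplecticGroup (Fin d) F), x ^ r = 1 ∧
      Module.finrank F ↥(LinearMap.ker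
        (Matrix.toLin' (x : Matrix (Fin d ⊕ Fin d) (Fin d ⊕ Fin d) F) - 1)) + cc F r * s = 2 * d

/-- The decompositions of the statement S5961. -/
def Valid {F : Type u} [Field F] (d a : ℕ) {t : ℕ}
    (D : Fin t → Submodule F (Fin d ⊕ Fin d → F)) : Prop :=
  Cfsg.Geo.IsMDecomposition a D ∧
    (∀ j, ∀ u ∈ D j, u ≠ 0 → ∃ v ∈ D j, Cfsg.sympForm d F u v ≠ 0) ∧
    (∀ j j', j ≠ j' → ∀ u ∈ D j, ∀ v ∈ D j', Cfsg.sympForm d F u v = 0)

/-- SPD-WITT: the symplectic group is transitive on the ordered decompositions. -/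
def StWitt : Prop :=
  ∀ (F : Type u) [Field F] [Fintype F] (d a t : ℕ)
    (D D' : Fin t → Submodule F (Fin d ⊕ Fin d → F)), Valid d a D → Valid d a D' →
    ∃ g : ↥(Matrix.symplecticGroup (Fin d) F),
      ∀ j, (D j).map (Matrix.toLin' (g : Matrix (Fin d ⊕ Fin d) (Fin d ⊕ Fin d) F)) = D' j

/-- SPD-CNT: if `r` divides the number of unordered decompositions then `c ≤ 2 d`. -/
def StCnt : Prop :=
  ∀ (F : Type u) [Field F] [Fintype F] (d a t r : ℕ), r.Prime → (r : F) ≠ 0 →
    (∃ D : Fin t → Submodule F (Fin d ⊕ Fin d → F), Valid d a D) →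
    r ∣ Nat.card {D : Fin t → Submodule F (Fin d ⊕ Fin d → F) // Valid d a D} / Nat.factorial t →
    cc F r ≤ 2 * d

end Cfsg.Agent.H42.Spd
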