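import Mathlib
import Cfsg.Agent.H42.SpdDefs
import Cfsg.Agent.H45.IsoSp
import Cfsg.Agent.H31.DecCommon

/-!
# S5961: assembly from the pieces of `SpdDefs`
-/

set_option autoImplicit false

namespace Cfsg.Agent.H42.Spd

open Cfsg.Agent.H45 Module Matrix

universe u

section Aux

variable {F : Type u} [Field F]

theorem cc_even [Fintype F] (r : ℕ) : Even (cc F r) := by
  unfold cc
  split_ifs with h
  · exact h
  · exact even_two_mul _

theorem cc_pos [Fintype F] (r : ℕ) (h : 0 < orderOf (Fintype.card F : ZMod r)) : 0 < cc F r := by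
  unfold cc
  split_ifs <;> omega

theorem cc_le [Fintype F] (r : ℕ) (hr : r.Prime) (hr2 : r ≠ 2)
    (h : orderOf (Fintype.card F : ZMod r) ∣ r - 1) : cc F r ≤ r - 1 := by
  have hr1 : 0 < r - 1 := Nat.sub_pos_of_lt hr.one_lt
  unfold cc
  split_ifs with he
  · exact Nat.le_of_dvd hr1 h
  · have hodd : Odd (orderOf (Fintype.card F : ZMod r)) := Nat.not_even_iff_odd.mp he
    have h2 : 2 ∣ r - 1 := by
      rcases hr.eq_two_or_odd' with h2 | h2
      · exact absurd h2 hr2
      · obtain ⟨k, hk⟩ := h2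
        exact ⟨k, by omega⟩
    have hcop : Nat.Coprime 2 (orderOf (Fintype.card F : ZMod r)) :=
      (Nat.coprime_two_left).mpr hodd
    exact Nat.le_of_dvd hr1 (hcop.mul_dvd_of_dvd_of_dvd h2 h)

/-- The standard alternating form as a bilinear map. -/
noncomputable def stdB (d : ℕ) (F : Type u) [Field F] :
    (Fin d ⊕ Fin d → F) →ₗ[F] (Fin d ⊕ Fin d → F) →ₗ[F] F :=
  Matrix.toLinearMap₂' F (Matrix.J (Fin d) F)

theorem stdB_apply (d : ℕ) (u v : Fin d ⊕ Fin d → F) : stdB d F u v = Cfsg.sympForm d F u v := by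
  unfold stdB
  rw [Matrix.toLinearMap₂'_apply']
  rfl

theorem stdB_skew (d : ℕ) (u v : Fin d ⊕ Fin d → F) : stdB d F v u = -stdB d F u v := by
  unfold stdB
  rw [Matrix.toLinearMap₂'_apply', Matrix.toLinearMap₂'_apply', Matrix.dotProduct_mulVec,
    ← Matrix.mulVec_transpose, Matrix.J_transpose, Matrix.neg_mulVec, neg_dotProduct,
    dotProduct_comm]

theorem stdB_nondeg (d : ℕ) (x : Fin d ⊕ Fin d → F) (hx : ∀ y, stdB d F x y = 0) : x = 0 := by
  have h1 : ∀ z, x ⬝ᵥ z = 0 := by
    intro z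
    have := hx (-(Matrix.J (Fin d) F *ᵥ z))
    unfold stdB at this
    rw [Matrix.toLinearMap₂'_apply', Matrix.mulVec_neg, Matrix.mulVec_mulVec, Matrix.J_squared,
      Matrix.neg_mulVec, neg_neg, Matrix.one_mulVec] at this
    exact this
  funext i
  have := h1 (Pi.single i 1)
  rw [dotProduct_single, mul_one] at this
  exact this

theorem stdB_alt (d : ℕ) (x : Fin d ⊕ Fin d → F) : stdB d F x x = 0 := by
  unfold stdB
  rw [Matrix.toLinearMap₂'_apply']
  exact J_form_alt d x

theorem stdB_isom (d : ℕ) (A : Matrix (Fin d ⊕ Fin d) (Fin d ⊕ Fin d) F)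
    (hA : A ∈ Matrix.symplecticGroup (Fin d) F) (x y : Fin d ⊕ Fin d → F) :
    stdB d F (Matrix.toLin' A x) (Matrix.toLin' A y) = stdB d F x y := by
  unfold stdB
  rw [Matrix.toLinearMap₂'_apply', Matrix.toLinearMap₂'_apply', Matrix.toLin'_apply,
    Matrix.toLin'_apply, form_mulVec, SymplecticGroup.mem_iff'.mp hA]

theorem stdB_smul_smul (d : ℕ) (z : F) (u v : Fin d ⊕ Fin d → F) :
    stdB d F (z • u) (z • v) = z * z * stdB d F u v := by
  rw [(stdB d F).map_smul z u, LinearMap.smul_apply, (stdB d F u).map_smul z v, smul_eq_mul,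
    smul_eq_mul, mul_assoc]

theorem stdB_good (d : ℕ) (p : ℕ) [Fact p.Prime] [CharP F p] (r : ℕ) (hrp : ¬ p ∣ r)
    (T : Module.End F (Fin d ⊕ Fin d → F))
    (hisom : ∀ x y, stdB d F (T x) (T y) = stdB d F x y) (hT : T ^ r = 1) :
    Good (RingHom.id F) (-1) (stdB d F) T := by
  refine ⟨?_, ?_, ?_, hisom, isSemisimple_of_pow_eq_one p T r hrp hT⟩
  · intro x y
    rw [RingHom.id_apply, stdB_skew]
    ring
  · exact stdB_nondeg d
  · intro _ x
    exact stdB_alt d x

/-- Nondegeneracy of a subspace in the two formulations. -/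
theorem nd_iff (d : ℕ) (W : Submodule F (Fin d ⊕ Fin d → F)) :
    W ⊓ perp (stdB d F) W = ⊥ ↔
      ∀ u ∈ W, u ≠ 0 → ∃ v ∈ W, Cfsg.sympForm d F u v ≠ 0 := by
  constructor
  · intro h u hu hu0
    by_contra hcon
    push Not at hcon
    apply hu0
    have h1 : u ∈ W ⊓ perp (stdB d F) W := by
      refine ⟨hu, ?_⟩
      intro w hw
      rw [stdB_skew, stdB_apply, hcon w hw, neg_zero]
    rw [h] at h1
    exact (Submodule.mem_bot F).mp h1
  · intro h
    rw [eq_bot_iff]
    intro u hu
    rw [Submodule.mem_bot]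
    by_contra hu0
    obtain ⟨v, hv, hne⟩ := h u hu.1 hu0
    apply hne
    have h1 := hu.2 v hv
    rw [← stdB_apply, stdB_skew, h1, neg_zero]

theorem kk_top {V : Type*} [AddCommGroup V] [Module F V] (T : Module.End F V) :
    kk T ⊤ = Module.finrank F ↥(LinearMap.ker (T - 1)) := by
  unfold kk
  rw [top_inf_eq]

theorem nd_top {V : Type*} [AddCommGroup V] [Module F V] (B : V →ₗ[F] V →ₗ[F] F)
    (T : Module.End F V) (hnd : ∀ x, (∀ y, B x y = 0) → x = 0)
    (hrefl : ∀ x y, B x y = 0 → B y x = 0) : Nd B T ⊤ := by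
  refine ⟨?_, ?_⟩
  · rw [Module.End.mem_invtSubmodule]
    exact le_top
  · rw [eq_bot_iff]
    intro x hx
    rw [Submodule.mem_bot]
    apply hnd
    intro y
    exact hrefl _ _ (hx.2 y Submodule.mem_top)

end Aux

section Main

variable {F : Type u} [Field F] [Fintype F]

/-- From an `Nd`-decomposition to a decomposition in the sense of the statement. -/
theorem valid_of_nd (hIndep : StIndep.{u, u}) (d a t : ℕ) (ht : 2 ≤ t) (ha : 0 < a)
    (T : Module.End F (Fin d ⊕ Fin d → F)) (D : Fin t → Submodule F (Fin d ⊕ Fin d → F))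
    (h1 : ∀ j, Nd (stdB d F) T (D j) ∧ Module.finrank F (D j) = a)
    (h2 : ∀ j j', j ≠ j' → D j' ≤ perp (stdB d F) (D j)) (h3 : (⨆ j, D j) = ⊤) :
    Valid d a D := by
  refine ⟨⟨ht, ha, fun j => (h1 j).2, ?_, h3⟩, ?_, ?_⟩
  · have := hIndep F (Fin d ⊕ Fin d → F) (stdB d F) (Fin t) D
    exact this (fun j => (h1 j).1.2) h2
  · intro j
    exact (nd_iff d (D j)).mp (h1 j).1.2
  · intro j j' hjj' u hu v hv
    rw [← stdB_apply]
    exact h2 j j' hjj' hv u hu

theorem map_eq_of_invt {V : Type*} [AddCommGroup V] [Module F V] [FiniteDimensional F V]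
    (T : Module.End F V) (hinj : Function.Injective T) (W : Submodule F V)
    (hW : W ∈ T.invtSubmodule) : W.map T = W := by
  rw [Module.End.mem_invtSubmodule] at hW
  apply Submodule.eq_of_le_of_finrank_eq
  · rintro _ ⟨w, hw, rfl⟩
    exact hW hw
  · exact LinearEquiv.finrank_eq (Submodule.equivMapOfInjective T hinj W).symm

theorem invt_of_map_eq {V : Type*} [AddCommGroup V] [Module F V]
    (T : Module.End F V) (W : Submodule F V) (hW : W.map T = W) : W ∈ T.invtSubmodule := by
  rw [Module.End.mem_invtSubmodule]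
  intro w hw
  rw [Submodule.mem_comap, ← hW]
  exact Submodule.mem_map_of_mem hw

theorem spd_main (hModc : StModc.{u, u}) (hDecomp : StDecomp.{u, u}) (hIndep : StIndep.{u, u})
    (hCyc : StCyc.{u, u}) (hKsum : StKsum.{u, u}) (hEx : StEx.{u}) (hCnt : StCnt.{u})
    {p : ℕ} [Fact p.Prime] [CharP F p]
    (d : ℕ) (hd : 2 ≤ d)
    (a t : ℕ) (hat : 2 * d = a * t) (ha : 2 ≤ a) (hae : Even a) (ht : 2 ≤ t)
    (r : ℕ) [Fact r.Prime] (hr2 : r ≠ 2) (hrp : r ≠ p)
    (hΩ : r ∣ Nat.card {D : Fin t → Submodule F (Fin d ⊕ Fin d → F) // Valid d a D} /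
      Nat.factorial t) :
    (∀ x : ↥(Matrix.symplecticGroup (Fin d) F),
      (∃ z : F, ((x ^ r : ↥(Matrix.symplecticGroup (Fin d) F)) :
        Matrix (Fin d ⊕ Fin d) (Fin d ⊕ Fin d) F) =
          z • (1 : Matrix (Fin d ⊕ Fin d) (Fin d ⊕ Fin d) F)) →
      (∀ z : F, (x : Matrix (Fin d ⊕ Fin d) (Fin d ⊕ Fin d) F) ≠
        z • (1 : Matrix (Fin d ⊕ Fin d) (Fin d ⊕ Fin d) F)) →
      ∃ D : Fin t → Submodule F (Fin d ⊕ Fin d → F), Valid d a D ∧
        ∃ σ : Equiv.Perm (Fin t), ∀ j, (D j).map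
          (Matrix.toLin' (x : Matrix (Fin d ⊕ Fin d) (Fin d ⊕ Fin d) F)) = D (σ j)) ↔
    (cc F r ≤ a ∧ (2 * d) % cc F r = t * (a % cc F r)) := by
  classical
  have hr : r.Prime := Fact.out
  have hp : p.Prime := Fact.out
  have hpr : ¬ p ∣ r := fun h => hrp ((Nat.prime_dvd_prime_iff_eq hp hr).mp h).symm
  have hrF : (r : F) ≠ 0 := by
    intro h0
    exact hpr ((CharP.cast_eq_zero_iff F p r).mp h0)
  have hipos : 0 < orderOf (Fintype.card F : ZMod r) :=
    Cfsg.Agent.H99.El.orderOf_card_pos r hr hrF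
  have hidvd : orderOf (Fintype.card F : ZMod r) ∣ r - 1 :=
    Cfsg.Agent.H31.Dec.orderOf_card_dvd r hr hrF
  have hcpos : 0 < cc F r := cc_pos r hipos
  have hcle : cc F r ≤ r - 1 := cc_le r hr hr2 hidvd
  obtain ⟨c, hcdef⟩ : ∃ c, c = cc F r := ⟨_, rfl⟩
  rw [← hcdef] at hcpos hcle ⊢
  have hfinV : Module.finrank F (Fin d ⊕ Fin d → F) = 2 * d := by
    rw [Module.finrank_fintype_fun_eq_card, Fintype.card_sum, Fintype.card_fin]
    ring
  have hrefl : ∀ x y : Fin d ⊕ Fin d → F, stdB d F x y = 0 → stdB d F y x = 0 := by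
    intro x y h
    rw [stdB_skew, h, neg_zero]
  have hndtop : ∀ T : Module.End F (Fin d ⊕ Fin d → F), Nd (stdB d F) T ⊤ :=
    fun T => nd_top (stdB d F) T (stdB_nondeg d) hrefl
  -- the context of a symplectic matrix with `x ^ r = 1`
  have hctx : ∀ x : ↥(Matrix.symplecticGroup (Fin d) F), x ^ r = 1 →
      Ctx r (stdB d F) (Matrix.toLin' (x : Matrix (Fin d ⊕ Fin d) (Fin d ⊕ Fin d) F)) := by
    intro x hxr
    have hT : Matrix.toLin' (x : Matrix (Fin d ⊕ Fin d) (Fin d ⊕ Fin d) F) ^ r = 1 := by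
      rw [← Matrix.toLin'_pow, ← SubmonoidClass.coe_pow, hxr]
      exact Matrix.toLin'_one
    exact ⟨hr, hr2, hrF, stdB_good d p r hpr _ (stdB_isom d _ x.2) hT, hT⟩
  constructor
  · -- (⇒)
    intro hL
    -- a decomposition exists
    have hctx1 : Ctx r (stdB d F) (1 : Module.End F (Fin d ⊕ Fin d → F)) :=
      ⟨hr, hr2, hrF, stdB_good d p r hpr 1 (fun x y => rfl) (one_pow r), one_pow r⟩
    have hk1 : kk (1 : Module.End F (Fin d ⊕ Fin d → F)) ⊤ = 2 * d := by
      rw [kk_top, sub_self, LinearMap.ker_zero, finrank_top, hfinV]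
    obtain ⟨D₀, hD₀, hD₀o, hD₀t⟩ := hDecomp F _ r (stdB d F) 1 hctx1 a t ⊤ (hndtop 1) hae
      (by rw [finrank_top, hfinV, hat]) (by
        rw [hk1, hat, mul_comm a t]
        exact Nat.mul_le_mul_left t (Nat.mod_le a _))
    have hvalid₀ : Valid d a D₀ :=
      valid_of_nd hIndep d a t ht (by omega) 1 D₀ (fun j => ⟨(hD₀ j).2.1, (hD₀ j).2.2⟩) hD₀o hD₀t
    have hc2d : c ≤ 2 * d := hcdef ▸ hCnt F d a t r hr hrF ⟨D₀, hvalid₀⟩ hΩ
    -- the key facts on an element x with x ^ r = 1, x ≠ 1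
    have key : ∀ x : ↥(Matrix.symplecticGroup (Fin d) F), x ^ r = 1 →
        Module.finrank F ↥(LinearMap.ker
          (Matrix.toLin' (x : Matrix (Fin d ⊕ Fin d) (Fin d ⊕ Fin d) F) - 1)) < 2 * d →
        ∃ D : Fin t → Submodule F (Fin d ⊕ Fin d → F), Valid d a D ∧
          ∃ σ : Equiv.Perm (Fin t), ∀ j, (D j).map
            (Matrix.toLin' (x : Matrix (Fin d ⊕ Fin d) (Fin d ⊕ Fin d) F)) = D (σ j) := by
      intro x hxr hxf
      apply hL x
      · exact ⟨1, by rw [hxr, one_smul]; rfl⟩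
      · intro z hz
        have hTz : Matrix.toLin' (x : Matrix (Fin d ⊕ Fin d) (Fin d ⊕ Fin d) F) =
            z • (1 : Module.End F (Fin d ⊕ Fin d → F)) := by
          rw [hz, map_smul, Matrix.toLin'_one]
          rfl
        have hctxx := hctx x hxr
        -- z ^ 2 = 1
        obtain ⟨u, v, huv⟩ : ∃ u v : Fin d ⊕ Fin d → F, stdB d F u v ≠ 0 := by
          have hne : (Pi.single (Sum.inl ⟨0, by omega⟩) 1 : Fin d ⊕ Fin d → F) ≠ 0 := by
            intro h
            have := congrFun h (Sum.inl ⟨0, by omega⟩)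
            rw [Pi.single_eq_same, Pi.zero_apply] at this
            exact one_ne_zero this
          by_contra hcon
          push Not at hcon
          exact hne (stdB_nondeg d _ (fun y => hcon _ y))
        have hz2 : z ^ 2 = 1 := by
          have h1 := hctxx.good.isom u v
          rw [hTz, LinearMap.smul_apply, LinearMap.smul_apply, Module.End.one_apply,
            Module.End.one_apply, stdB_smul_smul] at h1
          have h2 : (z * z - 1) * stdB d F u v = 0 := by
            rw [sub_mul, h1, one_mul, sub_self]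
          rcases mul_eq_zero.mp h2 with h3 | h3
          · rw [pow_two]
            exact sub_eq_zero.mp h3
          · exact absurd h3 huv
        have hzr : z ^ r = 1 := by
          have h1 := hctxx.pow
          rw [hTz, smul_pow, one_pow] at h1
          have h2 := congrArg (fun S : Module.End F (Fin d ⊕ Fin d → F) => stdB d F (S u) v) h1
          simp only [LinearMap.smul_apply, Module.End.one_apply, map_smul, smul_eq_mul] at h2
          have h3 : (z ^ r - 1) * stdB d F u v = 0 := by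
            rw [sub_mul, h2, one_mul, sub_self]
          rcases mul_eq_zero.mp h3 with h4 | h4
          · exact sub_eq_zero.mp h4
          · exact absurd h4 huv
        have hz1 : z = 1 := by
          obtain ⟨k, hk⟩ : ∃ k, r = 2 * k + 1 := by
            rcases hr.eq_two_or_odd' with h2 | h2
            · exact absurd h2 hr2
            · exact h2
          rw [hk, pow_succ, pow_mul, hz2, one_pow, one_mul] at hzr
          exact hzr
        have hker : LinearMap.ker
            (Matrix.toLin' (x : Matrix (Fin d ⊕ Fin d) (Fin d ⊕ Fin d) F) - 1) = ⊤ := by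
          rw [hTz, hz1, one_smul, sub_self, LinearMap.ker_zero]
        rw [hker, finrank_top, hfinV] at hxf
        exact lt_irrefl _ hxf
    -- the consequences of a decomposition stabilised by x with trivial permutation
    have triv : ∀ (x : ↥(Matrix.symplecticGroup (Fin d) F)), x ^ r = 1 →
        ∀ D : Fin t → Submodule F (Fin d ⊕ Fin d → F), Valid d a D →
        (∀ j, (D j).map (Matrix.toLin' (x : Matrix (Fin d ⊕ Fin d) (Fin d ⊕ Fin d) F)) = D j) →
        ∃ k s : Fin t → ℕ, (∀ j, a = k j + c * s j) ∧ ∑ j, k j = Module.finrank F ↥(LinearMap.ker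
          (Matrix.toLin' (x : Matrix (Fin d ⊕ Fin d) (Fin d ⊕ Fin d) F) - 1)) := by
      intro x hxr D hD hinv
      have hctxx := hctx x hxr
      have hinv' : ∀ j, D j ∈ Module.End.invtSubmodule
          (Matrix.toLin' (x : Matrix (Fin d ⊕ Fin d) (Fin d ⊕ Fin d) F)) :=
        fun j => invt_of_map_eq _ _ (hinv j)
      have hnd : ∀ j, Nd (stdB d F)
          (Matrix.toLin' (x : Matrix (Fin d ⊕ Fin d) (Fin d ⊕ Fin d) F)) (D j) :=
        fun j => ⟨hinv' j, (nd_iff d (D j)).mpr (hD.2.1 j)⟩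
      have hs : ∀ j, ∃ s : ℕ, a = kk (Matrix.toLin'
          (x : Matrix (Fin d ⊕ Fin d) (Fin d ⊕ Fin d) F)) (D j) + c * s := by
        intro j
        obtain ⟨s, hs⟩ := hModc F _ r (stdB d F) _ hctxx (D j) (hnd j)
        exact ⟨s, by rw [← hD.1.finrank_eq j, hs, hcdef]⟩
      choose s hs using hs
      exact ⟨_, s, hs, hKsum F _ _ t D hD.1.indep hD.1.iSup_eq_top hinv'⟩
    -- c ≤ a
    have hca : c ≤ a := by
      by_contra hcon
      have hac : a < c := by omega
      obtain ⟨x, hxr, hxf⟩ := hEx F p r hr hr2 hrp d 1 (by rw [← hcdef]; omega)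
      rw [← hcdef, mul_one] at hxf
      obtain ⟨D, hD, σ, hσ⟩ := key x hxr (by omega)
      by_cases hσ1 : ∃ j, σ j ≠ j
      · have h1 := (hCyc F _ _ r hr (hctx x hxr).pow a t D hD.1.finrank_eq hD.1.indep σ hσ
          hσ1).1
        have h2 := LinearMap.finrank_range_add_finrank_ker
          (Matrix.toLin' (x : Matrix (Fin d ⊕ Fin d) (Fin d ⊕ Fin d) F) - 1)
        rw [hfinV] at h2
        have h3 : (r - 1) * 2 ≤ (r - 1) * a := Nat.mul_le_mul_left _ ha
        have h4 := hr.two_le
        omega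
      · push Not at hσ1
        obtain ⟨k, s, hks, hsum⟩ := triv x hxr D hD (fun j => by rw [hσ j, hσ1 j])
        have hk : ∀ j, k j = a := by
          intro j
          have h1 := hks j
          have h2 : s j = 0 := by
            by_contra h0
            have h3 : c ≤ c * s j := Nat.le_mul_of_pos_right c (Nat.pos_of_ne_zero h0)
            omega
          rw [h2, mul_zero, add_zero] at h1
          exact h1.symm
        rw [Finset.sum_congr rfl (fun j _ => hk j), Finset.sum_const, Finset.card_univ,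
          Fintype.card_fin, smul_eq_mul, mul_comm] at hsum
        omega
    refine ⟨hca, ?_⟩
    -- the max-block element
    obtain ⟨x, hxr, hxf⟩ := hEx F p r hr hr2 hrp d (2 * d / c)
      (by rw [← hcdef]; exact Nat.mul_div_le _ _)
    rw [← hcdef] at hxf
    have hxf' : Module.finrank F ↥(LinearMap.ker
        (Matrix.toLin' (x : Matrix (Fin d ⊕ Fin d) (Fin d ⊕ Fin d) F) - 1)) = 2 * d % c := by
      have h1 := Nat.mod_add_div (2 * d) c
      omega
    have hmodlt : 2 * d % c < c := Nat.mod_lt _ hcpos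
    obtain ⟨D, hD, σ, hσ⟩ := key x hxr (by omega)
    by_cases hσ1 : ∃ j, σ j ≠ j
    · have h1 := (hCyc F _ _ r hr (hctx x hxr).pow a t D hD.1.finrank_eq hD.1.indep σ hσ
        hσ1).2
      omega
    · push Not at hσ1
      obtain ⟨k, s, hks, hsum⟩ := triv x hxr D hD (fun j => by rw [hσ j, hσ1 j])
      rw [hxf'] at hsum
      have hk : ∀ j, k j = a % c := by
        intro j
        have h1 : k j ≤ ∑ j, k j :=
          Finset.single_le_sum (f := k) (fun _ _ => Nat.zero_le _) (Finset.mem_univ j)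
        have h2 : k j < c := by omega
        rw [hks j, Nat.add_mul_mod_self_left, Nat.mod_eq_of_lt h2]
      rw [Finset.sum_congr rfl (fun j _ => hk j), Finset.sum_const, Finset.card_univ,
        Fintype.card_fin, smul_eq_mul] at hsum
      exact hsum.symm
  · -- (⇐)
    rintro ⟨hca, hmod⟩ x ⟨z, hz⟩ -
    have hTr : Matrix.toLin' (x : Matrix (Fin d ⊕ Fin d) (Fin d ⊕ Fin d) F) ^ r =
        z • (1 : Module.End F (Fin d ⊕ Fin d → F)) := by
      rw [← Matrix.toLin'_pow, ← SubmonoidClass.coe_pow, hz, map_smul, Matrix.toLin'_one]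
      rfl
    have hisom := stdB_isom d _ x.2
    have hisomr : ∀ (k : ℕ) (u v : Fin d ⊕ Fin d → F),
        stdB d F ((Matrix.toLin' (x : Matrix (Fin d ⊕ Fin d) (Fin d ⊕ Fin d) F) ^ k) u)
          ((Matrix.toLin' (x : Matrix (Fin d ⊕ Fin d) (Fin d ⊕ Fin d) F) ^ k) v) =
          stdB d F u v := by
      intro k
      induction k with
      | zero => intro u v; rfl
      | succ k ih =>
        intro u v
        rw [pow_succ', Module.End.mul_apply, Module.End.mul_apply, hisom, ih]
    obtain ⟨u, v, huv⟩ : ∃ u v : Fin d ⊕ Fin d → F, stdB d F u v ≠ 0 := by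
      have hne : (Pi.single (Sum.inl ⟨0, by omega⟩) 1 : Fin d ⊕ Fin d → F) ≠ 0 := by
        intro h
        have := congrFun h (Sum.inl ⟨0, by omega⟩)
        rw [Pi.single_eq_same, Pi.zero_apply] at this
        exact one_ne_zero this
      by_contra hcon
      push Not at hcon
      exact hne (stdB_nondeg d _ (fun y => hcon _ y))
    have hz2 : z * z = 1 := by
      have h1 := hisomr r u v
      rw [hTr, LinearMap.smul_apply, LinearMap.smul_apply, Module.End.one_apply,
        Module.End.one_apply, stdB_smul_smul] at h1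
      have h2 : (z * z - 1) * stdB d F u v = 0 := by
        rw [sub_mul, h1, one_mul, sub_self]
      rcases mul_eq_zero.mp h2 with h3 | h3
      · exact sub_eq_zero.mp h3
      · exact absurd h3 huv
    have hz0 : z ≠ 0 := by
      rintro rfl
      rw [zero_mul] at hz2
      exact zero_ne_one hz2
    obtain ⟨T', hT'⟩ : ∃ T' : Module.End F (Fin d ⊕ Fin d → F),
        T' = z • Matrix.toLin' (x : Matrix (Fin d ⊕ Fin d) (Fin d ⊕ Fin d) F) := ⟨_, rfl⟩
    have hT'r : T' ^ r = 1 := by
      obtain ⟨k, hk⟩ : ∃ k, r = 2 * k + 1 := by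
        rcases hr.eq_two_or_odd' with h2 | h2
        · exact absurd h2 hr2
        · exact h2
      have hzr : z ^ r * z = 1 := by
        rw [hk, pow_succ, pow_mul, pow_two, hz2, one_pow, one_mul, hz2]
      rw [hT', smul_pow, hTr, smul_smul, hzr, one_smul]
    have hT'isom : ∀ u v, stdB d F (T' u) (T' v) = stdB d F u v := by
      intro u v
      rw [hT', LinearMap.smul_apply, LinearMap.smul_apply, stdB_smul_smul, hz2, one_mul, hisom]
    have hctx' : Ctx r (stdB d F) T' :=
      ⟨hr, hr2, hrF, stdB_good d p r hpr T' hT'isom hT'r, hT'r⟩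
    obtain ⟨s, hs⟩ := hModc F _ r (stdB d F) T' hctx' ⊤ (hndtop T')
    rw [finrank_top, hfinV, ← hcdef] at hs
    have hkge : t * (a % c) ≤ kk T' ⊤ := by
      rw [← hmod, hs, Nat.add_mul_mod_self_left]
      exact Nat.mod_le _ _
    obtain ⟨D, hD, hDo, hDt⟩ := hDecomp F _ r (stdB d F) T' hctx' a t ⊤ (hndtop T') hae
      (by rw [finrank_top, hfinV, hat]) (by rw [← hcdef]; exact hkge)
    refine ⟨D, valid_of_nd hIndep d a t ht (by omega) T' D
      (fun j => ⟨(hD j).2.1, (hD j).2.2⟩) hDo hDt, 1, ?_⟩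
    intro j
    rw [Equiv.Perm.one_apply]
    have h1 : (D j).map T' = D j :=
      map_eq_of_invt T' hctx'.good.injective (D j) (hD j).2.1.1
    rw [hT', Submodule.map_smul _ _ z hz0] at h1
    exact h1

end Main

end Cfsg.Agent.H42.Spd
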