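import Mathlib
import Cfsg.Agent.H42.SpdMain

/-!
# S5956 team project: definitions and piece statements

Elements of prime order of `PSp_{2d}(q)` and nondegenerate `m`-spaces.  Setting as in `SpdDefs`
(`Nd`, `cc`, helper45's `perp`), plus `Iso B T` (alternating nondegenerate form with an isometry
`T`, not necessarily semisimple) and `stdB d F` (the standard form, from `SpdMain`).
-/

set_option autoImplicit false

namespace Cfsg.Agent.H42.Spn

open Cfsg.Agent.H45 Cfsg.Agent.H42.Spd Module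

universe u v

section Basic

variable {F : Type u} [Field F] {V : Type v} [AddCommGroup V] [Module F V]

/-- `T` is an isometry of the nondegenerate alternating form `B`. -/
structure Iso (B : V →ₗ[F] V →ₗ[F] F) (T : Module.End F V) : Prop where
  alt : ∀ x, B x x = 0
  nondeg : ∀ x, (∀ y, B x y = 0) → x = 0
  isom : ∀ x y, B (T x) (T y) = B x y

end Basic

/-! ## Infrastructure without semisimplicity -/

/-- SPN-HYP. -/
def StIsoHyp : Prop :=
  ∀ (F : Type u) [Field F] [Fintype F] (V : Type v) [AddCommGroup V] [Module F V]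
    [FiniteDimensional F V] (B : V →ₗ[F] V →ₗ[F] F) (T : Module.End F V),
    Iso B T → ∀ K : Submodule F V, K ⊓ perp B K = ⊥ → K ≠ ⊥ →
    ∃ U : Submodule F V, U ≤ K ∧ U ⊓ perp B U = ⊥ ∧ Module.finrank F U = 2

/-- SPN-COMPL. -/
def StIsoCompl : Prop :=
  ∀ (F : Type u) [Field F] [Fintype F] (V : Type v) [AddCommGroup V] [Module F V]
    [FiniteDimensional F V] (B : V →ₗ[F] V →ₗ[F] F) (T : Module.End F V),
    Iso B T → ∀ U W : Submodule F V, Nd B T U → Nd B T W → U ≤ W →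
    Nd B T (W ⊓ perp B U) ∧ U ⊔ (W ⊓ perp B U) = W ∧
      Module.finrank F U + Module.finrank F ↥(W ⊓ perp B U) = Module.finrank F W

/-- SPN-SUM. -/
def StIsoSum : Prop :=
  ∀ (F : Type u) [Field F] [Fintype F] (V : Type v) [AddCommGroup V] [Module F V]
    [FiniteDimensional F V] (B : V →ₗ[F] V →ₗ[F] F) (T : Module.End F V),
    Iso B T → ∀ U U' : Submodule F V, Nd B T U → Nd B T U' → U' ≤ perp B U →
    Nd B T (U ⊔ U') ∧
      Module.finrank F ↥(U ⊔ U') = Module.finrank F U + Module.finrank F U'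

/-- SPN-EVEN: nondegenerate subspaces have even dimension. -/
def StEven : Prop :=
  ∀ (F : Type u) [Field F] [Fintype F] (V : Type v) [AddCommGroup V] [Module F V]
    [FiniteDimensional F V] (B : V →ₗ[F] V →ₗ[F] F) (T : Module.End F V),
    Iso B T → ∀ W : Submodule F V, W ⊓ perp B W = ⊥ → Even (Module.finrank F W)

/-- SPN-PEEL: if every nonzero invariant nondegenerate subspace contains an invariant
nondegenerate plane, then there are invariant nondegenerate subspaces of every even dimension. -/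
def StPeel : Prop :=
  ∀ (F : Type u) [Field F] [Fintype F] (V : Type v) [AddCommGroup V] [Module F V]
    [FiniteDimensional F V] (B : V →ₗ[F] V →ₗ[F] F) (T : Module.End F V),
    Iso B T →
    (∀ W : Submodule F V, Nd B T W → W ≠ ⊥ →
      ∃ P : Submodule F V, P ≤ W ∧ Nd B T P ∧ Module.finrank F P = 2) →
    ∀ W : Submodule F V, Nd B T W → ∀ k : ℕ, 2 * k ≤ Module.finrank F W →
    ∃ U : Submodule F V, U ≤ W ∧ Nd B T U ∧ Module.finrank F U = 2 * k

/-! ## Involutions, odd characteristic -/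

/-- SPN-INVODD: `T ^ 2 = z` with `z ^ 2 = 1`, characteristic not 2: invariant nondegenerate
planes. -/
def StInvOdd : Prop :=
  ∀ (F : Type u) [Field F] [Fintype F] (V : Type v) [AddCommGroup V] [Module F V]
    [FiniteDimensional F V] (B : V →ₗ[F] V →ₗ[F] F) (T : Module.End F V),
    (2 : F) ≠ 0 → Iso B T → ∀ z : F, z * z = 1 → T * T = z • (1 : Module.End F V) →
    ∀ W : Submodule F V, Nd B T W → W ≠ ⊥ →
    ∃ P : Submodule F V, P ≤ W ∧ Nd B T P ∧ Module.finrank F P = 2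

/-! ## Involutions, characteristic 2 -/

/-- SPN-INV2PIECE. -/
def StInv2Piece : Prop :=
  ∀ (F : Type u) [Field F] [Fintype F] (V : Type v) [AddCommGroup V] [Module F V]
    [FiniteDimensional F V] (B : V →ₗ[F] V →ₗ[F] F) (T : Module.End F V),
    (2 : F) = 0 → Iso B T → T * T = 1 →
    ∀ W : Submodule F V, Nd B T W → W ≠ ⊥ →
    ∃ P : Submodule F V, P ≤ W ∧ Nd B T P ∧
      (Module.finrank F P = 2 ∨ Module.finrank F P = 4)

/-- SPN-INV2STRUCT. -/
def StInv2Struct : Prop :=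
  ∀ (F : Type u) [Field F] [Fintype F] (V : Type v) [AddCommGroup V] [Module F V]
    [FiniteDimensional F V] (B : V →ₗ[F] V →ₗ[F] F) (T : Module.End F V),
    (2 : F) = 0 → Iso B T → T * T = 1 →
    ∀ W : Submodule F V, Nd B T W → ∀ m' : ℕ, m' ≤ Module.finrank F W →
    (4 ∣ m' ∨ (Even m' ∧ Module.finrank F W % 4 = 2)) →
    ∃ U : Submodule F V, U ≤ W ∧ Nd B T U ∧ Module.finrank F U = m'

/-- SPN-INV2EX: in characteristic 2 and for `d` even, an involution of `Sp_{2d}` all of whose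
invariant nondegenerate subspaces have dimension divisible by 4. -/
def StInv2Ex : Prop :=
  ∀ (F : Type u) [Field F] [Fintype F], (2 : F) = 0 → ∀ d : ℕ, Even d → 0 < d →
    ∃ x : ↥(Matrix.symplecticGroup (Fin d) F), x * x = 1 ∧ x ≠ 1 ∧
      ∀ W : Submodule F (Fin d ⊕ Fin d → F),
        W.map (Matrix.toLin' (x : Matrix (Fin d ⊕ Fin d) (Fin d ⊕ Fin d) F)) ≤ W →
        (∀ u ∈ W, u ≠ 0 → ∃ v ∈ W, Cfsg.sympForm d F u v ≠ 0) → 4 ∣ Module.finrank F W

/-! ## Unipotent isometries, odd characteristic -/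

/-- SPN-UFORM: the form `(u, v) ↦ B u ((T - 1) ^ (e - 1) v)` is `(-1)^e`-symmetric on an
invariant subspace killed by `(T - 1) ^ e`. -/
def StUniForm : Prop :=
  ∀ (F : Type u) [Field F] [Fintype F] (V : Type v) [AddCommGroup V] [Module F V]
    [FiniteDimensional F V] (B : V →ₗ[F] V →ₗ[F] F) (T : Module.End F V),
    Iso B T → ∀ W : Submodule F V, W ∈ T.invtSubmodule → ∀ e : ℕ, 0 < e →
    (∀ w ∈ W, ((T - 1) ^ e) w = 0) → ∀ u ∈ W, ∀ v ∈ W,
    B v (((T - 1) ^ (e - 1)) u) = (-1) ^ e * B u (((T - 1) ^ (e - 1)) v)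

/-- SPN-UCYC1: a cyclic nondegenerate block. -/
def StUniCyc1 : Prop :=
  ∀ (F : Type u) [Field F] [Fintype F] (V : Type v) [AddCommGroup V] [Module F V]
    [FiniteDimensional F V] (B : V →ₗ[F] V →ₗ[F] F) (T : Module.End F V),
    Iso B T → ∀ W : Submodule F V, W ∈ T.invtSubmodule → ∀ e : ℕ, 0 < e → ∀ u ∈ W,
    ((T - 1) ^ e) u = 0 → B u (((T - 1) ^ (e - 1)) u) ≠ 0 →
    ∃ P : Submodule F V, P ≤ W ∧ Nd B T P ∧
      ∀ j : ℕ, Module.finrank F ↥(P ⊓ LinearMap.ker ((T - 1) ^ j)) = min j e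

/-- SPN-UCYC2: a nondegenerate pair of cyclic blocks. -/
def StUniCyc2 : Prop :=
  ∀ (F : Type u) [Field F] [Fintype F] (V : Type v) [AddCommGroup V] [Module F V]
    [FiniteDimensional F V] (B : V →ₗ[F] V →ₗ[F] F) (T : Module.End F V),
    Iso B T → ∀ W : Submodule F V, W ∈ T.invtSubmodule → ∀ e : ℕ, 0 < e → ∀ u ∈ W, ∀ v ∈ W,
    ((T - 1) ^ e) u = 0 → ((T - 1) ^ e) v = 0 →
    B u (((T - 1) ^ (e - 1)) u) = 0 → B v (((T - 1) ^ (e - 1)) v) = 0 →
    B u (((T - 1) ^ (e - 1)) v) ≠ 0 → B v (((T - 1) ^ (e - 1)) u) ≠ 0 →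
    ∃ P : Submodule F V, P ≤ W ∧ Nd B T P ∧
      ∀ j : ℕ, Module.finrank F ↥(P ⊓ LinearMap.ker ((T - 1) ^ j)) = 2 * min j e

/-- SPN-UBLOCK: a nonzero invariant nondegenerate subspace of a unipotent isometry contains a
nondegenerate block: one Jordan block of even size or two Jordan blocks of the same odd size. -/
def StUniBlock : Prop :=
  ∀ (F : Type u) [Field F] [Fintype F] (V : Type v) [AddCommGroup V] [Module F V]
    [FiniteDimensional F V] (B : V →ₗ[F] V →ₗ[F] F) (T : Module.End F V),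
    (2 : F) ≠ 0 → Iso B T → (∃ k : ℕ, (T - 1) ^ k = 0) →
    ∀ W : Submodule F V, Nd B T W → W ≠ ⊥ →
    ∃ (P : Submodule F V) (e : ℕ), P ≤ W ∧ Nd B T P ∧ 0 < e ∧
      ((Even e ∧ ∀ j : ℕ, Module.finrank F ↥(P ⊓ LinearMap.ker ((T - 1) ^ j)) = min j e) ∨
       (Odd e ∧ ∀ j : ℕ, Module.finrank F ↥(P ⊓ LinearMap.ker ((T - 1) ^ j)) = 2 * min j e))

/-- SPN-KERADD (pure linear algebra). -/
def StKerAdd : Prop :=
  ∀ (F : Type u) [Field F] (V : Type v) [AddCommGroup V] [Module F V] [FiniteDimensional F V]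
    (S : Module.End F V) (U W : Submodule F V), U ∈ S.invtSubmodule → W ∈ S.invtSubmodule →
    U ⊓ W = ⊥ →
    Module.finrank F ↥((U ⊔ W) ⊓ LinearMap.ker S) =
      Module.finrank F ↥(U ⊓ LinearMap.ker S) + Module.finrank F ↥(W ⊓ LinearMap.ker S)

/-- SPN-UNIQ (multisets): the kernel dimensions determine the Jordan type. -/
def StUniq : Prop :=
  ∀ μ μ' : Multiset ℕ, (∀ a ∈ μ, 0 < a) → (∀ a ∈ μ', 0 < a) →
    (∀ e : ℕ, (μ.map (fun s => min e s)).sum = (μ'.map (fun s => min e s)).sum) → μ = μ'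

/-- SPN-UTYPE: the Jordan type `μ` of a unipotent isometry on an invariant nondegenerate
subspace `W`: odd parts have even multiplicity, and every sub-multiset with the same property is
the type of an invariant nondegenerate subspace. -/
def StUniType : Prop :=
  ∀ (F : Type u) [Field F] [Fintype F] (V : Type v) [AddCommGroup V] [Module F V]
    [FiniteDimensional F V] (B : V →ₗ[F] V →ₗ[F] F) (T : Module.End F V),
    (2 : F) ≠ 0 → Iso B T → (∃ k : ℕ, (T - 1) ^ k = 0) →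
    ∀ W : Submodule F V, Nd B T W →
    ∃ μ : Multiset ℕ, (∀ a ∈ μ, 0 < a) ∧ (∀ a : ℕ, Odd a → Even (μ.count a)) ∧
      (∀ e : ℕ, Module.finrank F ↥(W ⊓ LinearMap.ker ((T - 1) ^ e)) =
        (μ.map (fun s => min e s)).sum) ∧
      ∀ ν : Multiset ℕ, ν ≤ μ → (∀ a : ℕ, Odd a → Even (ν.count a)) →
        ∃ U : Submodule F V, U ≤ W ∧ Nd B T U ∧ Module.finrank F U = ν.sum

/-- SPN-CAY: the Cayley transform of a nilpotent skew endomorphism. -/
def StCay : Prop :=
  ∀ (F : Type u) [Field F] (V : Type v) [AddCommGroup V] [Module F V]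
    (B : V →ₗ[F] V →ₗ[F] F) (N : Module.End F V), (2 : F) ≠ 0 → (∃ k : ℕ, N ^ k = 0) →
    (∀ x y, B (N x) y = -B x (N y)) →
    ∃ g : Module.End F V, (∀ x y, B (g x) (g y) = B x y) ∧
      (∀ e : ℕ, LinearMap.ker ((g - 1) ^ e) = LinearMap.ker (N ^ e)) ∧
      ∀ k : ℕ, N ^ k = 0 → (g - 1) ^ k = 0

/-- Models: a nondegenerate alternating space of dimension `n` with a nilpotent skew
endomorphism of Jordan type `μ`. -/
def ModelN (F : Type u) [Field F] (n : ℕ) (μ : Multiset ℕ) : Prop :=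
  ∃ (V : Type u) (_ : AddCommGroup V) (_ : Module F V) (_ : FiniteDimensional F V)
    (B : V →ₗ[F] V →ₗ[F] F) (N : Module.End F V),
    (∀ x, B x x = 0) ∧ (∀ x, (∀ y, B x y = 0) → x = 0) ∧ (∀ x y, B (N x) y = -B x (N y)) ∧
      Module.finrank F V = n ∧
      ∀ e : ℕ, Module.finrank F ↥(LinearMap.ker (N ^ e)) = (μ.map (fun s => min e s)).sum

/-- SPN-MODEVEN: one Jordan block of even size. -/
def StModEven : Prop :=
  ∀ (F : Type u) [Field F] (e : ℕ), Even e → 0 < e → ModelN F e {e}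

/-- SPN-MODPAIR: two Jordan blocks of the same size. -/
def StModPair : Prop :=
  ∀ (F : Type u) [Field F] (e : ℕ), 0 < e → ModelN F (2 * e) {e, e}

/-- SPN-MODSUM: orthogonal sums of models. -/
def StModSum : Prop :=
  ∀ (F : Type u) [Field F] (n₁ n₂ : ℕ) (μ₁ μ₂ : Multiset ℕ), ModelN F n₁ μ₁ → ModelN F n₂ μ₂ →
    ModelN F (n₁ + n₂) (μ₁ + μ₂)

/-- SPN-MODALL: all symplectic Jordan types. -/
def StModAll : Prop :=
  ∀ (F : Type u) [Field F] (μ : Multiset ℕ), (∀ a ∈ μ, 0 < a) →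
    (∀ a : ℕ, Odd a → Even (μ.count a)) → ModelN F μ.sum μ

/-- SPN-UEX: symplectic matrices of order `p` with prescribed Jordan type. -/
def StUniEx : Prop :=
  ∀ (F : Type u) [Field F] [Fintype F] (p : ℕ) [Fact p.Prime] [CharP F p], p ≠ 2 →
    ∀ (d : ℕ) (μ : Multiset ℕ), (∀ a ∈ μ, 0 < a ∧ a ≤ p) →
    (∀ a : ℕ, Odd a → Even (μ.count a)) → μ.sum = 2 * d →
    ∃ x : ↥(Matrix.symplecticGroup (Fin d) F), x ^ p = 1 ∧
      ∀ e : ℕ, Module.finrank F ↥(LinearMap.ker
        ((Matrix.toLin' (x : Matrix (Fin d ⊕ Fin d) (Fin d ⊕ Fin d) F) - 1) ^ e)) =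
          (μ.map (fun s => min e s)).sum

/-! ## Counting nondegenerate subspaces -/

/-- SPN-TRANS: the symplectic group is transitive on the nondegenerate subspaces of a given
dimension. -/
def StNdTrans : Prop :=
  ∀ (F : Type u) [Field F] [Fintype F] (d : ℕ) (W W' : Submodule F (Fin d ⊕ Fin d → F)),
    Module.finrank F W = Module.finrank F W' →
    (∀ u ∈ W, u ≠ 0 → ∃ v ∈ W, Cfsg.sympForm d F u v ≠ 0) →
    (∀ u ∈ W', u ≠ 0 → ∃ v ∈ W', Cfsg.sympForm d F u v ≠ 0) →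
    ∃ g : ↥(Matrix.symplecticGroup (Fin d) F),
      W.map (Matrix.toLin' (g : Matrix (Fin d ⊕ Fin d) (Fin d ⊕ Fin d) F)) = W'

/-- SPN-SPLIT: the stabiliser of a nondegenerate subspace `W` is the product of the isometry
groups of `W` and of its orthogonal complement. -/
def StStabSplit : Prop :=
  ∀ (F : Type u) [Field F] [Fintype F] (d : ℕ) (W : Submodule F (Fin d ⊕ Fin d → F)),
    W ⊓ perp (stdB d F) W = ⊥ →
    Nat.card {g : ↥(Matrix.symplecticGroup (Fin d) F) //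
        W.map (Matrix.toLin' (g : Matrix (Fin d ⊕ Fin d) (Fin d ⊕ Fin d) F)) = W} =
      Nat.card {e : ↥W ≃ₗ[F] ↥W // ∀ x y : ↥W, stdB d F (e x) (e y) = stdB d F x y} *
      Nat.card {e : ↥(perp (stdB d F) W) ≃ₗ[F] ↥(perp (stdB d F) W) //
        ∀ x y : ↥(perp (stdB d F) W), stdB d F (e x) (e y) = stdB d F x y}

/-- SPN-ISOMCARD: the isometry group of a nondegenerate subspace of dimension `2 k` has the
order of `Sp_{2k}(F)`. -/
def StIsomCard : Prop :=
  ∀ (F : Type u) [Field F] [Fintype F] (d k : ℕ) (W : Submodule F (Fin d ⊕ Fin d → F)),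
    Module.finrank F W = 2 * k → W ⊓ perp (stdB d F) W = ⊥ →
    Nat.card {e : ↥W ≃ₗ[F] ↥W // ∀ x y : ↥W, stdB d F (e x) (e y) = stdB d F x y} =
      Nat.card ↥(Matrix.symplecticGroup (Fin k) F)

/-- SPN-CNT: if `r` divides the number of nondegenerate `2 m'`-spaces then `c ∣ 2 j` for some
`d - m' < j ≤ d`. -/
def StNdCnt : Prop :=
  ∀ (F : Type u) [Field F] [Fintype F] (d m m' r : ℕ), r.Prime → (r : F) ≠ 0 → m = 2 * m' →
    m' ≤ d →
    (∃ W : Submodule F (Fin d ⊕ Fin d → F), Module.finrank F W = m ∧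
      (∀ u ∈ W, u ≠ 0 → ∃ v ∈ W, Cfsg.sympForm d F u v ≠ 0)) →
    r ∣ Nat.card {W : Submodule F (Fin d ⊕ Fin d → F) // Module.finrank F ↥W = m ∧
      (∀ u ∈ W, u ≠ 0 → ∃ v ∈ W, Cfsg.sympForm d F u v ≠ 0)} →
    ∃ j : ℕ, d - m' < j ∧ j ≤ d ∧ cc F r ∣ 2 * j

end Cfsg.Agent.H42.Spn
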