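import Mathlib
import Cfsg.Agent.H42.SpnDefs

/-!
# S5955 team project: definitions and piece statements

Elements of prime order of `PSp_{2d}(q)` and totally isotropic `m`-spaces.  Setting as in
`SpdDefs` / `SpnDefs` (`Nd`, `kk`, `cc`, `Ctx`, `Iso`, helper45's `perp`, `Good`).
-/

set_option autoImplicit false

namespace Cfsg.Agent.H42.Ti

open Cfsg.Agent.H45 Cfsg.Agent.H42.Spd Cfsg.Agent.H42.Spn Module Polynomial

universe u v

/-- `i`, the order of `|F|` modulo `r`. -/
noncomputable def ii (F : Type u) [Fintype F] (r : ℕ) : ℕ := orderOf (Fintype.card F : ZMod r)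

section Basic

variable {F : Type u} [Field F] {V : Type v} [AddCommGroup V] [Module F V]

/-- `U` is totally isotropic. -/
def TI (B : V →ₗ[F] V →ₗ[F] F) (U : Submodule F V) : Prop := ∀ u ∈ U, ∀ v ∈ U, B u v = 0

/-- `W` contains an invariant nondegenerate subspace `H` of dimension `2 a` which contains an
invariant totally isotropic subspace `L` of dimension `a`. -/
def HypPair (B : V →ₗ[F] V →ₗ[F] F) (T : Module.End F V) (a : ℕ) (W : Submodule F V) : Prop :=
  ∃ H L : Submodule F V, H ≤ W ∧ Nd B T H ∧ Module.finrank F H = 2 * a ∧ L ≤ H ∧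
    L ∈ T.invtSubmodule ∧ TI B L ∧ Module.finrank F L = a

end Basic

/-- `Φs` is the set of monic irreducible factors of the `r`-th cyclotomic polynomial. -/
def IsCycSet (F : Type u) [Field F] (r : ℕ) (Φs : Finset F[X]) : Prop :=
  ∀ φ : F[X], φ ∈ Φs ↔ (φ.Monic ∧ Irreducible φ ∧ φ ∣ cyclotomic r F)

/-! ## Counting totally isotropic subspaces of the standard symplectic space -/

/-- TI-TUPLES: the number of linearly independent `m`-tuples of pairwise orthogonal vectors. -/
def StTiTuples : Prop :=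
  ∀ (F : Type u) [Field F] [Fintype F] (d m : ℕ), m ≤ d →
    Nat.card {v : Fin m → (Fin d ⊕ Fin d → F) // LinearIndependent F v ∧
        ∀ a b, Cfsg.sympForm d F (v a) (v b) = 0} =
      ∏ j ∈ Finset.range m, (Fintype.card F ^ (2 * d - j) - Fintype.card F ^ j)

/-- TI-FIB: every totally isotropic `m`-space has `|GL_m(q)|` ordered bases. -/
def StTiFib : Prop :=
  ∀ (F : Type u) [Field F] [Fintype F] (d m : ℕ),
    Nat.card {v : Fin m → (Fin d ⊕ Fin d → F) // LinearIndependent F v ∧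
        ∀ a b, Cfsg.sympForm d F (v a) (v b) = 0} =
      Nat.card {W : Submodule F (Fin d ⊕ Fin d → F) // Module.finrank F ↥W = m ∧
        (∀ u ∈ W, ∀ v ∈ W, Cfsg.sympForm d F u v = 0)} *
      ∏ j ∈ Finset.range m, (Fintype.card F ^ m - Fintype.card F ^ j)

/-- TI-CNTP: the number of totally isotropic `m`-spaces is prime to the characteristic. -/
def StTiCntP : Prop :=
  ∀ (F : Type u) [Field F] [Fintype F] (p : ℕ) [Fact p.Prime] [CharP F p] (d m : ℕ), m ≤ d →
    ¬ p ∣ Nat.card {W : Submodule F (Fin d ⊕ Fin d → F) // Module.finrank F ↥W = m ∧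
        (∀ u ∈ W, ∀ v ∈ W, Cfsg.sympForm d F u v = 0)}

/-- TI-CNT: if `r` divides the number of totally isotropic `m`-spaces then `c ∣ 2 j` for some
`d - m < j ≤ d`. -/
def StTiCnt : Prop :=
  ∀ (F : Type u) [Field F] [Fintype F] (d m r : ℕ), r.Prime → (r : F) ≠ 0 → m ≤ d →
    r ∣ Nat.card {W : Submodule F (Fin d ⊕ Fin d → F) // Module.finrank F ↥W = m ∧
        (∀ u ∈ W, ∀ v ∈ W, Cfsg.sympForm d F u v = 0)} →
    ∃ j : ℕ, d - m < j ∧ j ≤ d ∧ cc F r ∣ 2 * j

/-! ## Peeling off hyperbolic pairs -/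

/-- TI-PEEL: if every invariant nondegenerate `W ≤ W₁` of dimension `> τ` contains a hyperbolic
pair of rank `a`, then `W₁` contains invariant totally isotropic subspaces of dimension `a j`
as long as `τ + 2 a (j - 1) < dim W₁`. -/
def StTiPeel : Prop :=
  ∀ (F : Type u) [Field F] [Fintype F] (V : Type v) [AddCommGroup V] [Module F V]
    [FiniteDimensional F V] (B : V →ₗ[F] V →ₗ[F] F) (T : Module.End F V),
    Iso B T → ∀ (a τ : ℕ) (W₁ : Submodule F V), Nd B T W₁ →
    (∀ W : Submodule F V, W ≤ W₁ → Nd B T W → τ < Module.finrank F W → HypPair B T a W) →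
    ∀ j : ℕ, (j = 0 ∨ τ + 2 * a * (j - 1) < Module.finrank F W₁) →
    ∃ U : Submodule F V, U ≤ W₁ ∧ U ∈ T.invtSubmodule ∧ TI B U ∧ Module.finrank F U = a * j

/-! ## Involutions (`r = 2 ≠ p`) -/

/-- TI-INVSQ: `T ^ 2 = μ ^ 2`: invariant totally isotropic subspaces of every dimension
`m ≤ dim V / 2`. -/
def StTiInvSq : Prop :=
  ∀ (F : Type u) [Field F] [Fintype F] (V : Type v) [AddCommGroup V] [Module F V]
    [FiniteDimensional F V] (B : V →ₗ[F] V →ₗ[F] F) (T : Module.End F V),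
    (2 : F) ≠ 0 → Iso B T → ∀ μ : F, (μ * μ) * (μ * μ) = 1 →
    T * T = (μ * μ) • (1 : Module.End F V) →
    ∀ m : ℕ, 2 * m ≤ Module.finrank F V →
    ∃ U : Submodule F V, U ∈ T.invtSubmodule ∧ TI B U ∧ Module.finrank F U = m

/-- TI-INVNS: `T ^ 2 = -1` with `-1` a non-square: invariant totally isotropic subspaces of
every even dimension `2 k ≤ dim V / 2`. -/
def StTiInvNs : Prop :=
  ∀ (F : Type u) [Field F] [Fintype F] (V : Type v) [AddCommGroup V] [Module F V]
    [FiniteDimensional F V] (B : V →ₗ[F] V →ₗ[F] F) (T : Module.End F V),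
    (2 : F) ≠ 0 → Iso B T → ¬ IsSquare (-1 : F) →
    T * T = (-1 : F) • (1 : Module.End F V) →
    ∀ k : ℕ, 4 * k ≤ Module.finrank F V →
    ∃ U : Submodule F V, U ∈ T.invtSubmodule ∧ TI B U ∧ Module.finrank F U = 2 * k

/-- TI-ODDINV: `T ^ 2 = -1` with `-1` a non-square: invariant subspaces have even dimension. -/
def StTiOddInv : Prop :=
  ∀ (F : Type u) [Field F] (V : Type v) [AddCommGroup V] [Module F V] [FiniteDimensional F V]
    (T : Module.End F V), ¬ IsSquare (-1 : F) → T * T = (-1 : F) • (1 : Module.End F V) →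
    ∀ W : Submodule F V, W ∈ T.invtSubmodule → Even (Module.finrank F W)

/-! ## Odd `r ≠ p`: linear algebra -/

/-- TI-CYCSET: the monic irreducible factors of the `r`-th cyclotomic polynomial: there are
`(r - 1) / i` of them, each of degree `i`. -/
def StCycSet : Prop :=
  ∀ (F : Type u) [Field F] [Fintype F] (r : ℕ), r.Prime → (r : F) ≠ 0 →
    (∃ Φs : Finset F[X], IsCycSet F r Φs) ∧
    ∀ Φs : Finset F[X], IsCycSet F r Φs →
      Φs.card * ii F r = r - 1 ∧ (∀ φ ∈ Φs, φ.natDegree = ii F r) ∧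
        (X - 1) * ∏ φ ∈ Φs, φ = X ^ r - 1

/-- TI-PRIM: the primary decomposition of an invariant subspace. -/
def StTiPrim : Prop :=
  ∀ (F : Type u) [Field F] [Fintype F] (V : Type v) [AddCommGroup V] [Module F V]
    [FiniteDimensional F V] (r : ℕ) (T : Module.End F V), r.Prime → (r : F) ≠ 0 → T ^ r = 1 →
    ∀ Φs : Finset F[X], IsCycSet F r Φs → ∀ W : Submodule F V, W ∈ T.invtSubmodule →
    Module.finrank F W = Module.finrank F ↥(W ⊓ LinearMap.ker (T - 1)) +
      ∑ φ ∈ Φs, Module.finrank F ↥(W ⊓ LinearMap.ker (aeval T φ))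

/-- TI-COMPDVD: invariant subspaces killed by an irreducible `φ` have dimension divisible by
`deg φ`. -/
def StTiCompDvd : Prop :=
  ∀ (F : Type u) [Field F] (V : Type v) [AddCommGroup V] [Module F V] [FiniteDimensional F V]
    (T : Module.End F V) (φ : F[X]), Irreducible φ → ∀ W : Submodule F V, W ∈ T.invtSubmodule →
    φ.natDegree ∣ Module.finrank F ↥(W ⊓ LinearMap.ker (aeval T φ))

/-- TI-IRRSUB: a nonzero invariant subspace killed by an irreducible `φ` contains an invariant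
subspace of dimension `deg φ`. -/
def StTiIrrSub : Prop :=
  ∀ (F : Type u) [Field F] (V : Type v) [AddCommGroup V] [Module F V] [FiniteDimensional F V]
    (T : Module.End F V) (φ : F[X]), Irreducible φ → ∀ W : Submodule F V, W ∈ T.invtSubmodule →
    W ≤ LinearMap.ker (aeval T φ) → W ≠ ⊥ →
    ∃ L : Submodule F V, L ≤ W ∧ L ∈ T.invtSubmodule ∧ Module.finrank F L = φ.natDegree

/-! ## Odd `r ≠ p`: forms -/

/-- TI-HALF: a totally isotropic subspace of a nondegenerate subspace `K` has dimension at most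
`dim K / 2`. -/
def StTiHalf : Prop :=
  ∀ (F : Type u) [Field F] [Fintype F] (V : Type v) [AddCommGroup V] [Module F V]
    [FiniteDimensional F V] (B : V →ₗ[F] V →ₗ[F] F) (T : Module.End F V),
    Iso B T → ∀ K U : Submodule F V, K ⊓ perp B K = ⊥ → U ≤ K → TI B U →
    2 * Module.finrank F U ≤ Module.finrank F K

/-- TI-UPPER: the dimension of an invariant totally isotropic subspace is `i s + w` with
`2 w ≤ dim C_V(T)`. -/
def StTiUpper : Prop :=
  ∀ (F : Type u) [Field F] [Fintype F] (V : Type v) [AddCommGroup V] [Module F V]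
    [FiniteDimensional F V] (r : ℕ) (B : V →ₗ[F] V →ₗ[F] F) (T : Module.End F V),
    Ctx r B T → ∀ W : Submodule F V, W ∈ T.invtSubmodule → TI B W →
    ∃ s w : ℕ, Module.finrank F W = ii F r * s + w ∧ 2 * w ≤ kk T ⊤

/-- TI-COMPND: for `i` even the isotypic components of an invariant nondegenerate subspace are
nondegenerate. -/
def StTiCompNd : Prop :=
  ∀ (F : Type u) [Field F] [Fintype F] (V : Type v) [AddCommGroup V] [Module F V]
    [FiniteDimensional F V] (r : ℕ) (B : V →ₗ[F] V →ₗ[F] F) (T : Module.End F V),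
    Ctx r B T → Even (ii F r) → ∀ φ : F[X], φ.Monic → Irreducible φ → φ ∣ cyclotomic r F →
    ∀ W : Submodule F V, Nd B T W → Nd B T (W ⊓ LinearMap.ker (aeval T φ))

/-- TI-UPPEREVEN: for `i` even, moreover `s ≤ ∑_φ ⌊dim V_φ / (2 i)⌋`. -/
def StTiUpperEven : Prop :=
  ∀ (F : Type u) [Field F] [Fintype F] (V : Type v) [AddCommGroup V] [Module F V]
    [FiniteDimensional F V] (r : ℕ) (B : V →ₗ[F] V →ₗ[F] F) (T : Module.End F V),
    Ctx r B T → Even (ii F r) → ∀ Φs : Finset F[X], IsCycSet F r Φs →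
    ∀ W : Submodule F V, W ∈ T.invtSubmodule → TI B W →
    ∃ s w : ℕ, Module.finrank F W = ii F r * s + w ∧ 2 * w ≤ kk T ⊤ ∧
      s ≤ ∑ φ ∈ Φs, Module.finrank F ↥(LinearMap.ker (aeval T φ)) / (2 * ii F r)

/-- TI-STEPODD: for `i` odd, an invariant nondegenerate subspace with a non-fixed vector
contains a hyperbolic pair of rank `i`. -/
def StTiStepOdd : Prop :=
  ∀ (F : Type u) [Field F] [Fintype F] (V : Type v) [AddCommGroup V] [Module F V]
    [FiniteDimensional F V] (r : ℕ) (B : V →ₗ[F] V →ₗ[F] F) (T : Module.End F V),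
    Ctx r B T → Odd (ii F r) → ∀ W : Submodule F V, Nd B T W →
    kk T W < Module.finrank F W → HypPair B T (ii F r) W

/-- TI-HYPCLOSE: inside a nondegenerate invariant `M` killed by an irreducible `φ`, an
invariant totally isotropic subspace of dimension `deg φ` lies in a hyperbolic pair. -/
def StTiHypClose : Prop :=
  ∀ (F : Type u) [Field F] [Fintype F] (V : Type v) [AddCommGroup V] [Module F V]
    [FiniteDimensional F V] (B : V →ₗ[F] V →ₗ[F] F) (T : Module.End F V),
    Iso B T → ∀ φ : F[X], Irreducible φ → ∀ M L : Submodule F V, Nd B T M →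
    M ≤ LinearMap.ker (aeval T φ) → L ≤ M → L ∈ T.invtSubmodule → TI B L →
    Module.finrank F L = φ.natDegree → HypPair B T φ.natDegree M

/-- TI-ANTI: two orthogonal nondegenerate irreducible invariant subspaces of the same type `φ`
contain a diagonal invariant totally isotropic subspace. -/
def StTiAnti : Prop :=
  ∀ (F : Type u) [Field F] [Fintype F] (V : Type v) [AddCommGroup V] [Module F V]
    [FiniteDimensional F V] (r : ℕ) (B : V →ₗ[F] V →ₗ[F] F) (T : Module.End F V),
    Ctx r B T → ∀ φ : F[X], Irreducible φ → ∀ L₁ L₂ : Submodule F V, Nd B T L₁ → Nd B T L₂ →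
    L₁ ≤ LinearMap.ker (aeval T φ) → L₂ ≤ LinearMap.ker (aeval T φ) → L₂ ≤ perp B L₁ →
    Module.finrank F L₁ = φ.natDegree → Module.finrank F L₂ = φ.natDegree →
    ∃ L : Submodule F V, L ≤ L₁ ⊔ L₂ ∧ L ∈ T.invtSubmodule ∧ TI B L ∧
      Module.finrank F L = φ.natDegree

/-- TI-PAIR: a nondegenerate invariant `M` killed by an irreducible `φ`, of dimension at least
`2 deg φ`, contains a hyperbolic pair of rank `deg φ`. -/
def StTiPair : Prop :=
  ∀ (F : Type u) [Field F] [Fintype F] (V : Type v) [AddCommGroup V] [Module F V]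
    [FiniteDimensional F V] (r : ℕ) (B : V →ₗ[F] V →ₗ[F] F) (T : Module.End F V),
    Ctx r B T → ∀ φ : F[X], Irreducible φ → ∀ M : Submodule F V, Nd B T M →
    M ≤ LinearMap.ker (aeval T φ) → 2 * φ.natDegree ≤ Module.finrank F M →
    HypPair B T φ.natDegree M

/-- TI-STEPEVEN: for `i` even, an invariant nondegenerate subspace whose non-fixed part has
more than `(r - 1) / i` blocks contains a hyperbolic pair of rank `i`. -/
def StTiStepEven : Prop :=
  ∀ (F : Type u) [Field F] [Fintype F] (V : Type v) [AddCommGroup V] [Module F V]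
    [FiniteDimensional F V] (r : ℕ) (B : V →ₗ[F] V →ₗ[F] F) (T : Module.End F V),
    Ctx r B T → Even (ii F r) → ∀ W : Submodule F V, Nd B T W →
    kk T W + ii F r * ((r - 1) / ii F r) < Module.finrank F W → HypPair B T (ii F r) W

/-- TI-BUILD: invariant totally isotropic subspaces of dimension `i s + j`. -/
def StTiBuild : Prop :=
  ∀ (F : Type u) [Field F] [Fintype F] (V : Type v) [AddCommGroup V] [Module F V]
    [FiniteDimensional F V] (r : ℕ) (B : V →ₗ[F] V →ₗ[F] F) (T : Module.End F V),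
    Ctx r B T → ∀ s j : ℕ, 2 * j ≤ kk T ⊤ →
    (Odd (ii F r) → kk T ⊤ + 2 * ii F r * s ≤ Module.finrank F V) →
    (Even (ii F r) → s = 0 ∨
      kk T ⊤ + ii F r * ((r - 1) / ii F r + 2 * s - 1) ≤ Module.finrank F V) →
    ∃ U : Submodule F V, U ∈ T.invtSubmodule ∧ TI B U ∧ Module.finrank F U = ii F r * s + j

/-! ## Examples for `i` even -/

/-- Models: a nondegenerate alternating space of dimension `n` with a semisimple isometry `g`,
`g ^ r = 1`, with fixed space of dimension `k` and isotypic components of dimensions `a φ`. -/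
def ModelC (F : Type u) [Field F] (r n k : ℕ) (Φs : Finset F[X]) (a : F[X] → ℕ) : Prop :=
  ∃ (V : Type u) (_ : AddCommGroup V) (_ : Module F V) (_ : FiniteDimensional F V)
    (B : V →ₗ[F] V →ₗ[F] F) (g : Module.End F V),
    Good (RingHom.id F) (-1) B g ∧ g ^ r = 1 ∧ Module.finrank F V = n ∧
      Module.finrank F ↥(LinearMap.ker (g - 1)) = k ∧
      ∀ φ ∈ Φs, Module.finrank F ↥(LinearMap.ker (aeval g φ)) = a φ

open Classical in
/-- TI-MODBLOCK: for `i` even, one block of type `φ₀`. -/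
def StTiModBlock : Prop :=
  ∀ (F : Type u) [Field F] [Fintype F] (p : ℕ) [Fact p.Prime] [CharP F p] (r : ℕ), r.Prime →
    r ≠ 2 → r ≠ p → Even (ii F r) → ∀ Φs : Finset F[X], IsCycSet F r Φs → ∀ φ₀ ∈ Φs,
    ModelC F r (ii F r) 0 Φs (fun φ => if φ = φ₀ then ii F r else 0)

/-- TI-MODSTD: the identity on a standard space. -/
def StTiModStd : Prop :=
  ∀ (F : Type u) [Field F] [Fintype F] (p : ℕ) [Fact p.Prime] [CharP F p] (r : ℕ), r.Prime →
    r ≠ p → ∀ Φs : Finset F[X], IsCycSet F r Φs → ∀ m : ℕ,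
    ModelC F r (2 * m) (2 * m) Φs (fun _ => 0)

/-- TI-MODADD: orthogonal sums of models. -/
def StTiModAdd : Prop :=
  ∀ (F : Type u) [Field F] [Fintype F] (p : ℕ) [Fact p.Prime] [CharP F p] (r : ℕ), r.Prime →
    r ≠ p → ∀ (Φs : Finset F[X]) (n₁ k₁ n₂ k₂ : ℕ) (a₁ a₂ : F[X] → ℕ),
    ModelC F r n₁ k₁ Φs a₁ → ModelC F r n₂ k₂ Φs a₂ →
    ModelC F r (n₁ + n₂) (k₁ + k₂) Φs (fun φ => a₁ φ + a₂ φ)

/-- TI-MODALL: for `i` even, models with arbitrary multiplicities. -/
def StTiModAll : Prop :=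
  ∀ (F : Type u) [Field F] [Fintype F] (p : ℕ) [Fact p.Prime] [CharP F p] (r : ℕ), r.Prime →
    r ≠ 2 → r ≠ p → Even (ii F r) → ∀ Φs : Finset F[X], IsCycSet F r Φs →
    ∀ (mult : F[X] → ℕ) (m : ℕ),
    ModelC F r (2 * m + ii F r * ∑ φ ∈ Φs, mult φ) (2 * m) Φs (fun φ => ii F r * mult φ)

/-- TI-TRANSPORT: a model of dimension `2 d` gives a symplectic matrix. -/
def StTiTransport : Prop :=
  ∀ (F : Type u) [Field F] [Fintype F] (p : ℕ) [Fact p.Prime] [CharP F p] (r : ℕ), r.Prime →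
    r ≠ p → ∀ (Φs : Finset F[X]) (d k : ℕ) (a : F[X] → ℕ), ModelC F r (2 * d) k Φs a →
    ∃ x : ↥(Matrix.symplecticGroup (Fin d) F), x ^ r = 1 ∧
      Module.finrank F ↥(LinearMap.ker
        (Matrix.toLin' (x : Matrix (Fin d ⊕ Fin d) (Fin d ⊕ Fin d) F) - 1)) = k ∧
      ∀ φ ∈ Φs, Module.finrank F ↥(LinearMap.ker
        (aeval (Matrix.toLin' (x : Matrix (Fin d ⊕ Fin d) (Fin d ⊕ Fin d) F)) φ)) = a φ

/-- TI-SPREAD: distribute `A` over a nonempty finite set as evenly-odd as possible. -/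
def StTiSpread : Prop :=
  ∀ (α : Type u) (S : Finset α) (A : ℕ), 0 < S.card →
    ∃ a : α → ℕ, ∑ x ∈ S, a x = A ∧
      ∑ x ∈ S, a x / 2 ≤ if A ≤ S.card then 0 else (A - S.card + 1) / 2

/-- TI-EXEVEN: for `i` even, a symplectic matrix of order `r` with `A` blocks spread over the
`(r - 1) / i` types as evenly as possible. -/
def StTiExEven : Prop :=
  ∀ (F : Type u) [Field F] [Fintype F] (p : ℕ) [Fact p.Prime] [CharP F p] (r : ℕ), r.Prime →
    r ≠ 2 → r ≠ p → Even (ii F r) → ∀ Φs : Finset F[X], IsCycSet F r Φs →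
    ∀ d A : ℕ, ii F r * A ≤ 2 * d →
    ∃ x : ↥(Matrix.symplecticGroup (Fin d) F), x ^ r = 1 ∧
      Module.finrank F ↥(LinearMap.ker
        (Matrix.toLin' (x : Matrix (Fin d ⊕ Fin d) (Fin d ⊕ Fin d) F) - 1)) + ii F r * A =
          2 * d ∧
      ∑ φ ∈ Φs, Module.finrank F ↥(LinearMap.ker
        (aeval (Matrix.toLin' (x : Matrix (Fin d ⊕ Fin d) (Fin d ⊕ Fin d) F)) φ)) /
          (2 * ii F r) ≤
        if A ≤ (r - 1) / ii F r then 0 else (A - (r - 1) / ii F r + 1) / 2

end Cfsg.Agent.H42.Ti
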