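import Mathlib
import Cfsg.Prelude.Def_ChevAutomorphisms
import Cfsg.Prelude.Def_ChevG2
import Cfsg.Prelude.Def_ChevB2
import Cfsg.Prelude.Def_ChevD4
import Cfsg.Prelude.Def_ChevF4
import Cfsg.Prelude.Def_ChevE6
import Cfsg.Prelude.Def_ChevE7
import Cfsg.Prelude.Def_ChevE8

set_option autoImplicit false

namespace Cfsg.Agent.H42

open Matrix Cfsg.Lie

/-- Table check: every term of every chain is reached from the previous one by adding `r`. -/
def chainOKb (D : ChevalleyDatum) : Bool :=
  (List.range D.nroots).all fun r =>
    (D.chain.getD r #[]).toList.all fun e =>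
      e.2.toList.zipIdx.all fun q =>
        decide (q.1.1 < D.nroots) &&
          (if q.2 = 0 then D.chainRoot r e.1 1 == some q.1.1
           else e.2.toList.zipIdx.any fun q' => q'.2 + 1 == q.2 && D.chainRoot r q'.1.1 1 == some q.1.1)

theorem chainOK_G2 : chainOKb chevG2 = true := by decide +kernel
theorem chainOK_B2 : chainOKb chevB2 = true := by decide +kernel
theorem chainOK_D4 : chainOKb chevD4 = true := by decide +kernel
theorem chainOK_F4 : chainOKb chevF4 = true := by decide +kernel
theorem chainOK_E6 : chainOKb chevE6 = true := by decide +kernel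
theorem chainOK_E7 : chainOKb chevE7 = true := by decide +kernel
theorem chainOK_E8 : chainOKb chevE8 = true := by decide +kernel

end Cfsg.Agent.H42
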