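import Mathlib
import Cfsg.Agent.H42.ChainOK

set_option autoImplicit false

namespace Cfsg.Agent.H42

open Matrix Cfsg.Lie

theorem mem_chainCoeff {D : ChevalleyDatum} {r s u : ℕ} {km : ℕ × ℤ}
    (h : km ∈ D.chainCoeff r s u) :
    ∃ e ∈ (D.chain.getD r #[]).toList, e.1 = s ∧ ∃ q ∈ e.2.toList.zipIdx, q.1.1 = u ∧ km.1 = q.2 + 1 := by
  unfold ChevalleyDatum.chainCoeff at h
  rw [List.mem_flatMap] at h
  obtain ⟨e, he, h2⟩ := h
  rw [List.mem_filter] at he
  rw [List.mem_map] at h2
  obtain ⟨q, hq, rfl⟩ := h2
  rw [List.mem_filter] at hq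
  refine ⟨e, he.1, by simpa using he.2, q, hq.1, by simpa using hq.2, rfl⟩

theorem chi_chain_aux {F : Type*} [Field F] (D : ChevalleyDatum) (hD : chainOKb D = true)
    (χ : ℕ → Fˣ) (hχ : D.IsRootCharacter χ) (r : ℕ) (hr : r < D.nroots)
    (e : ℕ × Array (ℕ × ℤ)) (he : e ∈ (D.chain.getD r #[]).toList) (hs : e.1 < D.nroots) :
    ∀ (n : ℕ) (q : (ℕ × ℤ) × ℕ), q ∈ e.2.toList.zipIdx → q.2 = n →
      q.1.1 < D.nroots ∧ χ q.1.1 = χ r ^ (n + 1) * χ e.1 := by
  unfold chainOKb at hD
  rw [List.all_eq_true] at hD
  have h1 := hD r (List.mem_range.mpr hr)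
  rw [List.all_eq_true] at h1
  have h2 := h1 e he
  rw [List.all_eq_true] at h2
  intro n
  induction n with
  | zero =>
    intro q hq hq0
    have h3 := h2 q hq
    rw [Bool.and_eq_true, decide_eq_true_eq] at h3
    refine ⟨h3.1, ?_⟩
    have h4 := h3.2
    rw [if_pos hq0] at h4
    have h5 : D.chainRoot r e.1 1 = some q.1.1 := by simpa using h4
    rw [hχ.2 r e.1 q.1.1 hr hs h5, zero_add, pow_one]
  | succ n ih =>
    intro q hq hqn
    have h3 := h2 q hq
    rw [Bool.and_eq_true, decide_eq_true_eq] at h3
    refine ⟨h3.1, ?_⟩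
    have h4 := h3.2
    rw [if_neg (by omega)] at h4
    rw [List.any_eq_true] at h4
    obtain ⟨q', hq', h5⟩ := h4
    rw [Bool.and_eq_true] at h5
    have h6 : q'.2 + 1 = q.2 := by simpa using h5.1
    have h7 : D.chainRoot r q'.1.1 1 = some q.1.1 := by simpa using h5.2
    obtain ⟨h8, h9⟩ := ih q' hq' (by omega)
    rw [hχ.2 r q'.1.1 q.1.1 hr h8 h7, h9, ← mul_assoc, ← pow_succ']

theorem chi_chain {F : Type*} [Field F] (D : ChevalleyDatum) (hD : chainOKb D = true)
    (χ : ℕ → Fˣ) (hχ : D.IsRootCharacter χ) (r s u : ℕ) (hr : r < D.nroots) (hs : s < D.nroots)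
    (km : ℕ × ℤ) (hkm : km ∈ D.chainCoeff r s u) : χ u = χ r ^ km.1 * χ s := by
  obtain ⟨e, he, rfl, q, hq, rfl, hk⟩ := mem_chainCoeff hkm
  rw [hk]
  exact (chi_chain_aux D hD χ hχ r hr e he hs q.2 q hq rfl).2

theorem charDiag_conj {F : Type*} [Field F] (D : ChevalleyDatum) (hD : chainOKb D = true)
    (χ : ℕ → Fˣ) (hχ : D.IsRootCharacter χ) (r : ℕ) (hr : r < D.nroots) (t : F) :
    D.charDiag F χ * D.x F r t * D.charDiag F (fun s => (χ s)⁻¹) = D.x F r ((χ r : F) * t) := by
  unfold ChevalleyDatum.charDiag ChevalleyDatum.x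
  rw [dif_pos hr, dif_pos hr]
  ext row col
  rw [Matrix.mul_diagonal, Matrix.diagonal_mul]
  have hneg : χ (D.negIdx.getD r 0) = (χ r)⁻¹ := hχ.1 r hr
  have hne : ∀ k : ℕ, (χ k : F) ≠ 0 := fun k => Units.ne_zero _
  rcases col with i | s
  · rcases row with i' | u
    · simp [ChevalleyDatum.xMat]
    · simp only [ChevalleyDatum.xMat, Matrix.of_apply, Sum.elim_inr, Sum.elim_inl, mul_one]
      by_cases hu : u = ⟨r, hr⟩
      · subst hu
        simp only [if_true]
        ring
      · simp [hu]
  · rcases row with i | u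
    · simp only [ChevalleyDatum.xMat, Matrix.of_apply, Sum.elim_inr, Sum.elim_inl, one_mul]
      by_cases hs : s = ⟨r, hr⟩
      · simp [hs]
      · simp only [if_neg hs]
        by_cases hs2 : s.val = D.negIdx.getD r 0
        · simp only [if_pos hs2]
          rw [hs2, hneg, inv_inv]
          ring
        · simp only [if_neg hs2, zero_mul]
    · simp only [ChevalleyDatum.xMat, Matrix.of_apply, Sum.elim_inr]
      by_cases hs : s = ⟨r, hr⟩
      · simp only [if_pos hs]
        by_cases hu : u = ⟨r, hr⟩
        · subst hs; subst hu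
          simp
        · simp [hu]
      · simp only [if_neg hs]
        by_cases hs2 : s.val = D.negIdx.getD r 0
        · simp only [if_pos hs2]
          by_cases hus : u = s
          · subst hus
            simp
          · simp only [if_neg hus]
            by_cases hu : u = ⟨r, hr⟩
            · subst hu
              simp only [if_true]
              rw [hs2, hneg, inv_inv]
              ring
            · simp [hu]
        · simp only [if_neg hs2]
          rw [mul_add, add_mul]
          congr 1
          · by_cases hus : u = s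
            · subst hus
              simp
            · simp [hus]
          · rw [← List.sum_map_mul_left, ← List.sum_map_mul_right]
            congr 1
            apply List.map_congr_left
            intro km hkm
            have h1 := chi_chain D hD χ hχ r s.val u.val hr s.isLt km hkm
            rw [h1]
            simp only [Units.val_mul, Units.val_pow_eq_pow_val, Units.val_inv_eq_inv_val]
            have := hne s.val
            field_simp
            ring

end Cfsg.Agent.H42
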