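import Mathlib
import Cfsg.Agent.H42.SpnDefs
import Cfsg.Agent.H45.IsoSU

/-!
# S5954 team project: definitions and piece statements

Elements of prime order of `PSU_n(q)` and nondegenerate `m`-spaces.  Hermitian forms are
`B : V →ₗ[F] V →ₛₗ[σ] F` with `σ` an involution of `F` (`|F| = q ^ 2`, `σ x = x ^ q` where the
size matters); `perp` is helper45's, `kk` is from `SpdDefs`, `hermB σ n` (helper45, `IsoSU`) is
the standard form on `Fin n → F`.
-/

set_option autoImplicit false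

namespace Cfsg.Agent.H42.Un

open Cfsg.Agent.H45 Cfsg.Agent.H42.Spd Module Polynomial

universe u v

/-- `c`, the order of `-q` modulo `r`, in terms of `i = ord_r(q)`: `i`, `i / 2`, `2 i` according
as `i ≡ 0`, `i ≡ 2 (mod 4)`, `i` odd. -/
noncomputable def cu (q r : ℕ) : ℕ :=
  if orderOf (q : ZMod r) % 4 = 0 then orderOf (q : ZMod r)
  else if orderOf (q : ZMod r) % 4 = 2 then orderOf (q : ZMod r) / 2
  else 2 * orderOf (q : ZMod r)

section Basic

variable {F : Type u} [Field F] {σ : F →+* F} {V : Type v} [AddCommGroup V] [Module F V]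

/-- `T` is an isometry of the nondegenerate hermitian form `B` (`σ` a non-trivial involution). -/
structure UIso (B : V →ₗ[F] V →ₛₗ[σ] F) (T : Module.End F V) : Prop where
  invol : ∀ a, σ (σ a) = a
  nontriv : ∃ a, σ a ≠ a
  herm : ∀ x y, B y x = σ (B x y)
  nondeg : ∀ x, (∀ y, B x y = 0) → x = 0
  isom : ∀ x y, B (T x) (T y) = B x y

/-- `W` is a `T`-invariant subspace on which the form is nondegenerate. -/
def UNd (B : V →ₗ[F] V →ₛₗ[σ] F) (T : Module.End F V) (W : Submodule F V) : Prop :=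
  W ∈ T.invtSubmodule ∧ W ⊓ perp B W = ⊥

/-- Standing hypotheses for odd `r ≠ p`: a semisimple isometry with `T ^ r = 1`. -/
structure UCtx (r : ℕ) (B : V →ₗ[F] V →ₛₗ[σ] F) (T : Module.End F V) : Prop where
  prime : r.Prime
  ne_two : r ≠ 2
  cast_ne : (r : F) ≠ 0
  iso : UIso B T
  ss : T.IsSemisimple
  pow : T ^ r = 1

end Basic

/-! ## Infrastructure -/

/-- UN-HYP: a nonzero nondegenerate subspace contains a nondegenerate line. -/
def StUHyp : Prop :=
  ∀ (F : Type u) [Field F] [Fintype F] (σ : F →+* F) (V : Type v) [AddCommGroup V] [Module F V]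
    [FiniteDimensional F V] (B : V →ₗ[F] V →ₛₗ[σ] F) (T : Module.End F V),
    UIso B T → ∀ K : Submodule F V, K ⊓ perp B K = ⊥ → K ≠ ⊥ →
    ∃ U : Submodule F V, U ≤ K ∧ U ⊓ perp B U = ⊥ ∧ Module.finrank F U = 1

/-- UN-COMPL. -/
def StUCompl : Prop :=
  ∀ (F : Type u) [Field F] [Fintype F] (σ : F →+* F) (V : Type v) [AddCommGroup V] [Module F V]
    [FiniteDimensional F V] (B : V →ₗ[F] V →ₛₗ[σ] F) (T : Module.End F V),
    UIso B T → ∀ U W : Submodule F V, UNd B T U → UNd B T W → U ≤ W →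
    UNd B T (W ⊓ perp B U) ∧ U ⊔ (W ⊓ perp B U) = W ∧
      Module.finrank F U + Module.finrank F ↥(W ⊓ perp B U) = Module.finrank F W

/-- UN-SUM. -/
def StUSum : Prop :=
  ∀ (F : Type u) [Field F] [Fintype F] (σ : F →+* F) (V : Type v) [AddCommGroup V] [Module F V]
    [FiniteDimensional F V] (B : V →ₗ[F] V →ₛₗ[σ] F) (T : Module.End F V),
    UIso B T → ∀ U U' : Submodule F V, UNd B T U → UNd B T U' → U' ≤ perp B U →
    UNd B T (U ⊔ U') ∧
      Module.finrank F ↥(U ⊔ U') = Module.finrank F U + Module.finrank F U'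

/-- UN-PEEL: if every nonzero invariant nondegenerate `W ≤ W₁` contains an invariant
nondegenerate subspace of dimension `a`, then `W₁` contains invariant nondegenerate subspaces of
every dimension `a k ≤ dim W₁`. -/
def StUPeel : Prop :=
  ∀ (F : Type u) [Field F] [Fintype F] (σ : F →+* F) (V : Type v) [AddCommGroup V] [Module F V]
    [FiniteDimensional F V] (B : V →ₗ[F] V →ₛₗ[σ] F) (T : Module.End F V),
    UIso B T → ∀ (a : ℕ) (W₁ : Submodule F V), UNd B T W₁ →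
    (∀ W : Submodule F V, W ≤ W₁ → UNd B T W → W ≠ ⊥ →
      ∃ P : Submodule F V, P ≤ W ∧ UNd B T P ∧ Module.finrank F P = a) →
    ∀ k : ℕ, a * k ≤ Module.finrank F W₁ →
    ∃ U : Submodule F V, U ≤ W₁ ∧ UNd B T U ∧ Module.finrank F U = a * k

/-! ## Unipotent isometries (`r = p`) -/

/-- UN-UCYC: a cyclic nondegenerate Jordan block. -/
def StUUCyc : Prop :=
  ∀ (F : Type u) [Field F] [Fintype F] (σ : F →+* F) (V : Type v) [AddCommGroup V] [Module F V]
    [FiniteDimensional F V] (B : V →ₗ[F] V →ₛₗ[σ] F) (T : Module.End F V),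
    UIso B T → ∀ W : Submodule F V, W ∈ T.invtSubmodule → ∀ e : ℕ, 0 < e → ∀ u ∈ W,
    ((T - 1) ^ e) u = 0 → B u (((T - 1) ^ (e - 1)) u) ≠ 0 →
    ∃ P : Submodule F V, P ≤ W ∧ UNd B T P ∧
      ∀ j : ℕ, Module.finrank F ↥(P ⊓ LinearMap.ker ((T - 1) ^ j)) = min j e

/-- UN-UBLOCK: a nonzero invariant nondegenerate subspace of a unipotent isometry contains a
nondegenerate Jordan block. -/
def StUUBlock : Prop :=
  ∀ (F : Type u) [Field F] [Fintype F] (σ : F →+* F) (V : Type v) [AddCommGroup V] [Module F V]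
    [FiniteDimensional F V] (B : V →ₗ[F] V →ₛₗ[σ] F) (T : Module.End F V),
    UIso B T → (∃ k : ℕ, (T - 1) ^ k = 0) → ∀ W : Submodule F V, UNd B T W → W ≠ ⊥ →
    ∃ (P : Submodule F V) (e : ℕ), P ≤ W ∧ UNd B T P ∧ 0 < e ∧
      ∀ j : ℕ, Module.finrank F ↥(P ⊓ LinearMap.ker ((T - 1) ^ j)) = min j e

/-- UN-UTYPE: the Jordan type `μ` of a unipotent isometry on an invariant nondegenerate `W`;
every sub-multiset is the type of an invariant nondegenerate subspace. -/
def StUUType : Prop :=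
  ∀ (F : Type u) [Field F] [Fintype F] (σ : F →+* F) (V : Type v) [AddCommGroup V] [Module F V]
    [FiniteDimensional F V] (B : V →ₗ[F] V →ₛₗ[σ] F) (T : Module.End F V),
    UIso B T → (∃ k : ℕ, (T - 1) ^ k = 0) → ∀ W : Submodule F V, UNd B T W →
    ∃ μ : Multiset ℕ, (∀ a ∈ μ, 0 < a) ∧
      (∀ e : ℕ, Module.finrank F ↥(W ⊓ LinearMap.ker ((T - 1) ^ e)) =
        (μ.map (fun s => min e s)).sum) ∧
      ∀ ν : Multiset ℕ, ν ≤ μ →
        ∃ U : Submodule F V, U ≤ W ∧ UNd B T U ∧ Module.finrank F U = ν.sum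

/-- UN-UCAY: the Cayley transform of a nilpotent skew-adjoint endomorphism. -/
def StUCay : Prop :=
  ∀ (F : Type u) [Field F] (σ : F →+* F) (V : Type v) [AddCommGroup V] [Module F V]
    (B : V →ₗ[F] V →ₛₗ[σ] F) (N : Module.End F V), (2 : F) ≠ 0 → (∃ k : ℕ, N ^ k = 0) →
    (∀ x y, B (N x) y = -B x (N y)) →
    ∃ g : Module.End F V, (∀ x y, B (g x) (g y) = B x y) ∧
      (∀ e : ℕ, LinearMap.ker ((g - 1) ^ e) = LinearMap.ker (N ^ e)) ∧
      ∀ k : ℕ, N ^ k = 0 → (g - 1) ^ k = 0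

/-- Models: a nondegenerate hermitian space of dimension `n` with a nilpotent skew-adjoint
endomorphism of Jordan type `μ`. -/
def UModelN (F : Type u) [Field F] (σ : F →+* F) (n : ℕ) (μ : Multiset ℕ) : Prop :=
  ∃ (V : Type u) (_ : AddCommGroup V) (_ : Module F V) (_ : FiniteDimensional F V)
    (B : V →ₗ[F] V →ₛₗ[σ] F) (N : Module.End F V),
    (∀ x y, B y x = σ (B x y)) ∧ (∀ x, (∀ y, B x y = 0) → x = 0) ∧
      (∀ x y, B (N x) y = -B x (N y)) ∧ Module.finrank F V = n ∧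
      ∀ e : ℕ, Module.finrank F ↥(LinearMap.ker (N ^ e)) = (μ.map (fun s => min e s)).sum

/-- UN-UMODONE: one Jordan block of any size. -/
def StUModOne : Prop :=
  ∀ (F : Type u) [Field F] (σ : F →+* F), (∀ a, σ (σ a) = a) → (∃ a, σ a ≠ a) → (2 : F) ≠ 0 →
    ∀ e : ℕ, 0 < e → UModelN F σ e {e}

/-- UN-UMODSUM: orthogonal sums of models. -/
def StUModSum : Prop :=
  ∀ (F : Type u) [Field F] (σ : F →+* F) (n₁ n₂ : ℕ) (μ₁ μ₂ : Multiset ℕ),
    UModelN F σ n₁ μ₁ → UModelN F σ n₂ μ₂ → UModelN F σ (n₁ + n₂) (μ₁ + μ₂)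

/-- UN-UMODALL: all Jordan types. -/
def StUModAll : Prop :=
  ∀ (F : Type u) [Field F] (σ : F →+* F), (∀ a, σ (σ a) = a) → (∃ a, σ a ≠ a) → (2 : F) ≠ 0 →
    ∀ μ : Multiset ℕ, (∀ a ∈ μ, 0 < a) → UModelN F σ μ.sum μ

/-- UN-UEX: elements of `SU_n(q)` of order `p` with prescribed Jordan type. -/
def StUUniEx : Prop :=
  ∀ (F : Type u) [Field F] [Fintype F] (p : ℕ) [Fact p.Prime] [CharP F p] (q : ℕ),
    Fintype.card F = q ^ 2 → p ≠ 2 →
    ∀ (n : ℕ) (μ : Multiset ℕ), (∀ a ∈ μ, 0 < a ∧ a ≤ p) → μ.sum = n →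
    ∃ x : Matrix.SpecialLinearGroup (Fin n) F, x ∈ Cfsg.SU n F q ∧ x ^ p = 1 ∧
      ∀ e : ℕ, Module.finrank F ↥(LinearMap.ker
        ((Matrix.toLin' (x : Matrix (Fin n) (Fin n) F) - 1) ^ e)) =
          (μ.map (fun s => min e s)).sum

/-! ## Involutions in characteristic 2 (`r = p = 2`) -/

/-- UN-SUB2 (multisets): sub-multisets of a multiset of ones and twos. -/
def StSub2 : Prop :=
  ∀ (μ : Multiset ℕ) (m : ℕ), (∀ a ∈ μ, a = 1 ∨ a = 2) → m ≤ μ.sum → (Odd μ.sum ∨ Even m) →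
    ∃ ν : Multiset ℕ, ν ≤ μ ∧ ν.sum = m

/-- UN-INV2EX: in characteristic 2 and for `n` even, an involution of `SU_n(q)` all of whose
invariant nondegenerate subspaces have even dimension. -/
def StUInv2Ex : Prop :=
  ∀ (F : Type u) [Field F] [Fintype F] (q : ℕ), Fintype.card F = q ^ 2 → (2 : F) = 0 →
    ∀ n : ℕ, Even n → 0 < n →
    ∃ x : Matrix.SpecialLinearGroup (Fin n) F, x ∈ Cfsg.SU n F q ∧ x * x = 1 ∧ x ≠ 1 ∧
      ∀ W : Submodule F (Fin n → F),
        W.map (Matrix.toLin' (x : Matrix (Fin n) (Fin n) F)) ≤ W →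
        (∀ u ∈ W, u ≠ 0 → ∃ v ∈ W, Cfsg.hermForm n F q u v ≠ 0) → Even (Module.finrank F W)

/-! ## Elements with scalar square in odd characteristic (`r = 2 ≠ p`) -/

/-- UN-SQRT: elements of norm 1 are squares. -/
def StUSqrt : Prop :=
  ∀ (F : Type u) [Field F] [Fintype F] (q : ℕ), Fintype.card F = q ^ 2 → Odd q →
    ∀ z : F, z ^ (q + 1) = 1 → ∃ ν : F, ν * ν = z

/-- UN-INVSQ: `T ^ 2 = ν ^ 2` with `ν` of norm 1: invariant nondegenerate subspaces of every
dimension. -/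
def StUInvSq : Prop :=
  ∀ (F : Type u) [Field F] [Fintype F] (σ : F →+* F) (V : Type v) [AddCommGroup V] [Module F V]
    [FiniteDimensional F V] (B : V →ₗ[F] V →ₛₗ[σ] F) (T : Module.End F V),
    UIso B T → (2 : F) ≠ 0 → ∀ ν : F, ν * σ ν = 1 → T * T = (ν * ν) • (1 : Module.End F V) →
    ∀ m : ℕ, m ≤ Module.finrank F V →
    ∃ U : Submodule F V, UNd B T U ∧ Module.finrank F U = m

/-- UN-INVNS: `T ^ 2 = ν ^ 2` with `ν` of norm `-1`: invariant nondegenerate subspaces of every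
even dimension. -/
def StUInvNs : Prop :=
  ∀ (F : Type u) [Field F] [Fintype F] (σ : F →+* F) (V : Type v) [AddCommGroup V] [Module F V]
    [FiniteDimensional F V] (B : V →ₗ[F] V →ₛₗ[σ] F) (T : Module.End F V),
    UIso B T → (2 : F) ≠ 0 → ∀ ν : F, ν * σ ν = -1 → T * T = (ν * ν) • (1 : Module.End F V) →
    ∀ k : ℕ, 2 * k ≤ Module.finrank F V →
    ∃ U : Submodule F V, UNd B T U ∧ Module.finrank F U = 2 * k

/-- UN-INVEVEN: `T ^ 2 = ν ^ 2` with `ν` of norm `-1`: invariant nondegenerate subspaces have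
even dimension. -/
def StUInvEven : Prop :=
  ∀ (F : Type u) [Field F] [Fintype F] (σ : F →+* F) (V : Type v) [AddCommGroup V] [Module F V]
    [FiniteDimensional F V] (B : V →ₗ[F] V →ₛₗ[σ] F) (T : Module.End F V),
    UIso B T → (2 : F) ≠ 0 → ∀ ν : F, ν * σ ν = -1 → T * T = (ν * ν) • (1 : Module.End F V) →
    ∀ W : Submodule F V, UNd B T W → Even (Module.finrank F W)

/-- UN-INVEX: elements of `SU_n(q)` with `x ^ 2 = ν ^ 2`, `ν` of norm `-1`. -/
def StUInvEx : Prop :=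
  ∀ (F : Type u) [Field F] [Fintype F] (q : ℕ), Fintype.card F = q ^ 2 → Odd q →
    ∀ n : ℕ, Even n → 0 < n → (q % 4 = 1 ∨ padicValNat 2 (q + 1) < padicValNat 2 n) →
    ∃ (x : Matrix.SpecialLinearGroup (Fin n) F) (ν : F), x ∈ Cfsg.SU n F q ∧
      ν ^ (q + 1) = -1 ∧
      ((x * x : Matrix.SpecialLinearGroup (Fin n) F) : Matrix (Fin n) (Fin n) F) =
        (ν * ν) • (1 : Matrix (Fin n) (Fin n) F)

/-- UN-INVNEC: such elements exist only if `n` is even and (`q ≡ 1 (mod 4)` or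
`(q + 1)_2 < (n)_2`). -/
def StUInvNec : Prop :=
  ∀ (F : Type u) [Field F] [Fintype F] (q : ℕ), Fintype.card F = q ^ 2 → Odd q →
    ∀ (n : ℕ) (x : Matrix.SpecialLinearGroup (Fin n) F) (ν : F), 0 < n → x ∈ Cfsg.SU n F q →
    ν ^ (q + 1) = -1 →
    ((x * x : Matrix.SpecialLinearGroup (Fin n) F) : Matrix (Fin n) (Fin n) F) =
      (ν * ν) • (1 : Matrix (Fin n) (Fin n) F) →
    Even n ∧ (q % 4 = 1 ∨ padicValNat 2 (q + 1) < padicValNat 2 n)

/-! ## Semisimple isometries of odd prime order `r ≠ p` -/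

/-- UN-BLOCK: a fixed-point-free isometry of order `r` on a nonzero space has an invariant
nondegenerate subspace of dimension `c = cu q r`. -/
def StUBlock : Prop :=
  ∀ (F : Type u) [Field F] [Fintype F] (q : ℕ) (σ : F →+* F) (V : Type v) [AddCommGroup V]
    [Module F V] [FiniteDimensional F V] (r : ℕ) (B : V →ₗ[F] V →ₛₗ[σ] F) (T : Module.End F V),
    Fintype.card F = q ^ 2 → (∀ x, σ x = x ^ q) → UCtx r B T → LinearMap.ker (T - 1) = ⊥ →
    (⊤ : Submodule F V) ≠ ⊥ →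
    ∃ U : Submodule F V, UNd B T U ∧ Module.finrank F U = cu q r

/-- UN-REL: the same inside an invariant nondegenerate subspace `W`. -/
def StUBlockRel : Prop :=
  ∀ (F : Type u) [Field F] [Fintype F] (q : ℕ) (σ : F →+* F) (V : Type v) [AddCommGroup V]
    [Module F V] [FiniteDimensional F V] (r : ℕ) (B : V →ₗ[F] V →ₛₗ[σ] F) (T : Module.End F V),
    Fintype.card F = q ^ 2 → (∀ x, σ x = x ^ q) → UCtx r B T → ∀ W : Submodule F V, UNd B T W →
    W ⊓ LinearMap.ker (T - 1) = ⊥ → W ≠ ⊥ →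
    ∃ U : Submodule F V, U ≤ W ∧ UNd B T U ∧ Module.finrank F U = cu q r

/-- UN-FIX: the fixed space of an invariant nondegenerate subspace is nondegenerate. -/
def StUFix : Prop :=
  ∀ (F : Type u) [Field F] [Fintype F] (σ : F →+* F) (V : Type v) [AddCommGroup V] [Module F V]
    [FiniteDimensional F V] (r : ℕ) (B : V →ₗ[F] V →ₛₗ[σ] F) (T : Module.End F V),
    UCtx r B T → ∀ W : Submodule F V, UNd B T W → UNd B T (W ⊓ LinearMap.ker (T - 1))

/-- UN-MODC: the non-fixed part has dimension divisible by `c`. -/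
def StUModc : Prop :=
  ∀ (F : Type u) [Field F] [Fintype F] (q : ℕ) (σ : F →+* F) (V : Type v) [AddCommGroup V]
    [Module F V] [FiniteDimensional F V] (r : ℕ) (B : V →ₗ[F] V →ₛₗ[σ] F) (T : Module.End F V),
    Fintype.card F = q ^ 2 → (∀ x, σ x = x ^ q) → UCtx r B T → ∀ W : Submodule F V, UNd B T W →
    ∃ s : ℕ, Module.finrank F W = kk T W + cu q r * s

/-- UN-SUB: invariant nondegenerate subspaces with prescribed numbers of blocks and of fixed
dimensions. -/
def StUSub : Prop :=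
  ∀ (F : Type u) [Field F] [Fintype F] (q : ℕ) (σ : F →+* F) (V : Type v) [AddCommGroup V]
    [Module F V] [FiniteDimensional F V] (r : ℕ) (B : V →ₗ[F] V →ₛₗ[σ] F) (T : Module.End F V),
    Fintype.card F = q ^ 2 → (∀ x, σ x = x ^ q) → UCtx r B T → ∀ W : Submodule F V, UNd B T W →
    ∀ j l : ℕ, kk T W + cu q r * j ≤ Module.finrank F W → l ≤ kk T W →
    ∃ U : Submodule F V, U ≤ W ∧ UNd B T U ∧ Module.finrank F U = cu q r * j + l ∧ kk T U = l

/-- UN-EX: elements of `SU_n(q)` with `x ^ r = 1` and exactly `s` blocks (`r ∤ q + 1`). -/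
def StUEx : Prop :=
  ∀ (F : Type u) [Field F] [Fintype F] (p : ℕ) [Fact p.Prime] [CharP F p] (q : ℕ),
    Fintype.card F = q ^ 2 → ∀ r : ℕ, r.Prime → r ≠ 2 → r ≠ p → orderOf (q : ZMod r) ≠ 2 →
    ∀ n s : ℕ, cu q r * s ≤ n →
    ∃ x : Matrix.SpecialLinearGroup (Fin n) F, x ∈ Cfsg.SU n F q ∧ x ^ r = 1 ∧
      Module.finrank F ↥(LinearMap.ker (Matrix.toLin' (x : Matrix (Fin n) (Fin n) F) - 1)) +
        cu q r * s = n

/-! ## Counting nondegenerate subspaces -/

/-- UN-UNIT: the number of vectors of norm 1 in a nondegenerate hermitian space. -/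
def StUUnit : Prop :=
  ∀ (F : Type u) [Field F] [Fintype F] (q : ℕ) (σ : F →+* F) (V : Type v) [AddCommGroup V]
    [Module F V] [FiniteDimensional F V] (B : V →ₗ[F] V →ₛₗ[σ] F),
    Fintype.card F = q ^ 2 → (∀ x, σ x = x ^ q) → UIso B (1 : Module.End F V) →
    Nat.card {v : V // B v v = 1} =
      if Even (Module.finrank F V) then
        q ^ (Module.finrank F V - 1) * (q ^ Module.finrank F V - 1)
      else q ^ (Module.finrank F V - 1) * (q ^ Module.finrank F V + 1)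

/-- UN-FRAMES: the number of orthonormal `m`-frames in a nondegenerate hermitian space. -/
def StUFrames : Prop :=
  ∀ (F : Type u) [Field F] [Fintype F] (q : ℕ) (σ : F →+* F) (V : Type v) [AddCommGroup V]
    [Module F V] [FiniteDimensional F V] (B : V →ₗ[F] V →ₛₗ[σ] F),
    Fintype.card F = q ^ 2 → (∀ x, σ x = x ^ q) → UIso B (1 : Module.End F V) →
    ∀ m : ℕ, m ≤ Module.finrank F V →
    Nat.card {v : Fin m → V // ∀ a b, B (v a) (v b) = if a = b then 1 else 0} =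
      ∏ j ∈ Finset.range m,
        (if Even (Module.finrank F V - j) then
          q ^ (Module.finrank F V - j - 1) * (q ^ (Module.finrank F V - j) - 1)
        else q ^ (Module.finrank F V - j - 1) * (q ^ (Module.finrank F V - j) + 1))

/-- UN-FIB: every nondegenerate `m`-space of the standard space has the same number of
orthonormal bases. -/
def StUFib : Prop :=
  ∀ (F : Type u) [Field F] [Fintype F] (q : ℕ) (σ : F →+* F),
    Fintype.card F = q ^ 2 → (∀ x, σ x = x ^ q) → ∀ n m : ℕ,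
    Nat.card {v : Fin m → (Fin n → F) //
        ∀ a b, hermB σ n (v a) (v b) = if a = b then 1 else 0} =
      Nat.card {W : Submodule F (Fin n → F) // Module.finrank F ↥W = m ∧
        (∀ u ∈ W, u ≠ 0 → ∃ v ∈ W, Cfsg.hermForm n F q u v ≠ 0)} *
      ∏ j ∈ Finset.range m,
        (if Even (m - j) then q ^ (m - j - 1) * (q ^ (m - j) - 1)
        else q ^ (m - j - 1) * (q ^ (m - j) + 1))

/-- UN-ORD: `r ∣ q ^ k - (-1) ^ k` implies `c ∣ k`. -/
def StUOrd : Prop :=
  ∀ (q r k : ℕ), r.Prime → r ≠ 2 → ¬ r ∣ q → 0 < k →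
    r ∣ (if Even k then q ^ k - 1 else q ^ k + 1) → cu q r ∣ k

/-- UN-NDCNT: if `r` divides the number of nondegenerate `m`-spaces then `c ∣ j` for some
`n - m < j ≤ n`. -/
def StUNdCnt : Prop :=
  ∀ (F : Type u) [Field F] [Fintype F] (q : ℕ), Fintype.card F = q ^ 2 →
    ∀ n m r : ℕ, r.Prime → r ≠ 2 → (r : F) ≠ 0 → m ≤ n →
    r ∣ Nat.card {W : Submodule F (Fin n → F) // Module.finrank F ↥W = m ∧
        (∀ u ∈ W, u ≠ 0 → ∃ v ∈ W, Cfsg.hermForm n F q u v ≠ 0)} →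
    ∃ j : ℕ, n - m < j ∧ j ≤ n ∧ cu q r ∣ j

/-! ## The Kummer case (`r ∣ q + 1`, `x ^ r` a scalar which is not an `r`-th power) -/

/-- UN-KUMNT: a norm-one element which is not an `r`-th power of a norm-one element is not an
`r`-th power. -/
def StUKumNT : Prop :=
  ∀ (F : Type u) [Field F] [Fintype F] (q : ℕ), Fintype.card F = q ^ 2 →
    ∀ r : ℕ, r.Prime → r ≠ 2 → r ∣ q + 1 → ∀ z : F, z ^ (q + 1) = 1 →
    (¬ ∃ μ : F, μ ^ (q + 1) = 1 ∧ μ ^ r = z) → ∀ b : F, b ^ r ≠ z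

/-- UN-KUMPEEL: `T ^ r = z` with `z` of norm one, not an `r`-th power: invariant nondegenerate
subspaces of every dimension divisible by `r`. -/
def StUKumPeel : Prop :=
  ∀ (F : Type u) [Field F] [Fintype F] (q : ℕ) (σ : F →+* F) (V : Type v) [AddCommGroup V]
    [Module F V] [FiniteDimensional F V] (B : V →ₗ[F] V →ₛₗ[σ] F) (T : Module.End F V),
    Fintype.card F = q ^ 2 → (∀ x, σ x = x ^ q) → UIso B T → ∀ r : ℕ, r.Prime → (r : F) ≠ 0 →
    ∀ z : F, z * σ z = 1 → (∀ b : F, b ^ r ≠ z) → T ^ r = z • (1 : Module.End F V) →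
    ∀ j : ℕ, r * j ≤ Module.finrank F V →
    ∃ U : Submodule F V, UNd B T U ∧ Module.finrank F U = r * j

/-- UN-KUMEX: such elements exist in `SU_n(q)` when `(q + 1)_r < (n)_r`. -/
def StUKumEx : Prop :=
  ∀ (F : Type u) [Field F] [Fintype F] (q : ℕ), Fintype.card F = q ^ 2 →
    ∀ r : ℕ, r.Prime → r ≠ 2 → r ∣ q + 1 → ∀ n : ℕ, padicValNat r (q + 1) < padicValNat r n →
    ∃ (x : Matrix.SpecialLinearGroup (Fin n) F) (z : F), x ∈ Cfsg.SU n F q ∧
      (∀ b : F, b ^ r ≠ z) ∧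
      ((x ^ r : Matrix.SpecialLinearGroup (Fin n) F) : Matrix (Fin n) (Fin n) F) =
        z • (1 : Matrix (Fin n) (Fin n) F)

/-- UN-KUMNEC: and only then. -/
def StUKumNec : Prop :=
  ∀ (F : Type u) [Field F] [Fintype F] (q : ℕ), Fintype.card F = q ^ 2 →
    ∀ r : ℕ, r.Prime → r ≠ 2 → r ∣ q + 1 →
    ∀ (n : ℕ) (x : Matrix.SpecialLinearGroup (Fin n) F) (z : F), 0 < n → x ∈ Cfsg.SU n F q →
    (∀ b : F, b ^ r ≠ z) →
    ((x ^ r : Matrix.SpecialLinearGroup (Fin n) F) : Matrix (Fin n) (Fin n) F) =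
      z • (1 : Matrix (Fin n) (Fin n) F) →
    padicValNat r (q + 1) < padicValNat r n

end Cfsg.Agent.H42.Un
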