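import Mathlib
import Cfsg.Agent.H42.SpnDefs

/-!
# S5956: assembly from the pieces of `SpnDefs`
-/

set_option autoImplicit false

namespace Cfsg.Agent.H42.Spn

open Cfsg.Agent.H45 Cfsg.Agent.H42.Spd Module Matrix

universe u

section Multiset

theorem ms_sum_min_of_le (μ : Multiset ℕ) (p : ℕ) (h : ∀ e ∈ μ, e ≤ p) :
    (μ.map (fun s => min p s)).sum = μ.sum := by
  congr 1
  conv_rhs => rw [← Multiset.map_id μ]
  apply Multiset.map_congr rfl
  intro s hs
  simp [h s hs]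

theorem ms_sum_min_one (μ : Multiset ℕ) (h : ∀ e ∈ μ, 0 < e) :
    (μ.map (fun s => min 1 s)).sum = Multiset.card μ := by
  have h1 : μ.map (fun s => min 1 s) = μ.map (fun _ => 1) := by
    apply Multiset.map_congr rfl
    intro s hs
    have := h s hs
    simp only [min_def]
    split_ifs <;> omega
  rw [h1, Multiset.map_const', Multiset.sum_replicate, smul_eq_mul, mul_one]

theorem ms_card_lt_sum (μ : Multiset ℕ) (h : ∀ e ∈ μ, 0 < e) (e₀ : ℕ) (he₀ : e₀ ∈ μ)
    (hne : e₀ ≠ 1) : Multiset.card μ < μ.sum := by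
  have h0 := h e₀ he₀
  obtain ⟨t, rfl⟩ := Multiset.exists_cons_of_mem he₀
  rw [Multiset.card_cons, Multiset.sum_cons]
  have h1 : Multiset.card t • 1 ≤ t.sum :=
    Multiset.card_nsmul_le_sum (fun x hx => h x (Multiset.mem_cons_of_mem hx))
  rw [smul_eq_mul, mul_one] at h1
  omega

theorem ms_sum_min_le (μ : Multiset ℕ) (p : ℕ) : (μ.map (fun s => min p s)).sum ≤ μ.sum := by
  induction μ using Multiset.induction_on with
  | empty => simp
  | cons a t ih =>
    rw [Multiset.map_cons, Multiset.sum_cons, Multiset.sum_cons]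
    have h2 : min p a ≤ a := min_le_right _ _
    omega

theorem ms_le_of_sum_min (μ : Multiset ℕ) (p : ℕ)
    (h : (μ.map (fun s => min p s)).sum = μ.sum) : ∀ s ∈ μ, s ≤ p := by
  induction μ using Multiset.induction_on with
  | empty =>
    intro s hs
    simp at hs
  | cons a t ih =>
    rw [Multiset.map_cons, Multiset.sum_cons, Multiset.sum_cons] at h
    have h1 := ms_sum_min_le t p
    have h2 : min p a ≤ a := min_le_right _ _
    intro s hs
    rcases Multiset.mem_cons.mp hs with rfl | hs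
    · have h3 : min p s = s := by omega
      exact min_eq_right_iff.mp h3
    · exact ih (by omega) s hs

end Multiset

section Aux

variable {F : Type u} [Field F]

theorem iso_std (d : ℕ) (T : Module.End F (Fin d ⊕ Fin d → F))
    (h : ∀ x y, stdB d F (T x) (T y) = stdB d F x y) : Iso (stdB d F) T :=
  ⟨stdB_alt d, stdB_nondeg d, h⟩

theorem exists_stdB_ne (d : ℕ) (hd : 0 < d) : ∃ u v : Fin d ⊕ Fin d → F, stdB d F u v ≠ 0 := by
  classical
  have hne : (Pi.single (Sum.inl ⟨0, hd⟩) 1 : Fin d ⊕ Fin d → F) ≠ 0 := by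
    intro h
    have := congrFun h (Sum.inl ⟨0, hd⟩)
    rw [Pi.single_eq_same, Pi.zero_apply] at this
    exact one_ne_zero this
  by_contra hcon
  push Not at hcon
  exact hne (stdB_nondeg d _ (fun y => hcon _ y))

theorem isom_pow (d : ℕ) (T : Module.End F (Fin d ⊕ Fin d → F))
    (h : ∀ x y, stdB d F (T x) (T y) = stdB d F x y) (k : ℕ) (u v : Fin d ⊕ Fin d → F) :
    stdB d F ((T ^ k) u) ((T ^ k) v) = stdB d F u v := by
  induction k generalizing u v with
  | zero => rfl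
  | succ k ih => rw [pow_succ', Module.End.mul_apply, Module.End.mul_apply, h, ih]

theorem scalar_sq (d : ℕ) (hd : 0 < d) (T : Module.End F (Fin d ⊕ Fin d → F))
    (h : ∀ x y, stdB d F (T x) (T y) = stdB d F x y) (k : ℕ) (z : F)
    (hT : T ^ k = z • (1 : Module.End F (Fin d ⊕ Fin d → F))) : z * z = 1 := by
  obtain ⟨u, v, huv⟩ := exists_stdB_ne (F := F) d hd
  have h1 := isom_pow d T h k u v
  rw [hT, LinearMap.smul_apply, LinearMap.smul_apply, Module.End.one_apply,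
    Module.End.one_apply, stdB_smul_smul] at h1
  have h2 : (z * z - 1) * stdB d F u v = 0 := by
    rw [sub_mul, h1, one_mul, sub_self]
  rcases mul_eq_zero.mp h2 with h3 | h3
  · exact sub_eq_zero.mp h3
  · exact absurd h3 huv

theorem toLin_pow_scalar (d : ℕ) (x : ↥(Matrix.symplecticGroup (Fin d) F)) (k : ℕ) (z : F)
    (hz : ((x ^ k : ↥(Matrix.symplecticGroup (Fin d) F)) :
      Matrix (Fin d ⊕ Fin d) (Fin d ⊕ Fin d) F) =
        z • (1 : Matrix (Fin d ⊕ Fin d) (Fin d ⊕ Fin d) F)) :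
    Matrix.toLin' (x : Matrix (Fin d ⊕ Fin d) (Fin d ⊕ Fin d) F) ^ k =
      z • (1 : Module.End F (Fin d ⊕ Fin d → F)) := by
  rw [← Matrix.toLin'_pow, ← SubmonoidClass.coe_pow, hz, map_smul, Matrix.toLin'_one]
  rfl

theorem toLin_pow_one (d : ℕ) (x : ↥(Matrix.symplecticGroup (Fin d) F)) (k : ℕ)
    (hx : x ^ k = 1) :
    Matrix.toLin' (x : Matrix (Fin d ⊕ Fin d) (Fin d ⊕ Fin d) F) ^ k = 1 := by
  rw [← Matrix.toLin'_pow, ← SubmonoidClass.coe_pow, hx]
  exact Matrix.toLin'_one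

theorem map_le_of_invt {V : Type*} [AddCommGroup V] [Module F V] (T : Module.End F V)
    (U : Submodule F V) (hU : U ∈ T.invtSubmodule) : U.map T ≤ U := by
  rw [Module.End.mem_invtSubmodule] at hU
  rintro _ ⟨w, hw, rfl⟩
  exact hU hw

theorem invt_of_map_le {V : Type*} [AddCommGroup V] [Module F V] (T : Module.End F V)
    (U : Submodule F V) (hU : U.map T ≤ U) : U ∈ T.invtSubmodule := by
  rw [Module.End.mem_invtSubmodule]
  intro w hw
  exact hU (Submodule.mem_map_of_mem hw)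

theorem map_le_of_invt_smul {V : Type*} [AddCommGroup V] [Module F V] (T : Module.End F V)
    (z : F) (hz : z ≠ 0) (U : Submodule F V) (hU : U ∈ (z • T).invtSubmodule) :
    U.map T ≤ U := by
  rw [Module.End.mem_invtSubmodule] at hU
  rintro _ ⟨w, hw, rfl⟩
  have h1 : (z • T) w ∈ U := hU hw
  rw [LinearMap.smul_apply] at h1
  have h2 := U.smul_mem z⁻¹ h1
  rwa [smul_smul, inv_mul_cancel₀ hz, one_smul] at h2

theorem invt_pow_sub_one {V : Type*} [AddCommGroup V] [Module F V] (T : Module.End F V)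
    (U : Submodule F V) (hU : U ∈ T.invtSubmodule) (e : ℕ) :
    U ∈ ((T - 1) ^ e).invtSubmodule := by
  rw [Module.End.mem_invtSubmodule] at hU ⊢
  induction e with
  | zero =>
    intro w hw
    exact hw
  | succ e ih =>
    intro w hw
    rw [Submodule.mem_comap, pow_succ', Module.End.mul_apply, LinearMap.sub_apply,
      Module.End.one_apply]
    exact U.sub_mem (hU (ih hw)) (ih hw)

theorem sub_one_pow_char {V : Type*} [AddCommGroup V] [Module F V] (p : ℕ) [Fact p.Prime]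
    [CharP F p] (T : Module.End F V) : (T - 1) ^ p = T ^ p - 1 := by
  have h : (Polynomial.X - 1 : Polynomial F) ^ p = Polynomial.X ^ p - 1 := by
    rw [sub_pow_char, one_pow]
  have h1 := congrArg (Polynomial.aeval T) h
  simpa using h1

/-- Normalisation: an element with `x ^ k` scalar, `k` odd, becomes an isometry of order
dividing `k` after multiplication by a scalar. -/
theorem normalize_odd (d : ℕ) (hd : 0 < d) (k : ℕ) (hk : Odd k)
    (x : ↥(Matrix.symplecticGroup (Fin d) F)) (z : F)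
    (hz : ((x ^ k : ↥(Matrix.symplecticGroup (Fin d) F)) :
      Matrix (Fin d ⊕ Fin d) (Fin d ⊕ Fin d) F) =
        z • (1 : Matrix (Fin d ⊕ Fin d) (Fin d ⊕ Fin d) F)) :
    ∃ T' : Module.End F (Fin d ⊕ Fin d → F),
      (∀ u v, stdB d F (T' u) (T' v) = stdB d F u v) ∧ T' ^ k = 1 ∧
      ∀ U : Submodule F (Fin d ⊕ Fin d → F), U ∈ T'.invtSubmodule →
        U.map (Matrix.toLin' (x : Matrix (Fin d ⊕ Fin d) (Fin d ⊕ Fin d) F)) ≤ U := by
  have hTr := toLin_pow_scalar d x k z hz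
  have hisom := stdB_isom d _ x.2
  have hz2 : z * z = 1 := scalar_sq d hd _ hisom k z hTr
  have hz0 : z ≠ 0 := by
    rintro rfl
    rw [zero_mul] at hz2
    exact zero_ne_one hz2
  refine ⟨z • Matrix.toLin' (x : Matrix (Fin d ⊕ Fin d) (Fin d ⊕ Fin d) F), ?_, ?_, ?_⟩
  · intro u v
    rw [LinearMap.smul_apply, LinearMap.smul_apply, stdB_smul_smul, hz2, one_mul, hisom]
  · obtain ⟨j, hj⟩ := hk
    have hzr : z ^ k * z = 1 := by
      rw [hj, pow_succ, pow_mul, pow_two, hz2, one_pow, one_mul, hz2]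
    rw [smul_pow, hTr, smul_smul, hzr, one_smul]
  · intro U hU
    exact map_le_of_invt_smul _ z hz0 U hU

end Aux

section Cases

variable {F : Type u} [Field F] [Fintype F]

/-- `x` fixes a nondegenerate `m`-space. -/
def Fixes (d m : ℕ) (x : ↥(Matrix.symplecticGroup (Fin d) F)) : Prop :=
  ∃ W : Submodule F (Fin d ⊕ Fin d → F), Module.finrank F ↥W = m ∧
    (∀ u ∈ W, u ≠ 0 → ∃ v ∈ W, Cfsg.sympForm d F u v ≠ 0) ∧
    W.map (Matrix.toLin' (x : Matrix (Fin d ⊕ Fin d) (Fin d ⊕ Fin d) F)) ≤ W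

omit [Fintype F] in
theorem fixes_of_nd (d m : ℕ) (x : ↥(Matrix.symplecticGroup (Fin d) F))
    (T' : Module.End F (Fin d ⊕ Fin d → F))
    (htr : ∀ U : Submodule F (Fin d ⊕ Fin d → F), U ∈ T'.invtSubmodule →
      U.map (Matrix.toLin' (x : Matrix (Fin d ⊕ Fin d) (Fin d ⊕ Fin d) F)) ≤ U)
    (U : Submodule F (Fin d ⊕ Fin d → F)) (hU : Nd (stdB d F) T' U)
    (hf : Module.finrank F U = m) : Fixes d m x :=
  ⟨U, hf, (nd_iff d U).mp hU.2, htr U hU.1⟩

omit [Fintype F] in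
theorem nd_top_std (d : ℕ) (T : Module.End F (Fin d ⊕ Fin d → F)) : Nd (stdB d F) T ⊤ :=
  nd_top (stdB d F) T (stdB_nondeg d) (fun x y h => by rw [stdB_skew, h, neg_zero])

omit [Fintype F] in
theorem finrank_std (d : ℕ) : Module.finrank F (Fin d ⊕ Fin d → F) = 2 * d := by
  rw [Module.finrank_fintype_fun_eq_card, Fintype.card_sum, Fintype.card_fin]
  ring

omit [Fintype F] in
theorem eq_one_of_sq_char_two (h2 : (2 : F) = 0) (z : F) (hz2 : z * z = 1) : z = 1 := by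
  have h3 : (z - 1) * (z - 1) = 0 := by
    linear_combination hz2 + (1 - z) * h2
  rcases mul_eq_zero.mp h3 with h | h <;> exact sub_eq_zero.mp h

/-- Case `r = 2 ≠ p`. -/
theorem case3 (hInvOdd : StInvOdd.{u, u}) (hPeel : StPeel.{u, u}) (h2 : (2 : F) ≠ 0)
    (d m : ℕ) (hd : 0 < d) (hme : Even m) (hmd : m ≤ 2 * d)
    (x : ↥(Matrix.symplecticGroup (Fin d) F)) (z : F)
    (hz : ((x ^ 2 : ↥(Matrix.symplecticGroup (Fin d) F)) :
      Matrix (Fin d ⊕ Fin d) (Fin d ⊕ Fin d) F) =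
        z • (1 : Matrix (Fin d ⊕ Fin d) (Fin d ⊕ Fin d) F)) : Fixes d m x := by
  have hTr := toLin_pow_scalar d x 2 z hz
  have hisom := stdB_isom d _ x.2
  have hz2 := scalar_sq d hd _ hisom 2 z hTr
  have hiso := iso_std d _ hisom
  rw [pow_two] at hTr
  have hplane := hInvOdd F _ (stdB d F) _ h2 hiso z hz2 hTr
  obtain ⟨m2, hm2⟩ := hme
  obtain ⟨U, -, hUnd, hUf⟩ := hPeel F _ (stdB d F) _ hiso hplane ⊤ (nd_top_std d _) m2
    (by rw [finrank_top, finrank_std]; omega)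
  exact fixes_of_nd d m x _ (fun U hU => map_le_of_invt _ U hU) U hUnd (by rw [hUf]; omega)

/-- Case `r = p = 2`, backward direction. -/
theorem case2_back (hInv2 : StInv2Struct.{u, u}) (h2 : (2 : F) = 0)
    (d m : ℕ) (hd : 0 < d) (hme : Even m) (hmd : m ≤ 2 * d)
    (hcond : (2 * d) % 4 = 2 ∨ m % 4 = 0)
    (x : ↥(Matrix.symplecticGroup (Fin d) F)) (z : F)
    (hz : ((x ^ 2 : ↥(Matrix.symplecticGroup (Fin d) F)) :
      Matrix (Fin d ⊕ Fin d) (Fin d ⊕ Fin d) F) =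
        z • (1 : Matrix (Fin d ⊕ Fin d) (Fin d ⊕ Fin d) F)) : Fixes d m x := by
  have hTr := toLin_pow_scalar d x 2 z hz
  have hisom := stdB_isom d _ x.2
  have hz2 := scalar_sq d hd _ hisom 2 z hTr
  have hz1 := eq_one_of_sq_char_two h2 z hz2
  rw [hz1, one_smul, pow_two] at hTr
  obtain ⟨U, -, hUnd, hUf⟩ := hInv2 F _ (stdB d F) _ h2 (iso_std d _ hisom) hTr ⊤
    (nd_top_std d _) m (by rw [finrank_top, finrank_std]; exact hmd) (by
      rw [finrank_top, finrank_std]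
      rcases hcond with h | h
      · right
        exact ⟨hme, h⟩
      · left
        exact Nat.dvd_of_mod_eq_zero h)
  exact fixes_of_nd d m x _ (fun U hU => map_le_of_invt _ U hU) U hUnd hUf

/-- Case `r = p = 2`, forward direction. -/
theorem case2_fwd (hInv2Ex : StInv2Ex.{u}) (h2 : (2 : F) = 0)
    (d m : ℕ) (hd : 0 < d) (hme : Even m)
    (hL : ∀ x : ↥(Matrix.symplecticGroup (Fin d) F),
      (∃ z : F, ((x ^ 2 : ↥(Matrix.symplecticGroup (Fin d) F)) :
        Matrix (Fin d ⊕ Fin d) (Fin d ⊕ Fin d) F) =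
          z • (1 : Matrix (Fin d ⊕ Fin d) (Fin d ⊕ Fin d) F)) →
      (∀ z : F, (x : Matrix (Fin d ⊕ Fin d) (Fin d ⊕ Fin d) F) ≠
        z • (1 : Matrix (Fin d ⊕ Fin d) (Fin d ⊕ Fin d) F)) → Fixes d m x) :
    (2 * d) % 4 = 2 ∨ m % 4 = 0 := by
  by_contra hcon
  push Not at hcon
  have hdeven : Even d := by
    rw [Nat.even_iff]
    omega
  obtain ⟨x, hxx, hx1, hprop⟩ := hInv2Ex F h2 d hdeven hd
  have hfix := hL x ⟨1, by rw [pow_two, hxx, one_smul]; rfl⟩ (by
    intro z hz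
    have h3 : ((x * x : ↥(Matrix.symplecticGroup (Fin d) F)) :
        Matrix (Fin d ⊕ Fin d) (Fin d ⊕ Fin d) F) =
        (z * z) • (1 : Matrix (Fin d ⊕ Fin d) (Fin d ⊕ Fin d) F) := by
      rw [Submonoid.coe_mul, hz, smul_mul_smul_comm, mul_one]
    rw [hxx] at h3
    have h4 : z * z = 1 := by
      have h5 := congrFun (congrFun h3 (Sum.inl ⟨0, hd⟩)) (Sum.inl ⟨0, hd⟩)
      rw [Matrix.smul_apply, Matrix.one_apply_eq, smul_eq_mul, mul_one] at h5
      rw [← h5]
      exact (Matrix.one_apply_eq (α := F) (Sum.inl ⟨0, hd⟩ : Fin d ⊕ Fin d)).symm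
    have hz1 := eq_one_of_sq_char_two h2 z h4
    apply hx1
    apply Subtype.ext
    rw [hz, hz1, one_smul]
    rfl)
  obtain ⟨W, hWf, hWnd, hWinv⟩ := hfix
  have h6 := hprop W hWinv hWnd
  rw [hWf] at h6
  omega

/-- Case `r ≠ p` odd, backward direction. -/
theorem case4_back (hSub : Spd.StSub.{u, u}) (hModc : Spd.StModc.{u, u})
    {p : ℕ} [Fact p.Prime] [CharP F p]
    (d m : ℕ) (hd : 0 < d) (hme : Even m) (hmd : m ≤ 2 * d)
    (r : ℕ) (hr : r.Prime) (hr2 : r ≠ 2) (hrp : r ≠ p)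
    (hmod : m % cc F r ≤ (2 * d) % cc F r)
    (x : ↥(Matrix.symplecticGroup (Fin d) F)) (z : F)
    (hz : ((x ^ r : ↥(Matrix.symplecticGroup (Fin d) F)) :
      Matrix (Fin d ⊕ Fin d) (Fin d ⊕ Fin d) F) =
        z • (1 : Matrix (Fin d ⊕ Fin d) (Fin d ⊕ Fin d) F)) : Fixes d m x := by
  have hp : p.Prime := Fact.out
  have hpr : ¬ p ∣ r := fun h => hrp ((Nat.prime_dvd_prime_iff_eq hp hr).mp h).symm
  have hrF : (r : F) ≠ 0 := by
    intro h0
    exact hpr ((CharP.cast_eq_zero_iff F p r).mp h0)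
  have hrodd : Odd r := by
    rcases hr.eq_two_or_odd' with h | h
    · exact absurd h hr2
    · exact h
  obtain ⟨T', hiso, hT'k, htr⟩ := normalize_odd d hd r hrodd x z hz
  have hctx : Ctx r (stdB d F) T' := ⟨hr, hr2, hrF, stdB_good d p r hpr T' hiso hT'k, hT'k⟩
  obtain ⟨s, hs⟩ := hModc F _ r (stdB d F) T' hctx ⊤ (nd_top_std d T')
  rw [finrank_top, finrank_std] at hs
  obtain ⟨c, hcdef⟩ : ∃ c, c = cc F r := ⟨_, rfl⟩
  rw [← hcdef] at hs hmod
  obtain ⟨c2, hc2⟩ := cc_even (F := F) r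
  rw [← hcdef] at hc2
  obtain ⟨m2, hm2⟩ := hme
  have hkmod : (2 * d) % c = kk T' ⊤ % c := by
    rw [hs, Nat.add_mul_mod_self_left]
  have hkle : kk T' ⊤ % c ≤ kk T' ⊤ := Nat.mod_le _ _
  have hdm := Nat.div_add_mod m c
  by_cases hsj : s ≤ m / c
  · -- all blocks
    have h1 : c * s ≤ c * (m / c) := Nat.mul_le_mul_left c hsj
    have h3 : c * s = 2 * (c2 * s) := by rw [hc2]; ring
    obtain ⟨U, -, hUnd, hUf, -⟩ := hSub F _ r (stdB d F) T' hctx ⊤ (nd_top_std d T') s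
      (m2 - c2 * s) (by rw [finrank_top, finrank_std, ← hcdef]; omega) (by omega)
    refine fixes_of_nd d m x T' htr U hUnd ?_
    rw [hUf, ← hcdef]
    omega
  · -- `m / c` blocks
    have h1 : c * (m / c) ≤ c * s := Nat.mul_le_mul_left c (by omega)
    have h3 : c * (m / c) = 2 * (c2 * (m / c)) := by rw [hc2]; ring
    obtain ⟨U, -, hUnd, hUf, -⟩ := hSub F _ r (stdB d F) T' hctx ⊤ (nd_top_std d T') (m / c)
      (m2 - c2 * (m / c)) (by rw [finrank_top, finrank_std, ← hcdef]; omega) (by omega)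
    refine fixes_of_nd d m x T' htr U hUnd ?_
    rw [hUf, ← hcdef]
    omega

/-- Case `r ≠ p` odd, forward direction. -/
theorem case4_fwd (hSub : Spd.StSub.{u, u}) (hModc : Spd.StModc.{u, u}) (hEx : Spd.StEx.{u})
    (hCnt : StNdCnt.{u}) {p : ℕ} [Fact p.Prime] [CharP F p]
    (d m : ℕ) (hd : 0 < d) (hme : Even m) (hmd : m ≤ 2 * d)
    (r : ℕ) (hr : r.Prime) (hr2 : r ≠ 2) (hrp : r ≠ p)
    (hrΩ : r ∣ Nat.card {W : Submodule F (Fin d ⊕ Fin d → F) // Module.finrank F ↥W = m ∧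
      (∀ u ∈ W, u ≠ 0 → ∃ v ∈ W, Cfsg.sympForm d F u v ≠ 0)})
    (hL : ∀ x : ↥(Matrix.symplecticGroup (Fin d) F),
      (∃ z : F, ((x ^ r : ↥(Matrix.symplecticGroup (Fin d) F)) :
        Matrix (Fin d ⊕ Fin d) (Fin d ⊕ Fin d) F) =
          z • (1 : Matrix (Fin d ⊕ Fin d) (Fin d ⊕ Fin d) F)) →
      (∀ z : F, (x : Matrix (Fin d ⊕ Fin d) (Fin d ⊕ Fin d) F) ≠
        z • (1 : Matrix (Fin d ⊕ Fin d) (Fin d ⊕ Fin d) F)) → Fixes d m x) :
    cc F r ≤ m ∧ m % cc F r ≤ (2 * d) % cc F r := by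
  have hp : p.Prime := Fact.out
  have hpr : ¬ p ∣ r := fun h => hrp ((Nat.prime_dvd_prime_iff_eq hp hr).mp h).symm
  have hrF : (r : F) ≠ 0 := by
    intro h0
    exact hpr ((CharP.cast_eq_zero_iff F p r).mp h0)
  have hipos : 0 < orderOf (Fintype.card F : ZMod r) :=
    Cfsg.Agent.H99.El.orderOf_card_pos r hr hrF
  have hcpos : 0 < cc F r := cc_pos r hipos
  obtain ⟨m2, hm2⟩ := hme
  -- a nondegenerate `m`-space exists
  have hctx1 : Ctx r (stdB d F) (1 : Module.End F (Fin d ⊕ Fin d → F)) :=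
    ⟨hr, hr2, hrF, stdB_good d p r hpr 1 (fun x y => rfl) (one_pow r), one_pow r⟩
  have hk1 : kk (1 : Module.End F (Fin d ⊕ Fin d → F)) ⊤ = 2 * d := by
    rw [kk_top, sub_self, LinearMap.ker_zero, finrank_top, finrank_std]
  obtain ⟨U₀, -, hU₀nd, hU₀f, -⟩ := hSub F _ r (stdB d F) 1 hctx1 ⊤ (nd_top_std d 1) 0 m2
    (by rw [finrank_top, finrank_std, hk1]; omega) (by rw [hk1]; omega)
  obtain ⟨j, hj1, hj2, hjdvd⟩ := hCnt F d m m2 r hr hrF (by omega) (by omega)
    ⟨U₀, by rw [hU₀f]; omega, (nd_iff d U₀).mp hU₀nd.2⟩ hrΩ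
  obtain ⟨c, hcdef⟩ : ∃ c, c = cc F r := ⟨_, rfl⟩
  rw [← hcdef] at hcpos hjdvd ⊢
  have hc2d : c ≤ 2 * d := by
    have := Nat.le_of_dvd (by omega) hjdvd
    omega
  -- the max-block element
  obtain ⟨x, hxr, hxf⟩ := hEx F p r hr hr2 hrp d (2 * d / c)
    (by rw [← hcdef]; exact Nat.mul_div_le _ _)
  rw [← hcdef] at hxf
  have hdm := Nat.div_add_mod (2 * d) c
  have hmodlt : 2 * d % c < c := Nat.mod_lt _ hcpos
  have hxf' : Module.finrank F ↥(LinearMap.ker
      (Matrix.toLin' (x : Matrix (Fin d ⊕ Fin d) (Fin d ⊕ Fin d) F) - 1)) = 2 * d % c := by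
    omega
  have hT := toLin_pow_one d x r hxr
  have hisom := stdB_isom d _ x.2
  have hctx : Ctx r (stdB d F)
      (Matrix.toLin' (x : Matrix (Fin d ⊕ Fin d) (Fin d ⊕ Fin d) F)) :=
    ⟨hr, hr2, hrF, stdB_good d p r hpr _ hisom hT, hT⟩
  have hns : ∀ z : F, (x : Matrix (Fin d ⊕ Fin d) (Fin d ⊕ Fin d) F) ≠
      z • (1 : Matrix (Fin d ⊕ Fin d) (Fin d ⊕ Fin d) F) := by
    intro z hz
    have hTz : Matrix.toLin' (x : Matrix (Fin d ⊕ Fin d) (Fin d ⊕ Fin d) F) =
        z • (1 : Module.End F (Fin d ⊕ Fin d → F)) := by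
      rw [hz, map_smul, Matrix.toLin'_one]
      rfl
    have hz2 : z * z = 1 := scalar_sq d hd _ hisom 1 z (by rw [pow_one]; exact hTz)
    obtain ⟨u, v, huv⟩ := exists_stdB_ne (F := F) d hd
    have hzr : z ^ r = 1 := by
      have h1 := hT
      rw [hTz, smul_pow, one_pow] at h1
      have h2 := congrArg (fun S : Module.End F (Fin d ⊕ Fin d → F) => stdB d F (S u) v) h1
      simp only [LinearMap.smul_apply, Module.End.one_apply, map_smul, smul_eq_mul] at h2
      have h3 : (z ^ r - 1) * stdB d F u v = 0 := by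
        rw [sub_mul, h2, one_mul, sub_self]
      rcases mul_eq_zero.mp h3 with h4 | h4
      · exact sub_eq_zero.mp h4
      · exact absurd h4 huv
    have hz1 : z = 1 := by
      obtain ⟨k, hk⟩ : ∃ k, r = 2 * k + 1 := by
        rcases hr.eq_two_or_odd' with h | h
        · exact absurd h hr2
        · exact h
      rw [hk, pow_succ, pow_mul, pow_two, hz2, one_pow, one_mul] at hzr
      exact hzr
    have hker : LinearMap.ker
        (Matrix.toLin' (x : Matrix (Fin d ⊕ Fin d) (Fin d ⊕ Fin d) F) - 1) = ⊤ := by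
      rw [hTz, hz1, one_smul, sub_self, LinearMap.ker_zero]
    rw [hker, finrank_top, finrank_std] at hxf'
    omega
  obtain ⟨W, hWf, hWnd, hWinv⟩ := hL x ⟨1, by rw [hxr, one_smul]; rfl⟩ hns
  have hWNd : Nd (stdB d F) (Matrix.toLin' (x : Matrix (Fin d ⊕ Fin d) (Fin d ⊕ Fin d) F)) W :=
    ⟨invt_of_map_le _ W hWinv, (nd_iff d W).mpr hWnd⟩
  obtain ⟨sW, hsW⟩ := hModc F _ r (stdB d F) _ hctx W hWNd
  rw [hWf, ← hcdef] at hsW
  have hkW : kk (Matrix.toLin' (x : Matrix (Fin d ⊕ Fin d) (Fin d ⊕ Fin d) F)) W ≤ 2 * d % c := by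
    rw [← hxf']
    exact Submodule.finrank_mono inf_le_right
  have hmm : m % c = kk (Matrix.toLin' (x : Matrix (Fin d ⊕ Fin d) (Fin d ⊕ Fin d) F)) W := by
    rw [hsW, Nat.add_mul_mod_self_left, Nat.mod_eq_of_lt (by omega)]
  refine ⟨?_, by omega⟩
  by_contra hcon
  have hmc : m % c = m := Nat.mod_eq_of_lt (by omega)
  obtain ⟨w, hw⟩ := hjdvd
  rcases Nat.lt_or_ge (2 * d / c) w with hlt | hge
  · have h1 : c * (2 * d / c + 1) ≤ c * w := Nat.mul_le_mul_left c hlt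
    rw [mul_add, mul_one] at h1
    omega
  · have h1 : c * w ≤ c * (2 * d / c) := Nat.mul_le_mul_left c hge
    omega

/-- Case `r = p` odd, backward direction. -/
theorem case1_back (hType : StUniType.{u, u}) {p : ℕ} [Fact p.Prime] [CharP F p] (hp2 : p ≠ 2)
    (d m : ℕ) (hd : 0 < d)
    (hpart : ∀ μ : Multiset ℕ, (∀ a ∈ μ, 0 < a ∧ a ≤ p) →
      (∀ a : ℕ, Odd a → Even (μ.count a)) → μ.sum = 2 * d →
      ∃ ν : Multiset ℕ, ν ≤ μ ∧ ν.sum = m ∧ ∀ a : ℕ, Odd a → Even (ν.count a))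
    (x : ↥(Matrix.symplecticGroup (Fin d) F)) (z : F)
    (hz : ((x ^ p : ↥(Matrix.symplecticGroup (Fin d) F)) :
      Matrix (Fin d ⊕ Fin d) (Fin d ⊕ Fin d) F) =
        z • (1 : Matrix (Fin d ⊕ Fin d) (Fin d ⊕ Fin d) F)) : Fixes d m x := by
  have hp : p.Prime := Fact.out
  have hpodd : Odd p := by
    rcases hp.eq_two_or_odd' with h | h
    · exact absurd h hp2
    · exact h
  have h2 : (2 : F) ≠ 0 := by
    intro h
    have h1 : ((2 : ℕ) : F) = 0 := by exact_mod_cast h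
    have h3 := (CharP.cast_eq_zero_iff F p 2).mp h1
    exact hp2 ((Nat.prime_dvd_prime_iff_eq hp Nat.prime_two).mp h3)
  obtain ⟨T', hiso, hT'k, htr⟩ := normalize_odd d hd p hpodd x z hz
  have hnil : (T' - 1) ^ p = 0 := by
    rw [sub_one_pow_char, hT'k, sub_self]
  obtain ⟨μ, hpos, hodd, hkd, hsel⟩ := hType F _ (stdB d F) T' h2 (iso_std d T' hiso)
    ⟨p, hnil⟩ ⊤ (nd_top_std d T')
  have hkd' : ∀ e, p ≤ e → (μ.map (fun s => min e s)).sum = 2 * d := by
    intro e he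
    rw [← hkd e]
    have h1 : (T' - 1) ^ e = 0 := by
      obtain ⟨k, rfl⟩ := Nat.exists_eq_add_of_le he
      rw [pow_add, hnil, zero_mul]
    rw [h1, LinearMap.ker_zero, inf_top_eq, finrank_top, finrank_std]
  have hsum : μ.sum = 2 * d := by
    rw [← hkd' (p + μ.sum) (Nat.le_add_right _ _)]
    exact (ms_sum_min_of_le μ _ (fun e he =>
      (Multiset.le_sum_of_mem he).trans (Nat.le_add_left _ _))).symm
  have hle : ∀ s ∈ μ, s ≤ p := ms_le_of_sum_min μ p (by rw [hkd' p le_rfl, hsum])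
  obtain ⟨ν, hν, hνsum, hνodd⟩ := hpart μ (fun a ha => ⟨hpos a ha, hle a ha⟩) hodd hsum
  obtain ⟨U, -, hUnd, hUf⟩ := hsel ν hν hνodd
  exact fixes_of_nd d m x T' htr U hUnd (by rw [hUf, hνsum])

/-- Case `r = p` odd, forward direction. -/
theorem case1_fwd (hType : StUniType.{u, u}) (hKerAdd : StKerAdd.{u, u}) (hUniq : StUniq)
    (hUniEx : StUniEx.{u}) (hCompl : StIsoCompl.{u, u})
    {p : ℕ} [Fact p.Prime] [CharP F p] (hp2 : p ≠ 2)
    (d m : ℕ) (hd : 2 ≤ d) (hme : Even m) (hmd : m ≤ 2 * d)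
    (hL : ∀ x : ↥(Matrix.symplecticGroup (Fin d) F),
      (∃ z : F, ((x ^ p : ↥(Matrix.symplecticGroup (Fin d) F)) :
        Matrix (Fin d ⊕ Fin d) (Fin d ⊕ Fin d) F) =
          z • (1 : Matrix (Fin d ⊕ Fin d) (Fin d ⊕ Fin d) F)) →
      (∀ z : F, (x : Matrix (Fin d ⊕ Fin d) (Fin d ⊕ Fin d) F) ≠
        z • (1 : Matrix (Fin d ⊕ Fin d) (Fin d ⊕ Fin d) F)) → Fixes d m x)
    (μ : Multiset ℕ) (hμ : ∀ a ∈ μ, 0 < a ∧ a ≤ p)
    (hodd : ∀ a : ℕ, Odd a → Even (μ.count a)) (hsum : μ.sum = 2 * d) :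
    ∃ ν : Multiset ℕ, ν ≤ μ ∧ ν.sum = m ∧ ∀ a : ℕ, Odd a → Even (ν.count a) := by
  classical
  have hp : p.Prime := Fact.out
  have h2 : (2 : F) ≠ 0 := by
    intro h
    have h1 : ((2 : ℕ) : F) = 0 := by exact_mod_cast h
    have h3 := (CharP.cast_eq_zero_iff F p 2).mp h1
    exact hp2 ((Nat.prime_dvd_prime_iff_eq hp Nat.prime_two).mp h3)
  by_cases hall : ∀ e ∈ μ, e = 1
  · have hrep : μ = Multiset.replicate (Multiset.card μ) 1 := Multiset.eq_replicate_card.mpr hall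
    have hcard : Multiset.card μ = 2 * d := by
      rw [← hsum]
      conv_rhs => rw [hrep]
      simp
    refine ⟨Multiset.replicate m 1, ?_, ?_, ?_⟩
    · rw [hrep, hcard]
      exact (Multiset.replicate_le_replicate 1).mpr hmd
    · simp
    · intro e he
      rw [Multiset.count_replicate]
      split_ifs with h
      · exact hme
      · exact ⟨0, rfl⟩
  · push Not at hall
    obtain ⟨e₀, he₀, hne⟩ := hall
    obtain ⟨x, hxp, hxkd⟩ := hUniEx F p hp2 d μ hμ hodd hsum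
    have hT := toLin_pow_one d x p hxp
    have hisom := stdB_isom d _ x.2
    have hiso := iso_std d _ hisom
    have hnil : (Matrix.toLin' (x : Matrix (Fin d ⊕ Fin d) (Fin d ⊕ Fin d) F) - 1) ^ p = 0 := by
      rw [sub_one_pow_char, hT, sub_self]
    have hcardlt : Multiset.card μ < 2 * d := by
      rw [← hsum]
      exact ms_card_lt_sum μ (fun e he => (hμ e he).1) e₀ he₀ hne
    have hcardpos : 0 < Multiset.card μ := Multiset.card_pos_iff_exists_mem.mpr ⟨e₀, he₀⟩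
    have hns : ∀ z : F, (x : Matrix (Fin d ⊕ Fin d) (Fin d ⊕ Fin d) F) ≠
        z • (1 : Matrix (Fin d ⊕ Fin d) (Fin d ⊕ Fin d) F) := by
      intro z hz
      have h1 := hxkd 1
      rw [ms_sum_min_one μ (fun e he => (hμ e he).1), pow_one] at h1
      have hTz : Matrix.toLin' (x : Matrix (Fin d ⊕ Fin d) (Fin d ⊕ Fin d) F) - 1 =
          (z - 1) • (1 : Module.End F (Fin d ⊕ Fin d → F)) := by
        rw [hz, map_smul, Matrix.toLin'_one]
        apply LinearMap.ext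
        intro v
        show z • v - v = (z - 1) • v
        rw [sub_smul, one_smul]
      rw [hTz] at h1
      by_cases hz1 : z = 1
      · subst hz1
        rw [sub_self, zero_smul, LinearMap.ker_zero, finrank_top, finrank_std] at h1
        omega
      · have hk : LinearMap.ker ((z - 1) • (1 : Module.End F (Fin d ⊕ Fin d → F))) = ⊥ := by
          rw [LinearMap.ker_eq_bot']
          intro v hv
          rw [LinearMap.smul_apply, Module.End.one_apply] at hv
          rcases smul_eq_zero.mp hv with h | h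
          · exact absurd (sub_eq_zero.mp h) hz1
          · exact h
        rw [hk, finrank_bot] at h1
        omega
    obtain ⟨W, hWf, hWnd, hWinv⟩ := hL x ⟨1, by rw [hxp, one_smul]; rfl⟩ hns
    have hWNd : Nd (stdB d F)
        (Matrix.toLin' (x : Matrix (Fin d ⊕ Fin d) (Fin d ⊕ Fin d) F)) W :=
      ⟨invt_of_map_le _ W hWinv, (nd_iff d W).mpr hWnd⟩
    obtain ⟨hW'Nd, hsup, -⟩ := hCompl F _ (stdB d F) _ hiso W ⊤ hWNd (nd_top_std d _) le_top
    obtain ⟨W', hW'⟩ : ∃ W' : Submodule F (Fin d ⊕ Fin d → F),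
        W' = ⊤ ⊓ perp (stdB d F) W := ⟨_, rfl⟩
    rw [← hW'] at hW'Nd hsup
    have hdisj : W ⊓ W' = ⊥ := by
      rw [hW', top_inf_eq]
      exact hWNd.2
    obtain ⟨μW, hposW, hoddW, hkdW, -⟩ := hType F _ (stdB d F) _ h2 hiso ⟨p, hnil⟩ W hWNd
    obtain ⟨μW', hposW', -, hkdW', -⟩ := hType F _ (stdB d F) _ h2 hiso ⟨p, hnil⟩ W' hW'Nd
    have hall : ∀ e : ℕ, (μ.map (fun s => min e s)).sum =
        ((μW + μW').map (fun s => min e s)).sum := by
      intro e
      have h1 := hKerAdd F _ ((Matrix.toLin' (x : Matrix (Fin d ⊕ Fin d) (Fin d ⊕ Fin d) F) - 1) ^ e)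
        W W' (invt_pow_sub_one _ W hWNd.1 e) (invt_pow_sub_one _ W' hW'Nd.1 e) hdisj
      rw [hsup, top_inf_eq, hxkd e, hkdW e, hkdW' e] at h1
      rw [Multiset.map_add, Multiset.sum_add]
      exact h1
    have hμeq : μ = μW + μW' := hUniq μ (μW + μW') (fun a ha => (hμ a ha).1) (by
      intro a ha
      rcases Multiset.mem_add.mp ha with h | h
      · exact hposW a h
      · exact hposW' a h) hall
    refine ⟨μW, ?_, ?_, hoddW⟩
    · rw [hμeq]
      exact Multiset.le_add_right _ _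
    · have h1 := hkdW (p + μW.sum)
      have h3 : (Matrix.toLin' (x : Matrix (Fin d ⊕ Fin d) (Fin d ⊕ Fin d) F) - 1) ^
          (p + μW.sum) = 0 := by
        rw [pow_add, hnil, zero_mul]
      rw [h3, LinearMap.ker_zero, inf_top_eq, hWf, ms_sum_min_of_le μW _ (fun e he =>
        (Multiset.le_sum_of_mem he).trans (Nat.le_add_left _ _))] at h1
      exact h1.symm

/-- The main statement, modulo the pieces. -/
theorem spn_main (hSub : Spd.StSub.{u, u}) (hModc : Spd.StModc.{u, u}) (hEx : Spd.StEx.{u})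
    (hCnt : StNdCnt.{u}) (hInvOdd : StInvOdd.{u, u}) (hPeel : StPeel.{u, u})
    (hInv2 : StInv2Struct.{u, u}) (hInv2Ex : StInv2Ex.{u}) (hType : StUniType.{u, u})
    (hKerAdd : StKerAdd.{u, u}) (hUniq : StUniq) (hUniEx : StUniEx.{u})
    (hCompl : StIsoCompl.{u, u})
    {p : ℕ} [Fact p.Prime] [CharP F p]
    (d m : ℕ) (hd : 2 ≤ d) (hme : Even m) (hmd : m < d)
    (r : ℕ) [Fact r.Prime]
    (hrΩ : r ∣ Nat.card {W : Submodule F (Fin d ⊕ Fin d → F) // Module.finrank F ↥W = m ∧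
      (∀ u ∈ W, u ≠ 0 → ∃ v ∈ W, Cfsg.sympForm d F u v ≠ 0)}) :
    (∀ x : ↥(Matrix.symplecticGroup (Fin d) F),
      (∃ z : F, ((x ^ r : ↥(Matrix.symplecticGroup (Fin d) F)) :
        Matrix (Fin d ⊕ Fin d) (Fin d ⊕ Fin d) F) =
          z • (1 : Matrix (Fin d ⊕ Fin d) (Fin d ⊕ Fin d) F)) →
      (∀ z : F, (x : Matrix (Fin d ⊕ Fin d) (Fin d ⊕ Fin d) F) ≠
        z • (1 : Matrix (Fin d ⊕ Fin d) (Fin d ⊕ Fin d) F)) →
      ∃ W : Submodule F (Fin d ⊕ Fin d → F), Module.finrank F ↥W = m ∧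
        (∀ u ∈ W, u ≠ 0 → ∃ v ∈ W, Cfsg.sympForm d F u v ≠ 0) ∧
        W.map (Matrix.toLin' (x : Matrix (Fin d ⊕ Fin d) (Fin d ⊕ Fin d) F)) ≤ W) ↔
    ((r = p ∧ 2 < p ∧ (∀ μ : Multiset ℕ, (∀ a ∈ μ, 0 < a ∧ a ≤ p) →
        (∀ a : ℕ, Odd a → Even (μ.count a)) → μ.sum = 2 * d →
        ∃ ν : Multiset ℕ, ν ≤ μ ∧ ν.sum = m ∧ ∀ a : ℕ, Odd a → Even (ν.count a))) ∨
     (r = p ∧ p = 2 ∧ ((2 * d) % 4 = 2 ∨ m % 4 = 0)) ∨
     (r = 2 ∧ p ≠ 2) ∨
     (r ≠ p ∧ 2 < r ∧ cc F r ≤ m ∧ m % cc F r ≤ (2 * d) % cc F r)) := by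
  have hp : p.Prime := Fact.out
  have hr : r.Prime := Fact.out
  by_cases hrp : r = p
  · subst hrp
    by_cases hp2 : r = 2
    · -- Case II
      subst hp2
      have h2 : (2 : F) = 0 := by exact_mod_cast CharP.cast_eq_zero F 2
      constructor
      · intro hL
        right; left
        exact ⟨rfl, rfl, case2_fwd hInv2Ex h2 d m (by omega) hme hL⟩
      · rintro (⟨-, h, -⟩ | ⟨-, -, h⟩ | ⟨-, h⟩ | ⟨h, -⟩)
        · omega
        · intro x ⟨z, hz⟩ _
          exact case2_back hInv2 h2 d m (by omega) hme (by omega) h x z hz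
        · exact absurd rfl h
        · exact absurd rfl h
    · -- Case I
      constructor
      · intro hL
        left
        refine ⟨rfl, ?_, ?_⟩
        · have := hr.two_le
          omega
        · intro μ hμ hodd hsum
          exact case1_fwd hType hKerAdd hUniq hUniEx hCompl hp2 d m hd hme (by omega) hL μ hμ
            hodd hsum
      · rintro (⟨-, -, h⟩ | ⟨-, h, -⟩ | ⟨h, -⟩ | ⟨h, -⟩)
        · intro x ⟨z, hz⟩ _
          exact case1_back hType hp2 d m (by omega) h x z hz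
        · exact absurd h hp2
        · exact absurd h hp2
        · exact absurd rfl h
  · by_cases hr2 : r = 2
    · -- Case III
      subst hr2
      have hp2 : p ≠ 2 := fun h => hrp h.symm
      have h2 : (2 : F) ≠ 0 := by
        intro h
        have h1 : ((2 : ℕ) : F) = 0 := by exact_mod_cast h
        have h3 := (CharP.cast_eq_zero_iff F p 2).mp h1
        exact hp2 ((Nat.prime_dvd_prime_iff_eq hp Nat.prime_two).mp h3)
      constructor
      · intro _
        right; right; left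
        exact ⟨rfl, hp2⟩
      · intro _ x ⟨z, hz⟩ _
        exact case3 hInvOdd hPeel h2 d m (by omega) hme (by omega) x z hz
    · -- Case IV
      constructor
      · intro hL
        right; right; right
        have h := case4_fwd hSub hModc hEx hCnt d m (by omega) hme (by omega) r hr hr2 hrp hrΩ hL
        have h2 := hr.two_le
        exact ⟨hrp, by omega, h.1, h.2⟩
      · rintro (⟨h, -⟩ | ⟨h, -⟩ | ⟨h, -⟩ | ⟨-, -, -, h⟩)
        · exact absurd h hrp
        · exact absurd h hrp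
        · exact absurd h hr2
        · intro x ⟨z, hz⟩ _
          exact case4_back hSub hModc d m (by omega) hme (by omega) r hr hr2 hrp h x z hz

end Cases

end Cfsg.Agent.H42.Spn
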