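import Mathlib
import Cfsg.Agent.H42.TiDefs
import Cfsg.Agent.H42.SpnMain

/-!
# S5955: assembly from the pieces of `TiDefs`
-/

set_option autoImplicit false

namespace Cfsg.Agent.H42.Ti

open Cfsg.Agent.H45 Cfsg.Agent.H42.Spd Cfsg.Agent.H42.Spn Module Matrix Polynomial

universe u

section Cases

variable {F : Type u} [Field F] [Fintype F]

/-- `x` fixes a totally isotropic `m`-space. -/
def FixesTi (d m : ℕ) (x : ↥(Matrix.symplecticGroup (Fin d) F)) : Prop :=
  ∃ W : Submodule F (Fin d ⊕ Fin d → F), Module.finrank F ↥W = m ∧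
    (∀ u ∈ W, ∀ v ∈ W, Cfsg.sympForm d F u v = 0) ∧
    W.map (Matrix.toLin' (x : Matrix (Fin d ⊕ Fin d) (Fin d ⊕ Fin d) F)) ≤ W

omit [Fintype F] in
theorem fixesTi_of (d m : ℕ) (x : ↥(Matrix.symplecticGroup (Fin d) F))
    (T' : Module.End F (Fin d ⊕ Fin d → F))
    (htr : ∀ U : Submodule F (Fin d ⊕ Fin d → F), U ∈ T'.invtSubmodule →
      U.map (Matrix.toLin' (x : Matrix (Fin d ⊕ Fin d) (Fin d ⊕ Fin d) F)) ≤ U)
    (U : Submodule F (Fin d ⊕ Fin d → F)) (hU : U ∈ T'.invtSubmodule)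
    (hti : TI (stdB d F) U) (hf : Module.finrank F U = m) : FixesTi d m x :=
  ⟨U, hf, fun u hu v hv => by rw [← stdB_apply]; exact hti u hu v hv, htr U hU⟩

omit [Fintype F] in
theorem ti_of_fixes (d : ℕ) (W : Submodule F (Fin d ⊕ Fin d → F))
    (h : ∀ u ∈ W, ∀ v ∈ W, Cfsg.sympForm d F u v = 0) : TI (stdB d F) W :=
  fun u hu v hv => by rw [stdB_apply]; exact h u hu v hv

omit [Fintype F] in
/-- An element with `x ^ r = 1`, `r` odd, which is not the identity is not scalar. -/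
theorem not_scalar_of_kk (d : ℕ) (hd : 0 < d) (r : ℕ) (hr : r.Prime) (hr2 : r ≠ 2)
    (x : ↥(Matrix.symplecticGroup (Fin d) F)) (hxr : x ^ r = 1)
    (hk : Module.finrank F ↥(LinearMap.ker
      (Matrix.toLin' (x : Matrix (Fin d ⊕ Fin d) (Fin d ⊕ Fin d) F) - 1)) < 2 * d) :
    ∀ z : F, (x : Matrix (Fin d ⊕ Fin d) (Fin d ⊕ Fin d) F) ≠
      z • (1 : Matrix (Fin d ⊕ Fin d) (Fin d ⊕ Fin d) F) := by
  intro z hz
  have hT := toLin_pow_one d x r hxr
  have hisom := stdB_isom d _ x.2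
  have hTz : Matrix.toLin' (x : Matrix (Fin d ⊕ Fin d) (Fin d ⊕ Fin d) F) =
      z • (1 : Module.End F (Fin d ⊕ Fin d → F)) := by
    rw [hz, map_smul, Matrix.toLin'_one]
    rfl
  have hz2 : z * z = 1 := scalar_sq d hd _ hisom 1 z (by rw [pow_one]; exact hTz)
  obtain ⟨u, v, huv⟩ := exists_stdB_ne (F := F) d hd
  have hzr : z ^ r = 1 := by
    have h1 := hT
    rw [hTz, _root_.smul_pow, one_pow] at h1
    have h2 := congrArg (fun S : Module.End F (Fin d ⊕ Fin d → F) => stdB d F (S u) v) h1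
    simp only [LinearMap.smul_apply, Module.End.one_apply, map_smul, smul_eq_mul] at h2
    have h3 : (z ^ r - 1) * stdB d F u v = 0 := by
      rw [sub_mul, h2, one_mul, sub_self]
    rcases mul_eq_zero.mp h3 with h4 | h4
    · exact sub_eq_zero.mp h4
    · exact absurd h4 huv
  have hz1 : z = 1 := by
    obtain ⟨k, hk⟩ : ∃ k, r = 2 * k + 1 := by
      rcases hr.eq_two_or_odd' with h | h
      · exact absurd h hr2
      · exact h
    rw [hk, pow_succ, pow_mul, pow_two, hz2, one_pow, one_mul] at hzr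
    exact hzr
  have hker : LinearMap.ker
      (Matrix.toLin' (x : Matrix (Fin d ⊕ Fin d) (Fin d ⊕ Fin d) F) - 1) = ⊤ := by
    rw [hTz, hz1, one_smul, sub_self, LinearMap.ker_zero]
  rw [hker, finrank_top, finrank_std] at hk
  omega

/-- Case `r = 2 ≠ p`, backward direction. -/
theorem caseB_back (hInvSq : StTiInvSq.{u, u}) (hInvNs : StTiInvNs.{u, u}) (h2 : (2 : F) ≠ 0)
    (d m : ℕ) (hd : 0 < d) (hmd : m ≤ d) (hcond : Even m ∨ Fintype.card F % 4 = 1)
    (x : ↥(Matrix.symplecticGroup (Fin d) F)) (z : F)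
    (hz : ((x ^ 2 : ↥(Matrix.symplecticGroup (Fin d) F)) :
      Matrix (Fin d ⊕ Fin d) (Fin d ⊕ Fin d) F) =
        z • (1 : Matrix (Fin d ⊕ Fin d) (Fin d ⊕ Fin d) F)) : FixesTi d m x := by
  have hTr := toLin_pow_scalar d x 2 z hz
  have hisom := stdB_isom d _ x.2
  have hz2 := scalar_sq d hd _ hisom 2 z hTr
  have hiso := iso_std d _ hisom
  rw [pow_two] at hTr
  have hsq : ∀ μ : F, μ * μ = z → FixesTi d m x := by
    intro μ hμ
    obtain ⟨U, hUinv, hUti, hUf⟩ := hInvSq F _ (stdB d F) _ h2 hiso μ (by rw [hμ, hz2])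
      (by rw [hμ]; exact hTr) m (by rw [finrank_std]; omega)
    exact fixesTi_of d m x _ (fun U hU => map_le_of_invt _ U hU) U hUinv hUti hUf
  have hz' : z = 1 ∨ z = -1 := by
    have h3 : (z - 1) * (z + 1) = 0 := by linear_combination hz2
    rcases mul_eq_zero.mp h3 with h | h
    · left
      exact sub_eq_zero.mp h
    · right
      exact eq_neg_of_add_eq_zero_left h
  rcases hz' with hz1 | hz1
  · exact hsq 1 (by rw [hz1, one_mul])
  · by_cases hs : IsSquare (-1 : F)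
    · obtain ⟨μ, hμ⟩ := hs
      exact hsq μ (by rw [hz1, hμ])
    · have h3 : Fintype.card F % 4 = 3 := by
        by_contra hne
        exact hs (FiniteField.isSquare_neg_one_iff.mpr hne)
      have hme : Even m := by
        rcases hcond with h | h
        · exact h
        · omega
      obtain ⟨k, hk⟩ := hme
      rw [hz1] at hTr
      obtain ⟨U, hUinv, hUti, hUf⟩ := hInvNs F _ (stdB d F) _ h2 hiso hs hTr k
        (by rw [finrank_std]; omega)
      exact fixesTi_of d m x _ (fun U hU => map_le_of_invt _ U hU) U hUinv hUti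
        (by rw [hUf]; omega)

/-- Case `r = 2 ≠ p`, forward direction. -/
theorem caseB_fwd (hOddInv : StTiOddInv.{u, u}) (h2 : (2 : F) ≠ 0)
    (d m : ℕ) (hd : 0 < d)
    (hL : ∀ x : ↥(Matrix.symplecticGroup (Fin d) F),
      (∃ z : F, ((x ^ 2 : ↥(Matrix.symplecticGroup (Fin d) F)) :
        Matrix (Fin d ⊕ Fin d) (Fin d ⊕ Fin d) F) =
          z • (1 : Matrix (Fin d ⊕ Fin d) (Fin d ⊕ Fin d) F)) →
      (∀ z : F, (x : Matrix (Fin d ⊕ Fin d) (Fin d ⊕ Fin d) F) ≠
        z • (1 : Matrix (Fin d ⊕ Fin d) (Fin d ⊕ Fin d) F)) → FixesTi d m x) :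
    Even m ∨ Fintype.card F % 4 = 1 := by
  by_contra hcon
  push Not at hcon
  obtain ⟨hme, hq1⟩ := hcon
  have hodd : Fintype.card F % 2 = 1 := by
    apply FiniteField.odd_card_of_char_ne_two
    intro h
    apply h2
    have h3 : ((2 : ℕ) : F) = 0 := by
      rw [← h]
      exact CharP.cast_eq_zero F (ringChar F)
    exact_mod_cast h3
  have hq3 : Fintype.card F % 4 = 3 := by omega
  have hns : ¬ IsSquare (-1 : F) := by
    intro h
    exact (FiniteField.isSquare_neg_one_iff.mp h) hq3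
  obtain ⟨x, hx⟩ : ∃ x : ↥(Matrix.symplecticGroup (Fin d) F),
      (x : Matrix (Fin d ⊕ Fin d) (Fin d ⊕ Fin d) F) = Matrix.J (Fin d) F :=
    ⟨⟨Matrix.J (Fin d) F, SymplecticGroup.J_mem (Fin d) F⟩, rfl⟩
  have hxx : ((x ^ 2 : ↥(Matrix.symplecticGroup (Fin d) F)) :
      Matrix (Fin d ⊕ Fin d) (Fin d ⊕ Fin d) F) =
        (-1 : F) • (1 : Matrix (Fin d ⊕ Fin d) (Fin d ⊕ Fin d) F) := by
    rw [SubmonoidClass.coe_pow, hx, pow_two, Matrix.J_squared, neg_smul, one_smul]
  have hnsc : ∀ z : F, (x : Matrix (Fin d ⊕ Fin d) (Fin d ⊕ Fin d) F) ≠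
      z • (1 : Matrix (Fin d ⊕ Fin d) (Fin d ⊕ Fin d) F) := by
    intro z hz
    rw [hx] at hz
    have h3 := congrFun (congrFun hz (Sum.inl ⟨0, hd⟩)) (Sum.inl ⟨0, hd⟩)
    have h4 := congrFun (congrFun hz (Sum.inl ⟨0, hd⟩)) (Sum.inr ⟨0, hd⟩)
    simp [Matrix.J] at h3 h4
  obtain ⟨W, hWf, -, hWinv⟩ := hL x ⟨-1, hxx⟩ hnsc
  have hTT : Matrix.toLin' (x : Matrix (Fin d ⊕ Fin d) (Fin d ⊕ Fin d) F) *
      Matrix.toLin' (x : Matrix (Fin d ⊕ Fin d) (Fin d ⊕ Fin d) F) =
      (-1 : F) • (1 : Module.End F (Fin d ⊕ Fin d → F)) := by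
    rw [← pow_two]
    exact toLin_pow_scalar d x 2 (-1) hxx
  have h5 := hOddInv F _ _ hns hTT W (invt_of_map_le _ W hWinv)
  rw [hWf] at h5
  exact hme h5

/-- Case `r ≠ p` odd, backward direction. -/
theorem caseC_back (hBuild : StTiBuild.{u, u}) (hModc : Spd.StModc.{u, u})
    {p : ℕ} [Fact p.Prime] [CharP F p]
    (d m : ℕ) (hd : 0 < d) (hmd : m ≤ d)
    (r : ℕ) (hr : r.Prime) (hr2 : r ≠ 2) (hrp : r ≠ p)
    (h2 : 2 * (m % ii F r) ≤ (2 * d) % cc F r)
    (h3 : Odd (ii F r) ∨ (r - 1) / ii F r + 2 * (m / ii F r) ≤ (2 * d) / ii F r)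
    (x : ↥(Matrix.symplecticGroup (Fin d) F)) (z : F)
    (hz : ((x ^ r : ↥(Matrix.symplecticGroup (Fin d) F)) :
      Matrix (Fin d ⊕ Fin d) (Fin d ⊕ Fin d) F) =
        z • (1 : Matrix (Fin d ⊕ Fin d) (Fin d ⊕ Fin d) F)) : FixesTi d m x := by
  have hp : p.Prime := Fact.out
  have hpr : ¬ p ∣ r := fun h => hrp ((Nat.prime_dvd_prime_iff_eq hp hr).mp h).symm
  have hrF : (r : F) ≠ 0 := by
    intro h0
    exact hpr ((CharP.cast_eq_zero_iff F p r).mp h0)
  have hrodd : Odd r := by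
    rcases hr.eq_two_or_odd' with h | h
    · exact absurd h hr2
    · exact h
  obtain ⟨T', hiso, hT'k, htr⟩ := normalize_odd d hd r hrodd x z hz
  have hctx : Ctx r (stdB d F) T' := ⟨hr, hr2, hrF, stdB_good d p r hpr T' hiso hT'k, hT'k⟩
  obtain ⟨s, hs⟩ := hModc F _ r (stdB d F) T' hctx ⊤ (nd_top_std d T')
  rw [finrank_top, finrank_std] at hs
  have hipos : 0 < ii F r := Cfsg.Agent.H99.El.orderOf_card_pos r hr hrF
  obtain ⟨i, hi⟩ : ∃ i, i = ii F r := ⟨_, rfl⟩
  obtain ⟨K, hK⟩ : ∃ K, K = kk T' ⊤ := ⟨_, rfl⟩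
  have hcc : cc F r = if Even i then i else 2 * i := by
    rw [hi]
    rfl
  rw [← hi] at h2 h3 hipos
  rw [← hK] at hs
  have hdm := Nat.div_add_mod m i
  suffices hsuff : ∃ s₁ j, i * s₁ + j = m ∧ 2 * j ≤ K ∧ (Odd i → K + 2 * i * s₁ ≤ 2 * d) ∧
      (Even i → s₁ = 0 ∨ K + i * ((r - 1) / i + 2 * s₁ - 1) ≤ 2 * d) by
    obtain ⟨s₁, j, hm', hj, ho, he⟩ := hsuff
    obtain ⟨U, hUinv, hUti, hUf⟩ := hBuild F _ r (stdB d F) T' hctx s₁ j
      (by rw [← hK]; exact hj) (by rw [← hi, ← hK, finrank_std]; exact ho)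
      (by rw [← hi, ← hK, finrank_std]; exact he)
    exact fixesTi_of d m x T' htr U hUinv hUti (by rw [hUf, ← hi]; exact hm')
  rcases Nat.even_or_odd i with heven | hodd
  · -- `i` even, `c = i`
    rw [hcc, if_pos heven] at hs h2
    have hodd' : ¬ Odd i := Nat.not_odd_iff_even.mpr heven
    have h3' : (r - 1) / i + 2 * (m / i) ≤ 2 * d / i := h3.resolve_left hodd'
    obtain ⟨t, ht⟩ : ∃ t, t = (r - 1) / i := ⟨_, rfl⟩
    rw [← ht] at h3' ⊢
    have hKdm := Nat.div_add_mod K i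
    have hdiv : 2 * d / i = s + K / i := by
      rw [hs, add_comm K, Nat.mul_add_div hipos]
    have hmod : 2 * d % i = K % i := by
      rw [hs, add_comm K, Nat.mul_add_mod]
    rw [hdiv] at h3'
    rw [hmod] at h2
    have e1 : i * (t + 2 * (m / i)) ≤ i * (s + K / i) := Nat.mul_le_mul_left i h3'
    have e2 : i * (t + 2 * (m / i)) = i * t + 2 * (i * (m / i)) := by ring
    have e3 : i * (s + K / i) = i * s + i * (K / i) := by ring
    by_cases hcase : t + 2 * (m / i) ≤ s + 1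
    · refine ⟨m / i, m % i, hdm, by omega, fun ho => absurd ho hodd', fun _ => ?_⟩
      by_cases h0 : m / i = 0
      · left
        exact h0
      · right
        have e4 : i * (t + 2 * (m / i) - 1) ≤ i * s := Nat.mul_le_mul_left i (by omega)
        omega
    · have hcase' : s + 2 ≤ t + 2 * (m / i) := by omega
      by_cases hst : s < t
      · refine ⟨0, m, by omega, ?_, fun ho => absurd ho hodd', fun _ => Or.inl rfl⟩
        have e4 : i * s ≤ i * t := Nat.mul_le_mul_left i (by omega)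
        omega
      · have hs1 : (s - t + 1) / 2 ≤ m / i := by omega
        have e4 : i * ((s - t + 1) / 2) ≤ i * (m / i) := Nat.mul_le_mul_left i hs1
        have e5 : i * (t + 2 * ((s - t + 1) / 2) - 1) ≤ i * s := Nat.mul_le_mul_left i (by omega)
        have e6 : i * s ≤ i * (t + 2 * ((s - t + 1) / 2)) := Nat.mul_le_mul_left i (by omega)
        have e7 : i * (t + 2 * ((s - t + 1) / 2)) = i * t + 2 * (i * ((s - t + 1) / 2)) := by
          ring
        refine ⟨(s - t + 1) / 2, m - i * ((s - t + 1) / 2), by omega, by omega,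
          fun ho => absurd ho hodd', fun _ => Or.inr (by omega)⟩
  · -- `i` odd, `c = 2 i`
    have heven' : ¬ Even i := Nat.not_even_iff_odd.mpr hodd
    rw [hcc, if_neg heven'] at hs h2
    have hmod : 2 * d % (2 * i) = K % (2 * i) := by
      rw [hs, add_comm K, Nat.mul_add_mod]
    rw [hmod] at h2
    have hKle : K % (2 * i) ≤ K := Nat.mod_le _ _
    by_cases hcase : m / i ≤ s
    · have e1 : 2 * i * (m / i) ≤ 2 * i * s := Nat.mul_le_mul_left (2 * i) hcase
      refine ⟨m / i, m % i, hdm, by omega, fun _ => by omega, fun he => absurd he heven'⟩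
    · have e1 : i * s ≤ i * (m / i) := Nat.mul_le_mul_left i (by omega)
      have e2 : 2 * i * s = 2 * (i * s) := by ring
      refine ⟨s, m - i * s, by omega, by omega, fun _ => by omega, fun he => absurd he heven'⟩

/-- Uniqueness of division with remainder. -/
theorem div_mod_unique (i m s w : ℕ) (h : m = i * s + w) (hw : w < i) :
    s = m / i ∧ w = m % i := by
  have hi : 0 < i := by omega
  constructor
  · rw [h, Nat.mul_add_div hi, Nat.div_eq_of_lt hw, add_zero]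
  · rw [h, Nat.mul_add_mod, Nat.mod_eq_of_lt hw]

/-- Case `r ≠ p` odd, forward direction. -/
theorem caseC_fwd (hCnt : StTiCnt.{u}) (hCyc : StCycSet.{u}) (hUpper : StTiUpper.{u, u})
    (hUpperEven : StTiUpperEven.{u, u}) (hExEven : StTiExEven.{u}) (hEx : Spd.StEx.{u})
    {p : ℕ} [Fact p.Prime] [CharP F p]
    (d m : ℕ) (hd : 0 < d) (hmd : m ≤ d)
    (r : ℕ) (hr : r.Prime) (hr2 : r ≠ 2) (hrp : r ≠ p)
    (hrΩ : r ∣ Nat.card {W : Submodule F (Fin d ⊕ Fin d → F) // Module.finrank F ↥W = m ∧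
      (∀ u ∈ W, ∀ v ∈ W, Cfsg.sympForm d F u v = 0)})
    (hL : ∀ x : ↥(Matrix.symplecticGroup (Fin d) F),
      (∃ z : F, ((x ^ r : ↥(Matrix.symplecticGroup (Fin d) F)) :
        Matrix (Fin d ⊕ Fin d) (Fin d ⊕ Fin d) F) =
          z • (1 : Matrix (Fin d ⊕ Fin d) (Fin d ⊕ Fin d) F)) →
      (∀ z : F, (x : Matrix (Fin d ⊕ Fin d) (Fin d ⊕ Fin d) F) ≠
        z • (1 : Matrix (Fin d ⊕ Fin d) (Fin d ⊕ Fin d) F)) → FixesTi d m x) :
    ii F r ≤ m ∧ 2 * (m % ii F r) ≤ (2 * d) % cc F r ∧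
      (Odd (ii F r) ∨ (r - 1) / ii F r + 2 * (m / ii F r) ≤ (2 * d) / ii F r) := by
  have hp : p.Prime := Fact.out
  have hpr : ¬ p ∣ r := fun h => hrp ((Nat.prime_dvd_prime_iff_eq hp hr).mp h).symm
  have hrF : (r : F) ≠ 0 := by
    intro h0
    exact hpr ((CharP.cast_eq_zero_iff F p r).mp h0)
  have hipos : 0 < ii F r := Cfsg.Agent.H99.El.orderOf_card_pos r hr hrF
  obtain ⟨j₀, hj1, hj2, hjdvd⟩ := hCnt F d m r hr hrF hmd hrΩ
  obtain ⟨i, hi⟩ : ∃ i, i = ii F r := ⟨_, rfl⟩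
  obtain ⟨c, hc⟩ : ∃ c, c = cc F r := ⟨_, rfl⟩
  have hcc : c = if Even i then i else 2 * i := by
    rw [hc, hi]
    rfl
  rw [← hi] at hipos
  rw [← hc] at hjdvd
  rw [← hi, ← hc]
  have hcpos : 0 < c := by
    rw [hcc]
    split_ifs <;> omega
  have hc2d : c ≤ 2 * d := by
    have := Nat.le_of_dvd (by omega) hjdvd
    omega
  have hdm := Nat.div_add_mod (2 * d) c
  have hmodlt : 2 * d % c < c := Nat.mod_lt _ hcpos
  have hdivpos : 0 < 2 * d / c := Nat.div_pos hc2d hcpos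
  -- the general consequence of the hypothesis for an element of order `r`
  have key : ∀ x : ↥(Matrix.symplecticGroup (Fin d) F), x ^ r = 1 →
      Module.finrank F ↥(LinearMap.ker
        (Matrix.toLin' (x : Matrix (Fin d ⊕ Fin d) (Fin d ⊕ Fin d) F) - 1)) < 2 * d →
      ∃ W : Submodule F (Fin d ⊕ Fin d → F), Module.finrank F W = m ∧
        W ∈ Module.End.invtSubmodule
          (Matrix.toLin' (x : Matrix (Fin d ⊕ Fin d) (Fin d ⊕ Fin d) F)) ∧
        TI (stdB d F) W ∧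
        Ctx r (stdB d F) (Matrix.toLin' (x : Matrix (Fin d ⊕ Fin d) (Fin d ⊕ Fin d) F)) := by
    intro x hxr hk
    obtain ⟨W, hWf, hWti, hWinv⟩ := hL x ⟨1, by rw [hxr, one_smul]; rfl⟩
      (not_scalar_of_kk d hd r hr hr2 x hxr hk)
    have hT := toLin_pow_one d x r hxr
    exact ⟨W, hWf, invt_of_map_le _ W hWinv, ti_of_fixes d W hWti,
      ⟨hr, hr2, hrF, stdB_good d p r hpr _ (stdB_isom d _ x.2) hT, hT⟩⟩
  -- the contradiction from the count when `m < i` and `2 m ≤ 2 d % c`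
  have hcnt : ¬ (2 * m ≤ 2 * d % c) := by
    intro hcon
    obtain ⟨w₀, hw₀⟩ := hjdvd
    rcases Nat.lt_or_ge (2 * d / c) w₀ with hlt | hge
    · have h1 : c * (2 * d / c + 1) ≤ c * w₀ := Nat.mul_le_mul_left c hlt
      rw [mul_add, mul_one] at h1
      omega
    · have h1 : c * w₀ ≤ c * (2 * d / c) := Nat.mul_le_mul_left c hge
      omega
  rcases Nat.even_or_odd i with heven | hodd
  · -- `i` even, `c = i`
    have hci : c = i := by rw [hcc, if_pos heven]
    rw [hci] at hdm hmodlt hdivpos hcnt hc2d ⊢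
    obtain ⟨⟨Φs, hΦ⟩, hcyc2⟩ := hCyc F r hr hrF
    obtain ⟨t, ht⟩ : ∃ t, t = (r - 1) / i := ⟨_, rfl⟩
    have htpos : 0 < t := by
      have h1 := (hcyc2 Φs hΦ).1
      rw [← hi] at h1
      have h2 := hr.two_le
      rw [ht, ← h1, Nat.mul_div_cancel _ hipos]
      rcases Nat.eq_zero_or_pos Φs.card with h0 | h0
      · rw [h0, zero_mul] at h1
        omega
      · exact h0
    rw [← ht]
    obtain ⟨n', hn'⟩ : ∃ n', n' = 2 * d / i := ⟨_, rfl⟩
    rw [← hn'] at hdm hdivpos ⊢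
    -- the element with `n'` blocks
    obtain ⟨x, hxr, hxk, hxs⟩ := hExEven F p r hr hr2 hrp (by rw [← hi]; exact heven) Φs hΦ d n'
      (by rw [← hi]; omega)
    rw [← hi, ← ht] at hxs
    rw [← hi] at hxk
    obtain ⟨W, hWf, hWinv, hWti, hctx⟩ := key x hxr (by
      have : 0 < i * n' := Nat.mul_pos hipos hdivpos
      omega)
    obtain ⟨s, w, hsw, hw, hsle⟩ := hUpperEven F _ r (stdB d F) _ hctx (by rw [← hi]; exact heven)
      Φs hΦ W hWinv hWti
    rw [kk_top] at hw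
    rw [hWf, ← hi] at hsw
    rw [← hi] at hsle
    have hwlt : w < i := by omega
    obtain ⟨hs', hw'⟩ := div_mod_unique i m s w hsw hwlt
    have hmod : 2 * (m % i) ≤ 2 * d % i := by omega
    have him : i ≤ m := by
      by_contra hlt
      have h1 : m % i = m := Nat.mod_eq_of_lt (by omega)
      exact hcnt (by omega)
    have hmi : 0 < m / i := Nat.div_pos him hipos
    refine ⟨him, hmod, Or.inr ?_⟩
    have hsle' := hsle.trans hxs
    by_cases hnt : n' ≤ t
    · rw [if_pos hnt] at hsle'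
      omega
    · rw [if_neg hnt] at hsle'
      by_contra hcon
      -- then `t + 2 (m / i) = n' + 1`; use the element with `n' - 1` blocks
      have heq : t + 2 * (m / i) = n' + 1 := by omega
      have e1 : i * (n' - 1) + i = i * n' := by
        rw [← Nat.mul_succ]
        congr 1
        omega
      obtain ⟨x', hxr', hxk', hxs'⟩ := hExEven F p r hr hr2 hrp (by rw [← hi]; exact heven) Φs hΦ
        d (n' - 1) (by rw [← hi]; omega)
      rw [← hi, ← ht] at hxs'
      rw [← hi] at hxk'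
      have e2 : 0 < i * (n' - 1) := Nat.mul_pos hipos (by omega)
      obtain ⟨W', hWf', hWinv', hWti', hctx'⟩ := key x' hxr' (by omega)
      obtain ⟨s', w', hsw', hw2, hsle2⟩ := hUpperEven F _ r (stdB d F) _ hctx'
        (by rw [← hi]; exact heven) Φs hΦ W' hWinv' hWti'
      rw [kk_top] at hw2
      rw [hWf', ← hi] at hsw'
      rw [← hi] at hsle2
      have hsle3 := hsle2.trans hxs'
      have hs'le : s' + 1 ≤ m / i := by
        by_cases hnt' : n' - 1 ≤ t
        · rw [if_pos hnt'] at hsle3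
          omega
        · rw [if_neg hnt'] at hsle3
          omega
      have e3 : i * (s' + 1) ≤ i * (m / i) := Nat.mul_le_mul_left i hs'le
      rw [mul_add, mul_one] at e3
      have e4 := Nat.div_add_mod m i
      omega
  · -- `i` odd, `c = 2 i`
    have heven' : ¬ Even i := Nat.not_even_iff_odd.mpr hodd
    have hci : c = 2 * i := by rw [hcc, if_neg heven']
    obtain ⟨x, hxr, hxk⟩ := hEx F p r hr hr2 hrp d (2 * d / c)
      (by rw [← hc]; exact Nat.mul_div_le _ _)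
    rw [← hc] at hxk
    have e0 : 0 < c * (2 * d / c) := Nat.mul_pos hcpos hdivpos
    obtain ⟨W, hWf, hWinv, hWti, hctx⟩ := key x hxr (by omega)
    obtain ⟨s, w, hsw, hw⟩ := hUpper F _ r (stdB d F) _ hctx W hWinv hWti
    rw [kk_top] at hw
    rw [hWf, ← hi] at hsw
    have hwlt : w < i := by omega
    obtain ⟨hs', hw'⟩ := div_mod_unique i m s w hsw hwlt
    have hmod : 2 * (m % i) ≤ 2 * d % c := by omega
    refine ⟨?_, hmod, Or.inl hodd⟩
    by_contra hlt
    have h1 : m % i = m := Nat.mod_eq_of_lt (by omega)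
    exact hcnt (by omega)

/-- The main statement, modulo the pieces. -/
theorem ti_main (hCntP : StTiCntP.{u}) (hCnt : StTiCnt.{u}) (hInvSq : StTiInvSq.{u, u})
    (hInvNs : StTiInvNs.{u, u}) (hOddInv : StTiOddInv.{u, u}) (hCyc : StCycSet.{u})
    (hUpper : StTiUpper.{u, u}) (hUpperEven : StTiUpperEven.{u, u}) (hBuild : StTiBuild.{u, u})
    (hExEven : StTiExEven.{u}) (hEx : Spd.StEx.{u}) (hModc : Spd.StModc.{u, u})
    {p : ℕ} [Fact p.Prime] [CharP F p]
    (d m : ℕ) (hd : 2 ≤ d) (hmd : m ≤ d)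
    (r : ℕ) [Fact r.Prime]
    (hrΩ : r ∣ Nat.card {W : Submodule F (Fin d ⊕ Fin d → F) // Module.finrank F ↥W = m ∧
      (∀ u ∈ W, ∀ v ∈ W, Cfsg.sympForm d F u v = 0)}) :
    (∀ x : ↥(Matrix.symplecticGroup (Fin d) F),
      (∃ z : F, ((x ^ r : ↥(Matrix.symplecticGroup (Fin d) F)) :
        Matrix (Fin d ⊕ Fin d) (Fin d ⊕ Fin d) F) =
          z • (1 : Matrix (Fin d ⊕ Fin d) (Fin d ⊕ Fin d) F)) →
      (∀ z : F, (x : Matrix (Fin d ⊕ Fin d) (Fin d ⊕ Fin d) F) ≠
        z • (1 : Matrix (Fin d ⊕ Fin d) (Fin d ⊕ Fin d) F)) →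
      ∃ W : Submodule F (Fin d ⊕ Fin d → F), Module.finrank F ↥W = m ∧
        (∀ u ∈ W, ∀ v ∈ W, Cfsg.sympForm d F u v = 0) ∧
        W.map (Matrix.toLin' (x : Matrix (Fin d ⊕ Fin d) (Fin d ⊕ Fin d) F)) ≤ W) ↔
    ((r = 2 ∧ p ≠ 2 ∧ (Even m ∨ Fintype.card F % 4 = 1)) ∨
     (r ≠ p ∧ 2 < r ∧ ii F r ≤ m ∧ 2 * (m % ii F r) ≤ (2 * d) % cc F r ∧
       (Odd (ii F r) ∨ (r - 1) / ii F r + 2 * (m / ii F r) ≤ (2 * d) / ii F r))) := by
  have hp : p.Prime := Fact.out
  have hr : r.Prime := Fact.out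
  by_cases hrp : r = p
  · -- `r = p`: impossible
    subst hrp
    exact absurd hrΩ (hCntP F r d m hmd)
  · by_cases hr2 : r = 2
    · -- `r = 2 ≠ p`
      subst hr2
      have hp2 : p ≠ 2 := fun h => hrp h.symm
      have h2 : (2 : F) ≠ 0 := by
        intro h
        have h1 : ((2 : ℕ) : F) = 0 := by exact_mod_cast h
        have h3 := (CharP.cast_eq_zero_iff F p 2).mp h1
        exact hp2 ((Nat.prime_dvd_prime_iff_eq hp Nat.prime_two).mp h3)
      constructor
      · intro hL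
        left
        exact ⟨rfl, hp2, caseB_fwd hOddInv h2 d m (by omega) hL⟩
      · rintro (⟨-, -, h⟩ | ⟨-, h, -⟩)
        · intro x ⟨z, hz⟩ _
          exact caseB_back hInvSq hInvNs h2 d m (by omega) hmd h x z hz
        · omega
    · -- `r ≠ p` odd
      constructor
      · intro hL
        right
        have h := caseC_fwd hCnt hCyc hUpper hUpperEven hExEven hEx d m (by omega) hmd r hr hr2 hrp
          hrΩ hL
        have h2 := hr.two_le
        exact ⟨hrp, by omega, h.1, h.2.1, h.2.2⟩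
      · rintro (⟨h, -⟩ | ⟨-, -, -, h2, h3⟩)
        · exact absurd h hr2
        · intro x ⟨z, hz⟩ _
          exact caseC_back hBuild hModc d m (by omega) hmd r hr hr2 hrp h2 h3 x z hz

end Cases

end Cfsg.Agent.H42.Ti
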