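import Mathlib
import Cfsg.Agent.H42.SpdMain
import Cfsg.Agent.H45.CycFactor

/-!
# S5961, piece SPD-EX: symplectic matrices of order `r` with a prescribed number of blocks
-/

set_option autoImplicit false

namespace Cfsg.Agent.H42.Spd

open Cfsg.Agent.H45 Module Matrix Polynomial

universe u

section Ex

variable {F : Type u} [Field F]

theorem reverse_X_pow_sub_one (r : ℕ) : (X ^ r - 1 : F[X]).reverse = -(X ^ r - 1) := by
  have h := reverse_add_C (X ^ r : F[X]) (-1)
  rw [natDegree_X_pow] at h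
  have h1 : (X ^ r : F[X]).reverse = 1 := by
    have := reverse_mul_X_pow (1 : F[X]) r
    rw [one_mul] at this
    rw [this, ← C_1, reverse_C]
  rw [h1] at h
  have h2 : (X ^ r - 1 : F[X]) = X ^ r + C (-1) := by
    rw [C_neg, C_1]
    ring
  rw [h2, h, C_neg, C_1]
  ring

theorem reverse_dvd_X_pow_sub_one (r : ℕ) (f : F[X]) (h : f ∣ X ^ r - 1) :
    f.reverse ∣ X ^ r - 1 := by
  obtain ⟨g, hg⟩ := h
  have h1 := congrArg Polynomial.reverse hg
  rw [reverse_mul_of_domain, reverse_X_pow_sub_one] at h1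
  exact (dvd_neg (a := f.reverse) (b := X ^ r - 1)).mp ⟨g.reverse, h1⟩

variable [Fintype F]

/-- The block polynomial. -/
theorem exists_block_poly (p : ℕ) [Fact p.Prime] [CharP F p] (r : ℕ) (hr : r.Prime)
    (hr2 : r ≠ 2) (hrp : r ≠ p) :
    ∃ P₀ : F[X], Realizable (RingHom.id F) (-1) p P₀ ∧ P₀.natDegree = cc F r ∧
      P₀ ∣ (X ^ r - 1) ^ 2 ∧ P₀.eval 1 ≠ 0 := by
  classical
  have hp : p.Prime := Fact.out
  have hfr : Fact r.Prime := ⟨hr⟩
  have hr3 : 3 ≤ r := by
    have := hr.two_le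
    omega
  have hrF : ((r : ℕ) : F) ≠ 0 := by
    intro h
    have h1 : p ∣ r := (CharP.cast_eq_zero_iff F p r).mp h
    exact hrp ((Nat.prime_dvd_prime_iff_eq hp hr).mp h1).symm
  have hcyc : ¬ IsUnit (cyclotomic r F) := by
    intro h
    have h1 := natDegree_eq_zero_of_isUnit h
    rw [natDegree_cyclotomic] at h1
    exact (Nat.totient_pos.mpr (by omega)).ne' h1
  obtain ⟨f, hfm, hf, hfdvd⟩ := exists_monic_irreducible_factor (cyclotomic r F) hcyc
  obtain ⟨hdeg, hf0, hfA, hfX, hfsd⟩ := cyc_factor r (by omega) hrF f hf hfm hfdvd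
  have hfX' : f ∣ X ^ r - 1 := dvd_trans hfdvd (cyclotomic.dvd_X_pow_sub_one r F)
  have hf1 : f.eval 1 ≠ 0 := by
    intro h0
    obtain ⟨g, hg⟩ := hfdvd
    have h1 := congrArg (Polynomial.eval 1) hg
    rw [eval_mul, h0, zero_mul, eval_one_cyclotomic_prime] at h1
    exact hrF h1
  have hσ : ∀ a : F, (RingHom.id F) ((RingHom.id F) a) = a := fun _ => rfl
  have hε : (-1 : F) * (RingHom.id F) (-1) = 1 := by simp
  obtain ⟨k, hk⟩ : ∃ k, k = orderOf ((Fintype.card F : ℕ) : ZMod r) := ⟨_, rfl⟩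
  have hcc : cc F r = if Even k then k else 2 * k := by
    rw [hk]
    rfl
  rw [← hk] at hdeg
  by_cases heven : Even k
  · -- self-dual `f`
    rw [hcc, if_pos heven]
    obtain ⟨η, hη⟩ := heven
    have hηk : 2 * η = k := by omega
    have hkpos : 0 < k := by
      rcases Nat.eq_zero_or_pos k with h0 | h0
      · exfalso
        rw [h0] at hdeg
        exact hf.natDegree_pos.ne' hdeg
      · exact h0
    have hηpos : 0 < η := by omega
    have h1 : ((Fintype.card F : ℕ) : ZMod r) ^ k = 1 := by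
      rw [hk]
      exact pow_orderOf_eq_one _
    have h2 : ((Fintype.card F : ℕ) : ZMod r) ^ η ≠ 1 := by
      intro h
      have h3 := orderOf_dvd_of_pow_eq_one h
      rw [← hk] at h3
      have := Nat.le_of_dvd hηpos h3
      omega
    have h3 : ((Fintype.card F : ℕ) : ZMod r) ^ η = -1 := by
      have h4 : (((Fintype.card F : ℕ) : ZMod r) ^ η) ^ 2 = 1 := by
        rw [← pow_mul, mul_comm, hηk, h1]
      rcases sq_eq_one_iff.mp h4 with h5 | h5
      · exact absurd h5 h2
      · exact h5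
    have h4 : r ∣ Fintype.card F ^ η + 1 := by
      rw [← ZMod.natCast_eq_zero_iff, Nat.cast_add, Nat.cast_pow, h3, Nat.cast_one, neg_add_cancel]
    have hsd : f ∣ f.reverse := hfsd η h4
    have hnt : ¬ f ∣ X ^ 2 - 1 := by
      intro h
      have := Nat.le_of_dvd (by norm_num) (hfX 2 h)
      omega
    exact ⟨f, realizable_sd p hσ (-1) hε f hf hfm hf0 (by rw [dualPoly_id]; exact hsd)
      (Or.inr ⟨rfl, hnt⟩), hdeg, dvd_trans hfX' (dvd_pow_self _ (by norm_num)), hf1⟩
  · -- pair `f f^*`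
    rw [hcc, if_neg heven]
    have hr2' := realizable_nsd (σ := RingHom.id F) p hσ (-1) hε (fun _ => rfl) f hfm hf0
    have hc : C ((RingHom.id F) (f.coeff 0))⁻¹ ≠ 0 := by
      rw [Ne, C_eq_zero, inv_eq_zero]
      exact hf0
    have hd := dualPoly_ne_zero (RingHom.id F) f hf0
    refine ⟨_, hr2', ?_, ?_, ?_⟩
    · rw [natDegree_mul hfm.ne_zero (mul_ne_zero hc hd), natDegree_mul hc hd, natDegree_C, zero_add,
        dualPoly_natDegree _ _ hf0, hdeg]
      ring
    · rw [pow_two]
      apply mul_dvd_mul hfX'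
      rw [dualPoly_id]
      have h1 := reverse_dvd_X_pow_sub_one r f hfX'
      obtain ⟨g, hg⟩ := h1
      refine ⟨C ((RingHom.id F) (f.coeff 0)) * g, ?_⟩
      have hcc' : C ((RingHom.id F) (f.coeff 0))⁻¹ * C ((RingHom.id F) (f.coeff 0)) = (1 : F[X]) := by
        rw [← C_mul, RingHom.id_apply, inv_mul_cancel₀ hf0, C_1]
      rw [hg]
      linear_combination (-(f.reverse * g)) * hcc'
    · rw [eval_mul, eval_mul, eval_C, dualPoly_id, eval_one_reverse]
      exact mul_ne_zero hf1 (mul_ne_zero (inv_ne_zero hf0) hf1)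

/-- Models: a nondegenerate alternating space of dimension `n` with an isometry `g`, `g ^ r = 1`,
whose fixed space has dimension `k`. -/
def Model (F : Type u) [Field F] (r n k : ℕ) : Prop :=
  ∃ (V : Type u) (_ : AddCommGroup V) (_ : Module F V) (_ : FiniteDimensional F V)
    (B : V →ₗ[F] V →ₗ[F] F) (g : Module.End F V),
    Good (RingHom.id F) (-1) B g ∧ g ^ r = 1 ∧ Module.finrank F V = n ∧
      Module.finrank F ↥(LinearMap.ker (g - 1)) = k

omit [Fintype F] in
theorem model_std (p : ℕ) [Fact p.Prime] [CharP F p] (r : ℕ) (hpr : ¬ p ∣ r) (m : ℕ) :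
    Model F r (2 * m) (2 * m) := by
  have hfin : Module.finrank F (Fin m ⊕ Fin m → F) = 2 * m := by
    rw [Module.finrank_fintype_fun_eq_card, Fintype.card_sum, Fintype.card_fin]
    ring
  refine ⟨Fin m ⊕ Fin m → F, inferInstance, inferInstance, inferInstance, stdB m F, 1,
    stdB_good m p r hpr 1 (fun x y => rfl) (one_pow r), one_pow r, hfin, ?_⟩
  rw [sub_self, LinearMap.ker_zero, finrank_top, hfin]

omit [Fintype F] in
theorem model_add (p : ℕ) [Fact p.Prime] [CharP F p] (r : ℕ) (hpr : ¬ p ∣ r) (n₁ k₁ n₂ k₂ : ℕ)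
    (h₁ : Model F r n₁ k₁) (h₂ : Model F r n₂ k₂) : Model F r (n₁ + n₂) (k₁ + k₂) := by
  obtain ⟨V₁, _, _, _, B₁, g₁, hd₁, hg₁, hn₁, hk₁⟩ := h₁
  obtain ⟨V₂, _, _, _, B₂, g₂, hd₂, hg₂, hn₂, hk₂⟩ := h₂
  let B : (V₁ × V₂) →ₗ[F] (V₁ × V₂) →ₗ[F] F :=
    LinearMap.mk₂'ₛₗ (RingHom.id F) (RingHom.id F) (fun x y => B₁ x.1 y.1 + B₂ x.2 y.2)
      (by
        intro x x' y
        simp only [Prod.fst_add, Prod.snd_add, map_add, LinearMap.add_apply]
        abel)
      (by
        intro c x y
        simp only [Prod.smul_fst, Prod.smul_snd, map_smul, LinearMap.smul_apply, smul_add,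
          RingHom.id_apply])
      (by
        intro x y y'
        simp only [Prod.fst_add, Prod.snd_add, map_add]
        abel)
      (by
        intro c x y
        simp only [Prod.smul_fst, Prod.smul_snd, LinearMap.map_smulₛₗ, smul_add])
  have hB : ∀ x y, B x y = B₁ x.1 y.1 + B₂ x.2 y.2 := fun x y => rfl
  have hgr : (g₁.prodMap g₂) ^ r = 1 := by
    rw [prodMap_pow', hg₁, hg₂, LinearMap.prodMap_one]
  refine ⟨V₁ × V₂, inferInstance, inferInstance, inferInstance, B, g₁.prodMap g₂,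
    ⟨?_, ?_, ?_, ?_, ?_⟩, hgr, ?_, ?_⟩
  · intro x y
    rw [hB, hB, hd₁.herm, hd₂.herm, map_add, mul_add]
  · intro x hx
    apply Prod.ext
    · apply hd₁.nondeg
      intro y
      have := hx (y, 0)
      rw [hB] at this
      simpa using this
    · apply hd₂.nondeg
      intro y
      have := hx (0, y)
      rw [hB] at this
      simpa using this
  · intro h x
    rw [hB, hd₁.alt h, hd₂.alt h, add_zero]
  · intro x y
    rw [hB, hB]
    simp only [LinearMap.prodMap_apply]
    rw [hd₁.isom, hd₂.isom]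
  · exact isSemisimple_of_pow_eq_one p _ _ hpr hgr
  · rw [Module.finrank_prod, hn₁, hn₂]
  · have hker : LinearMap.ker (g₁.prodMap g₂ - 1) =
        (LinearMap.ker (g₁ - 1)).prod (LinearMap.ker (g₂ - 1)) := by
      ext ⟨x, y⟩
      simp only [LinearMap.mem_ker, LinearMap.sub_apply, LinearMap.prodMap_apply,
        Module.End.one_apply, Submodule.mem_prod, Prod.mk_sub_mk, Prod.mk_eq_zero]
    rw [hker, ← hk₁, ← hk₂, ← Module.finrank_prod]
    exact LinearEquiv.finrank_eq
      { toFun := fun x => (⟨x.1.1, x.2.1⟩, ⟨x.1.2, x.2.2⟩)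
        invFun := fun y => ⟨(y.1.1, y.2.1), ⟨y.1.2, y.2.2⟩⟩
        map_add' := fun _ _ => rfl
        map_smul' := fun _ _ => rfl
        left_inv := fun _ => rfl
        right_inv := fun _ => rfl }

theorem model_block (p : ℕ) [Fact p.Prime] [CharP F p] (r : ℕ) (hr : r.Prime)
    (hr2 : r ≠ 2) (hrp : r ≠ p) : Model F r (cc F r) 0 := by
  obtain ⟨P₀, ⟨V, _, _, _, B, g, hd, hc, m, hm, hgm⟩, hdeg, hdvd, h1⟩ :=
    exists_block_poly (F := F) p r hr hr2 hrp
  have hsep : (X ^ m - C (1 : F)).Separable :=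
    separable_X_pow_sub_C' p m (1 : F) hm one_ne_zero
  have hmin1 : minpoly F g ∣ X ^ m - C (1 : F) := by
    apply minpoly.dvd
    simp [hgm]
  have hsq : Squarefree (minpoly F g) := hsep.squarefree.squarefree_of_dvd hmin1
  have hmin2 : minpoly F g ∣ (X ^ r - 1) ^ 2 :=
    dvd_trans (LinearMap.minpoly_dvd_charpoly g) (hc ▸ hdvd)
  have hmin3 : minpoly F g ∣ X ^ r - 1 := (hsq.dvd_pow_iff_dvd (by norm_num)).mp hmin2
  have hgr : g ^ r = 1 := by
    obtain ⟨h, hh⟩ := hmin3
    have h2 := congrArg (aeval g) hh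
    rw [map_mul, minpoly.aeval, zero_mul, map_sub, map_pow, aeval_X, map_one] at h2
    exact sub_eq_zero.mp h2
  refine ⟨V, inferInstance, inferInstance, inferInstance, B, g, hd, hgr, ?_, ?_⟩
  · rw [← LinearMap.charpoly_natDegree g, hc, hdeg]
  · have hker : LinearMap.ker (g - 1) = ⊥ := by
      rw [eq_bot_iff]
      intro v hv
      rw [LinearMap.mem_ker, LinearMap.sub_apply, Module.End.one_apply, sub_eq_zero] at hv
      rw [Submodule.mem_bot]
      have h2 : aeval g P₀ v = P₀.eval 1 • v := by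
        by_cases hv0 : v = 0
        · rw [hv0, map_zero, smul_zero]
        · exact Module.End.aeval_apply_of_hasEigenvector
            ⟨Module.End.mem_eigenspace_iff.mpr (by rw [hv, one_smul]), hv0⟩
      have h4 : aeval g P₀ = 0 := by
        rw [← hc]
        exact LinearMap.aeval_self_charpoly g
      rw [h4, LinearMap.zero_apply] at h2
      rcases smul_eq_zero.mp h2.symm with h3 | h3
      · exact absurd h3 h1
      · exact h3
    rw [hker, finrank_bot]

theorem model_blocks (p : ℕ) [Fact p.Prime] [CharP F p] (r : ℕ) (hr : r.Prime)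
    (hr2 : r ≠ 2) (hrp : r ≠ p) (m s : ℕ) : Model F r (cc F r * s + 2 * m) (2 * m) := by
  have hp : p.Prime := Fact.out
  have hpr : ¬ p ∣ r := fun h => hrp ((Nat.prime_dvd_prime_iff_eq hp hr).mp h).symm
  induction s with
  | zero =>
    rw [mul_zero, zero_add]
    exact model_std p r hpr m
  | succ s ih =>
    have h := model_add p r hpr _ _ _ _ (model_block (F := F) p r hr hr2 hrp) ih
    have e1 : cc F r * (s + 1) + 2 * m = cc F r + (cc F r * s + 2 * m) := by ring
    rw [e1]
    rw [zero_add] at h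
    exact h

/-- Transport of a model to the standard symplectic space. -/
theorem exists_sp_of_model (p : ℕ) [Fact p.Prime] [CharP F p] (r : ℕ) (hpr : ¬ p ∣ r)
    (d k : ℕ) (h : Model F r (2 * d) k) :
    ∃ x : ↥(Matrix.symplecticGroup (Fin d) F), x ^ r = 1 ∧
      Module.finrank F ↥(LinearMap.ker
        (Matrix.toLin' (x : Matrix (Fin d ⊕ Fin d) (Fin d ⊕ Fin d) F) - 1)) = k := by
  classical
  obtain ⟨V, _, _, _, B, g, hd, hgr, hn, hk⟩ := h
  have hstd : Good (RingHom.id F) (-1) (stdB d F) (1 : Module.End F (Fin d ⊕ Fin d → F)) :=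
    stdB_good d p r hpr 1 (fun x y => rfl) (one_pow r)
  have hfr : Module.finrank F V = Module.finrank F (Fin d ⊕ Fin d → F) := by
    rw [hn, Module.finrank_fintype_fun_eq_card, Fintype.card_sum, Fintype.card_fin]
    ring
  obtain ⟨e, _, hiso⟩ := isoConj_of_charpoly_eq (RingHom.id F) (fun a => rfl) (-1) _ B
    (stdB d F) 1 1 rfl hd.one hstd
    (by rw [LinearMap.charpoly_one, LinearMap.charpoly_one, hfr])
  obtain ⟨g', hg'⟩ : ∃ g' : Module.End F (Fin d ⊕ Fin d → F), g' = e.conj g := ⟨_, rfl⟩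
  have hg'iso : ∀ x y, stdB d F (g' x) (g' y) = stdB d F x y := by
    intro x y
    rw [hg', LinearEquiv.conj_apply_apply, LinearEquiv.conj_apply_apply, hiso, hd.isom, ← hiso,
      e.apply_symm_apply, e.apply_symm_apply]
  have hg'r : g' ^ r = 1 := by
    have h1 : e.conj (g ^ r) = (e.conj g) ^ r := map_pow e.conjRingEquiv g r
    rw [hg', ← h1, hgr]
    exact LinearEquiv.conj_id e
  have h2 : ∀ z, g' z = LinearMap.toMatrix' g' *ᵥ z := by
    intro z
    rw [← Matrix.toLin'_apply, Matrix.toLin'_toMatrix']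
  have hmem : LinearMap.toMatrix' g' ∈ Matrix.symplecticGroup (Fin d) F := by
    rw [SymplecticGroup.mem_iff']
    apply (Matrix.toLinearMap₂' F (S₁ := F) (S₂ := F) (N₂ := F) (n := Fin d ⊕ Fin d)
      (m := Fin d ⊕ Fin d)).injective
    apply LinearMap.ext
    intro x
    apply LinearMap.ext
    intro y
    have h1 := hg'iso x y
    unfold stdB at h1
    rw [Matrix.toLinearMap₂'_apply', Matrix.toLinearMap₂'_apply'] at h1
    rw [h2, h2] at h1
    rw [Matrix.toLinearMap₂'_apply', Matrix.toLinearMap₂'_apply', ← h1, form_mulVec]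
  refine ⟨⟨LinearMap.toMatrix' g', hmem⟩, ?_, ?_⟩
  · apply Subtype.ext
    rw [SubmonoidClass.coe_pow]
    apply Matrix.toLin'.injective
    rw [Matrix.toLin'_pow, Matrix.toLin'_toMatrix', hg'r]
    show (1 : Module.End F (Fin d ⊕ Fin d → F)) =
      Matrix.toLin' (1 : Matrix (Fin d ⊕ Fin d) (Fin d ⊕ Fin d) F)
    rw [Matrix.toLin'_one]
    rfl
  · show Module.finrank F ↥(LinearMap.ker (Matrix.toLin' (LinearMap.toMatrix' g') - 1)) = k
    rw [Matrix.toLin'_toMatrix', ← hk]
    have hker : LinearMap.ker (g' - 1) = (LinearMap.ker (g - 1)).map e.toLinearMap := by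
      ext z
      rw [LinearMap.mem_ker, Submodule.mem_map]
      constructor
      · intro hz
        refine ⟨e.symm z, ?_, e.apply_symm_apply z⟩
        rw [LinearMap.mem_ker, LinearMap.sub_apply, Module.End.one_apply, sub_eq_zero]
        rw [LinearMap.sub_apply, Module.End.one_apply, sub_eq_zero, hg',
          LinearEquiv.conj_apply_apply] at hz
        apply e.injective
        rw [hz, e.apply_symm_apply]
      · rintro ⟨w, hw, rfl⟩
        rw [LinearMap.mem_ker, LinearMap.sub_apply, Module.End.one_apply, sub_eq_zero] at hw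
        rw [LinearMap.sub_apply, Module.End.one_apply, sub_eq_zero, hg',
          LinearEquiv.conj_apply_apply]
        show e (g (e.symm (e w))) = e w
        rw [e.symm_apply_apply, hw]
    rw [hker]
    exact LinearEquiv.finrank_eq
      (Submodule.equivMapOfInjective e.toLinearMap e.injective (LinearMap.ker (g - 1))).symm

/-- SPD-EX. -/
theorem ex : StEx.{u} := by
  intro F _ _ p _ _ r hr hr2 hrp d s hs
  have hp : p.Prime := Fact.out
  have hpr : ¬ p ∣ r := fun h => hrp ((Nat.prime_dvd_prime_iff_eq hp hr).mp h).symm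
  obtain ⟨c2, hc2⟩ := cc_even (F := F) r
  obtain ⟨m, hm⟩ : ∃ m, 2 * d = cc F r * s + 2 * m := by
    refine ⟨d - c2 * s, ?_⟩
    have h1 : cc F r * s = 2 * (c2 * s) := by rw [hc2]; ring
    omega
  have hmod := model_blocks (F := F) p r hr hr2 hrp m s
  rw [← hm] at hmod
  obtain ⟨x, hxr, hxk⟩ := exists_sp_of_model p r hpr d (2 * m) hmod
  exact ⟨x, hxr, by rw [hxk, hm]; ring⟩

end Ex

end Cfsg.Agent.H42.Spd
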