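import Mathlib
import Cfsg.Agent.H42.UnDefs
import Cfsg.Agent.H45.IsoConj
import Cfsg.Agent.H45.IsoSU
import Cfsg.Agent.H45.IsoReal

/-!
# S5954 team project: shared basic lemmas on `UIso`, and the standard hermitian space
-/

set_option autoImplicit false

namespace Cfsg.Agent.H42.Un

open Cfsg.Agent.H45 Cfsg.Agent.H42.Spd Module Polynomial Matrix

universe u v

section Base

variable {F : Type u} [Field F] {σ : F →+* F} {V : Type v} [AddCommGroup V] [Module F V]
  {B : V →ₗ[F] V →ₛₗ[σ] F} {T : Module.End F V}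

theorem sesq_smul_smul (B : V →ₗ[F] V →ₛₗ[σ] F) (c d : F) (a b : V) :
    B (c • a) (d • b) = c * σ d * B a b := by
  have e1 : B (c • a) = c • B a := B.map_smul c a
  rw [e1, LinearMap.smul_apply, LinearMap.map_smulₛₗ, smul_eq_mul, smul_eq_mul, mul_assoc]

theorem UIso.sigma_ne (h : UIso B T) : σ ≠ RingHom.id F := by
  intro hid
  obtain ⟨a, ha⟩ := h.nontriv
  apply ha
  rw [hid]
  rfl

theorem UIso.one (h : UIso B T) : UIso B (1 : Module.End F V) :=
  ⟨h.invol, h.nontriv, h.herm, h.nondeg, fun _ _ => rfl⟩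

theorem UIso.good (h : UIso B T) (hss : T.IsSemisimple) : Good σ 1 B T :=
  ⟨fun x y => by rw [one_mul]; exact h.herm x y, h.nondeg, fun hid => absurd hid h.sigma_ne,
    h.isom, hss⟩

theorem UIso.good_one (h : UIso B T) : Good σ 1 B (1 : Module.End F V) :=
  h.one.good Module.End.isSemisimple_id

theorem UIso.refl (h : UIso B T) {x y : V} (hxy : B x y = 0) : B y x = 0 := by
  rw [h.herm, hxy, map_zero]

theorem UIso.nondeg' (h : UIso B T) (y : V) (hy : ∀ x, B x y = 0) : y = 0 :=
  h.nondeg y (fun x => h.refl (hy x))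

theorem UIso.injective (h : UIso B T) : Function.Injective T := by
  rw [← LinearMap.ker_eq_bot, LinearMap.ker_eq_bot']
  intro x hx
  apply h.nondeg
  intro y
  have h1 := h.isom x y
  rw [hx, map_zero, LinearMap.zero_apply] at h1
  exact h1.symm

theorem UIso.pow (h : UIso B T) (k : ℕ) : UIso B (T ^ k) := by
  refine ⟨h.invol, h.nontriv, h.herm, h.nondeg, ?_⟩
  induction k with
  | zero => intro x y; simp
  | succ k ih =>
    intro x y
    rw [pow_succ', Module.End.mul_apply, Module.End.mul_apply, h.isom, ih]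

theorem UIso.smul (h : UIso B T) (c : F) (hc : c * σ c = 1) : UIso B (c • T) := by
  refine ⟨h.invol, h.nontriv, h.herm, h.nondeg, ?_⟩
  intro x y
  rw [LinearMap.smul_apply, LinearMap.smul_apply, sesq_smul_smul, h.isom, hc, one_mul]

/-- The orthogonal of an invariant subspace is invariant. -/
theorem UIso.perp_invt [FiniteDimensional F V] (h : UIso B T) (U : Submodule F V)
    (hU : U ∈ T.invtSubmodule) : perp B U ∈ T.invtSubmodule := by
  rw [Module.End.mem_invtSubmodule]
  intro y hy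
  rw [Submodule.mem_comap]
  intro u hu
  have hinj : Function.Injective (T.restrict hU) := by
    intro a b hab
    apply Subtype.ext
    apply h.injective
    have := congrArg Subtype.val hab
    exact this
  obtain ⟨u₀, hu₀⟩ := (LinearMap.injective_iff_surjective.mp hinj) ⟨u, hu⟩
  have h1 : T (u₀ : V) = u := congrArg Subtype.val hu₀
  rw [← h1, h.isom]
  exact hy _ u₀.2

/-- Polarisation: a nonzero nondegenerate subspace contains a non-isotropic vector. -/
theorem UIso.exists_ne (h : UIso B T) (K : Submodule F V) (hK : K ⊓ perp B K = ⊥)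
    (hK0 : K ≠ ⊥) : ∃ u ∈ K, B u u ≠ 0 := by
  by_contra hcon
  push Not at hcon
  apply hK0
  rw [eq_bot_iff, ← hK]
  intro v hv
  refine ⟨hv, ?_⟩
  intro u hu
  obtain ⟨a, ha⟩ := h.nontriv
  have h1 : ∀ x ∈ K, ∀ y ∈ K, B x y + σ (B x y) = 0 := by
    intro x hx y hy
    have h2 := hcon (x + y) (K.add_mem hx hy)
    have hxx := hcon x hx
    have hyy := hcon y hy
    simp only [map_add, LinearMap.add_apply] at h2
    rw [h.herm x y] at h2
    linear_combination h2 - hxx - hyy
  have h3 := h1 u hu v hv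
  have h4 := h1 (a • u) (K.smul_mem a hu) v hv
  have e1 : B (a • u) = a • B u := B.map_smul a u
  rw [e1, LinearMap.smul_apply, smul_eq_mul, map_mul] at h4
  have h5 : (a - σ a) * B u v = 0 := by
    have h6 : σ (B u v) = -B u v := by
      rw [eq_neg_iff_add_eq_zero, add_comm]
      exact h3
    rw [h6] at h4
    rw [sub_mul]
    linear_combination h4
  rcases mul_eq_zero.mp h5 with h6 | h6
  · exact absurd (sub_eq_zero.mp h6).symm ha
  · exact h6

/-- A scalar isometry has a scalar of norm one. -/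
theorem UIso.scalar_norm (h : UIso B T) (z : F) (hz : T = z • (1 : Module.End F V))
    (hne : ∃ u v : V, B u v ≠ 0) : z * σ z = 1 := by
  obtain ⟨u, v, huv⟩ := hne
  have h1 := h.isom u v
  rw [hz, LinearMap.smul_apply, LinearMap.smul_apply, Module.End.one_apply,
    Module.End.one_apply, sesq_smul_smul] at h1
  exact mul_right_cancel₀ huv (by rw [h1, one_mul])

theorem und_bot (B : V →ₗ[F] V →ₛₗ[σ] F) (T : Module.End F V) : UNd B T ⊥ := by
  refine ⟨?_, bot_inf_eq _⟩
  rw [Module.End.mem_invtSubmodule]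
  exact bot_le

theorem UIso.und_top (h : UIso B T) : UNd B T ⊤ := by
  refine ⟨?_, ?_⟩
  · rw [Module.End.mem_invtSubmodule]
    exact le_top
  · rw [eq_bot_iff]
    intro y hy
    rw [Submodule.mem_bot]
    exact h.nondeg' y (fun x => hy.2 x Submodule.mem_top)

end Base

section Std

variable {F : Type u} [Field F] [Fintype F]

theorem sigma_invol {q : ℕ} (hF : Fintype.card F = q ^ 2) (σ : F →+* F)
    (hσq : ∀ x, σ x = x ^ q) (a : F) : σ (σ a) = a := by
  rw [hσq, hσq, Cfsg.Agent.H7.pow_q_pow_q hF]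

theorem sigma_nontriv {q : ℕ} (hF : Fintype.card F = q ^ 2) (σ : F →+* F)
    (hσq : ∀ x, σ x = x ^ q) : ∃ a, σ a ≠ a := by
  obtain ⟨z, hz1, hz2⟩ := Cfsg.Agent.H7.exists_norm_one_sq_ne_one hF
  refine ⟨z, fun h2 => hz2 ?_⟩
  rw [hσq] at h2
  rw [pow_succ, h2] at hz1
  rw [pow_two]
  exact hz1

/-- A matrix preserving the standard hermitian form is a `UIso` of `hermB σ n`. -/
theorem uiso_std {q : ℕ} (hF : Fintype.card F = q ^ 2) (σ : F →+* F) (hσq : ∀ x, σ x = x ^ q)
    (n : ℕ) (A : Matrix (Fin n) (Fin n) F)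
    (hA : ∀ u v, Cfsg.hermForm n F q (A *ᵥ u) (A *ᵥ v) = Cfsg.hermForm n F q u v) :
    UIso (hermB σ n) (Matrix.toLin' A) := by
  refine ⟨sigma_invol hF σ hσq, sigma_nontriv hF σ hσq, ?_, hermB_nondeg n, ?_⟩
  · intro x y
    exact (hermB_swap (sigma_invol hF σ hσq) n x y).symm
  · intro x y
    rw [hermB_eq_hermForm σ hσq, hermB_eq_hermForm σ hσq, Matrix.toLin'_apply,
      Matrix.toLin'_apply, hA]

theorem uiso_std_one {q : ℕ} (hF : Fintype.card F = q ^ 2) (σ : F →+* F)
    (hσq : ∀ x, σ x = x ^ q) (n : ℕ) : UIso (hermB σ n) (1 : Module.End F (Fin n → F)) := by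
  have h := uiso_std hF σ hσq n 1 (fun u v => by rw [Matrix.one_mulVec, Matrix.one_mulVec])
  exact h.one

omit [Fintype F] in
theorem mem_SU_iff {q : ℕ} (n : ℕ) (x : Matrix.SpecialLinearGroup (Fin n) F) :
    x ∈ Cfsg.SU n F q ↔ ∀ u v, Cfsg.hermForm n F q ((x : Matrix (Fin n) (Fin n) F) *ᵥ u)
      ((x : Matrix (Fin n) (Fin n) F) *ᵥ v) = Cfsg.hermForm n F q u v :=
  Iff.rfl

/-- Nondegeneracy of a subspace of the standard space: `perp` form versus the form used in the
statement. -/
theorem nd_std_iff {q : ℕ} (hF : Fintype.card F = q ^ 2) (σ : F →+* F) (hσq : ∀ x, σ x = x ^ q)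
    (n : ℕ) (W : Submodule F (Fin n → F)) :
    W ⊓ perp (hermB σ n) W = ⊥ ↔
      ∀ u ∈ W, u ≠ 0 → ∃ v ∈ W, Cfsg.hermForm n F q u v ≠ 0 := by
  have hI := uiso_std_one hF σ hσq n
  constructor
  · intro h u hu hu0
    by_contra hcon
    push Not at hcon
    apply hu0
    have h1 : u ∈ W ⊓ perp (hermB σ n) W := by
      refine ⟨hu, fun v hv => ?_⟩
      apply hI.refl
      rw [hermB_eq_hermForm σ hσq]
      exact hcon v hv
    rw [h] at h1
    exact (Submodule.mem_bot F).mp h1
  · intro h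
    rw [eq_bot_iff]
    intro y hy
    rw [Submodule.mem_bot]
    by_contra hy0
    obtain ⟨v, hv, hne⟩ := h y hy.1 hy0
    apply hne
    rw [← hermB_eq_hermForm σ hσq]
    exact hI.refl (hy.2 v hv)

/-- Every nondegenerate hermitian space is isometric to the standard one. -/
theorem exists_iso_std {q : ℕ} (hF : Fintype.card F = q ^ 2) (σ : F →+* F)
    (hσq : ∀ x, σ x = x ^ q) {V : Type v} [AddCommGroup V] [Module F V] [FiniteDimensional F V]
    (B : V →ₗ[F] V →ₛₗ[σ] F) (T : Module.End F V) (h : UIso B T) (n : ℕ)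
    (hn : Module.finrank F V = n) :
    ∃ e : V ≃ₗ[F] (Fin n → F), ∀ x y, hermB σ n (e x) (e y) = B x y := by
  have hstd := uiso_std_one hF σ hσq n
  obtain ⟨e, -, he⟩ := isoConj_of_charpoly_eq σ (sigma_invol hF σ hσq) 1 n B (hermB σ n) 1 1 hn
    h.good_one hstd.good_one
    (by rw [LinearMap.charpoly_one, LinearMap.charpoly_one, hn, Module.finrank_fintype_fun_eq_card,
      Fintype.card_fin])
  exact ⟨e, he⟩

end Std

end Cfsg.Agent.H42.Un
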