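import Mathlib
import Cfsg.Prelude.Def_JComponents

/-!
# S2945 (a subgroup `K ≤ L` subnormal in `⟨K, J(T)⟩` that is a `J(Tᵍ)`-component of the
special kind is a `J(T)`-component): statements of the pieces

Route.  `J = J(T)`, `H = ⟨K, J⟩ ≤ L`, `W = W_K`.  By S2944 for `Tᵍ` (and the element `g⁻¹`) it
is enough to show `J ≤ N_G(W)`, i.e. that every elementary abelian subgroup `A` of `T` of largest
order normalizes `W`.
(1) `V = Ω₁(Z(O₂(H)))` is normalized by `H`, contains `W`, and `[V, K] = W` (piece V).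
(2) For `a ∈ H` the subgroups `K` and `K^a` commute modulo `C_G(V)` (piece COMM).
(3) Every elementary abelian 2-subgroup of `L` has order at most `|A|` (piece EA).
(4) Counting on the product of the `A`-conjugates of `W` (piece CNT): `A` normalizes `W`.
-/

set_option autoImplicit false
open Cfsg

namespace Cfsg.Agent.H42.Sq

universe u

/-- The statement S2944. -/
def St2944 : Prop := ∀ {G : Type u} [Group G] [Finite G],
  IsCharacteristicTwoType G →
  (∀ N : Subgroup G, IsTwoLocal N → Group.IsSolvable ↥N) →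
  (∀ S : Sylow 2 G, Subgroup.centralizer (omegaCenterOf (S : Subgroup G) : Set G) ≤
      Subgroup.normalizer ((S : Subgroup G) : Set G)) →
  ∀ (T : Subgroup G), IsPGroup 2 ↥T → T ≠ ⊥ → ∀ (K : Subgroup G), K ∈ jComponentsZero T →
  Subgroup.normalizer (K : Set G) = Subgroup.normalizer (wOf K : Set G) ∧
    ∀ g : G, thompsonSubgroupOf 2 (T.map (MulAut.conj g).toMonoidHom) ≤
        Subgroup.normalizer (wOf K : Set G) →
      IsJComponent (T.map (MulAut.conj g).toMonoidHom) K

/-- EA: if `T` is a Sylow 2-subgroup of `L`, every elementary abelian 2-subgroup of `L` has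
order at most that of a largest elementary abelian subgroup of `T`. -/
def StEA : Prop := ∀ {G : Type u} [Group G] [Finite G] (T L : Subgroup G),
  IsSylowTwoIn T L → ∀ A ∈ maxElementaryAbelianSubgroups 2 ↥T, ∀ B : Subgroup G, B ≤ L →
  IsElementaryAbelian 2 B → Nat.card ↥B ≤ Nat.card ↥A

/-- V: for `K` with the intrinsic properties of a `J`-component, subnormal in `H = K ⊔ J`
(`J` any subgroup), the subgroup `V = Ω₁(Z(O₂(H)))` is an elementary abelian 2-group
normalized by `H`, centralized by `O₂(K)`, and `[V, K] = W_K`. -/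
def StV : Prop := ∀ {G : Type u} [Group G] [Finite G] (K J : Subgroup G),
  Subgroup.closure {g : G | g ∈ K ∧ Odd (orderOf g)} = K →
  (pCoreOf 2 K).relIndex K = 3 →
  Nat.card ↥(wOf K) = 4 → (∀ w ∈ wOf K, w * w = 1) →
  (K.subgroupOf (K ⊔ J)).IsSubnormal →
  IsElementaryAbelian 2 (omegaCenterOf (pCoreOf 2 (K ⊔ J))) ∧
    omegaCenterOf (pCoreOf 2 (K ⊔ J)) ≤ K ⊔ J ∧
    K ⊔ J ≤ Subgroup.normalizer (omegaCenterOf (pCoreOf 2 (K ⊔ J)) : Set G) ∧
    pCoreOf 2 K ≤ Subgroup.centralizer (omegaCenterOf (pCoreOf 2 (K ⊔ J)) : Set G) ∧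
    ⁅omegaCenterOf (pCoreOf 2 (K ⊔ J)), K⁆ = wOf K

/-- COMM: a subnormal subgroup `K` of `H` that acts on the elementary abelian 2-group `V`
(normalized by `H`) as a group of order 3 with commutator of order 4 commutes modulo `C_G(V)`
with each of its `H`-conjugates. -/
def StComm : Prop := ∀ {G : Type u} [Group G] [Finite G] (H V K O : Subgroup G),
  IsElementaryAbelian 2 V → H ≤ Subgroup.normalizer (V : Set G) →
  K ≤ H → (K.subgroupOf H).IsSubnormal →
  O ≤ K → O ≤ Subgroup.centralizer (V : Set G) → O.relIndex K = 3 →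
  Nat.card ↥⁅V, K⁆ = 4 →
  ∀ a ∈ H, ⁅K, K.map (MulAut.conj a).toMonoidHom⁆ ≤ Subgroup.centralizer (V : Set G)

/-- CNT: the counting argument.  `A` an elementary abelian 2-group normalizing `V`; `K` acts on
`V` as a group of order 3 with commutator `W = [V, K]` of order 4 and commutes modulo `C_G(V)`
with its `A`-conjugates; and for `V' ≤ V`, `B' ≤ C_A(V')` the (elementary abelian) subgroup
`V' B'` has order at most `|A|`.  Then `A` normalizes `W`. -/
def StCnt : Prop := ∀ {G : Type u} [Group G] [Finite G] (V K O A : Subgroup G),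
  IsElementaryAbelian 2 V → IsElementaryAbelian 2 A →
  A ≤ Subgroup.normalizer (V : Set G) → K ≤ Subgroup.normalizer (V : Set G) →
  O ≤ K → O ≤ Subgroup.centralizer (V : Set G) → O.relIndex K = 3 →
  Nat.card ↥⁅V, K⁆ = 4 →
  (∀ a ∈ A, ⁅K, K.map (MulAut.conj a).toMonoidHom⁆ ≤ Subgroup.centralizer (V : Set G)) →
  (∀ V' B' : Subgroup G, V' ≤ V → B' ≤ A → B' ≤ Subgroup.centralizer (V' : Set G) →
      Nat.card ↥(V' ⊔ B') ≤ Nat.card ↥A) →
  A ≤ Subgroup.normalizer ((⁅V, K⁆ : Subgroup G) : Set G)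

/-- The statement S2945. -/
def StMain5 : Prop := ∀ {G : Type u} [Group G] [Finite G],
  IsCharacteristicTwoType G →
  (∀ N : Subgroup G, IsTwoLocal N → Group.IsSolvable ↥N) →
  (∀ S : Sylow 2 G, Subgroup.centralizer (omegaCenterOf (S : Subgroup G) : Set G) ≤
      Subgroup.normalizer ((S : Subgroup G) : Set G)) →
  ∀ (T : Subgroup G), IsPGroup 2 ↥T → T ≠ ⊥ → ∀ (L : Subgroup G), L ∈ jOvergroups T →
  ∀ (K : Subgroup G), K ≤ L →
  (K.subgroupOf (K ⊔ thompsonSubgroupOf 2 T)).IsSubnormal →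
  ∀ g : G, K ∈ jComponentsZero (T.map (MulAut.conj g).toMonoidHom) → IsJComponent T K

end Cfsg.Agent.H42.Sq
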