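import Mathlib
import Cfsg.Prelude.Def_Classical

set_option autoImplicit false

/-! Definitions for the Jordan-type obstruction for unipotent elements of orthogonal groups
(team project S5996 / S5995, helper42). -/

namespace Cfsg.Agent.H42.Jt

/-- `kd N e`: the dimension of the kernel of `N ^ e`. -/
noncomputable def kd {F : Type*} [Field F] {V : Type*} [AddCommGroup V] [Module F V]
    (N : Module.End F V) (e : ℕ) : ℕ :=
  Module.finrank F (LinearMap.ker (N ^ e))

/-- `jb N e` (for `e ≥ 1`): the number of Jordan blocks of size exactly `e` of a nilpotent `N`. -/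
noncomputable def jb {F : Type*} [Field F] {V : Type*} [AddCommGroup V] [Module F V]
    (N : Module.End F V) (e : ℕ) : ℕ :=
  2 * kd N e - kd N (e - 1) - kd N (e + 1)

/-- `HD Q μ`: some matrix `N` that is skew for the polar form of `Q` (in the form
`polar Q w (N w) = 0` for all `w`) has Jordan type `μ`: the kernel of `N ^ e` has dimension
`∑_{s ∈ μ} min e s` for every `e`. -/
def HD {ι : Type} [Fintype ι] [DecidableEq ι] {F : Type*} [Field F] (Q : (ι → F) → F)
    (μ : Multiset ℕ) : Prop :=
  ∃ N : Matrix ι ι F, (∀ w : ι → F, QuadraticMap.polar Q w (N.mulVec w) = 0) ∧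
    ∀ e : ℕ, kd (Matrix.toLin' N) e = (μ.map (fun s => min e s)).sum

end Cfsg.Agent.H42.Jt
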