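import Mathlib
import Cfsg.Prelude.Def_Classical
import Cfsg.Prelude.Def_ClassicalGeometry
import Cfsg.Agent.H17.Witt
import Cfsg.Agent.H42.Char2Pres
import Cfsg.Agent.H49.Basic

set_option autoImplicit false

namespace Cfsg.Agent.H42

open Module Matrix

section

variable {F V : Type*} [Field F] [AddCommGroup V] [Module F V]

/-- The value of a quadratic form on a sum of mutually orthogonal vectors. -/
theorem quad_sum_orth (Q : QuadraticForm F V) {I : Type*} [DecidableEq I] (v : I → V)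
    (h : ∀ a u, a ≠ u → QuadraticMap.polarBilin Q (v a) (v u) = 0) (S : Finset I) :
    Q (∑ s ∈ S, v s) = ∑ s ∈ S, Q (v s) := by
  induction S using Finset.induction_on with
  | empty => simp
  | insert a S ha ih =>
    rw [Finset.sum_insert ha, Finset.sum_insert ha, ← ih]
    have h1 : QuadraticMap.polarBilin Q (v a) (∑ s ∈ S, v s) = 0 := by
      rw [map_sum]
      apply Finset.sum_eq_zero
      intro s hs
      apply h
      rintro rfl
      exact ha hs
    rw [QuadraticMap.polarBilin_apply_apply, QuadraticMap.polar] at h1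
    linear_combination h1

/-- The value of a quadratic form on a combination of mutually orthogonal vectors. -/
theorem quad_sum_smul_orth (Q : QuadraticForm F V) {I : Type*} [Fintype I] [DecidableEq I]
    (v : I → V) (c : I → F)
    (h : ∀ a u, a ≠ u → QuadraticMap.polarBilin Q (v a) (v u) = 0) :
    Q (∑ s, c s • v s) = ∑ s, c s * c s * Q (v s) := by
  rw [quad_sum_orth Q (fun s => c s • v s)]
  · apply Finset.sum_congr rfl
    intro s _
    rw [QuadraticMap.map_smul, smul_eq_mul]
  · intro a u hau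
    simp only [map_smul, LinearMap.smul_apply, smul_eq_mul, h a u hau, mul_zero]

variable [FiniteDimensional F V]

/-- Two self-adjoint operators with `Q (N x) = B (N x) x` and presentations of the same shape
are conjugate under an isometry of the quadratic form. -/
theorem pres_conj_quad {ι : Type*} [Fintype ι] [DecidableEq ι] (Q : QuadraticForm F V)
    (hQ : (QuadraticMap.polarBilin Q).Nondegenerate) (N₁ N₂ : V →ₗ[F] V)
    (hN₁ : ∀ x y, QuadraticMap.polarBilin Q (N₁ x) y = QuadraticMap.polarBilin Q x (N₁ y))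
    (hQ₁ : ∀ x, Q (N₁ x) = QuadraticMap.polarBilin Q (N₁ x) x)
    (hQ₂ : ∀ x, Q (N₂ x) = QuadraticMap.polarBilin Q (N₂ x) x)
    (σ : ι → ι) (hσ : Function.Involutive σ) (t₁ t₂ : ι → V)
    (hP₁ : Pres (QuadraticMap.polarBilin Q) N₁ σ t₁)
    (hP₂ : Pres (QuadraticMap.polarBilin Q) N₂ σ t₂) :
    ∃ g : V ≃ₗ[F] V, (∀ v, Q (g v) = Q v) ∧ ∀ y, N₂ (g y) = g (N₁ y) := by
  obtain ⟨hP11, hP12⟩ := hP₁
  obtain ⟨hP21, hP22⟩ := hP₂
  let f : V →ₗ[F] V := ∑ s, (QuadraticMap.polarBilin Q (t₁ (σ s))).smulRight (N₂ (t₂ s))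
  have hf : ∀ x, f x = ∑ s, QuadraticMap.polarBilin Q (t₁ (σ s)) x • N₂ (t₂ s) := by
    intro x
    simp [f, LinearMap.sum_apply]
  have hfN : ∀ y, f (N₁ y) = ∑ s, QuadraticMap.polarBilin Q (N₁ (t₁ (σ s))) y • N₂ (t₂ s) := by
    intro y
    rw [hf]
    apply Finset.sum_congr rfl
    intro s _
    rw [hN₁]
  have hfr : ∀ y, f (N₁ y) =
      N₂ (∑ s, QuadraticMap.polarBilin Q (N₁ (t₁ (σ s))) y • t₂ s) := by
    intro y
    rw [hfN, map_sum]
    apply Finset.sum_congr rfl
    intro s _
    rw [map_smul]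
  have hQf : ∀ y, Q (f (N₁ y)) = Q (N₁ y) := by
    intro y
    rw [hfr, hQ₂, hQ₁]
    have h1 := congrArg (fun v => QuadraticMap.polarBilin Q v y) (hP12 y)
    simp only [map_sum, map_smul, LinearMap.sum_apply, LinearMap.smul_apply, smul_eq_mul] at h1
    rw [h1]
    simp only [map_sum, map_smul, LinearMap.sum_apply, LinearMap.smul_apply, smul_eq_mul, hP21,
      mul_ite, mul_one, mul_zero]
    apply Finset.sum_congr rfl
    intro s _
    congr 1
    rw [Finset.sum_eq_single (σ s)]
    · rw [if_pos (hσ s), hσ s]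
    · intro x _ hx
      rw [if_neg]
      intro h
      apply hx
      rw [← h, hσ x]
    · intro h
      exact absurd (Finset.mem_univ _) h
  obtain ⟨g, hg, hgX⟩ := Cfsg.Agent.H17.witt_quad Q hQ (LinearMap.range N₁) f
    (by
      rintro _ ⟨y, rfl⟩
      exact hQf y)
    (by
      rintro _ ⟨y, rfl⟩ h0
      rw [hfN] at h0
      have h1 : ∀ j, QuadraticMap.polarBilin Q (N₁ (t₁ (σ j))) y = 0 := by
        intro j
        have h2 := congrArg (fun v => QuadraticMap.polarBilin Q v (t₂ (σ j))) h0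
        simp only [map_sum, map_smul, LinearMap.sum_apply, LinearMap.smul_apply, smul_eq_mul,
          hP21, map_zero, LinearMap.zero_apply] at h2
        simp only [hσ.injective.eq_iff, mul_ite, mul_one, mul_zero, Finset.sum_ite_eq',
          Finset.mem_univ, if_true] at h2
        exact h2
      rw [hP12 y]
      apply Finset.sum_eq_zero
      intro s _
      rw [h1 s, zero_smul])
  have hgB : ∀ v w, QuadraticMap.polarBilin Q (g v) (g w) = QuadraticMap.polarBilin Q v w := by
    intro v w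
    simp only [QuadraticMap.polarBilin_apply_apply, QuadraticMap.polar]
    rw [← map_add, hg, hg, hg]
  have hgt : ∀ j, g (N₁ (t₁ j)) = N₂ (t₂ j) := by
    intro j
    rw [hgX _ (LinearMap.mem_range_self N₁ _), hfN]
    simp only [hP11, hσ (_ : ι)]
    rw [Finset.sum_eq_single j]
    · simp
    · intro s _ hs
      rw [if_neg hs, zero_smul]
    · intro h
      exact absurd (Finset.mem_univ j) h
  refine ⟨g, hg, ?_⟩
  intro y
  rw [hP22 (g y), hP12 y, map_sum]
  apply Finset.sum_congr rfl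
  intro s _
  rw [map_smul, ← hgt, ← hgt, hgB]

end

section

variable {F : Type*} [Field F] {ι : Type} [Fintype ι] [DecidableEq ι]

/-- The operator `x ↦ A x - x`. -/
noncomputable def nOpG (A : Matrix ι ι F) : (ι → F) →ₗ[F] (ι → F) := (A - 1).mulVecLin

theorem nOpG_apply (A : Matrix ι ι F) (x : ι → F) : nOpG A x = A *ᵥ x - x := by
  rw [nOpG, Matrix.mulVecLin_apply, Matrix.sub_mulVec, Matrix.one_mulVec]

theorem nOpG_sq [CharP F 2] (A : Matrix ι ι F) (hAA : A * A = 1) (x : ι → F) :
    nOpG A (nOpG A x) = 0 := by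
  rw [nOpG_apply, nOpG_apply, Matrix.mulVec_sub, Matrix.mulVec_mulVec, hAA, Matrix.one_mulVec]
  have h2 : (2 : F) = 0 := CharTwo.two_eq_zero
  have h3 : x - A *ᵥ x - (A *ᵥ x - x) = (2 : F) • (x - A *ᵥ x) := by
    rw [two_smul]
    abel
  rw [h3, h2, zero_smul]

/-- The matrix of an element of an isometry group. -/
abbrev oMat {Qf : (ι → F) → F} (a : ↥(Cfsg.isometryGroup F Qf)) : Matrix ι ι F :=
  ((a : Matrix.GeneralLinearGroup ι F) : Matrix ι ι F)

theorem oMat_isom {Qf : (ι → F) → F} (a : ↥(Cfsg.isometryGroup F Qf)) (x : ι → F) :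
    Qf (oMat a *ᵥ x) = Qf x :=
  Cfsg.Agent.H49.isometry_apply a x

theorem oMat_mul {Qf : (ι → F) → F} (a b : ↥(Cfsg.isometryGroup F Qf)) :
    oMat (a * b) = oMat a * oMat b := rfl

theorem oMat_one {Qf : (ι → F) → F} : oMat (1 : ↥(Cfsg.isometryGroup F Qf)) = 1 := rfl

theorem oMat_injective {Qf : (ι → F) → F} {a b : ↥(Cfsg.isometryGroup F Qf)}
    (h : oMat a = oMat b) : a = b :=
  Subtype.ext (Units.ext h)

theorem mat_ext_mulVecG {A B : Matrix ι ι F} (h : ∀ x : ι → F, A *ᵥ x = B *ᵥ x) : A = B := by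
  ext i j
  have := congrFun (h (Pi.single j 1)) i
  simpa using this

variable (Q : QuadraticForm F (ι → F))

omit [DecidableEq ι] in
theorem polar_isomG (A : Matrix ι ι F) (hA : ∀ x, Q (A *ᵥ x) = Q x) (x y : ι → F) :
    QuadraticMap.polarBilin Q (A *ᵥ x) (A *ᵥ y) = QuadraticMap.polarBilin Q x y := by
  simp only [QuadraticMap.polarBilin_apply_apply, QuadraticMap.polar]
  rw [← Matrix.mulVec_add, hA, hA, hA]

theorem nOpG_selfadj (A : Matrix ι ι F) (hA : ∀ x, Q (A *ᵥ x) = Q x) (hAA : A * A = 1)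
    (x y : ι → F) :
    QuadraticMap.polarBilin Q (nOpG A x) y = QuadraticMap.polarBilin Q x (nOpG A y) := by
  have h1 : QuadraticMap.polarBilin Q (A *ᵥ x) y = QuadraticMap.polarBilin Q x (A *ᵥ y) := by
    have h2 := polar_isomG Q A hA x (A *ᵥ y)
    rw [Matrix.mulVec_mulVec, hAA, Matrix.one_mulVec] at h2
    exact h2
  rw [nOpG_apply, nOpG_apply, map_sub, map_sub, LinearMap.sub_apply, h1]

theorem nOpG_quad [CharP F 2] (A : Matrix ι ι F) (hA : ∀ x, Q (A *ᵥ x) = Q x) (x : ι → F) :
    Q (nOpG A x) = QuadraticMap.polarBilin Q (nOpG A x) x := by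
  have e1 : A *ᵥ x - x = A *ᵥ x + x := by
    funext i
    simp only [Pi.sub_apply, Pi.add_apply]
    exact CharTwo.sub_eq_add _ _
  have h3 : Q (A *ᵥ x + x) = QuadraticMap.polar Q (A *ᵥ x) x + Q (A *ᵥ x) + Q x := by
    simp only [QuadraticMap.polar]
    ring
  have h4 : QuadraticMap.polar Q x x = 2 * Q x := by
    rw [QuadraticMap.polar_self]
    simp
  rw [nOpG_apply, e1, h3, hA, LinearMap.map_add, LinearMap.add_apply,
    QuadraticMap.polarBilin_apply_apply, QuadraticMap.polarBilin_apply_apply, h4]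
  ring

/-- From an isometry intertwining the operators to conjugacy in the isometry group. -/
theorem o_conj_of_equiv (a b : ↥(Cfsg.isometryGroup F (⇑Q)))
    (g : (ι → F) ≃ₗ[F] (ι → F)) (hg : ∀ v, Q (g v) = Q v)
    (hgN : ∀ y, nOpG (oMat b) (g y) = g (nOpG (oMat a) y)) : IsConj a b := by
  set G : Matrix ι ι F := LinearMap.toMatrix' (g : (ι → F) →ₗ[F] (ι → F)) with hGdef
  set G' : Matrix ι ι F := LinearMap.toMatrix' (g.symm : (ι → F) →ₗ[F] (ι → F)) with hG'def
  have hGv : ∀ x, G *ᵥ x = g x := by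
    intro x
    rw [← Matrix.toLin'_apply, hGdef, Matrix.toLin'_toMatrix']
    rfl
  have hG'v : ∀ x, G' *ᵥ x = g.symm x := by
    intro x
    rw [← Matrix.toLin'_apply, hG'def, Matrix.toLin'_toMatrix']
    rfl
  have hGG' : G * G' = 1 := by
    apply mat_ext_mulVecG
    intro x
    rw [← Matrix.mulVec_mulVec, hG'v, hGv, LinearEquiv.apply_symm_apply, Matrix.one_mulVec]
  have hG'G : G' * G = 1 := by
    apply mat_ext_mulVecG
    intro x
    rw [← Matrix.mulVec_mulVec, hG'v, hGv, LinearEquiv.symm_apply_apply, Matrix.one_mulVec]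
  let U : Matrix.GeneralLinearGroup ι F := ⟨G, G', hGG', hG'G⟩
  have hU : U ∈ Cfsg.isometryGroup F (⇑Q) :=
    Cfsg.Agent.H49.mem_isometryGroup_iff.mpr (fun u => by
      show Q (G *ᵥ u) = Q u
      rw [hGv, hg])
  have hGA : G * oMat a = oMat b * G := by
    apply mat_ext_mulVecG
    intro x
    rw [← Matrix.mulVec_mulVec, ← Matrix.mulVec_mulVec, hGv, hGv]
    have h1 := hgN x
    rw [nOpG_apply, nOpG_apply, map_sub] at h1
    have h2 := sub_left_injective h1
    exact h2.symm
  rw [isConj_iff]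
  refine ⟨⟨U, hU⟩, ?_⟩
  rw [mul_inv_eq_iff_eq_mul]
  apply oMat_injective
  exact hGA

/-- Involutions of an orthogonal group (char 2, `F` finite, nondegenerate polar form) with equal
rank and equal type are conjugate. -/
theorem o_conj_of_type [Finite F] [CharP F 2]
    (hQ : (QuadraticMap.polarBilin Q).Nondegenerate)
    (a b : ↥(Cfsg.isometryGroup F (⇑Q)))
    (ha : oMat a * oMat a = 1) (hb : oMat b * oMat b = 1)
    (hrank : (oMat a - 1).rank = (oMat b - 1).rank)
    (htype : (∀ v, Q (nOpG (oMat a) v) = 0) ↔ (∀ v, Q (nOpG (oMat b) v) = 0)) :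
    IsConj a b := by
  have hsq : ∀ x : F, ∃ y : F, y * y = x := by
    intro x
    obtain ⟨r, hr⟩ := FiniteField.isSquare_of_char_two (ringChar.eq F 2) x
    exact ⟨r, hr.symm⟩
  have hsym : ∀ x y : ι → F, QuadraticMap.polarBilin Q x y = QuadraticMap.polarBilin Q y x := by
    intro x y
    simp only [QuadraticMap.polarBilin_apply_apply]
    exact QuadraticMap.polar_comm _ _ _
  have hnd : ∀ x : ι → F, (∀ y, QuadraticMap.polarBilin Q x y = 0) → x = 0 := hQ.1
  have hNa := nOpG_selfadj Q (oMat a) (oMat_isom a) ha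
  have hNb := nOpG_selfadj Q (oMat b) (oMat_isom b) hb
  have hqa := nOpG_quad Q (oMat a) (oMat_isom a)
  have hqb := nOpG_quad Q (oMat b) (oMat_isom b)
  have hrank' : Module.finrank F (LinearMap.range (nOpG (oMat a))) =
      Module.finrank F (LinearMap.range (nOpG (oMat b))) := hrank
  by_cases hta : ∀ v, Q (nOpG (oMat a) v) = 0
  · have htb := htype.1 hta
    obtain ⟨ka, ta, hPa⟩ := pres_alt (QuadraticMap.polarBilin Q) hsym hnd _ hNa
      (fun x => by rw [← hqa]; exact hta x)
    obtain ⟨kb, tb, hPb⟩ := pres_alt (QuadraticMap.polarBilin Q) hsym hnd _ hNb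
      (fun x => by rw [← hqb]; exact htb x)
    have h1 := pres_finrank _ _ _ Sum.swap_swap ta hPa
    have h2 := pres_finrank _ _ _ Sum.swap_swap tb hPb
    rw [Fintype.card_sum, Fintype.card_fin] at h1 h2
    have hk : ka = kb := by omega
    subst hk
    obtain ⟨g, hg, hgN⟩ := pres_conj_quad Q hQ _ _ hNa hqa hqb Sum.swap Sum.swap_swap ta tb hPa hPb
    exact o_conj_of_equiv Q a b g hg hgN
  · have htb : ¬ ∀ v, Q (nOpG (oMat b) v) = 0 := fun h => hta (htype.2 h)
    have hna : ∃ x, QuadraticMap.polarBilin Q (nOpG (oMat a) x) x ≠ 0 := by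
      by_contra hcon
      push Not at hcon
      exact hta (fun v => by rw [hqa]; exact hcon v)
    have hnb : ∃ x, QuadraticMap.polarBilin Q (nOpG (oMat b) x) x ≠ 0 := by
      by_contra hcon
      push Not at hcon
      exact htb (fun v => by rw [hqb]; exact hcon v)
    obtain ⟨ra, ta, hPa⟩ := pres_nonalt hsq (QuadraticMap.polarBilin Q) hsym hnd _ hNa hna
    obtain ⟨rb, tb, hPb⟩ := pres_nonalt hsq (QuadraticMap.polarBilin Q) hsym hnd _ hNb hnb
    have h1 := pres_finrank _ _ _ (fun x => rfl) ta hPa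
    have h2 := pres_finrank _ _ _ (fun x => rfl) tb hPb
    rw [Fintype.card_fin] at h1 h2
    have hk : ra = rb := by omega
    subst hk
    obtain ⟨g, hg, hgN⟩ := pres_conj_quad Q hQ _ _ hNa hqa hqb id (fun x => rfl) ta tb hPa hPb
    exact o_conj_of_equiv Q a b g hg hgN

/-- Alternating type forces even rank. -/
theorem o_even_rank_of_alt [CharP F 2]
    (hQ : (QuadraticMap.polarBilin Q).Nondegenerate)
    (a : ↥(Cfsg.isometryGroup F (⇑Q))) (ha : oMat a * oMat a = 1)
    (hta : ∀ v, Q (nOpG (oMat a) v) = 0) : Even (oMat a - 1).rank := by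
  have hsym : ∀ x y : ι → F, QuadraticMap.polarBilin Q x y = QuadraticMap.polarBilin Q y x := by
    intro x y
    simp only [QuadraticMap.polarBilin_apply_apply]
    exact QuadraticMap.polar_comm _ _ _
  have hnd : ∀ x : ι → F, (∀ y, QuadraticMap.polarBilin Q x y = 0) → x = 0 := hQ.1
  have hNa := nOpG_selfadj Q (oMat a) (oMat_isom a) ha
  have hqa := nOpG_quad Q (oMat a) (oMat_isom a)
  obtain ⟨ka, ta, hPa⟩ := pres_alt (QuadraticMap.polarBilin Q) hsym hnd _ hNa
    (fun x => by rw [← hqa]; exact hta x)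
  have h1 := pres_finrank _ _ _ Sum.swap_swap ta hPa
  rw [Fintype.card_sum, Fintype.card_fin] at h1
  have h2 : (oMat a - 1).rank = ka + ka := h1
  rw [h2]
  exact ⟨ka, rfl⟩

end

end Cfsg.Agent.H42
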