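import Mathlib
import Cfsg.Prelude.Def_Classical
import Cfsg.Prelude.Def_ClassicalGeometry
import Cfsg.Prelude.Def_GeometricClasses
import Cfsg.Agent.H17.Symp
import Cfsg.Agent.H42.OInv
import Cfsg.Agent.H50.SpCard

set_option autoImplicit false

/-! Glue for `Sp_{2d}(q)`, `q` even, and its orthogonal subgroups: transport of isometries,
`GO(Q) ∩ Sp = O(Q)`, the index (helper42). -/

namespace Cfsg.Agent.H42

open Module Matrix

section Transport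

variable {F : Type*} [Field F] {ι₁ ι : Type} [Fintype ι₁] [DecidableEq ι₁] [Fintype ι]
  [DecidableEq ι]

/-- A pair of mutually inverse linear maps as an invertible matrix. -/
theorem gl_of_maps (f f' : (ι → F) →ₗ[F] (ι → F)) (h1 : ∀ x, f (f' x) = x)
    (h2 : ∀ x, f' (f x) = x) :
    ∃ U : Matrix.GeneralLinearGroup ι F, ∀ x, (U : Matrix ι ι F) *ᵥ x = f x := by
  set G : Matrix ι ι F := LinearMap.toMatrix' f with hGdef
  set G' : Matrix ι ι F := LinearMap.toMatrix' f' with hG'def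
  have hGv : ∀ x, G *ᵥ x = f x := by
    intro x
    rw [← Matrix.toLin'_apply, hGdef, Matrix.toLin'_toMatrix']
  have hG'v : ∀ x, G' *ᵥ x = f' x := by
    intro x
    rw [← Matrix.toLin'_apply, hG'def, Matrix.toLin'_toMatrix']
  have hGG' : G * G' = 1 := by
    apply mat_ext_mulVecG
    intro x
    rw [← Matrix.mulVec_mulVec, hG'v, hGv, h1, Matrix.one_mulVec]
  have hG'G : G' * G = 1 := by
    apply mat_ext_mulVecG
    intro x
    rw [← Matrix.mulVec_mulVec, hG'v, hGv, h2, Matrix.one_mulVec]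
  exact ⟨⟨G, G', hGG', hG'G⟩, hGv⟩

/-- Transport of an invertible matrix along a linear equivalence. -/
theorem gl_transport (Φ : (ι₁ → F) ≃ₗ[F] (ι → F)) (a : Matrix.GeneralLinearGroup ι₁ F) :
    ∃ b : Matrix.GeneralLinearGroup ι F,
      ∀ v, (b : Matrix ι ι F) *ᵥ v = Φ ((a : Matrix ι₁ ι₁ F) *ᵥ Φ.symm v) := by
  have hinv : ∀ x, (a : Matrix ι₁ ι₁ F) *ᵥ
      (((a⁻¹ : Matrix.GeneralLinearGroup ι₁ F) : Matrix ι₁ ι₁ F) *ᵥ x) = x := by
    intro x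
    rw [Matrix.mulVec_mulVec, ← Units.val_mul, mul_inv_cancel, Units.val_one, Matrix.one_mulVec]
  have hinv' : ∀ x, ((a⁻¹ : Matrix.GeneralLinearGroup ι₁ F) : Matrix ι₁ ι₁ F) *ᵥ
      ((a : Matrix ι₁ ι₁ F) *ᵥ x) = x := by
    intro x
    rw [Matrix.mulVec_mulVec, ← Units.val_mul, inv_mul_cancel, Units.val_one, Matrix.one_mulVec]
  obtain ⟨U, hU⟩ := gl_of_maps
    ((Φ : (ι₁ → F) →ₗ[F] (ι → F)) ∘ₗ (a : Matrix ι₁ ι₁ F).mulVecLin ∘ₗ
      (Φ.symm : (ι → F) →ₗ[F] (ι₁ → F)))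
    ((Φ : (ι₁ → F) →ₗ[F] (ι → F)) ∘ₗ
      ((a⁻¹ : Matrix.GeneralLinearGroup ι₁ F) : Matrix ι₁ ι₁ F).mulVecLin ∘ₗ
      (Φ.symm : (ι → F) →ₗ[F] (ι₁ → F)))
    (by
      intro x
      simp only [LinearMap.comp_apply, LinearEquiv.coe_coe, Matrix.mulVecLin_apply,
        LinearEquiv.symm_apply_apply]
      rw [hinv, LinearEquiv.apply_symm_apply])
    (by
      intro x
      simp only [LinearMap.comp_apply, LinearEquiv.coe_coe, Matrix.mulVecLin_apply,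
        LinearEquiv.symm_apply_apply]
      rw [hinv', LinearEquiv.apply_symm_apply])
  exact ⟨U, fun v => by rw [hU]; rfl⟩

/-- Transport of an isometry along an isometric linear equivalence. -/
theorem isom_transport (Q₁ : (ι₁ → F) → F) (Q : (ι → F) → F)
    (Φ : (ι₁ → F) ≃ₗ[F] (ι → F)) (hΦ : ∀ u, Q (Φ u) = Q₁ u)
    (a : ↥(Cfsg.isometryGroup F Q₁)) :
    ∃ b : ↥(Cfsg.isometryGroup F Q), ∀ v, oMat b *ᵥ v = Φ (oMat a *ᵥ Φ.symm v) := by
  obtain ⟨U, hU⟩ := gl_transport Φ (a : Matrix.GeneralLinearGroup ι₁ F)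
  have hmem : U ∈ Cfsg.isometryGroup F Q :=
    Cfsg.Agent.H49.mem_isometryGroup_iff.mpr (fun u => by
      rw [hU, hΦ, oMat_isom a, ← hΦ, LinearEquiv.apply_symm_apply])
  exact ⟨⟨U, hmem⟩, hU⟩

theorem card_isometry_le [Finite F] (Q₁ : (ι₁ → F) → F) (Q : (ι → F) → F)
    (Φ : (ι₁ → F) ≃ₗ[F] (ι → F)) (hΦ : ∀ u, Q (Φ u) = Q₁ u) :
    Nat.card ↥(Cfsg.isometryGroup F Q₁) ≤ Nat.card ↥(Cfsg.isometryGroup F Q) := by
  classical
  have hfin : Finite ↥(Cfsg.isometryGroup F Q) := inferInstance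
  apply Nat.card_le_card_of_injective (fun a => (isom_transport Q₁ Q Φ hΦ a).choose)
  intro a a' h
  have h1 := (isom_transport Q₁ Q Φ hΦ a).choose_spec
  have h2 := (isom_transport Q₁ Q Φ hΦ a').choose_spec
  simp only at h
  rw [h] at h1
  apply oMat_injective
  apply mat_ext_mulVecG
  intro x
  have h3 := (h1 (Φ x)).symm.trans (h2 (Φ x))
  rw [LinearEquiv.symm_apply_apply] at h3
  exact Φ.injective h3

/-- Isometric forms have isometry groups of the same order. -/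
theorem card_isometry_congr [Finite F] (Q₁ : (ι₁ → F) → F) (Q : (ι → F) → F)
    (Φ : (ι₁ → F) ≃ₗ[F] (ι → F)) (hΦ : ∀ u, Q (Φ u) = Q₁ u) :
    Nat.card ↥(Cfsg.isometryGroup F Q₁) = Nat.card ↥(Cfsg.isometryGroup F Q) := by
  apply le_antisymm (card_isometry_le Q₁ Q Φ hΦ)
  apply card_isometry_le Q Q₁ Φ.symm
  intro u
  rw [← hΦ, LinearEquiv.apply_symm_apply]

end Transport

section SpGlue

variable {F : Type*} [Field F] {d : ℕ}

theorem mem_spGL_iff' (x : Matrix.GeneralLinearGroup (Fin d ⊕ Fin d) F) :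
    x ∈ Cfsg.spGL d F ↔ ∀ u v, Cfsg.sympForm d F
      ((x : Matrix (Fin d ⊕ Fin d) (Fin d ⊕ Fin d) F) *ᵥ u)
      ((x : Matrix (Fin d ⊕ Fin d) (Fin d ⊕ Fin d) F) *ᵥ v) = Cfsg.sympForm d F u v :=
  Iff.rfl

/-- `spGL` has the elements of Mathlib's symplectic group. -/
noncomputable def spGLEquiv : ↥(Cfsg.spGL d F) ≃ ↥(Matrix.symplecticGroup (Fin d) F) where
  toFun x := ⟨((x : Matrix.GeneralLinearGroup (Fin d ⊕ Fin d) F) :
    Matrix (Fin d ⊕ Fin d) (Fin d ⊕ Fin d) F),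
    (Cfsg.Agent.H17.mem_symplecticGroup_iff_form d _).2 ((mem_spGL_iff' x.1).1 x.2)⟩
  invFun a := ⟨Units.map (Matrix.symplecticGroup (Fin d) F).subtype (toUnits a),
    (mem_spGL_iff' _).2 ((Cfsg.Agent.H17.mem_symplecticGroup_iff_form d _).1 a.2)⟩
  left_inv _ := Subtype.ext (Units.ext rfl)
  right_inv _ := Subtype.ext rfl

theorem spGLEquiv_coe (x : ↥(Cfsg.spGL d F)) :
    ((spGLEquiv x : ↥(Matrix.symplecticGroup (Fin d) F)) :
      Matrix (Fin d ⊕ Fin d) (Fin d ⊕ Fin d) F) =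
    ((x : Matrix.GeneralLinearGroup (Fin d ⊕ Fin d) F) :
      Matrix (Fin d ⊕ Fin d) (Fin d ⊕ Fin d) F) := rfl

theorem card_spGL [Fintype F] {q : ℕ} (hq : Fintype.card F = q) (d : ℕ) :
    Nat.card ↥(Cfsg.spGL d F) = q ^ (d ^ 2) * ∏ i ∈ Finset.range d, (q ^ (2 * (i + 1)) - 1) := by
  rw [Nat.card_congr spGLEquiv]
  exact Cfsg.Agent.H50.SpCard.card_sp hq d

end SpGlue

section OinSp

variable {F : Type*} [Field F] {d : ℕ} (Q : (Fin d ⊕ Fin d → F) → F)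

/-- Isometries of `Q` preserve its polar form. -/
theorem isom_mem_spGL (hQf : ∀ u v, QuadraticMap.polar Q u v = Cfsg.sympForm d F u v)
    (x : Matrix.GeneralLinearGroup (Fin d ⊕ Fin d) F)
    (hx : ∀ v, Q ((x : Matrix (Fin d ⊕ Fin d) (Fin d ⊕ Fin d) F) *ᵥ v) = Q v) :
    x ∈ Cfsg.spGL d F := by
  rw [mem_spGL_iff']
  intro u v
  rw [← hQf, ← hQf]
  unfold QuadraticMap.polar
  rw [← Matrix.mulVec_add, hx, hx, hx]

theorem symp_e0_f0 (hd : 1 ≤ d) :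
    Cfsg.sympForm d F (Pi.single (Sum.inr ⟨0, hd⟩) 1) (Pi.single (Sum.inl ⟨0, hd⟩) 1) = 1 := by
  rw [Cfsg.Agent.H17.sympForm_eq_sum]
  rw [Finset.sum_eq_single (⟨0, hd⟩ : Fin d)]
  · simp
  · intro b _ hb
    simp [hb]
  · intro h
    exact absurd (Finset.mem_univ _) h

/-- A similarity of `Q` preserving the polar form is an isometry. -/
theorem sim_isom (hd : 1 ≤ d) (hQf : ∀ u v, QuadraticMap.polar Q u v = Cfsg.sympForm d F u v)
    (x : Matrix.GeneralLinearGroup (Fin d ⊕ Fin d) F) (hx : x ∈ Cfsg.spGL d F)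
    (hs : x ∈ Cfsg.Geo.quadSimilarityGroup Q) (v : Fin d ⊕ Fin d → F) :
    Q ((x : Matrix (Fin d ⊕ Fin d) (Fin d ⊕ Fin d) F) *ᵥ v) = Q v := by
  obtain ⟨c, hc⟩ := hs
  have h1 : ∀ u w, Cfsg.sympForm d F ((x : Matrix (Fin d ⊕ Fin d) (Fin d ⊕ Fin d) F) *ᵥ u)
      ((x : Matrix (Fin d ⊕ Fin d) (Fin d ⊕ Fin d) F) *ᵥ w) = (c : F) * Cfsg.sympForm d F u w := by
    intro u w
    rw [← hQf, ← hQf]
    unfold QuadraticMap.polar
    rw [← Matrix.mulVec_add, hc, hc, hc]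
    ring
  have h2 := h1 (Pi.single (Sum.inr ⟨0, hd⟩) 1) (Pi.single (Sum.inl ⟨0, hd⟩) 1)
  rw [(mem_spGL_iff' x).1 hx, symp_e0_f0 hd, mul_one] at h2
  rw [hc, ← h2, one_mul]

/-- The index of `GO(Q) ∩ Sp` in `Sp`. -/
theorem relIndex_mul_card [Finite F] (hd : 1 ≤ d)
    (hQf : ∀ u v, QuadraticMap.polar Q u v = Cfsg.sympForm d F u v) :
    (Cfsg.Geo.quadSimilarityGroup Q).relIndex (Cfsg.spGL d F) *
      Nat.card ↥(Cfsg.isometryGroup F Q) = Nat.card ↥(Cfsg.spGL d F) := by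
  rw [Subgroup.relIndex, ← Subgroup.card_mul_index
    ((Cfsg.Geo.quadSimilarityGroup Q).subgroupOf (Cfsg.spGL d F)), mul_comm]
  congr 1
  apply Nat.card_congr
  refine ⟨fun a => ⟨⟨(a : Matrix.GeneralLinearGroup (Fin d ⊕ Fin d) F),
      isom_mem_spGL Q hQf _ (fun v => oMat_isom a v)⟩, ?_⟩,
    fun y => ⟨(y.1 : Matrix.GeneralLinearGroup (Fin d ⊕ Fin d) F),
      Cfsg.Agent.H49.mem_isometryGroup_iff.mpr (fun v => sim_isom Q hd hQf _ y.1.2 y.2 v)⟩,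
    fun a => rfl, fun y => rfl⟩
  rw [Subgroup.mem_subgroupOf]
  exact ⟨1, fun v => by rw [Units.val_one, one_mul]; exact oMat_isom a v⟩

end OinSp

end Cfsg.Agent.H42
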