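import Mathlib
import Cfsg.Agent.H42.UnDefs
import Cfsg.Agent.H42.TiDefs

/-!
# S5953 team project: definitions and piece statements

Elements of prime order of `PSU_n(q)` and totally isotropic `m`-spaces: the unitary analogue of
`TiDefs` (S5955), in the setting of `UnDefs` (S5954): `B : V →ₗ[F] V →ₛₗ[σ] F` hermitian,
`UIso`, `UNd`, `UCtx`, `cu q r`; `ii F r` (from `TiDefs`) is the order of `|F| = q ^ 2` modulo `r`,
i.e. the degree of the irreducible factors of the `r`-th cyclotomic polynomial over `F`;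
`IsCycSet F r Φs` (from `TiDefs`) says that `Φs` is the set of these factors.  With
`i = orderOf (q : ZMod r)`: the factors are `σ`-self-dual iff `i % 4 = 2`.
-/

set_option autoImplicit false

namespace Cfsg.Agent.H42.Ut

open Cfsg.Agent.H45 Cfsg.Agent.H42.Spd Cfsg.Agent.H42.Un Cfsg.Agent.H42.Ti Module Polynomial

universe u v

/-- The number of nonzero isotropic vectors of a nondegenerate hermitian space of dimension `k`
over the field with `q ^ 2` elements. -/
def isoNum (q k : ℕ) : ℕ :=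
  if Even k then (q ^ k - 1) * (q ^ (k - 1) + 1) else (q ^ k + 1) * (q ^ (k - 1) - 1)

section Basic

variable {F : Type u} [Field F] {σ : F →+* F} {V : Type v} [AddCommGroup V] [Module F V]

/-- `U` is totally isotropic. -/
def UTI (B : V →ₗ[F] V →ₛₗ[σ] F) (U : Submodule F V) : Prop := ∀ u ∈ U, ∀ v ∈ U, B u v = 0

/-- `W` contains an invariant nondegenerate subspace `H` of dimension `2 a` which contains an
invariant totally isotropic subspace `L` of dimension `a`. -/
def UHypPair (B : V →ₗ[F] V →ₛₗ[σ] F) (T : Module.End F V) (a : ℕ) (W : Submodule F V) : Prop :=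
  ∃ H L : Submodule F V, H ≤ W ∧ UNd B T H ∧ Module.finrank F H = 2 * a ∧ L ≤ H ∧
    L ∈ T.invtSubmodule ∧ UTI B L ∧ Module.finrank F L = a

end Basic

/-! ## Counting totally isotropic subspaces of the standard hermitian space -/

/-- UT-ISOCNT: the number of isotropic vectors orthogonal to a totally isotropic subspace. -/
def StUtIsoCnt : Prop :=
  ∀ (F : Type u) [Field F] [Fintype F] (q : ℕ) (σ : F →+* F) (V : Type v) [AddCommGroup V]
    [Module F V] [FiniteDimensional F V] (B : V →ₗ[F] V →ₛₗ[σ] F),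
    Fintype.card F = q ^ 2 → (∀ x, σ x = x ^ q) → UIso B (1 : Module.End F V) →
    ∀ U : Submodule F V, UTI B U →
    Nat.card {w : V // w ∈ perp B U ∧ B w w = 0} =
      q ^ (2 * Module.finrank F U) *
        (isoNum q (Module.finrank F V - 2 * Module.finrank F U) + 1)

/-- UT-TUPLES: the number of linearly independent `m`-tuples of pairwise orthogonal isotropic
vectors. -/
def StUtTuples : Prop :=
  ∀ (F : Type u) [Field F] [Fintype F] (q : ℕ), Fintype.card F = q ^ 2 →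
    ∀ n m : ℕ, 2 * m ≤ n →
    Nat.card {v : Fin m → (Fin n → F) // LinearIndependent F v ∧
        ∀ a b, Cfsg.hermForm n F q (v a) (v b) = 0} =
      ∏ j ∈ Finset.range m, q ^ (2 * j) * isoNum q (n - 2 * j)

/-- UT-FIB: every totally isotropic `m`-space has `|GL_m(q ^ 2)|` ordered bases. -/
def StUtFib : Prop :=
  ∀ (F : Type u) [Field F] [Fintype F] (q : ℕ), Fintype.card F = q ^ 2 → ∀ n m : ℕ,
    Nat.card {v : Fin m → (Fin n → F) // LinearIndependent F v ∧
        ∀ a b, Cfsg.hermForm n F q (v a) (v b) = 0} =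
      Nat.card {W : Submodule F (Fin n → F) // Module.finrank F ↥W = m ∧
        (∀ u ∈ W, ∀ v ∈ W, Cfsg.hermForm n F q u v = 0)} *
      ∏ j ∈ Finset.range m, (Fintype.card F ^ m - Fintype.card F ^ j)

/-- UT-CNTP: the number of totally isotropic `m`-spaces is prime to the characteristic. -/
def StUtCntP : Prop :=
  ∀ (F : Type u) [Field F] [Fintype F] (p : ℕ) [Fact p.Prime] [CharP F p] (q : ℕ),
    Fintype.card F = q ^ 2 → ∀ n m : ℕ, 2 * m ≤ n →
    ¬ p ∣ Nat.card {W : Submodule F (Fin n → F) // Module.finrank F ↥W = m ∧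
        (∀ u ∈ W, ∀ v ∈ W, Cfsg.hermForm n F q u v = 0)}

/-- UT-CNT: if `r` divides the number of totally isotropic `m`-spaces then `c ∣ j` for some
`n - 2 m < j ≤ n`. -/
def StUtCnt : Prop :=
  ∀ (F : Type u) [Field F] [Fintype F] (q : ℕ), Fintype.card F = q ^ 2 →
    ∀ n m r : ℕ, r.Prime → r ≠ 2 → (r : F) ≠ 0 → 2 * m ≤ n →
    r ∣ Nat.card {W : Submodule F (Fin n → F) // Module.finrank F ↥W = m ∧
        (∀ u ∈ W, ∀ v ∈ W, Cfsg.hermForm n F q u v = 0)} →
    ∃ j : ℕ, n - 2 * m < j ∧ j ≤ n ∧ cu q r ∣ j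

/-! ## Totally isotropic subspaces: general facts -/

/-- UT-HALF: a totally isotropic subspace of a nondegenerate subspace `K` has dimension at most
`dim K / 2`. -/
def StUtHalf : Prop :=
  ∀ (F : Type u) [Field F] [Fintype F] (σ : F →+* F) (V : Type v) [AddCommGroup V] [Module F V]
    [FiniteDimensional F V] (B : V →ₗ[F] V →ₛₗ[σ] F) (T : Module.End F V),
    UIso B T → ∀ K U : Submodule F V, K ⊓ perp B K = ⊥ → U ≤ K → UTI B U →
    2 * Module.finrank F U ≤ Module.finrank F K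

/-- UT-PEEL: if every invariant nondegenerate `W ≤ W₁` of dimension `> τ` contains a hyperbolic
pair of rank `a`, then `W₁` contains invariant totally isotropic subspaces of dimension `a j`
as long as `τ + 2 a (j - 1) < dim W₁`. -/
def StUtPeel : Prop :=
  ∀ (F : Type u) [Field F] [Fintype F] (σ : F →+* F) (V : Type v) [AddCommGroup V] [Module F V]
    [FiniteDimensional F V] (B : V →ₗ[F] V →ₛₗ[σ] F) (T : Module.End F V),
    UIso B T → ∀ (a τ : ℕ) (W₁ : Submodule F V), UNd B T W₁ →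
    (∀ W : Submodule F V, W ≤ W₁ → UNd B T W → τ < Module.finrank F W → UHypPair B T a W) →
    ∀ j : ℕ, (j = 0 ∨ τ + 2 * a * (j - 1) < Module.finrank F W₁) →
    ∃ U : Submodule F V, U ≤ W₁ ∧ U ∈ T.invtSubmodule ∧ UTI B U ∧ Module.finrank F U = a * j

/-- UT-COMPND: for a semisimple isometry and a `σ`-self-dual irreducible `φ`, the `φ`-component
of an invariant nondegenerate subspace is nondegenerate. -/
def StUtCompNd : Prop :=
  ∀ (F : Type u) [Field F] [Fintype F] (σ : F →+* F) (V : Type v) [AddCommGroup V] [Module F V]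
    [FiniteDimensional F V] (B : V →ₗ[F] V →ₛₗ[σ] F) (T : Module.End F V),
    UIso B T → T.IsSemisimple → ∀ φ : F[X], Irreducible φ → φ ∣ dualPoly σ φ →
    ∀ W : Submodule F V, UNd B T W → UNd B T (W ⊓ LinearMap.ker (aeval T φ))

/-- UT-HYPCLOSE: inside a nondegenerate invariant `M` killed by an irreducible `φ`, an
invariant totally isotropic subspace of dimension `deg φ` lies in a hyperbolic pair. -/
def StUtHypClose : Prop :=
  ∀ (F : Type u) [Field F] [Fintype F] (σ : F →+* F) (V : Type v) [AddCommGroup V] [Module F V]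
    [FiniteDimensional F V] (B : V →ₗ[F] V →ₛₗ[σ] F) (T : Module.End F V),
    UIso B T → ∀ φ : F[X], Irreducible φ → ∀ M L : Submodule F V, UNd B T M →
    M ≤ LinearMap.ker (aeval T φ) → L ≤ M → L ∈ T.invtSubmodule → UTI B L →
    Module.finrank F L = φ.natDegree → UHypPair B T φ.natDegree M

/-- UT-ANTI: two orthogonal nondegenerate irreducible invariant subspaces of the same type `φ`
contain a diagonal invariant totally isotropic subspace. -/
def StUtAnti : Prop :=
  ∀ (F : Type u) [Field F] [Fintype F] (σ : F →+* F) (V : Type v) [AddCommGroup V] [Module F V]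
    [FiniteDimensional F V] (B : V →ₗ[F] V →ₛₗ[σ] F) (T : Module.End F V),
    UIso B T → T.IsSemisimple → ∀ φ : F[X], Irreducible φ → ∀ L₁ L₂ : Submodule F V,
    UNd B T L₁ → UNd B T L₂ → L₁ ≤ LinearMap.ker (aeval T φ) → L₂ ≤ LinearMap.ker (aeval T φ) →
    L₂ ≤ perp B L₁ → Module.finrank F L₁ = φ.natDegree → Module.finrank F L₂ = φ.natDegree →
    ∃ L : Submodule F V, L ≤ L₁ ⊔ L₂ ∧ L ∈ T.invtSubmodule ∧ UTI B L ∧
      Module.finrank F L = φ.natDegree

/-- UT-PAIR: a nondegenerate invariant `M` killed by an irreducible `φ`, of dimension at least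
`2 deg φ`, contains a hyperbolic pair of rank `deg φ`. -/
def StUtPair : Prop :=
  ∀ (F : Type u) [Field F] [Fintype F] (σ : F →+* F) (V : Type v) [AddCommGroup V] [Module F V]
    [FiniteDimensional F V] (B : V →ₗ[F] V →ₛₗ[σ] F) (T : Module.End F V),
    UIso B T → T.IsSemisimple → ∀ φ : F[X], Irreducible φ → ∀ M : Submodule F V, UNd B T M →
    M ≤ LinearMap.ker (aeval T φ) → 2 * φ.natDegree ≤ Module.finrank F M →
    UHypPair B T φ.natDegree M

/-- UT-WITT: a nondegenerate subspace `K` contains totally isotropic subspaces of every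
dimension `j ≤ dim K / 2`. -/
def StUtWitt : Prop :=
  ∀ (F : Type u) [Field F] [Fintype F] (σ : F →+* F) (V : Type v) [AddCommGroup V] [Module F V]
    [FiniteDimensional F V] (B : V →ₗ[F] V →ₛₗ[σ] F) (T : Module.End F V),
    UIso B T → ∀ K : Submodule F V, K ⊓ perp B K = ⊥ → ∀ j : ℕ, 2 * j ≤ Module.finrank F K →
    ∃ U : Submodule F V, U ≤ K ∧ UTI B U ∧ Module.finrank F U = j

/-! ## Elements with scalar square in odd characteristic (`r = 2 ≠ p`) -/

/-- UT-INVSQ: `T ^ 2 = ν ^ 2` with `ν` of norm 1: invariant totally isotropic subspaces of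
every dimension `m < dim V / 2`, and of dimension `dim V / 2` if the `(-ν)`-eigenspace has even
dimension. -/
def StUtInvSq : Prop :=
  ∀ (F : Type u) [Field F] [Fintype F] (σ : F →+* F) (V : Type v) [AddCommGroup V] [Module F V]
    [FiniteDimensional F V] (B : V →ₗ[F] V →ₛₗ[σ] F) (T : Module.End F V),
    UIso B T → (2 : F) ≠ 0 → ∀ ν : F, ν * σ ν = 1 → T * T = (ν * ν) • (1 : Module.End F V) →
    ∀ m : ℕ, 2 * m ≤ Module.finrank F V →
    (2 * m = Module.finrank F V →
      Even (Module.finrank F ↥(LinearMap.ker (T + ν • (1 : Module.End F V))))) →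
    ∃ U : Submodule F V, U ∈ T.invtSubmodule ∧ UTI B U ∧ Module.finrank F U = m

/-- UT-INVNS: `T ^ 2 = ν ^ 2` with `ν` of norm `-1`: invariant totally isotropic subspaces of
every dimension `m ≤ dim V / 2`. -/
def StUtInvNs : Prop :=
  ∀ (F : Type u) [Field F] [Fintype F] (σ : F →+* F) (V : Type v) [AddCommGroup V] [Module F V]
    [FiniteDimensional F V] (B : V →ₗ[F] V →ₛₗ[σ] F) (T : Module.End F V),
    UIso B T → (2 : F) ≠ 0 → ∀ ν : F, ν * σ ν = -1 → T * T = (ν * ν) • (1 : Module.End F V) →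
    ∀ m : ℕ, 2 * m ≤ Module.finrank F V →
    ∃ U : Submodule F V, U ∈ T.invtSubmodule ∧ UTI B U ∧ Module.finrank F U = m

/-- UT-INVNEC: an element of `SU_n(q)` with `x ^ 2 = ν ^ 2`, `ν` of norm 1, whose
`(-ν)`-eigenspace has odd dimension exists only if `(n)_2 < (q + 1)_2`. -/
def StUtInvNec : Prop :=
  ∀ (F : Type u) [Field F] [Fintype F] (q : ℕ), Fintype.card F = q ^ 2 → Odd q →
    ∀ (n : ℕ) (x : Matrix.SpecialLinearGroup (Fin n) F) (ν : F), 0 < n → x ∈ Cfsg.SU n F q →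
    ν ^ (q + 1) = 1 →
    ((x * x : Matrix.SpecialLinearGroup (Fin n) F) : Matrix (Fin n) (Fin n) F) =
      (ν * ν) • (1 : Matrix (Fin n) (Fin n) F) →
    Odd (Module.finrank F ↥(LinearMap.ker (Matrix.toLin' (x : Matrix (Fin n) (Fin n) F) +
      ν • (1 : Module.End F (Fin n → F))))) →
    padicValNat 2 n < padicValNat 2 (q + 1)

/-- UT-INVEX: for `n` even with `(n)_2 < (q + 1)_2`, an element of `SU_n(q)` with scalar square,
not scalar, all of whose invariant totally isotropic subspaces have dimension `< n / 2`. -/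
def StUtInvEx : Prop :=
  ∀ (F : Type u) [Field F] [Fintype F] (q : ℕ), Fintype.card F = q ^ 2 → Odd q →
    ∀ n : ℕ, Even n → 0 < n → padicValNat 2 n < padicValNat 2 (q + 1) →
    ∃ x : Matrix.SpecialLinearGroup (Fin n) F, x ∈ Cfsg.SU n F q ∧
      (∃ z : F, ((x ^ 2 : Matrix.SpecialLinearGroup (Fin n) F) : Matrix (Fin n) (Fin n) F) =
        z • (1 : Matrix (Fin n) (Fin n) F)) ∧
      (∀ z : F, (x : Matrix (Fin n) (Fin n) F) ≠ z • (1 : Matrix (Fin n) (Fin n) F)) ∧
      ∀ W : Submodule F (Fin n → F),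
        W.map (Matrix.toLin' (x : Matrix (Fin n) (Fin n) F)) ≤ W →
        (∀ u ∈ W, ∀ v ∈ W, Cfsg.hermForm n F q u v = 0) → 2 * Module.finrank F W < n

/-! ## Semisimple isometries of odd prime order `r ≠ p` -/

/-- UT-STEPSD: for `i ≡ 2 (mod 4)` (self-dual types), an invariant nondegenerate subspace whose
non-fixed part has more than `(r - 1) / b` blocks contains a hyperbolic pair of rank `b`. -/
def StUtStepSd : Prop :=
  ∀ (F : Type u) [Field F] [Fintype F] (q : ℕ) (σ : F →+* F) (V : Type v) [AddCommGroup V]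
    [Module F V] [FiniteDimensional F V] (r : ℕ) (B : V →ₗ[F] V →ₛₗ[σ] F) (T : Module.End F V),
    Fintype.card F = q ^ 2 → (∀ x, σ x = x ^ q) → UCtx r B T → orderOf (q : ZMod r) % 4 = 2 →
    ∀ W : Submodule F V, UNd B T W →
    kk T W + ii F r * ((r - 1) / ii F r) < Module.finrank F W → UHypPair B T (ii F r) W

/-- UT-STEPNSD: for `i ≢ 2 (mod 4)` (no self-dual type), an invariant nondegenerate subspace
with a non-fixed vector contains a hyperbolic pair of rank `b`. -/
def StUtStepNsd : Prop :=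
  ∀ (F : Type u) [Field F] [Fintype F] (q : ℕ) (σ : F →+* F) (V : Type v) [AddCommGroup V]
    [Module F V] [FiniteDimensional F V] (r : ℕ) (B : V →ₗ[F] V →ₛₗ[σ] F) (T : Module.End F V),
    Fintype.card F = q ^ 2 → (∀ x, σ x = x ^ q) → UCtx r B T → orderOf (q : ZMod r) % 4 ≠ 2 →
    ∀ W : Submodule F V, UNd B T W → kk T W < Module.finrank F W → UHypPair B T (ii F r) W

/-- UT-UPPER: the dimension of an invariant totally isotropic subspace is `b s + w` with
`2 w ≤ dim C_V(T)`. -/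
def StUtUpper : Prop :=
  ∀ (F : Type u) [Field F] [Fintype F] (σ : F →+* F) (V : Type v) [AddCommGroup V] [Module F V]
    [FiniteDimensional F V] (r : ℕ) (B : V →ₗ[F] V →ₛₗ[σ] F) (T : Module.End F V),
    UCtx r B T → ∀ W : Submodule F V, W ∈ T.invtSubmodule → UTI B W →
    ∃ s w : ℕ, Module.finrank F W = ii F r * s + w ∧ 2 * w ≤ kk T ⊤

/-- UT-UPPERSD: for `i ≡ 2 (mod 4)`, moreover `s ≤ ∑_φ ⌊dim V_φ / (2 b)⌋`. -/
def StUtUpperSd : Prop :=
  ∀ (F : Type u) [Field F] [Fintype F] (q : ℕ) (σ : F →+* F) (V : Type v) [AddCommGroup V]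
    [Module F V] [FiniteDimensional F V] (r : ℕ) (B : V →ₗ[F] V →ₛₗ[σ] F) (T : Module.End F V),
    Fintype.card F = q ^ 2 → (∀ x, σ x = x ^ q) → UCtx r B T → orderOf (q : ZMod r) % 4 = 2 →
    ∀ Φs : Finset F[X], IsCycSet F r Φs →
    ∀ W : Submodule F V, W ∈ T.invtSubmodule → UTI B W →
    ∃ s w : ℕ, Module.finrank F W = ii F r * s + w ∧ 2 * w ≤ kk T ⊤ ∧
      s ≤ ∑ φ ∈ Φs, Module.finrank F ↥(LinearMap.ker (aeval T φ)) / (2 * ii F r)

/-- UT-BUILD: invariant totally isotropic subspaces of dimension `b s + j`. -/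
def StUtBuild : Prop :=
  ∀ (F : Type u) [Field F] [Fintype F] (q : ℕ) (σ : F →+* F) (V : Type v) [AddCommGroup V]
    [Module F V] [FiniteDimensional F V] (r : ℕ) (B : V →ₗ[F] V →ₛₗ[σ] F) (T : Module.End F V),
    Fintype.card F = q ^ 2 → (∀ x, σ x = x ^ q) → UCtx r B T → ∀ s j : ℕ, 2 * j ≤ kk T ⊤ →
    (orderOf (q : ZMod r) % 4 ≠ 2 → kk T ⊤ + 2 * ii F r * s ≤ Module.finrank F V) →
    (orderOf (q : ZMod r) % 4 = 2 → s = 0 ∨
      kk T ⊤ + ii F r * ((r - 1) / ii F r + 2 * s - 1) ≤ Module.finrank F V) →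
    ∃ U : Submodule F V, U ∈ T.invtSubmodule ∧ UTI B U ∧ Module.finrank F U = ii F r * s + j

/-! ## Examples for `i ≡ 2 (mod 4)` -/

/-- Models: a nondegenerate hermitian space of dimension `n` with a semisimple isometry `g`,
`g ^ r = 1`, with fixed space of dimension `k` and isotypic components of dimensions `a φ`. -/
def UModelC (F : Type u) [Field F] (σ : F →+* F) (r n k : ℕ) (Φs : Finset F[X])
    (a : F[X] → ℕ) : Prop :=
  ∃ (V : Type u) (_ : AddCommGroup V) (_ : Module F V) (_ : FiniteDimensional F V)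
    (B : V →ₗ[F] V →ₛₗ[σ] F) (g : Module.End F V),
    Good σ 1 B g ∧ g ^ r = 1 ∧ Module.finrank F V = n ∧
      Module.finrank F ↥(LinearMap.ker (g - 1)) = k ∧
      ∀ φ ∈ Φs, Module.finrank F ↥(LinearMap.ker (aeval g φ)) = a φ

open Classical in
/-- UT-MODBLOCK: for `i ≡ 2 (mod 4)`, one block of type `φ₀`. -/
def StUtModBlock : Prop :=
  ∀ (F : Type u) [Field F] [Fintype F] (p : ℕ) [Fact p.Prime] [CharP F p] (q : ℕ)
    (σ : F →+* F) (r : ℕ), Fintype.card F = q ^ 2 → (∀ x, σ x = x ^ q) → r.Prime → r ≠ 2 →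
    r ≠ p → orderOf (q : ZMod r) % 4 = 2 → ∀ Φs : Finset F[X], IsCycSet F r Φs → ∀ φ₀ ∈ Φs,
    UModelC F σ r (ii F r) 0 Φs (fun φ => if φ = φ₀ then ii F r else 0)

/-- UT-MODSTD: the identity on a standard space. -/
def StUtModStd : Prop :=
  ∀ (F : Type u) [Field F] [Fintype F] (p : ℕ) [Fact p.Prime] [CharP F p] (q : ℕ)
    (σ : F →+* F) (r : ℕ), Fintype.card F = q ^ 2 → (∀ x, σ x = x ^ q) → r.Prime → r ≠ p →
    ∀ Φs : Finset F[X], IsCycSet F r Φs → ∀ m : ℕ, UModelC F σ r m m Φs (fun _ => 0)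

/-- UT-MODADD: orthogonal sums of models. -/
def StUtModAdd : Prop :=
  ∀ (F : Type u) [Field F] [Fintype F] (p : ℕ) [Fact p.Prime] [CharP F p] (σ : F →+* F)
    (r : ℕ), r.Prime → r ≠ p →
    ∀ (Φs : Finset F[X]) (n₁ k₁ n₂ k₂ : ℕ) (a₁ a₂ : F[X] → ℕ),
    UModelC F σ r n₁ k₁ Φs a₁ → UModelC F σ r n₂ k₂ Φs a₂ →
    UModelC F σ r (n₁ + n₂) (k₁ + k₂) Φs (fun φ => a₁ φ + a₂ φ)

/-- UT-MODALL: for `i ≡ 2 (mod 4)`, models with arbitrary multiplicities. -/
def StUtModAll : Prop :=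
  ∀ (F : Type u) [Field F] [Fintype F] (p : ℕ) [Fact p.Prime] [CharP F p] (q : ℕ)
    (σ : F →+* F) (r : ℕ), Fintype.card F = q ^ 2 → (∀ x, σ x = x ^ q) → r.Prime → r ≠ 2 →
    r ≠ p → orderOf (q : ZMod r) % 4 = 2 → ∀ Φs : Finset F[X], IsCycSet F r Φs →
    ∀ (mult : F[X] → ℕ) (m : ℕ),
    UModelC F σ r (m + ii F r * ∑ φ ∈ Φs, mult φ) m Φs (fun φ => ii F r * mult φ)

/-- UT-TRANSPORT: for `i ≠ 2`, a model of dimension `n` gives an element of `SU_n(q)`. -/
def StUtTransport : Prop :=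
  ∀ (F : Type u) [Field F] [Fintype F] (p : ℕ) [Fact p.Prime] [CharP F p] (q : ℕ)
    (σ : F →+* F) (r : ℕ), Fintype.card F = q ^ 2 → (∀ x, σ x = x ^ q) → r.Prime → r ≠ 2 →
    r ≠ p → orderOf (q : ZMod r) ≠ 2 →
    ∀ (Φs : Finset F[X]) (n k : ℕ) (a : F[X] → ℕ), UModelC F σ r n k Φs a →
    ∃ x : Matrix.SpecialLinearGroup (Fin n) F, x ∈ Cfsg.SU n F q ∧ x ^ r = 1 ∧
      Module.finrank F ↥(LinearMap.ker
        (Matrix.toLin' (x : Matrix (Fin n) (Fin n) F) - 1)) = k ∧
      ∀ φ ∈ Φs, Module.finrank F ↥(LinearMap.ker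
        (aeval (Matrix.toLin' (x : Matrix (Fin n) (Fin n) F)) φ)) = a φ

/-- UT-EXSD: for `i ≡ 2 (mod 4)`, `i ≠ 2`, an element of `SU_n(q)` of order `r` with `A` blocks
spread over the `(r - 1) / b` types as evenly as possible. -/
def StUtExSd : Prop :=
  ∀ (F : Type u) [Field F] [Fintype F] (p : ℕ) [Fact p.Prime] [CharP F p] (q : ℕ),
    Fintype.card F = q ^ 2 → ∀ r : ℕ, r.Prime → r ≠ 2 → r ≠ p →
    orderOf (q : ZMod r) % 4 = 2 → orderOf (q : ZMod r) ≠ 2 →
    ∀ Φs : Finset F[X], IsCycSet F r Φs → ∀ n A : ℕ, ii F r * A ≤ n →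
    ∃ x : Matrix.SpecialLinearGroup (Fin n) F, x ∈ Cfsg.SU n F q ∧ x ^ r = 1 ∧
      Module.finrank F ↥(LinearMap.ker
        (Matrix.toLin' (x : Matrix (Fin n) (Fin n) F) - 1)) + ii F r * A = n ∧
      ∑ φ ∈ Φs, Module.finrank F ↥(LinearMap.ker
        (aeval (Matrix.toLin' (x : Matrix (Fin n) (Fin n) F)) φ)) / (2 * ii F r) ≤
        if A ≤ (r - 1) / ii F r then 0 else (A - (r - 1) / ii F r + 1) / 2

/-- UT-EXTWO: for `r ∣ q + 1`, a diagonalisable element of `SU_n(q)` of order `r`, not scalar,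
whose eigenvalues `≠ 1` are simple and whose fixed space has dimension `≤ 1` or `n + 1 - r`. -/
def StUtExTwo : Prop :=
  ∀ (F : Type u) [Field F] [Fintype F] (q : ℕ), Fintype.card F = q ^ 2 →
    ∀ r : ℕ, r.Prime → r ≠ 2 → r ∣ q + 1 → ∀ Φs : Finset F[X], IsCycSet F r Φs →
    ∀ n : ℕ, 2 ≤ n →
    ∃ x : Matrix.SpecialLinearGroup (Fin n) F, x ∈ Cfsg.SU n F q ∧ x ^ r = 1 ∧
      (∀ z : F, (x : Matrix (Fin n) (Fin n) F) ≠ z • (1 : Matrix (Fin n) (Fin n) F)) ∧
      (Module.finrank F ↥(LinearMap.ker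
          (Matrix.toLin' (x : Matrix (Fin n) (Fin n) F) - 1)) ≤ 1 ∨
        Module.finrank F ↥(LinearMap.ker
          (Matrix.toLin' (x : Matrix (Fin n) (Fin n) F) - 1)) + r = n + 1) ∧
      ∀ φ ∈ Φs, Module.finrank F ↥(LinearMap.ker
        (aeval (Matrix.toLin' (x : Matrix (Fin n) (Fin n) F)) φ)) ≤ 1

/-! ## The Kummer case -/

/-- UT-KUMTI: `T ^ r = z` with `z` not an `r`-th power: invariant totally isotropic subspaces
of every dimension `r j ≤ dim V / 2`. -/
def StUtKumTi : Prop :=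
  ∀ (F : Type u) [Field F] [Fintype F] (σ : F →+* F) (V : Type v) [AddCommGroup V] [Module F V]
    [FiniteDimensional F V] (B : V →ₗ[F] V →ₛₗ[σ] F) (T : Module.End F V),
    UIso B T → T.IsSemisimple → ∀ r : ℕ, r.Prime → ∀ z : F, (∀ b : F, b ^ r ≠ z) →
    T ^ r = z • (1 : Module.End F V) → ∀ j : ℕ, 2 * (r * j) ≤ Module.finrank F V →
    ∃ U : Submodule F V, U ∈ T.invtSubmodule ∧ UTI B U ∧ Module.finrank F U = r * j

end Cfsg.Agent.H42.Ut
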