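import Mathlib
import Cfsg.Agent.H42.UnDefs
import Cfsg.Agent.H42.UnBase
import Cfsg.Agent.H64.UnHyp
import Cfsg.Agent.H27.UnCompl
import Cfsg.Agent.H27.UnSum
import Cfsg.Agent.H13.UnPeel
import Cfsg.Agent.H91.UnSqrt
import Cfsg.Agent.H25.UnInvSq
import Cfsg.Agent.H40.UnInvNs
import Cfsg.Agent.H12.UnInvEven
import Cfsg.Agent.H98.UnInvEx
import Cfsg.Agent.H25.UnInvNec
import Cfsg.Agent.H16.UnBlock
import Cfsg.Agent.H12.UnRel
import Cfsg.Agent.H12.UnFix
import Cfsg.Agent.H24.UnModc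
import Cfsg.Agent.H24.UnSub
import Cfsg.Agent.H14.UnEx
import Cfsg.Agent.H13.UnUnit
import Cfsg.Agent.H13.UnFrames
import Cfsg.Agent.H80.UnFib
import Cfsg.Agent.H27.UnOrd
import Cfsg.Agent.H70.UnNdCnt
import Cfsg.Agent.H89.UnKumNT
import Cfsg.Agent.H89.UnKumPeel
import Cfsg.Agent.H89.UnKumEx
import Cfsg.Agent.H89.UnKumNec

/-!
# The pieces of the S5954 project, composed (unconditional versions)

One import for the unitary infrastructure proved by the team for S5954: every `St…` statement of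
`UnDefs` used for semisimple elements, as a theorem without hypotheses.
-/

set_option autoImplicit false

namespace Cfsg.Agent.H42.Un

universe u v

theorem kHyp : StUHyp.{u, v} := Cfsg.Agent.H64.Un.uHyp
theorem kCompl : StUCompl.{u, v} := Cfsg.Agent.H27.Un.uCompl
theorem kSum : StUSum.{u, v} := Cfsg.Agent.H27.Un.uSum
theorem kPeel : StUPeel.{u, v} := Cfsg.Agent.H13.Un.uPeel kCompl kSum
theorem kSqrt : StUSqrt.{u} := Cfsg.Agent.H91.Un.uSqrt
theorem kInvSq : StUInvSq.{u, v} := Cfsg.Agent.H25.Un.uInvSq kHyp kPeel kSum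
theorem kInvNs : StUInvNs.{u, v} := Cfsg.Agent.H40.Un.uInvNs kPeel
theorem kInvEven : StUInvEven.{u, v} := Cfsg.Agent.H12.Un.uInvEven
theorem kInvEx : StUInvEx.{u} := Cfsg.Agent.H98.Un.uInvEx
theorem kInvNec : StUInvNec.{u} := Cfsg.Agent.H25.Un.uInvNec kInvEven
theorem kBlock : StUBlock.{u, v} := Cfsg.Agent.H16.Un.uBlock
theorem kBlockRel : StUBlockRel.{u, v} := Cfsg.Agent.H12.Un.uBlockRel kBlock
theorem kFix : StUFix.{u, v} := Cfsg.Agent.H12.Un.uFix
theorem kModc : StUModc.{u, v} := Cfsg.Agent.H24.Un.uModc kBlockRel kFix kCompl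
theorem kSub : StUSub.{u, v} := Cfsg.Agent.H24.Un.uSub kBlockRel kHyp kFix kCompl kSum
theorem kEx : StUEx.{u} := Cfsg.Agent.H14.Un.uEx
theorem kUnit : StUUnit.{u, v} := Cfsg.Agent.H13.Un.uUnit
theorem kFrames : StUFrames.{u, v} := Cfsg.Agent.H13.Un.uFrames kUnit
theorem kFib : StUFib.{u} := Cfsg.Agent.H80.Un.uFib kFrames
theorem kOrd : StUOrd := Cfsg.Agent.H27.Un.uOrd
theorem kNdCnt : StUNdCnt.{u} := Cfsg.Agent.H70.Un.uNdCnt kFrames kFib kOrd
theorem kKumNT : StUKumNT.{u} := Cfsg.Agent.H89.Un.uKumNT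
theorem kKumPeel : StUKumPeel.{u, v} := Cfsg.Agent.H89.Un.uKumPeel kHyp kPeel
theorem kKumEx : StUKumEx.{u} := Cfsg.Agent.H89.Un.uKumEx
theorem kKumNec : StUKumNec.{u} := Cfsg.Agent.H89.Un.uKumNec

end Cfsg.Agent.H42.Un
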