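import Mathlib
import Cfsg.Prelude.Def_LieClassical
import Cfsg.Agent.H17.HermBasis
import Cfsg.Agent.H42.SUBasic
import Cfsg.Agent.H7.Unitary

set_option autoImplicit false

namespace Cfsg.Agent.H42

open Module

section CubeHerm

variable {F K V : Type*} [Field F] [Field K] [Algebra F K] [AddCommGroup V] [Module F V]
  [Module K V] [IsScalarTower F K V]

/-- the `K`-valued Hermitian form attached to an alternating form invariant under a cube root of
unity. -/
def cubeH (ω : V →ₗ[F] V →ₗ[F] F) (ζ : K) (u v : V) : K :=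
  algebraMap F K (ω u v) * (ζ + 1) + algebraMap F K (ω u (ζ • v))

theorem cubeH_add_left (ω : V →ₗ[F] V →ₗ[F] F) (ζ : K) (u u' v : V) :
    cubeH ω ζ (u + u') v = cubeH ω ζ u v + cubeH ω ζ u' v := by
  simp only [cubeH, map_add, LinearMap.add_apply]
  ring

theorem cubeH_add_right (ω : V →ₗ[F] V →ₗ[F] F) (ζ : K) (u v v' : V) :
    cubeH ω ζ u (v + v') = cubeH ω ζ u v + cubeH ω ζ u v' := by
  simp only [cubeH, map_add, smul_add]
  ring

theorem cubeH_smulF_left (ω : V →ₗ[F] V →ₗ[F] F) (ζ : K) (a : F) (u v : V) :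
    cubeH ω ζ (a • u) v = algebraMap F K a * cubeH ω ζ u v := by
  simp only [cubeH, map_smul, LinearMap.smul_apply, smul_eq_mul, map_mul]
  ring

theorem cubeH_smulF_right (ω : V →ₗ[F] V →ₗ[F] F) (ζ : K) (a : F) (u v : V) :
    cubeH ω ζ u (a • v) = algebraMap F K a * cubeH ω ζ u v := by
  have h1 : ζ • a • v = a • ζ • v := smul_comm ζ a v
  simp only [cubeH, h1, map_smul, smul_eq_mul, map_mul]
  ring

theorem zeta_sq_smul (ζ : K) (hζ : ζ ^ 2 + ζ + 1 = 0) (v : V) :
    ζ • ζ • v = -(ζ • v) - v := by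
  have h1 : ζ * ζ = -ζ - 1 := by linear_combination hζ
  rw [smul_smul, h1, sub_smul, neg_smul, one_smul]

theorem zeta_cube_smul (ζ : K) (hζ : ζ ^ 2 + ζ + 1 = 0) (v : V) :
    ζ • ζ • ζ • v = v := by
  have h1 : ζ * ζ * ζ = 1 := by linear_combination (ζ - 1) * hζ
  rw [smul_smul, smul_smul, h1, one_smul]

theorem omega_zeta_left (ω : V →ₗ[F] V →ₗ[F] F) (ζ : K) (hζ : ζ ^ 2 + ζ + 1 = 0)
    (hωζ : ∀ u v, ω (ζ • u) (ζ • v) = ω u v) (u v : V) :
    ω (ζ • u) v = -ω u v - ω u (ζ • v) := by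
  have h1 : ω (ζ • u) v = ω (ζ • u) (ζ • ζ • ζ • v) := by rw [zeta_cube_smul ζ hζ]
  rw [h1, hωζ, zeta_sq_smul ζ hζ, map_sub, map_neg]
  ring

theorem cubeH_zeta_right (ω : V →ₗ[F] V →ₗ[F] F) (ζ : K) (hζ : ζ ^ 2 + ζ + 1 = 0) (u v : V) :
    cubeH ω ζ u (ζ • v) = ζ * cubeH ω ζ u v := by
  simp only [cubeH, zeta_sq_smul ζ hζ, map_sub, map_neg]
  linear_combination (-(algebraMap F K (ω u v))) * hζ

theorem cubeH_zeta_left (ω : V →ₗ[F] V →ₗ[F] F) (ζ : K) (hζ : ζ ^ 2 + ζ + 1 = 0)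
    (hωζ : ∀ u v, ω (ζ • u) (ζ • v) = ω u v) (u v : V) :
    cubeH ω ζ (ζ • u) v = ζ ^ 2 * cubeH ω ζ u v := by
  simp only [cubeH, hωζ, omega_zeta_left ω ζ hζ hωζ, map_sub, map_neg]
  linear_combination (-(algebraMap F K (ω u (ζ • v)) + algebraMap F K (ω u v) * ζ)) * hζ

theorem omega_anti (ω : V →ₗ[F] V →ₗ[F] F) (hωalt : ∀ u, ω u u = 0) (u v : V) :
    ω u v = -ω v u := by
  have h := hωalt (u + v)
  simp only [map_add, LinearMap.add_apply, hωalt, zero_add, add_zero] at h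
  linear_combination h

theorem cubeH_symm (ω : V →ₗ[F] V →ₗ[F] F) (ζ : K) (hζ : ζ ^ 2 + ζ + 1 = 0)
    (hωalt : ∀ u, ω u u = 0) (hωζ : ∀ u v, ω (ζ • u) (ζ • v) = ω u v)
    (σ : K →+* K) (hσF : ∀ a : F, σ (algebraMap F K a) = algebraMap F K a) (hσζ : σ ζ = ζ ^ 2)
    (u v : V) : σ (cubeH ω ζ u v) = cubeH ω ζ v u := by
  have h1 : ω v u = -ω u v := omega_anti ω hωalt v u
  have h2 : ω v (ζ • u) = ω u v + ω u (ζ • v) := by
    rw [omega_anti ω hωalt v (ζ • u), omega_zeta_left ω ζ hζ hωζ]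
    ring
  simp only [cubeH, map_add, map_mul, hσF, hσζ, map_one, h1, h2, map_neg]
  linear_combination (algebraMap F K (ω u v)) * hζ

theorem cubeH_smul_left (ω : V →ₗ[F] V →ₗ[F] F) (ζ : K) (hζ : ζ ^ 2 + ζ + 1 = 0)
    (hωζ : ∀ u v, ω (ζ • u) (ζ • v) = ω u v)
    (σ : K →+* K) (hσF : ∀ a : F, σ (algebraMap F K a) = algebraMap F K a) (hσζ : σ ζ = ζ ^ 2)
    (hdec : ∀ k : K, ∃ a b : F, k = algebraMap F K a + algebraMap F K b * ζ) (c : K) (u v : V) :
    cubeH ω ζ (c • u) v = σ c * cubeH ω ζ u v := by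
  obtain ⟨a, b, rfl⟩ := hdec c
  have h1 : (algebraMap F K a + algebraMap F K b * ζ) • u = a • u + b • ζ • u := by
    rw [add_smul, mul_smul, algebraMap_smul, algebraMap_smul]
  rw [h1, cubeH_add_left, cubeH_smulF_left, cubeH_smulF_left, cubeH_zeta_left ω ζ hζ hωζ]
  simp only [map_add, map_mul, hσF, hσζ]
  ring

theorem cubeH_smul_right (ω : V →ₗ[F] V →ₗ[F] F) (ζ : K) (hζ : ζ ^ 2 + ζ + 1 = 0)
    (hdec : ∀ k : K, ∃ a b : F, k = algebraMap F K a + algebraMap F K b * ζ) (c : K) (u v : V) :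
    cubeH ω ζ u (c • v) = c * cubeH ω ζ u v := by
  obtain ⟨a, b, rfl⟩ := hdec c
  have h1 : (algebraMap F K a + algebraMap F K b * ζ) • v = a • v + b • ζ • v := by
    rw [add_smul, mul_smul, algebraMap_smul, algebraMap_smul]
  rw [h1, cubeH_add_right, cubeH_smulF_right, cubeH_smulF_right, cubeH_zeta_right ω ζ hζ]
  ring

/-- the Hermitian form as a sesquilinear map. -/
noncomputable def cubeS (ω : V →ₗ[F] V →ₗ[F] F) (ζ : K) (hζ : ζ ^ 2 + ζ + 1 = 0)
    (hωζ : ∀ u v, ω (ζ • u) (ζ • v) = ω u v)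
    (σ : K →+* K) (hσF : ∀ a : F, σ (algebraMap F K a) = algebraMap F K a) (hσζ : σ ζ = ζ ^ 2)
    (hdec : ∀ k : K, ∃ a b : F, k = algebraMap F K a + algebraMap F K b * ζ) :
    V →ₛₗ[σ] V →ₗ[K] K :=
  LinearMap.mk₂'ₛₗ σ (RingHom.id K) (cubeH ω ζ)
    (fun u u' v => cubeH_add_left ω ζ u u' v)
    (fun c u v => by rw [cubeH_smul_left ω ζ hζ hωζ σ hσF hσζ hdec c u v]; rfl)
    (fun u v v' => cubeH_add_right ω ζ u v v')
    (fun c u v => by rw [cubeH_smul_right ω ζ hζ hdec c u v]; rfl)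

/-- The centraliser of a fixed-point-free element of order three, as a unitary group. -/
theorem card_cube_isom [Fintype K] [FiniteDimensional K V] {q m : ℕ}
    (hK : Fintype.card K = q ^ 2)
    (ω : V →ₗ[F] V →ₗ[F] F) (ζ : K) (hζ : ζ ^ 2 + ζ + 1 = 0)
    (hωalt : ∀ u, ω u u = 0) (hωnd : ∀ u, (∀ v, ω u v = 0) → u = 0)
    (hωζ : ∀ u v, ω (ζ • u) (ζ • v) = ω u v)
    (hσF : ∀ a : F, (algebraMap F K a) ^ q = algebraMap F K a) (hσζ : ζ ^ q = ζ ^ 2)
    (hdec : ∀ k : K, ∃ a b : F, k = algebraMap F K a + algebraMap F K b * ζ)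
    (hind : ∀ a b : F, algebraMap F K a + algebraMap F K b * ζ = 0 → a = 0 ∧ b = 0)
    (hdim : finrank K V = m) :
    Nat.card {g : V →ₗ[F] V // (∀ u v, ω (g u) (g v) = ω u v) ∧ ∀ v, g (ζ • v) = ζ • g v} =
      Nat.card (Cfsg.GU m K q) := by
  classical
  have hq := Cfsg.Agent.H17.two_le_of_card_sq hK
  have hσ := frobH_ne_id hK
  have hσ2 := frobH_invol hK
  have hσF' : ∀ a : F, frobH hK (algebraMap F K a) = algebraMap F K a := hσF
  have hσζ' : frobH hK ζ = ζ ^ 2 := hσζ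
  obtain ⟨S, hSdef⟩ : ∃ S : V →ₛₗ[frobH hK] V →ₗ[K] K,
      S = cubeS ω ζ hζ hωζ (frobH hK) hσF' hσζ' hdec := ⟨_, rfl⟩
  have hS_apply : ∀ u v, S u v = cubeH ω ζ u v := fun u v => by rw [hSdef]; rfl
  have hSsymm : S.IsSymm := ⟨fun u v => by
    rw [hS_apply, hS_apply]
    exact cubeH_symm ω ζ hζ hωalt hωζ (frobH hK) hσF' hσζ' u v⟩
  have hzero : ∀ u v, cubeH ω ζ u v = 0 → ω u v = 0 := by
    intro u v h
    have h' : algebraMap F K (ω u v + ω u (ζ • v)) + algebraMap F K (ω u v) * ζ = 0 := by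
      rw [map_add]
      rw [cubeH] at h
      linear_combination h
    exact (hind _ _ h').2
  have hSnd : S.Nondegenerate := by
    have hL : ∀ u, (∀ v, S u v = 0) → u = 0 :=
      fun u hu => hωnd u (fun v => hzero u v (by rw [← hS_apply]; exact hu v))
    refine ⟨hL, ?_⟩
    intro v hv
    apply hL
    intro u
    rw [← hSsymm.eq, hv u, map_zero]
  obtain ⟨b, hb⟩ := Cfsg.Agent.H17.herm_onb_aux (frobH hK) hσ hσ2 m V S hSsymm hSnd hdim
  have hrepr : ∀ (u : V) (j : Fin m), b.repr u j = S (b j) u := by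
    intro c j
    conv_rhs => rw [← b.sum_repr c]
    simp only [map_sum, map_smul, smul_eq_mul, hb, mul_ite, mul_one, mul_zero,
      Finset.sum_ite_eq, Finset.mem_univ, if_true]
  have hSform : ∀ u v, S u v = Cfsg.hermForm m K q (b.equivFun v) (b.equivFun u) := by
    intro u v
    have h1 : S u v = S (∑ i, b.repr u i • b i) v := by rw [b.sum_repr]
    rw [h1, map_sum, LinearMap.sum_apply]
    unfold Cfsg.hermForm
    apply Finset.sum_congr rfl
    intro i _
    rw [LinearMap.map_smulₛₗ, LinearMap.smul_apply, smul_eq_mul, ← hrepr,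
      Module.Basis.equivFun_apply, Module.Basis.equivFun_apply, mul_comm]
    rfl
  have hpres : ∀ g : V →ₗ[K] V, (∀ u v, S (g u) (g v) = S u v) →
      ∀ u v, ω (g u) (g v) = ω u v := by
    intro g hg u v
    have h1 := hg u v
    rw [hS_apply, hS_apply] at h1
    unfold cubeH at h1
    rw [← map_smul g ζ v] at h1
    have h2 : algebraMap F K ((ω (g u) (g v) - ω u v) + (ω (g u) (g (ζ • v)) - ω u (ζ • v))) +
        algebraMap F K (ω (g u) (g v) - ω u v) * ζ = 0 := by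
      simp only [map_add, map_sub]
      linear_combination h1
    exact sub_eq_zero.mp (hind _ _ h2).2
  have E1 : Nat.card {g : V →ₗ[F] V // (∀ u v, ω (g u) (g v) = ω u v) ∧
      ∀ v, g (ζ • v) = ζ • g v} =
      Nat.card {g : V →ₗ[K] V // ∀ u v, S (g u) (g v) = S u v} := by
    symm
    apply Nat.card_eq_of_bijective (fun g : {g : V →ₗ[K] V // ∀ u v, S (g u) (g v) = S u v} =>
      (⟨g.1.restrictScalars F, hpres g.1 g.2, fun v => g.1.map_smul ζ v⟩ :
        {g : V →ₗ[F] V // (∀ u v, ω (g u) (g v) = ω u v) ∧ ∀ v, g (ζ • v) = ζ • g v}))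
    constructor
    · intro g g' h
      apply Subtype.ext
      have h1 : g.1.restrictScalars F = g'.1.restrictScalars F := congrArg Subtype.val h
      ext v
      exact congrArg (fun f : V →ₗ[F] V => f v) h1
    · rintro ⟨g, hg1, hg2⟩
      let gK : V →ₗ[K] V :=
        { toFun := g
          map_add' := g.map_add
          map_smul' := fun k v => by
            obtain ⟨a, b, rfl⟩ := hdec k
            simp only [add_smul, mul_smul, algebraMap_smul, map_add, map_smul, hg2,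
              RingHom.id_apply] }
      have hgK : ∀ v, gK v = g v := fun v => rfl
      refine ⟨⟨gK, ?_⟩, ?_⟩
      · intro u v
        rw [hS_apply, hS_apply]
        unfold cubeH
        rw [hgK, hgK, ← hg2, hg1, hg1]
      · apply Subtype.ext
        ext v
        rfl
  have E2 : Nat.card {g : V →ₗ[K] V // ∀ u v, S (g u) (g v) = S u v} =
      Nat.card {M : Matrix (Fin m) (Fin m) K // ∀ y y', Cfsg.hermForm m K q (M.mulVec y)
        (M.mulVec y') = Cfsg.hermForm m K q y y'} := by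
    apply Nat.card_congr
    apply (LinearMap.toMatrix b b).toEquiv.subtypeEquiv
    intro g
    have hM : ∀ x, (LinearMap.toMatrix b b g).mulVec (b.equivFun x) = b.equivFun (g x) :=
      fun x => LinearMap.toMatrix_mulVec_repr b b g x
    constructor
    · intro hg y y'
      obtain ⟨u, rfl⟩ := b.equivFun.surjective y
      obtain ⟨v, rfl⟩ := b.equivFun.surjective y'
      show Cfsg.hermForm m K q ((LinearMap.toMatrix b b g).mulVec (b.equivFun u))
        ((LinearMap.toMatrix b b g).mulVec (b.equivFun v)) = _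
      rw [hM, hM, ← hSform, hg, hSform]
    · intro hg u v
      have hg' := hg (b.equivFun v) (b.equivFun u)
      have hg'' : Cfsg.hermForm m K q ((LinearMap.toMatrix b b g).mulVec (b.equivFun v))
        ((LinearMap.toMatrix b b g).mulVec (b.equivFun u)) =
          Cfsg.hermForm m K q (b.equivFun v) (b.equivFun u) := hg'
      rw [hM, hM] at hg''
      rw [hSform, hg'', ← hSform]
  have E3 : Nat.card {M : Matrix (Fin m) (Fin m) K // ∀ y y', Cfsg.hermForm m K q (M.mulVec y)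
        (M.mulVec y') = Cfsg.hermForm m K q y y'} = Nat.card (Cfsg.GU m K q) := by
    symm
    apply Nat.card_eq_of_bijective (fun g : Cfsg.GU m K q =>
      (⟨((g : GL (Fin m) K) : Matrix (Fin m) (Fin m) K), g.2⟩ :
        {M : Matrix (Fin m) (Fin m) K // ∀ y y', Cfsg.hermForm m K q (M.mulVec y)
          (M.mulVec y') = Cfsg.hermForm m K q y y'}))
    constructor
    · intro g g' h
      apply Subtype.ext
      apply Units.ext
      exact congrArg Subtype.val h
    · rintro ⟨M, hM⟩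
      obtain ⟨g, hg1, hg2⟩ := Cfsg.Agent.H7.exists_GUI_of_preserves (ι := Fin m) q (by omega) M hM
      exact ⟨⟨g, hg2⟩, Subtype.ext hg1⟩
  rw [E1, E2, E3]


end CubeHerm

end Cfsg.Agent.H42
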