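import Mathlib
import Cfsg.Agent.H42.CubeHerm
import Cfsg.Agent.H42.SpInv
import Cfsg.Agent.H42.OInv

set_option autoImplicit false
set_option linter.style.haveILetI false

namespace Cfsg.Agent.H42

open Module Polynomial

section EvK

variable {F : Type*} [Field F] {W : Type*} [AddCommGroup W] [Module F W]

/-- Evaluation of `AdjoinRoot f` at an endomorphism killed by `f`. -/
noncomputable def evHomK (f : F[X]) (t : Module.End F W) (ht : aeval t f = 0) :
    AdjoinRoot f →+* Module.End F W :=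
  Ideal.Quotient.lift (Ideal.span {f}) (aeval t : F[X] →ₐ[F] Module.End F W).toRingHom (by
    intro a ha
    obtain ⟨b, rfl⟩ := Ideal.mem_span_singleton.mp ha
    show aeval t (f * b) = 0
    rw [map_mul, ht, zero_mul])

theorem evHomK_mk (f : F[X]) (t : Module.End F W) (ht : aeval t f = 0) (p : F[X]) :
    evHomK f t ht (AdjoinRoot.mk f p) = aeval t p := rfl

theorem evHomK_root (f : F[X]) (t : Module.End F W) (ht : aeval t f = 0) :
    evHomK f t ht (AdjoinRoot.root f) = t := by
  rw [← AdjoinRoot.mk_X, evHomK_mk, aeval_X]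

theorem evHomK_of (f : F[X]) (t : Module.End F W) (ht : aeval t f = 0) (a : F) :
    evHomK f t ht (AdjoinRoot.of f a) = algebraMap F (Module.End F W) a := by
  rw [← AdjoinRoot.mk_C, evHomK_mk, aeval_C]

end EvK

section CubeStruct

variable {F : Type*} [Field F] [Fintype F] {q : ℕ}

theorem three_ne_zero_of_mod (hF : Fintype.card F = q) (hq : q % 3 = 2) : (3 : F) ≠ 0 := by
  intro h3
  have h1 : ((q : ℕ) : F) = 0 := by rw [← hF]; exact FiniteField.cast_card_eq_zero F
  have h2 : q = 3 * (q / 3) + 2 := by omega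
  rw [h2] at h1
  push_cast at h1
  rw [h3, zero_mul, zero_add] at h1
  have : (1 : F) = 0 := by linear_combination h3 - h1
  exact one_ne_zero this

theorem cube_no_root (hF : Fintype.card F = q) (hq : q % 3 = 2) (a : F) :
    a ^ 2 + a + 1 ≠ 0 := by
  intro h
  have h3 := three_ne_zero_of_mod hF hq
  have ha0 : a ≠ 0 := by
    rintro rfl
    simp at h
  have ha3 : a ^ 3 = 1 := by linear_combination (a - 1) * h
  have h1 : a ^ (q - 1) = 1 := by
    rw [← hF]; exact FiniteField.pow_card_sub_one_eq_one a ha0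
  have h2 : q - 1 = 3 * (q / 3) + 1 := by omega
  rw [h2, pow_succ, pow_mul, ha3, one_pow, one_mul] at h1
  rw [h1] at h
  apply h3
  linear_combination h

theorem cube_structure (hF : Fintype.card F = q) (hq : q % 3 = 2) {V : Type*} [AddCommGroup V]
    [Module F V] [FiniteDimensional F V]
    (t : Module.End F V) (ht : t * t + t + 1 = 0) {m : ℕ} (hV : finrank F V = 2 * m)
    (ω : V →ₗ[F] V →ₗ[F] F) (hωalt : ∀ u, ω u u = 0) (hωnd : ∀ u, (∀ v, ω u v = 0) → u = 0)
    (hωt : ∀ u v, ω (t u) (t v) = ω u v) :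
    Nat.card {g : V →ₗ[F] V // (∀ u v, ω (g u) (g v) = ω u v) ∧ ∀ v, g (t v) = t (g v)} =
      q ^ (m * (m - 1) / 2) *
        ∏ i ∈ Finset.range m, (if Even i then q ^ (i + 1) + 1 else q ^ (i + 1) - 1) := by
  classical
  have h3 := three_ne_zero_of_mod hF hq
  obtain ⟨f, hfdef⟩ : ∃ f : F[X], f = X ^ 2 + (X + C 1) := ⟨_, rfl⟩
  have hdX : degree (X + C (1 : F)) < ((2 : ℕ) : WithBot ℕ) := by
    rw [degree_X_add_C]
    exact_mod_cast (by norm_num : (1 : ℕ) < 2)
  have hmonic : f.Monic := by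
    rw [hfdef]; exact monic_X_pow_add hdX
  have hdeg : f.natDegree = 2 := by
    rw [hfdef, natDegree_add_eq_left_of_natDegree_lt (by
      rw [natDegree_X_pow, natDegree_X_add_C]; norm_num), natDegree_X_pow]
  have hf0 : f ≠ 0 := hmonic.ne_zero
  have hirr : Irreducible f := by
    rw [hmonic.irreducible_iff_roots_eq_zero_of_degree_le_three (by rw [hdeg])
      (by rw [hdeg]; norm_num)]
    rw [Multiset.eq_zero_iff_forall_notMem]
    intro a ha
    have hroot : f.IsRoot a := (mem_roots hf0).mp ha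
    rw [hfdef, IsRoot, eval_add, eval_add, eval_pow, eval_X, eval_C] at hroot
    exact cube_no_root hF hq a (by linear_combination hroot)
  haveI : Fact (Irreducible f) := ⟨hirr⟩
  have ht' : aeval t f = 0 := by
    rw [hfdef, map_add, map_add, map_pow, aeval_X, aeval_C, map_one, pow_two, ← add_assoc]
    exact ht
  letI instM : Module (AdjoinRoot f) V := Module.compHom V (evHomK f t ht')
  have hsmul : ∀ (k : AdjoinRoot f) (v : V), k • v = evHomK f t ht' k v := fun _ _ => rfl
  haveI : IsScalarTower F (AdjoinRoot f) V := ⟨fun a k v => by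
    rw [hsmul, hsmul, Algebra.smul_def, map_mul, AdjoinRoot.algebraMap_eq, evHomK_of,
      Module.End.mul_apply, Module.algebraMap_end_apply]⟩
  haveI hfinK : Module.Finite F (AdjoinRoot f) := (AdjoinRoot.powerBasis hf0).finite
  haveI : Finite (AdjoinRoot f) := Module.finite_of_finite F
  letI : Fintype (AdjoinRoot f) := Fintype.ofFinite _
  have hfin : finrank F (AdjoinRoot f) = 2 := by
    rw [(AdjoinRoot.powerBasis hf0).finrank, AdjoinRoot.powerBasis_dim, hdeg]
  have hK : Fintype.card (AdjoinRoot f) = q ^ 2 := by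
    rw [← Nat.card_eq_fintype_card, Module.natCard_eq_pow_finrank (K := F), hfin,
      Nat.card_eq_fintype_card, hF]
  haveI : FiniteDimensional (AdjoinRoot f) V :=
    Module.Finite.of_restrictScalars_finite F (AdjoinRoot f) V
  have hdim : finrank (AdjoinRoot f) V = m := by
    have := Module.finrank_mul_finrank F (AdjoinRoot f) V
    rw [hfin, hV] at this
    omega
  obtain ⟨ζ, hζdef⟩ : ∃ ζ : AdjoinRoot f, ζ = AdjoinRoot.root f := ⟨_, rfl⟩
  have hζ : ζ ^ 2 + ζ + 1 = 0 := by
    have h : aeval (AdjoinRoot.root f) (X ^ 2 + (X + C 1) : F[X]) = 0 := by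
      rw [← hfdef, AdjoinRoot.aeval_eq, AdjoinRoot.mk_self]
    rw [map_add, map_add, map_pow, aeval_X, aeval_C, map_one, ← hζdef] at h
    linear_combination h
  have hζt : ∀ v, ζ • v = t v := fun v => by rw [hsmul, hζdef, evHomK_root]
  have hωζ : ∀ u v, ω (ζ • u) (ζ • v) = ω u v := fun u v => by rw [hζt, hζt, hωt]
  have hσF : ∀ a : F, (algebraMap F (AdjoinRoot f) a) ^ q = algebraMap F (AdjoinRoot f) a := by
    intro a
    rw [← map_pow, ← hF, FiniteField.pow_card]
  have hζ3 : ζ ^ 3 = 1 := by linear_combination (ζ - 1) * hζ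
  have hσζ : ζ ^ q = ζ ^ 2 := by
    have h2 : q = 3 * (q / 3) + 2 := by omega
    rw [h2, pow_add, pow_mul, hζ3, one_pow, one_mul]
  have hdec : ∀ k : AdjoinRoot f, ∃ a b : F,
      k = algebraMap F (AdjoinRoot f) a + algebraMap F (AdjoinRoot f) b * ζ := by
    intro k
    obtain ⟨p, rfl⟩ := AdjoinRoot.mk_surjective k
    have h1 := modByMonic_add_div p f
    have h2 : (p %ₘ f).natDegree ≤ 1 := by
      have := natDegree_modByMonic_lt p hmonic (by
        intro h1
        rw [h1] at hdeg
        simp at hdeg)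
      omega
    obtain ⟨b, a, hab⟩ := exists_eq_X_add_C_of_natDegree_le_one h2
    refine ⟨a, b, ?_⟩
    rw [← h1, map_add, map_mul, AdjoinRoot.mk_self, zero_mul, add_zero, hab, map_add, map_mul,
      AdjoinRoot.mk_C, AdjoinRoot.mk_C, AdjoinRoot.mk_X, AdjoinRoot.algebraMap_eq, hζdef]
    ring
  have hind : ∀ a b : F,
      algebraMap F (AdjoinRoot f) a + algebraMap F (AdjoinRoot f) b * ζ = 0 → a = 0 ∧ b = 0 := by
    intro a b h
    have h1 : AdjoinRoot.mk f (C b * X + C a) = 0 := by
      rw [map_add, map_mul, AdjoinRoot.mk_C, AdjoinRoot.mk_C, AdjoinRoot.mk_X, ← hζdef,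
        ← AdjoinRoot.algebraMap_eq]
      linear_combination h
    rw [AdjoinRoot.mk_eq_zero] at h1
    have h2 : C b * X + C a = 0 := by
      by_contra hne
      have h4 := natDegree_le_of_dvd h1 hne
      rw [hdeg] at h4
      have h5 : (C b * X + C a).natDegree ≤ 1 := natDegree_linear_le
      omega
    have ha : a = 0 := by
      have := congrArg (fun p => coeff p 0) h2
      simpa using this
    have hb : b = 0 := by
      have := congrArg (fun p => coeff p 1) h2
      simpa using this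
    exact ⟨ha, hb⟩
  have hmain := card_cube_isom hK ω ζ hζ hωalt hωnd hωζ hσF hσζ hdec hind hdim
  rw [← Cfsg.Agent.H7.card_GU hK m, ← hmain]
  apply Nat.card_congr
  apply Equiv.subtypeEquivRight
  intro g
  simp only [hζt]


open Matrix Cfsg.Agent.H17 in
/-- The centraliser in `Sp_2m(q)`, `q ≡ 2 (mod 3)`, of a fixed-point-free element of order three has
the order of `GU_m(q)`. -/
theorem card_centralizer_cube (hF : Fintype.card F = q) (hq : q % 3 = 2) {m : ℕ}
    (x : Matrix.symplecticGroup (Fin m) F) (hx3 : x ^ 3 = 1)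
    (hfpf : IsUnit ((x : Matrix (Fin m ⊕ Fin m) (Fin m ⊕ Fin m) F) - 1)) :
    Nat.card ↥(Subgroup.centralizer ({x} : Set ↥(Matrix.symplecticGroup (Fin m) F))) =
      q ^ (m * (m - 1) / 2) *
        ∏ i ∈ Finset.range m, (if Even i then q ^ (i + 1) + 1 else q ^ (i + 1) - 1) := by
  classical
  obtain ⟨M, hMdef⟩ : ∃ M : Matrix (Fin m ⊕ Fin m) (Fin m ⊕ Fin m) F,
      M = (x : Matrix (Fin m ⊕ Fin m) (Fin m ⊕ Fin m) F) := ⟨_, rfl⟩
  have hM3 : M * M * M = 1 := by
    have h1 : x * x * x = 1 := by rw [← hx3, pow_succ, pow_two]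
    have h2 := congrArg (fun y : Matrix.symplecticGroup (Fin m) F =>
      (y : Matrix (Fin m ⊕ Fin m) (Fin m ⊕ Fin m) F)) h1
    rw [hMdef]
    exact h2
  have hM2 : M * M + M + 1 = 0 := by
    have h1 : (M - 1) * (M * M + M + 1) = 0 := by
      have : (M - 1) * (M * M + M + 1) = M * M * M - 1 := by noncomm_ring
      rw [this, hM3, sub_self]
    rw [← hMdef] at hfpf
    exact (hfpf.mul_right_eq_zero).mp h1
  have hMsp : M ∈ Matrix.symplecticGroup (Fin m) F := by rw [hMdef]; exact x.2
  have hMform := (mem_symplecticGroup_iff_form m M).1 hMsp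
  obtain ⟨t, htdef⟩ : ∃ t : Module.End F (Fin m ⊕ Fin m → F), t = Matrix.toLin' M := ⟨_, rfl⟩
  have htv : ∀ v, t v = M *ᵥ v := fun v => by rw [htdef, Matrix.toLin'_apply]
  have ht : t * t + t + 1 = 0 := by
    apply LinearMap.ext
    intro v
    have h1 := congrArg (fun A : Matrix (Fin m ⊕ Fin m) (Fin m ⊕ Fin m) F => A *ᵥ v) hM2
    simp only [Matrix.add_mulVec, Matrix.one_mulVec, Matrix.zero_mulVec, ← Matrix.mulVec_mulVec] at h1
    simp only [LinearMap.add_apply, Module.End.mul_apply, Module.End.one_apply, htv,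
      LinearMap.zero_apply]
    exact h1
  have hV : finrank F (Fin m ⊕ Fin m → F) = 2 * m := by
    rw [Module.finrank_pi, Fintype.card_sum, Fintype.card_fin]
    omega
  have hmain := cube_structure hF hq t ht hV (sympBilin m F)
    (fun u => by rw [sympBilin_apply]; exact sympForm_self m u)
    (sympBilin_sepLeft m)
    (fun u v => by rw [sympBilin_apply, sympBilin_apply, htv, htv, hMform])
  rw [← hmain]
  apply Nat.card_eq_of_bijective
    (fun c : ↥(Subgroup.centralizer ({x} : Set ↥(Matrix.symplecticGroup (Fin m) F))) =>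
      (⟨Matrix.toLin' ((c : Matrix.symplecticGroup (Fin m) F) :
          Matrix (Fin m ⊕ Fin m) (Fin m ⊕ Fin m) F), by
        refine ⟨fun u v => ?_, fun v => ?_⟩
        · rw [sympBilin_apply, sympBilin_apply, Matrix.toLin'_apply, Matrix.toLin'_apply]
          exact (mem_symplecticGroup_iff_form m _).1 c.1.2 u v
        · have h1 : x * (c : Matrix.symplecticGroup (Fin m) F) = c * x :=
            Subgroup.mem_centralizer_iff.mp c.2 x rfl
          have h2 : M * ((c : Matrix.symplecticGroup (Fin m) F) :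
              Matrix (Fin m ⊕ Fin m) (Fin m ⊕ Fin m) F) =
              ((c : Matrix.symplecticGroup (Fin m) F) :
                Matrix (Fin m ⊕ Fin m) (Fin m ⊕ Fin m) F) * M := by
            rw [hMdef]
            exact congrArg (fun y : Matrix.symplecticGroup (Fin m) F =>
              (y : Matrix (Fin m ⊕ Fin m) (Fin m ⊕ Fin m) F)) h1
          rw [htv, htv, Matrix.toLin'_apply, Matrix.toLin'_apply, Matrix.mulVec_mulVec,
            Matrix.mulVec_mulVec, h2]⟩ :
        {g : (Fin m ⊕ Fin m → F) →ₗ[F] (Fin m ⊕ Fin m → F) //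
          (∀ u v, sympBilin m F (g u) (g v) = sympBilin m F u v) ∧ ∀ v, g (t v) = t (g v)}))
  constructor
  · intro c c' h
    have h1 := congrArg Subtype.val h
    have h2 : ((c : Matrix.symplecticGroup (Fin m) F) :
        Matrix (Fin m ⊕ Fin m) (Fin m ⊕ Fin m) F) =
        ((c' : Matrix.symplecticGroup (Fin m) F) :
          Matrix (Fin m ⊕ Fin m) (Fin m ⊕ Fin m) F) := Matrix.toLin'.injective h1
    exact Subtype.ext (Subtype.ext h2)
  · rintro ⟨g, hg1, hg2⟩
    obtain ⟨A, hAdef⟩ : ∃ A : Matrix (Fin m ⊕ Fin m) (Fin m ⊕ Fin m) F,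
        A = LinearMap.toMatrix' g := ⟨_, rfl⟩
    have hAv : ∀ v, A *ᵥ v = g v := by
      intro v
      rw [hAdef, ← Matrix.toLin'_apply, Matrix.toLin'_toMatrix']
    have hAsp : A ∈ Matrix.symplecticGroup (Fin m) F := by
      rw [mem_symplecticGroup_iff_form]
      intro u v
      rw [hAv, hAv, ← sympBilin_apply, hg1, sympBilin_apply]
    have hcomm : M * A = A * M := by
      apply mat_ext_mulVecG
      intro v
      rw [← Matrix.mulVec_mulVec, ← Matrix.mulVec_mulVec, hAv, hAv, ← htv, ← htv, hg2]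
    have hcent : (⟨A, hAsp⟩ : Matrix.symplecticGroup (Fin m) F) ∈
        Subgroup.centralizer ({x} : Set ↥(Matrix.symplecticGroup (Fin m) F)) := by
      rw [Subgroup.mem_centralizer_iff]
      intro y hy
      rw [Set.mem_singleton_iff] at hy
      subst hy
      apply Subtype.ext
      show (y : Matrix (Fin m ⊕ Fin m) (Fin m ⊕ Fin m) F) * A = A * y
      rw [← hMdef]
      exact hcomm
    refine ⟨⟨⟨A, hAsp⟩, hcent⟩, ?_⟩
    apply Subtype.ext
    show Matrix.toLin' A = g
    rw [hAdef, Matrix.toLin'_toMatrix']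


end CubeStruct

theorem gu_order_cast {q : ℕ} (hq : 1 ≤ q) (m : ℕ) :
    ((q ^ (m * (m - 1) / 2) *
      ∏ i ∈ Finset.range m, (if Even i then q ^ (i + 1) + 1 else q ^ (i + 1) - 1) : ℕ) : ℤ) =
      (q : ℤ) ^ (m * (m - 1) / 2) *
        ∏ i : Fin m, ((q : ℤ) ^ ((i : ℕ) + 1) - (-1) ^ ((i : ℕ) + 1)) := by
  rw [Nat.cast_mul, Nat.cast_pow, Nat.cast_prod,
    Fin.prod_univ_eq_prod_range (fun i => (q : ℤ) ^ (i + 1) - (-1) ^ (i + 1)) m]
  congr 1
  apply Finset.prod_congr rfl
  intro i _
  have h1 : 1 ≤ q ^ (i + 1) := Nat.one_le_pow _ _ hq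
  by_cases hi : Even i
  · have hs : (-1 : ℤ) ^ (i + 1) = -1 := Odd.neg_one_pow (Even.add_one hi)
    rw [if_pos hi, hs]
    push_cast
    ring
  · have hs : (-1 : ℤ) ^ (i + 1) = 1 := Even.neg_one_pow (by
      rw [Nat.even_add_one]; exact hi)
    rw [if_neg hi, hs, Nat.cast_sub h1]
    push_cast
    ring


end Cfsg.Agent.H42
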