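import Mathlib
import Cfsg.Agent.H48.ElEX2
import Cfsg.Agent.Lib.Helper30.ElCOUNT
import Cfsg.Agent.H99.ElKUM
import Cfsg.Agent.H99.ElSTR
import Cfsg.Agent.H48.ElNT
import Cfsg.Agent.H48.ElEX1

set_option autoImplicit false

/-! Elements of prime order of `PSL_n(q)` and invariant subspaces (S5949; helper42 assembly). -/

namespace Cfsg.Agent.H42.El

open Cfsg.Agent.Lib.Helper30.El (not_dvd_card_subspaces_char not_dvd_card_subspaces_of_le_mod)
open Cfsg.Agent.H99.Kum (kummer_dvd_finrank kummer_exists_chain kummer_det)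
open Cfsg.Agent.H99.El (exists_grid finrank_invariant_mod)
open Cfsg.Agent.H48.El (kummer_det_one_imp exists_kummer_SL exists_semisimple_SL)

section NT

variable {F : Type*} [Field F] [Fintype F]

theorem card_ne_zero_zmod (p : ℕ) [Fact p.Prime] [CharP F p] (r : ℕ) [Fact r.Prime]
    (hrp : r ≠ p) : ((Fintype.card F : ℕ) : ZMod r) ≠ 0 := by
  obtain ⟨k, -, hk⟩ := FiniteField.card F p
  intro h
  rw [ZMod.natCast_eq_zero_iff, hk] at h
  have h1 : r ∣ p := (Fact.out : r.Prime).dvd_of_dvd_pow h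
  exact hrp ((Nat.prime_dvd_prime_iff_eq (Fact.out : r.Prime) (Fact.out : p.Prime)).mp h1)

theorem orderOf_card_pos (p : ℕ) [Fact p.Prime] [CharP F p] (r : ℕ) [Fact r.Prime]
    (hrp : r ≠ p) : 0 < orderOf ((Fintype.card F : ℕ) : ZMod r) := by
  rw [orderOf_pos_iff, isOfFinOrder_iff_pow_eq_one]
  exact ⟨r - 1, Nat.sub_pos_of_lt (Fact.out : r.Prime).one_lt,
    ZMod.pow_card_sub_one_eq_one (card_ne_zero_zmod p r hrp)⟩

theorem orderOf_eq_one_iff_dvd (r : ℕ) [Fact r.Prime] :
    orderOf ((Fintype.card F : ℕ) : ZMod r) = 1 ↔ r ∣ Fintype.card F - 1 := by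
  have hq : 1 ≤ Fintype.card F := Fintype.card_pos
  rw [orderOf_eq_one_iff, ← ZMod.natCast_eq_zero_iff, Nat.cast_sub hq, Nat.cast_one, sub_eq_zero]

theorem cast_ne_zero_of_ne (p : ℕ) [Fact p.Prime] [CharP F p] (r : ℕ) [Fact r.Prime]
    (hrp : r ≠ p) : (r : F) ≠ 0 := by
  intro h
  rw [CharP.cast_eq_zero_iff F p] at h
  exact hrp ((Nat.prime_dvd_prime_iff_eq (Fact.out : p.Prime) (Fact.out : r.Prime)).mp h).symm

theorem coprime_of_two_le (r : ℕ) [Fact r.Prime]
    (hi : 2 ≤ orderOf ((Fintype.card F : ℕ) : ZMod r)) :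
    Nat.Coprime r (Fintype.card F - 1) := by
  rw [(Fact.out : r.Prime).coprime_iff_not_dvd, ← orderOf_eq_one_iff_dvd]
  omega

theorem exists_pow_eq (r : ℕ) (hco : Nat.Coprime r (Fintype.card F - 1)) (c : F) (hc : c ≠ 0) :
    ∃ b : F, b ^ r = c := by
  have hcard : Nat.card Fˣ = Fintype.card F - 1 := by
    rw [Nat.card_units, Nat.card_eq_fintype_card]
  have hco' : Nat.Coprime (Nat.card Fˣ) r := by
    rw [hcard]
    exact hco.symm
  obtain ⟨b, hb⟩ := (powCoprime hco').surjective (Units.mk0 c hc)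
  refine ⟨(b : F), ?_⟩
  have := congrArg (fun u : Fˣ => (u : F)) hb
  simpa using this

theorem eq_one_of_pow_eq_one (r : ℕ) (hr0 : r ≠ 0) (hco : Nat.Coprime r (Fintype.card F - 1))
    (b : F) (hb : b ^ r = 1) : b = 1 := by
  have hb0 : b ≠ 0 := by
    rintro rfl
    rw [zero_pow hr0] at hb
    exact zero_ne_one hb
  have hcard : Nat.card Fˣ = Fintype.card F - 1 := by
    rw [Nat.card_units, Nat.card_eq_fintype_card]
  have hco' : Nat.Coprime (Nat.card Fˣ) r := by
    rw [hcard]
    exact hco.symm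
  have h1 : (Units.mk0 b hb0) ^ r = (1 : Fˣ) ^ r := by
    rw [one_pow]
    ext
    simpa using hb
  have := (powCoprime hco').injective h1
  simpa using congrArg (fun u : Fˣ => (u : F)) this

end NT

section Main

variable {F : Type*} [Field F] [Fintype F]

theorem toLin_pow_eq {n : ℕ} (x : Matrix.SpecialLinearGroup (Fin n) F) (r : ℕ) (c : F)
    (hx : ((x ^ r : Matrix.SpecialLinearGroup (Fin n) F) : Matrix (Fin n) (Fin n) F)
      = c • (1 : Matrix (Fin n) (Fin n) F)) :
    Matrix.toLin' (x : Matrix (Fin n) (Fin n) F) ^ r = c • (1 : Module.End F (Fin n → F)) := by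
  rw [← Matrix.toLin'_pow, ← Matrix.SpecialLinearGroup.coe_pow, hx, map_smul, Matrix.toLin'_one]
  rfl

theorem map_le_iff {n : ℕ} (T : Module.End F (Fin n → F)) (W : Submodule F (Fin n → F)) :
    W.map T ≤ W ↔ ∀ v ∈ W, T v ∈ W := by
  constructor
  · intro h v hv
    exact h (Submodule.mem_map_of_mem hv)
  · rintro h _ ⟨v, hv, rfl⟩
    exact h v hv

/-- `(⇐)` of S5949. -/
theorem el_back {p : ℕ} [Fact p.Prime] [CharP F p] (n m r : ℕ) [Fact r.Prime] (hm : m ≤ n)
    (hn : 0 < n) (hrp : r ≠ p)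
    (h : (orderOf ((Fintype.card F : ℕ) : ZMod r) = 1 ∧
        (r ∣ m ∨ (padicValNat r n ≤ padicValNat r (Fintype.card F - 1) ∧
          (r = 2 → Even n → Fintype.card F % 4 = 1)))) ∨
      (2 ≤ orderOf ((Fintype.card F : ℕ) : ZMod r) ∧
        orderOf ((Fintype.card F : ℕ) : ZMod r) ≤ m ∧
        m % orderOf ((Fintype.card F : ℕ) : ZMod r) ≤ n % orderOf ((Fintype.card F : ℕ) : ZMod r)))
    (x : Matrix.SpecialLinearGroup (Fin n) F) (c : F)
    (hx : ((x ^ r : Matrix.SpecialLinearGroup (Fin n) F) : Matrix (Fin n) (Fin n) F)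
      = c • (1 : Matrix (Fin n) (Fin n) F)) :
    ∃ W : Submodule F (Fin n → F), Module.finrank F W = m ∧
      W.map (Matrix.toLin' (x : Matrix (Fin n) (Fin n) F)) ≤ W := by
  have hr := (Fact.out : r.Prime)
  have hrF : (r : F) ≠ 0 := cast_ne_zero_of_ne p r hrp
  have hipos := orderOf_card_pos (F := F) p r hrp
  have hT₀ := toLin_pow_eq x r c hx
  have hfin : Module.finrank F (Fin n → F) = n := Module.finrank_fin_fun F
  have hdet : LinearMap.det (Matrix.toLin' (x : Matrix (Fin n) (Fin n) F)) = 1 := by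
    rw [LinearMap.det_toLin']
    exact x.det_coe
  have hc0 : c ≠ 0 := by
    rintro rfl
    have h1 := congrArg Matrix.det hx
    have : Nonempty (Fin n) := Fin.pos_iff_nonempty.mp hn
    rw [zero_smul, Matrix.det_zero] at h1
    rw [(x ^ r).det_coe] at h1
    exact one_ne_zero h1
  -- the congruence `m % i ≤ n % i` holds in both cases
  have hmod : m % orderOf ((Fintype.card F : ℕ) : ZMod r)
      ≤ n % orderOf ((Fintype.card F : ℕ) : ZMod r) := by
    rcases h with ⟨h1, _⟩ | ⟨_, _, h3⟩
    · rw [h1, Nat.mod_one]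
      exact Nat.zero_le _
    · exact h3
  by_cases hpow : ∃ b : F, b ^ r = c
  · obtain ⟨b, hb⟩ := hpow
    have hb0 : b ≠ 0 := by
      rintro rfl
      rw [zero_pow hr.ne_zero] at hb
      exact hc0 hb.symm
    have hT : (b⁻¹ • Matrix.toLin' (x : Matrix (Fin n) (Fin n) F)) ^ r = 1 := by
      rw [smul_pow, hT₀, smul_smul, inv_pow, hb, inv_mul_cancel₀ hc0, one_smul]
    obtain ⟨j, G, hj, hG, -⟩ := exists_grid
      (b⁻¹ • Matrix.toLin' (x : Matrix (Fin n) (Fin n) F)) r hr hrF hT
    rw [hfin] at hj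
    generalize hi : orderOf ((Fintype.card F : ℕ) : ZMod r) = i at *
    generalize hk : Module.finrank F
      (LinearMap.ker (b⁻¹ • Matrix.toLin' (x : Matrix (Fin n) (Fin n) F) - 1)) = k at *
    have hkmod : n % i ≤ k := by
      have : n % i = k % i := by
        rw [← hj, Nat.mul_add_mod_self_right]
      rw [this]
      exact Nat.mod_le _ _
    have hsle : min j (m / i) * i ≤ m := by
      calc min j (m / i) * i ≤ (m / i) * i := Nat.mul_le_mul_right _ (min_le_right _ _)
        _ ≤ m := Nat.div_mul_le_self m i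
    have htle : m - min j (m / i) * i ≤ k := by
      rcases le_total j (m / i) with h1 | h1
      · rw [min_eq_left h1]
        omega
      · rw [min_eq_right h1]
        have := Nat.div_add_mod m i
        have e : m / i * i = i * (m / i) := Nat.mul_comm _ _
        omega
    obtain ⟨hinv, hdim⟩ := hG (min j (m / i)) (m - min j (m / i) * i) (min_le_left _ _) htle
    refine ⟨G (min j (m / i)) (m - min j (m / i) * i), by rw [hdim]; omega, ?_⟩
    rw [map_le_iff]
    intro v hv
    have h1 := hinv v hv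
    rw [LinearMap.smul_apply] at h1
    have h2 := (G (min j (m / i)) (m - min j (m / i) * i)).smul_mem b h1
    rwa [smul_smul, mul_inv_cancel₀ hb0, one_smul] at h2
  · push Not at hpow
    rcases h with ⟨h1, h2⟩ | ⟨h1, _, _⟩
    · have hrq : r ∣ Fintype.card F - 1 := (orderOf_eq_one_iff_dvd r).mp h1
      rcases h2 with h2 | ⟨h2, h3⟩
      · obtain ⟨B, -, hB⟩ := kummer_exists_chain
          (Matrix.toLin' (x : Matrix (Fin n) (Fin n) F)) r hr c hpow hT₀
        obtain ⟨s, rfl⟩ := h2
        obtain ⟨hinv, hdim⟩ := hB s (by rw [hfin]; exact hm)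
        exact ⟨B s, hdim, (map_le_iff _ _).mpr hinv⟩
      · exfalso
        have hrn : r ∣ n := by
          have := kummer_dvd_finrank (Matrix.toLin' (x : Matrix (Fin n) (Fin n) F)) r hr c hpow
            hT₀ ⊤ (fun v _ => Submodule.mem_top)
          rwa [finrank_top, hfin] at this
        have hd := kummer_det (Matrix.toLin' (x : Matrix (Fin n) (Fin n) F)) r hr c hpow hT₀
        rw [hdet, hfin] at hd
        rcases kummer_det_one_imp r hr hrq c hpow n hn hrn hd.symm with h4 | ⟨h4, h5⟩
        · omega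
        · have hev : Even n := by
            rw [h4] at hrn
            exact even_iff_two_dvd.mpr hrn
          have := h3 h4 hev
          omega
    · exfalso
      obtain ⟨b, hb⟩ := exists_pow_eq r (coprime_of_two_le r h1) c hc0
      exact hpow b hb

/-- `(⇒)` of S5949. -/
theorem el_forward {p : ℕ} [Fact p.Prime] [CharP F p] (n m r : ℕ) [Fact r.Prime] (hm1 : 1 ≤ m)
    (hmn : 2 * m ≤ n)
    (hrΩ : r ∣ Nat.card {W : Submodule F (Fin n → F) // Module.finrank F W = m})
    (H : ∀ x : Matrix.SpecialLinearGroup (Fin n) F,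
      (∃ c : F, ((x ^ r : Matrix.SpecialLinearGroup (Fin n) F) : Matrix (Fin n) (Fin n) F)
        = c • (1 : Matrix (Fin n) (Fin n) F)) →
      (∀ c : F, (x : Matrix (Fin n) (Fin n) F) ≠ c • (1 : Matrix (Fin n) (Fin n) F)) →
      ∃ W : Submodule F (Fin n → F), Module.finrank F W = m ∧
        W.map (Matrix.toLin' (x : Matrix (Fin n) (Fin n) F)) ≤ W) :
    r ≠ p ∧
      ((orderOf ((Fintype.card F : ℕ) : ZMod r) = 1 ∧
        (r ∣ m ∨ (padicValNat r n ≤ padicValNat r (Fintype.card F - 1) ∧
          (r = 2 → Even n → Fintype.card F % 4 = 1)))) ∨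
      (2 ≤ orderOf ((Fintype.card F : ℕ) : ZMod r) ∧
        orderOf ((Fintype.card F : ℕ) : ZMod r) ≤ m ∧
        m % orderOf ((Fintype.card F : ℕ) : ZMod r)
          ≤ n % orderOf ((Fintype.card F : ℕ) : ZMod r))) := by
  have hr := (Fact.out : r.Prime)
  have hn : 0 < n := by omega
  have hrp : r ≠ p := by
    rintro rfl
    exact not_dvd_card_subspaces_char r n m (by omega) hrΩ
  refine ⟨hrp, ?_⟩
  have hrF : (r : F) ≠ 0 := cast_ne_zero_of_ne p r hrp
  have hipos := orderOf_card_pos (F := F) p r hrp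
  have hfin : Module.finrank F (Fin n → F) = n := Module.finrank_fin_fun F
  have : NeZero n := ⟨by omega⟩
  rcases Nat.lt_or_ge (orderOf ((Fintype.card F : ℕ) : ZMod r)) 2 with hi | hi
  · -- i = 1
    have hi1 : orderOf ((Fintype.card F : ℕ) : ZMod r) = 1 := by omega
    left
    refine ⟨hi1, ?_⟩
    have hrq : r ∣ Fintype.card F - 1 := (orderOf_eq_one_iff_dvd r).mp hi1
    by_contra hcon
    push Not at hcon
    obtain ⟨hrm, hcon2⟩ := hcon
    have hcase : padicValNat r (Fintype.card F - 1) < padicValNat r n ∨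
        (r = 2 ∧ Even n ∧ Fintype.card F % 4 = 3) := by
      by_cases hv : padicValNat r n ≤ padicValNat r (Fintype.card F - 1)
      · right
        obtain ⟨h1, h2, h3⟩ := hcon2 hv
        refine ⟨h1, h2, ?_⟩
        have hq1 : 1 ≤ Fintype.card F := Fintype.card_pos
        rw [h1] at hrq
        obtain ⟨t, ht⟩ := hrq
        omega
      · left
        omega
    obtain ⟨x, c, hc, hx⟩ := exists_kummer_SL r hr hrq n hn hcase
    have hns : ∀ b : F, (x : Matrix (Fin n) (Fin n) F) ≠ b • (1 : Matrix (Fin n) (Fin n) F) := by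
      intro b hb
      apply hc b
      have h1 : ((x ^ r : Matrix.SpecialLinearGroup (Fin n) F) : Matrix (Fin n) (Fin n) F)
          = (b ^ r) • (1 : Matrix (Fin n) (Fin n) F) := by
        rw [Matrix.SpecialLinearGroup.coe_pow, hb, smul_pow, one_pow]
      rw [hx] at h1
      have h2 := congrFun (congrFun h1 0) 0
      simpa using h2.symm
    obtain ⟨W, hWm, hW⟩ := H x ⟨c, hx⟩ hns
    have := kummer_dvd_finrank (Matrix.toLin' (x : Matrix (Fin n) (Fin n) F)) r hr c hc
      (toLin_pow_eq x r c hx) W ((map_le_iff _ _).mp hW)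
    rw [hWm] at this
    exact hrm this
  · right
    refine ⟨hi, ?_⟩
    have hco := coprime_of_two_le (F := F) r hi
    have hmod : m % orderOf ((Fintype.card F : ℕ) : ZMod r)
        ≤ n % orderOf ((Fintype.card F : ℕ) : ZMod r) := by
      by_contra hcon
      push Not at hcon
      have hin : orderOf ((Fintype.card F : ℕ) : ZMod r) ≤ n := by
        by_contra hlt
        push Not at hlt
        rw [Nat.mod_eq_of_lt hlt] at hcon
        have := Nat.mod_le m (orderOf ((Fintype.card F : ℕ) : ZMod r))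
        omega
      obtain ⟨x, hxr, hx1, hxk⟩ := exists_semisimple_SL r hr hrF n hi hin
      have hxr' : ((x ^ r : Matrix.SpecialLinearGroup (Fin n) F) : Matrix (Fin n) (Fin n) F)
          = (1 : F) • (1 : Matrix (Fin n) (Fin n) F) := by
        rw [hxr, one_smul]
        rfl
      have hns : ∀ b : F,
          (x : Matrix (Fin n) (Fin n) F) ≠ b • (1 : Matrix (Fin n) (Fin n) F) := by
        intro b hb
        have h1 : ((x ^ r : Matrix.SpecialLinearGroup (Fin n) F) : Matrix (Fin n) (Fin n) F)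
            = (b ^ r) • (1 : Matrix (Fin n) (Fin n) F) := by
          rw [Matrix.SpecialLinearGroup.coe_pow, hb, smul_pow, one_pow]
        rw [hxr'] at h1
        have h2 := congrFun (congrFun h1 0) 0
        have h3 : b ^ r = 1 := by simpa using h2.symm
        have h4 := eq_one_of_pow_eq_one r hr.ne_zero hco b h3
        apply hx1
        apply Subtype.ext
        rw [hb, h4, one_smul]
        rfl
      obtain ⟨W, hWm, hW⟩ := H x ⟨1, hxr'⟩ hns
      have hT := toLin_pow_eq x r 1 hxr'
      rw [one_smul] at hT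
      obtain ⟨a, ha⟩ := finrank_invariant_mod (Matrix.toLin' (x : Matrix (Fin n) (Fin n) F)) r hr
        hrF hT W ((map_le_iff _ _).mp hW)
      have hle : Module.finrank F ↥(W ⊓ LinearMap.ker
          (Matrix.toLin' (x : Matrix (Fin n) (Fin n) F) - 1)) ≤ n % orderOf
            ((Fintype.card F : ℕ) : ZMod r) := by
        rw [← hxk]
        exact Submodule.finrank_mono inf_le_right
      rw [hWm] at ha
      generalize orderOf ((Fintype.card F : ℕ) : ZMod r) = i at *
      generalize Module.finrank F ↥(W ⊓ LinearMap.ker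
          (Matrix.toLin' (x : Matrix (Fin n) (Fin n) F) - 1)) = t at *
      have hlt : n % i < i := Nat.mod_lt _ (by omega)
      have : m % i = t := by
        rw [ha, Nat.add_mul_mod_self_right, Nat.mod_eq_of_lt (by omega)]
      omega
    refine ⟨?_, hmod⟩
    by_contra hcon
    push Not at hcon
    rw [Nat.mod_eq_of_lt hcon] at hmod
    exact not_dvd_card_subspaces_of_le_mod r hr hrF n m hmod hrΩ

end Main

end Cfsg.Agent.H42.El
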