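import Mathlib
import Cfsg.Prelude.Def_Classical
import Cfsg.Prelude.Def_GeometricClasses
import Cfsg.Agent.H42.JtDefs
import Cfsg.Agent.H42.JtMain
import Cfsg.Agent.H16.JtSum
import Cfsg.Agent.H16.JtCay
import Cfsg.Agent.H64.JtEven
import Cfsg.Agent.H64.JtOdd1
import Cfsg.Agent.H89.JtOdd2
import Cfsg.Agent.H37.JtK
import Cfsg.Agent.H49.SimpleForms

set_option autoImplicit false

/-! Jordan-type obstruction for unipotent elements of orthogonal groups: final assembly
(helper42; pieces by helper16, helper37, helper64, helper89). -/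

namespace Cfsg.Agent.H42.Jt

open Cfsg.Agent.H37.JtA Cfsg.Agent.H37.JtK Cfsg.Agent.H16.Jt
  Cfsg.Agent.H64.Jt Cfsg.Agent.H89.Jt

theorem pow_eq_zero_of_kd {F : Type*} [Field F] {V : Type*} [AddCommGroup V] [Module F V]
    [FiniteDimensional F V] (T : Module.End F V) (e : ℕ) (h : kd T e = Module.finrank F V) :
    T ^ e = 0 :=
  LinearMap.ker_eq_top.mp (Submodule.eq_top_of_finrank_eq h)

theorem sum_min_of_le (μ : Multiset ℕ) (p : ℕ) (h : ∀ e ∈ μ, e ≤ p) :
    (μ.map (fun s => min p s)).sum = μ.sum := by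
  congr 1
  conv_rhs => rw [← Multiset.map_id μ]
  apply Multiset.map_congr rfl
  intro s hs
  simp [h s hs]

theorem sum_min_one (μ : Multiset ℕ) (h : ∀ e ∈ μ, 0 < e) :
    (μ.map (fun s => min 1 s)).sum = Multiset.card μ := by
  have h1 : μ.map (fun s => min 1 s) = μ.map (fun _ => 1) := by
    apply Multiset.map_congr rfl
    intro s hs
    have := h s hs
    simp only [min_def]
    split_ifs <;> omega
  rw [h1, Multiset.map_const', Multiset.sum_replicate, smul_eq_mul, mul_one]

theorem card_lt_sum (μ : Multiset ℕ) (h : ∀ e ∈ μ, 0 < e) (e₀ : ℕ) (he₀ : e₀ ∈ μ) (hne : e₀ ≠ 1) :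
    Multiset.card μ < μ.sum := by
  have h0 := h e₀ he₀
  obtain ⟨t, rfl⟩ := Multiset.exists_cons_of_mem he₀
  rw [Multiset.card_cons, Multiset.sum_cons]
  have h1 : Multiset.card t • 1 ≤ t.sum :=
    Multiset.card_nsmul_le_sum (fun x hx => h x (Multiset.mem_cons_of_mem hx))
  rw [smul_eq_mul, mul_one] at h1
  omega

theorem jt_core {ι : Type} [Fintype ι] [DecidableEq ι] {F : Type*} [Field F] [Fintype F]
    {p : ℕ} [Fact p.Prime] [CharP F p] (h2 : (2 : F) ≠ 0)
    (Q : QuadraticForm F (ι → F)) (hQ : (QuadraticMap.polarBilin Q).Nondegenerate)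
    (μ : Multiset ℕ) (hμ : ∀ e ∈ μ, 0 < e ∧ e ≤ p) (hsum : μ.sum = Fintype.card ι)
    (hHD : HD (⇑Q) μ) (m : ℕ) (hm : m ≤ Fintype.card ι)
    (H : ∀ x : Matrix.GeneralLinearGroup ι F, x ∈ Cfsg.Geo.omegaGL (⇑Q) → x ^ p = 1 →
      (∀ z : F, (x : Matrix ι ι F) ≠ z • (1 : Matrix ι ι F)) →
      ∃ W : Submodule F (ι → F), Module.finrank F W = m ∧
        Cfsg.Geo.IsNondegenerateOn (QuadraticMap.polar (⇑Q)) W ∧
        W.map (Matrix.toLin' (x : Matrix ι ι F)) ≤ W) :
    ∃ ν : Multiset ℕ, ν ≤ μ ∧ ν.sum = m ∧ ∀ e : ℕ, Even e → Even (ν.count e) := by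
  classical
  by_cases hall : ∀ e ∈ μ, e = 1
  · have hrep : μ = Multiset.replicate (Multiset.card μ) 1 := Multiset.eq_replicate_card.mpr hall
    have hcard : Multiset.card μ = Fintype.card ι := by
      rw [← hsum]
      conv_rhs => rw [hrep]
      simp
    refine ⟨Multiset.replicate m 1, ?_, ?_, ?_⟩
    · rw [hrep, hcard]
      exact (Multiset.replicate_le_replicate 1).mpr hm
    · simp
    · intro e he
      rw [Multiset.count_replicate]
      split_ifs with h
      · subst h
        exact absurd he (by decide)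
      · exact ⟨0, rfl⟩
  · push Not at hall
    obtain ⟨e₀, he₀, hne⟩ := hall
    obtain ⟨N, hNskew, hNkd⟩ := hHD
    have hfr : Module.finrank F (ι → F) = Fintype.card ι := Module.finrank_fintype_fun_eq_card F
    have hNp : N ^ p = 0 := by
      have h1 : (Matrix.toLin' N) ^ p = 0 := by
        apply pow_eq_zero_of_kd
        rw [hNkd, sum_min_of_le μ p (fun e he => (hμ e he).2), hsum, hfr]
      have h2' : Matrix.toLin' (N ^ p) = 0 := by
        rw [Matrix.toLin'_pow]
        exact h1
      exact Matrix.toLin'.injective (by rw [h2', map_zero])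
    obtain ⟨x, hxΩ, hxp, hxkd⟩ := exists_omega_unipotent h2 Q hQ N hNskew hNp
    have hX1 : Matrix.toLin' (x : Matrix ι ι F) - 1 = Matrix.toLin' ((x : Matrix ι ι F) - 1) := by
      rw [map_sub, Matrix.toLin'_one]
      rfl
    have hkdX : ∀ e, kd (Matrix.toLin' (x : Matrix ι ι F) - 1) e
        = (μ.map (fun s => min e s)).sum := by
      intro e
      rw [hX1, hxkd, hNkd]
    have hcardlt : Multiset.card μ < Fintype.card ι := by
      rw [← hsum]
      exact card_lt_sum μ (fun e he => (hμ e he).1) e₀ he₀ hne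
    have hcardpos : 0 < Multiset.card μ := Multiset.card_pos_iff_exists_mem.mpr ⟨e₀, he₀⟩
    have hns : ∀ z : F, (x : Matrix ι ι F) ≠ z • (1 : Matrix ι ι F) := by
      intro z hz
      have h1 := hkdX 1
      rw [sum_min_one μ (fun e he => (hμ e he).1)] at h1
      rw [hX1, hz] at h1
      have h3 : Matrix.toLin' (z • (1 : Matrix ι ι F) - 1)
          = (z - 1) • (1 : Module.End F (ι → F)) := by
        rw [map_sub, map_smul, Matrix.toLin'_one]
        apply LinearMap.ext
        intro v
        show z • v - v = (z - 1) • v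
        rw [sub_smul, one_smul]
      rw [h3] at h1
      unfold kd at h1
      rw [pow_one] at h1
      by_cases hz1 : z = 1
      · subst hz1
        rw [sub_self, zero_smul, LinearMap.ker_zero, finrank_top, hfr] at h1
        omega
      · have hk : LinearMap.ker ((z - 1) • (1 : Module.End F (ι → F))) = ⊥ := by
          rw [LinearMap.ker_eq_bot']
          intro v hv
          rw [LinearMap.smul_apply, Module.End.one_apply, smul_eq_zero] at hv
          exact hv.resolve_left (sub_ne_zero.mpr hz1)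
        rw [hk, finrank_bot] at h1
        omega
    obtain ⟨W, hWm, hWnd, hWx⟩ := H x hxΩ hxp hns
    have hiso : ∀ u : ι → F, Q ((x : Matrix ι ι F).mulVec u) = Q u := by
      obtain ⟨y, hy, rfl⟩ := hxΩ
      exact Cfsg.Agent.H49.mem_isometryGroup_iff.mp y.2
    have hpolar : ∀ u v : ι → F,
        QuadraticMap.polarBilin Q (Matrix.toLin' (x : Matrix ι ι F) u)
          (Matrix.toLin' (x : Matrix ι ι F) v) = QuadraticMap.polarBilin Q u v := by
      intro u v
      simp only [QuadraticMap.polarBilin_apply_apply, QuadraticMap.polar, Matrix.toLin'_apply]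
      rw [← Matrix.mulVec_add, hiso, hiso, hiso]
    have hinj : Function.Injective (Matrix.toLin' (x : Matrix ι ι F)) := by
      intro u v huv
      rw [Matrix.toLin'_apply, Matrix.toLin'_apply] at huv
      exact (Matrix.mulVec_injective_iff_isUnit.mpr x.isUnit) huv
    have hpX : (Matrix.toLin' (x : Matrix ι ι F) - 1) ^ p = 0 := by
      apply pow_eq_zero_of_kd
      rw [hkdX, sum_min_of_le μ p (fun e he => (hμ e he).2), hsum, hfr]
    obtain ⟨ν, hν, hνs, hνe⟩ := jt_abstract h2 (QuadraticMap.polarBilin Q)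
      (fun u v => by
        simp only [QuadraticMap.polarBilin_apply_apply]
        exact QuadraticMap.polar_comm _ _ _)
      (Matrix.toLin' (x : Matrix ι ι F)) hpolar hinj p μ hkdX hpX W
      (fun w hw => hWx (Submodule.mem_map_of_mem hw))
      (fun w hw hne => by
        obtain ⟨y, hy, hyne⟩ := (hWnd w hw hne).2
        exact ⟨y, hy, by simpa [QuadraticMap.polarBilin_apply_apply] using hyne⟩)
    exact ⟨ν, hν, hνs.trans hWm, hνe⟩

theorem two_ne_zero_of_odd_card {F : Type*} [Field F] [Fintype F] (h : Odd (Fintype.card F)) :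
    (2 : F) ≠ 0 := by
  intro h2
  have : CharP F 2 := CharTwo.of_one_ne_zero_of_two_eq_zero one_ne_zero h2
  have h3 := FiniteField.even_card_of_char_two (ringChar.eq F 2)
  rw [Nat.odd_iff] at h
  omega

/-- The plus-type statement (S5996). -/
theorem jt_plus {F : Type*} [Field F] [Fintype F] {p : ℕ} [Fact p.Prime] [CharP F p]
    (h2 : (2 : F) ≠ 0) (d m : ℕ) (hmd : m ≤ 2 * d)
    (H : ∀ x : Matrix.GeneralLinearGroup (Fin d ⊕ Fin d) F,
      x ∈ Cfsg.Geo.omegaGL (Cfsg.quadFormPlus d F) → x ^ p = 1 →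
      (∀ z : F, (x : Matrix (Fin d ⊕ Fin d) (Fin d ⊕ Fin d) F)
        ≠ z • (1 : Matrix (Fin d ⊕ Fin d) (Fin d ⊕ Fin d) F)) →
      ∃ W : Submodule F (Fin d ⊕ Fin d → F), Module.finrank F W = m ∧
        Cfsg.Geo.IsNondegenerateOn (QuadraticMap.polar (Cfsg.quadFormPlus d F)) W ∧
        W.map (Matrix.toLin' (x : Matrix (Fin d ⊕ Fin d) (Fin d ⊕ Fin d) F)) ≤ W)
    (μ : Multiset ℕ) (hμ : ∀ e ∈ μ, 0 < e ∧ e ≤ p)
    (hev : ∀ e : ℕ, Even e → Even (μ.count e)) (hsum : μ.sum = 2 * d) :
    ∃ ν : Multiset ℕ, ν ≤ μ ∧ ν.sum = m ∧ ∀ e : ℕ, Even e → Even (ν.count e) := by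
  have hHD : HD (Cfsg.quadFormPlus d F) μ :=
    comb_plus (fun s μ => HD (Cfsg.quadFormPlus s F) μ) HD_zero HD_plus_add HD_pair
      (HD_odd_pair h2) μ d (fun e he => (hμ e he).1) hev hsum
  have hcard : Fintype.card (Fin d ⊕ Fin d) = 2 * d := by
    rw [Fintype.card_sum, Fintype.card_fin]
    ring
  exact jt_core h2 (Cfsg.Agent.H49.QP d F) (Cfsg.Agent.H49.QP_nondeg d F) μ hμ
    (by rw [hsum, hcard]) hHD m (by rw [hcard]; exact hmd) H

theorem sum_123 (ν : Multiset ℕ) (h : ∀ e ∈ ν, e = 1 ∨ e = 2 ∨ e = 3) :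
    ν.sum = ν.count 1 + 2 * ν.count 2 + 3 * ν.count 3 := by
  induction ν using Multiset.induction_on with
  | empty => simp
  | cons a s ih =>
    have ih' := ih (fun e he => h e (Multiset.mem_cons_of_mem he))
    rcases h a (Multiset.mem_cons_self a s) with rfl | rfl | rfl
    · simp only [Multiset.sum_cons, Multiset.count_cons_self]
      rw [Multiset.count_cons_of_ne (by decide), Multiset.count_cons_of_ne (by decide)]
      omega
    · simp only [Multiset.sum_cons, Multiset.count_cons_self]
      rw [Multiset.count_cons_of_ne (by decide), Multiset.count_cons_of_ne (by decide)]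
      omega
    · simp only [Multiset.sum_cons, Multiset.count_cons_self]
      rw [Multiset.count_cons_of_ne (by decide), Multiset.count_cons_of_ne (by decide)]
      omega

/-- The odd-dimensional statement (S5995). -/
theorem jt_odd {F : Type*} [Field F] [Fintype F] {p : ℕ} [Fact p.Prime] [CharP F p]
    (h2 : (2 : F) ≠ 0) (d m : ℕ) (hme : Even m) (hmn : m ≤ 2 * d)
    (H : ∀ x : Matrix.GeneralLinearGroup (Unit ⊕ (Fin d ⊕ Fin d)) F,
      x ∈ Cfsg.Geo.omegaGL (Cfsg.quadFormOdd d F) → orderOf x = p →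
      ∃ W : Submodule F (Unit ⊕ (Fin d ⊕ Fin d) → F), Module.finrank F W = m ∧
        Cfsg.Geo.IsNondegenerateOn (QuadraticMap.polar (Cfsg.quadFormOdd d F)) W ∧
        W.map (Matrix.toLin'
          (x : Matrix (Unit ⊕ (Fin d ⊕ Fin d)) (Unit ⊕ (Fin d ⊕ Fin d)) F)) ≤ W) :
    m % 4 = 0 ∧ ∀ μ : Multiset ℕ, (∀ e ∈ μ, 0 < e ∧ e ≤ p) →
      (∀ e : ℕ, Even e → Even (μ.count e)) → μ.sum = 2 * d + 1 →
      ∃ ν : Multiset ℕ, ν ≤ μ ∧ ν.sum = m ∧ ∀ e : ℕ, Even e → Even (ν.count e) := by
  have hp3 : 3 ≤ p := by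
    have hp := (Fact.out : p.Prime)
    have hp2 := hp.two_le
    have hne : p ≠ 2 := by
      rintro rfl
      apply h2
      have := CharP.cast_eq_zero F 2
      exact_mod_cast this
    omega
  have hcard : Fintype.card (Unit ⊕ (Fin d ⊕ Fin d)) = 2 * d + 1 := by
    rw [Fintype.card_sum, Fintype.card_sum, Fintype.card_fin, Fintype.card_unit]
    ring
  have main : ∀ μ : Multiset ℕ, (∀ e ∈ μ, 0 < e ∧ e ≤ p) →
      (∀ e : ℕ, Even e → Even (μ.count e)) → μ.sum = 2 * d + 1 →
      ∃ ν : Multiset ℕ, ν ≤ μ ∧ ν.sum = m ∧ ∀ e : ℕ, Even e → Even (ν.count e) := by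
    intro μ hμ hev hsum
    have hHD : HD (Cfsg.quadFormOdd d F) μ :=
      comb_odd (fun s μ => HD (Cfsg.quadFormPlus s F) μ) (fun s μ => HD (Cfsg.quadFormOdd s F) μ)
        HD_zero HD_plus_add HD_pair (HD_odd_pair h2) (HD_odd_std h2) HD_odd_add μ d
        (fun e he => (hμ e he).1) hev hsum
    refine jt_core h2 (Cfsg.Agent.H49.QOdd d F) (Cfsg.Agent.H49.QOdd_nondeg d h2) μ hμ
      (by rw [hsum, hcard]) hHD m (by rw [hcard]; omega) ?_
    intro x hx hxp hns
    apply H x hx
    apply orderOf_eq_prime hxp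
    rintro rfl
    apply hns 1
    rw [one_smul]
    rfl
  refine ⟨?_, main⟩
  rcases Nat.even_or_odd d with hd | hd
  · -- d even: μ = replicate d 2 + {1}
    obtain ⟨ν, hν, hνs, hνe⟩ := main (Multiset.replicate d 2 + {1})
      (by
        intro e he
        rw [Multiset.mem_add, Multiset.mem_replicate, Multiset.mem_singleton] at he
        rcases he with ⟨_, rfl⟩ | rfl <;> omega)
      (by
        intro e he
        rw [Multiset.count_add, Multiset.count_replicate, Multiset.count_singleton]
        by_cases h : e = 2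
        · subst h
          simpa using hd
        · have h1 : e ≠ 1 := by
            rintro rfl
            exact absurd he (by decide)
          rw [if_neg (Ne.symm h), if_neg h1]
          exact ⟨0, rfl⟩)
      (by
        rw [Multiset.sum_add, Multiset.sum_replicate, Multiset.sum_singleton, smul_eq_mul]
        ring)
    have hmem : ∀ e ∈ ν, e = 1 ∨ e = 2 ∨ e = 3 := by
      intro e he
      have := Multiset.mem_of_le hν he
      rw [Multiset.mem_add, Multiset.mem_replicate, Multiset.mem_singleton] at this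
      rcases this with ⟨_, rfl⟩ | rfl <;> simp
    have hs := sum_123 ν hmem
    have c1 : ν.count 1 ≤ 1 := by
      have := Multiset.count_le_of_le 1 hν
      rw [Multiset.count_add, Multiset.count_replicate, Multiset.count_singleton] at this
      simpa using this
    have c3 : ν.count 3 = 0 := by
      have := Multiset.count_le_of_le 3 hν
      rw [Multiset.count_add, Multiset.count_replicate, Multiset.count_singleton] at this
      simpa using this
    obtain ⟨k, hk⟩ := hνe 2 (by decide)
    obtain ⟨j, hj⟩ := hme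
    omega
  · -- d odd: μ = replicate (d - 1) 2 + {3}
    obtain ⟨k, hk⟩ := hd
    obtain ⟨ν, hν, hνs, hνe⟩ := main (Multiset.replicate (d - 1) 2 + {3})
      (by
        intro e he
        rw [Multiset.mem_add, Multiset.mem_replicate, Multiset.mem_singleton] at he
        rcases he with ⟨_, rfl⟩ | rfl <;> omega)
      (by
        intro e he
        rw [Multiset.count_add, Multiset.count_replicate, Multiset.count_singleton]
        by_cases h : e = 2
        · subst h
          simp only [if_true]
          exact ⟨k, by norm_num; omega⟩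
        · have h1 : e ≠ 3 := by
            rintro rfl
            exact absurd he (by decide)
          rw [if_neg (Ne.symm h), if_neg h1]
          exact ⟨0, rfl⟩)
      (by
        rw [Multiset.sum_add, Multiset.sum_replicate, Multiset.sum_singleton, smul_eq_mul]
        omega)
    have hmem : ∀ e ∈ ν, e = 1 ∨ e = 2 ∨ e = 3 := by
      intro e he
      have := Multiset.mem_of_le hν he
      rw [Multiset.mem_add, Multiset.mem_replicate, Multiset.mem_singleton] at this
      rcases this with ⟨_, rfl⟩ | rfl <;> simp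
    have hs := sum_123 ν hmem
    have c3 : ν.count 3 ≤ 1 := by
      have := Multiset.count_le_of_le 3 hν
      rw [Multiset.count_add, Multiset.count_replicate, Multiset.count_singleton] at this
      simpa using this
    have c1 : ν.count 1 = 0 := by
      have := Multiset.count_le_of_le 1 hν
      rw [Multiset.count_add, Multiset.count_replicate, Multiset.count_singleton] at this
      simpa using this
    obtain ⟨k', hk'⟩ := hνe 2 (by decide)
    obtain ⟨j, hj⟩ := hme
    omega

end Cfsg.Agent.H42.Jt
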