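import Mathlib
import Cfsg.Agent.H4.ElJORDAN
import Cfsg.Agent.H32.ElNILP
import Cfsg.Agent.H42.ElMain
import Cfsg.Agent.H42.JtDefs
import Cfsg.Agent.H42.JtMain
import Cfsg.Agent.H42.JtFin
import Cfsg.Agent.H37.JtA
import Cfsg.Agent.H37.JtK
import Cfsg.Agent.H4.ElMASCHKE
import Cfsg.Agent.H4.ElCOMPLCOUNT

set_option autoImplicit false

/-! Elements of prime order of `PSL_n(q)` and invariant complementary pairs (S5950; helper42). -/

namespace Cfsg.Agent.H42.El

open Cfsg.Agent.H42.Jt (kd jb two_kd_eq pow_eq_zero_of_kd sum_min_of_le sum_min_one card_lt_sum)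
open Cfsg.Agent.H37.JtA (kd_isCompl sum_jb)
open Cfsg.Agent.H37.JtK (min_count)
open Cfsg.Agent.H4.El (exists_invariant_compl card_compl_pairs exists_jordan_split)
open Cfsg.Agent.H32.El (exists_nilpotent_of_type)

/-- The Jordan type of a nilpotent map restricted to an invariant direct summand is a
sub-multiset of its Jordan type. -/
theorem type_of_compl {F : Type*} [Field F] {V : Type*} [AddCommGroup V] [Module F V]
    [FiniteDimensional F V] (N : Module.End F V) (p : ℕ) (μ : Multiset ℕ)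
    (hkd : ∀ e, kd N e = (μ.map (fun s => min e s)).sum) (hp : N ^ p = 0)
    (U W : Submodule F V) (hc : IsCompl U W) (hU : ∀ v ∈ U, N v ∈ U) (hW : ∀ v ∈ W, N v ∈ W) :
    ∃ ν : Multiset ℕ, ν ≤ μ ∧ ν.sum = Module.finrank F U := by
  classical
  have hadd := fun e => kd_isCompl N U W hc hU hW e
  obtain ⟨NU, hNU⟩ : ∃ NU : Module.End F U, NU = N.restrict hU := ⟨_, rfl⟩
  obtain ⟨NW, hNW⟩ : ∃ NW : Module.End F W, NW = N.restrict hW := ⟨_, rfl⟩
  rw [← hNU, ← hNW] at hadd
  have hjbX : ∀ e, 0 < e → jb N e = μ.count e := by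
    intro e he
    have h1 := two_kd_eq N e he
    have h2' := min_count μ e he
    rw [hkd, hkd, hkd] at h1
    omega
  have hjbadd : ∀ e, 0 < e → jb N e = jb NU e + jb NW e := by
    intro e he
    have h1 := two_kd_eq N e he
    have h2' := two_kd_eq NU e he
    have h3 := two_kd_eq NW e he
    have a1 := hadd e
    have a2 := hadd (e - 1)
    have a3 := hadd (e + 1)
    omega
  have hNUp : NU ^ p = 0 := by
    rw [hNU, Module.End.pow_restrict]
    ext w
    simp [hp]
  have hcount : ∀ a, Multiset.count a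
      (∑ e ∈ Finset.range p, Multiset.replicate (jb NU (e + 1)) (e + 1)) =
      if 0 < a ∧ a ≤ p then jb NU a else 0 := by
    intro a
    rw [Multiset.count_sum']
    simp only [Multiset.count_replicate]
    by_cases ha : 0 < a ∧ a ≤ p
    · rw [if_pos ha, Finset.sum_eq_single (a - 1)]
      · have e1 : a - 1 + 1 = a := by omega
        rw [e1, if_pos rfl]
      · intro e _ hne
        rw [if_neg (by omega)]
      · intro hnot
        exfalso
        apply hnot
        rw [Finset.mem_range]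
        omega
    · rw [if_neg ha]
      apply Finset.sum_eq_zero
      intro e he
      rw [Finset.mem_range] at he
      rw [if_neg (by omega)]
  refine ⟨∑ e ∈ Finset.range p, Multiset.replicate (jb NU (e + 1)) (e + 1), ?_, ?_⟩
  · rw [Multiset.le_iff_count]
    intro a
    rw [hcount]
    split_ifs with h
    · have h1 := hjbX a h.1
      have h2' := hjbadd a h.1
      omega
    · exact Nat.zero_le _
  · have h1 : (∑ e ∈ Finset.range p, Multiset.replicate (jb NU (e + 1)) (e + 1)).sum =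
        ∑ e ∈ Finset.range p, (Multiset.replicate (jb NU (e + 1)) (e + 1)).sum :=
      map_sum Multiset.sumAddMonoidHom _ _
    rw [h1, ← sum_jb NU p hNUp]
    apply Finset.sum_congr rfl
    intro e _
    rw [Multiset.sum_replicate, smul_eq_mul, mul_comm]

/-- Partitions with parts `≤ 2`: sub-partitions of every size when `n` is odd or `m` is even. -/
theorem sub_partition_two (n m : ℕ) (hmn : m ≤ n) (h : Odd n ∨ Even m) (μ : Multiset ℕ)
    (hμ : ∀ a ∈ μ, 0 < a ∧ a ≤ 2) (hsum : μ.sum = n) : ∃ ν : Multiset ℕ, ν ≤ μ ∧ ν.sum = m := by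
  have hs := Cfsg.Agent.H42.Jt.sum_123 μ (fun e he => by
    have := hμ e he
    omega)
  have c3 : μ.count 3 = 0 := by
    rw [Multiset.count_eq_zero]
    intro h3
    have := hμ 3 h3
    omega
  rw [hsum, c3] at hs
  refine ⟨Multiset.replicate (min (μ.count 2) (m / 2)) 2 +
    Multiset.replicate (m - 2 * min (μ.count 2) (m / 2)) 1, ?_, ?_⟩
  · rw [Multiset.le_iff_count]
    intro a
    rw [Multiset.count_add, Multiset.count_replicate, Multiset.count_replicate]
    by_cases h2 : a = 2
    · subst h2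
      simp only [if_true]
      norm_num
    · by_cases h1 : a = 1
      · subst h1
        norm_num
        rcases le_total (μ.count 2) (m / 2) with h3 | h3
        · rw [min_eq_left h3]
          omega
        · rw [min_eq_right h3]
          rcases h with h | h
          · obtain ⟨k, hk⟩ := h
            omega
          · obtain ⟨k, hk⟩ := h
            omega
      · rw [if_neg (Ne.symm h2), if_neg (Ne.symm h1)]
        exact Nat.zero_le _
  · rw [Multiset.sum_add, Multiset.sum_replicate, Multiset.sum_replicate, smul_eq_mul,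
      smul_eq_mul, mul_one]
    have : min (μ.count 2) (m / 2) ≤ m / 2 := min_le_right _ _
    omega

section Main

variable {F : Type*} [Field F] [Fintype F]

theorem coprime_char (p : ℕ) [Fact p.Prime] [CharP F p] :
    Nat.Coprime p (Fintype.card F - 1) := by
  have hp := (Fact.out : p.Prime)
  rw [hp.coprime_iff_not_dvd]
  intro h
  have h1 : p ∣ Fintype.card F := by
    rw [← CharP.cast_eq_zero_iff F p]
    exact Nat.cast_card_eq_zero F
  have hq : 1 ≤ Fintype.card F := Fintype.card_pos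
  have h2 : p ∣ 1 := by
    have := Nat.dvd_sub h1 h
    rwa [Nat.sub_sub_self hq] at this
  exact hp.one_lt.ne' (Nat.dvd_one.mp h2)

/-- `(⇐)` of S5950, unipotent case. -/
theorem cp_back_unip {p : ℕ} [Fact p.Prime] [CharP F p] (n m : ℕ) (hn : 0 < n)
    (P : ∀ μ : Multiset ℕ, (∀ a ∈ μ, 0 < a ∧ a ≤ p) → μ.sum = n →
      ∃ ν : Multiset ℕ, ν ≤ μ ∧ ν.sum = m)
    (x : Matrix.SpecialLinearGroup (Fin n) F) (c : F)
    (hx : ((x ^ p : Matrix.SpecialLinearGroup (Fin n) F) : Matrix (Fin n) (Fin n) F)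
      = c • (1 : Matrix (Fin n) (Fin n) F)) :
    ∃ U W : Submodule F (Fin n → F), IsCompl U W ∧ Module.finrank F U = m ∧
      U.map (Matrix.toLin' (x : Matrix (Fin n) (Fin n) F)) ≤ U ∧
      W.map (Matrix.toLin' (x : Matrix (Fin n) (Fin n) F)) ≤ W := by
  have hp := (Fact.out : p.Prime)
  have hT₀ := toLin_pow_eq x p c hx
  have hfin : Module.finrank F (Fin n → F) = n := Module.finrank_fin_fun F
  have hc0 : c ≠ 0 := by
    rintro rfl
    have h1 := congrArg Matrix.det hx
    have : Nonempty (Fin n) := Fin.pos_iff_nonempty.mp hn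
    rw [zero_smul, Matrix.det_zero] at h1
    rw [(x ^ p).det_coe] at h1
    exact one_ne_zero h1
  obtain ⟨b, hb⟩ := exists_pow_eq p (coprime_char p) c hc0
  have hb0 : b ≠ 0 := by
    rintro rfl
    rw [zero_pow hp.ne_zero] at hb
    exact hc0 hb.symm
  have hT : (b⁻¹ • Matrix.toLin' (x : Matrix (Fin n) (Fin n) F)) ^ p = 1 := by
    rw [smul_pow, hT₀, smul_smul, inv_pow, hb, inv_mul_cancel₀ hc0, one_smul]
  have hN : (b⁻¹ • Matrix.toLin' (x : Matrix (Fin n) (Fin n) F) - 1) ^ p = 0 := by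
    have h1 : ((Polynomial.X : Polynomial F) - 1) ^ p = Polynomial.X ^ p - 1 := by
      rw [sub_pow_char, one_pow]
    have h2 := congrArg (Polynomial.aeval
      (b⁻¹ • Matrix.toLin' (x : Matrix (Fin n) (Fin n) F))) h1
    simp only [map_pow, map_sub, Polynomial.aeval_X, map_one] at h2
    rw [h2, hT, sub_self]
  obtain ⟨μ, hμ, hsum, hsplit⟩ := exists_jordan_split
    (b⁻¹ • Matrix.toLin' (x : Matrix (Fin n) (Fin n) F) - 1) p hN
  rw [hfin] at hsum
  obtain ⟨ν, hν, hνs⟩ := P μ hμ hsum
  obtain ⟨U, W, hc, hU, hW, hdim⟩ := hsplit ν hν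
  have hinv : ∀ Z : Submodule F (Fin n → F),
      (∀ v ∈ Z, (b⁻¹ • Matrix.toLin' (x : Matrix (Fin n) (Fin n) F) - 1) v ∈ Z) →
      Z.map (Matrix.toLin' (x : Matrix (Fin n) (Fin n) F)) ≤ Z := by
    intro Z hZ
    rw [map_le_iff]
    intro v hv
    have h1 := Z.add_mem (hZ v hv) hv
    rw [LinearMap.sub_apply, Module.End.one_apply, sub_add_cancel, LinearMap.smul_apply] at h1
    have h2 := Z.smul_mem b h1
    rwa [smul_smul, mul_inv_cancel₀ hb0, one_smul] at h2
  exact ⟨U, W, hc, by rw [hdim, hνs], hinv U hU, hinv W hW⟩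

/-- `(⇒)` of S5950, unipotent case: the partition condition. -/
theorem cp_forward_unip {p : ℕ} [Fact p.Prime] [CharP F p] (n m : ℕ) (hmn : m ≤ n)
    (H : ∀ x : Matrix.SpecialLinearGroup (Fin n) F,
      (∃ c : F, ((x ^ p : Matrix.SpecialLinearGroup (Fin n) F) : Matrix (Fin n) (Fin n) F)
        = c • (1 : Matrix (Fin n) (Fin n) F)) →
      (∀ c : F, (x : Matrix (Fin n) (Fin n) F) ≠ c • (1 : Matrix (Fin n) (Fin n) F)) →
      ∃ U W : Submodule F (Fin n → F), IsCompl U W ∧ Module.finrank F U = m ∧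
        U.map (Matrix.toLin' (x : Matrix (Fin n) (Fin n) F)) ≤ U ∧
        W.map (Matrix.toLin' (x : Matrix (Fin n) (Fin n) F)) ≤ W)
    (μ : Multiset ℕ) (hμ : ∀ a ∈ μ, 0 < a ∧ a ≤ p) (hsum : μ.sum = n) :
    ∃ ν : Multiset ℕ, ν ≤ μ ∧ ν.sum = m := by
  classical
  have hp := (Fact.out : p.Prime)
  have hfin : Module.finrank F (Fin n → F) = n := Module.finrank_fin_fun F
  by_cases hall : ∀ e ∈ μ, e = 1
  · have hrep : μ = Multiset.replicate (Multiset.card μ) 1 := Multiset.eq_replicate_card.mpr hall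
    have hcard : Multiset.card μ = n := by
      rw [← hsum]
      conv_rhs => rw [hrep]
      simp
    refine ⟨Multiset.replicate m 1, ?_, by simp⟩
    rw [hrep, hcard]
    exact (Multiset.replicate_le_replicate 1).mpr hmn
  · push Not at hall
    obtain ⟨e₀, he₀, hne⟩ := hall
    have hn : 0 < n := by
      rw [← hsum]
      exact lt_of_lt_of_le (hμ e₀ he₀).1 (Multiset.le_sum_of_mem he₀)
    have : Nonempty (Fin n) := Fin.pos_iff_nonempty.mp hn
    obtain ⟨N, hNkd⟩ := exists_nilpotent_of_type (F := F) n μ (fun a ha => (hμ a ha).1) hsum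
    have hNp : N ^ p = 0 := by
      have h1 : (Matrix.toLin' N) ^ p = 0 := by
        apply pow_eq_zero_of_kd
        rw [hNkd, sum_min_of_le μ p (fun e he => (hμ e he).2), hsum, hfin]
      have h2' : Matrix.toLin' (N ^ p) = 0 := by
        rw [Matrix.toLin'_pow]
        exact h1
      exact Matrix.toLin'.injective (by rw [h2', map_zero])
    have hpow : (1 + N) ^ p = 1 := by
      rw [add_pow_char_of_commute _ (Commute.one_left N), one_pow, hNp, add_zero]
    have hdet : (1 + N).det = 1 := by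
      have h1 : (1 + N).det ^ p = 1 := by
        rw [← Matrix.det_pow, hpow, Matrix.det_one]
      exact eq_one_of_pow_eq_one p hp.ne_zero (coprime_char p) _ h1
    obtain ⟨x, hxdef⟩ : ∃ x : Matrix.SpecialLinearGroup (Fin n) F,
        (x : Matrix (Fin n) (Fin n) F) = 1 + N := ⟨⟨1 + N, hdet⟩, rfl⟩
    have hxp : ((x ^ p : Matrix.SpecialLinearGroup (Fin n) F) : Matrix (Fin n) (Fin n) F)
        = (1 : F) • (1 : Matrix (Fin n) (Fin n) F) := by
      rw [Matrix.SpecialLinearGroup.coe_pow, one_smul, hxdef]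
      exact hpow
    have hcardlt : Multiset.card μ < n := by
      rw [← hsum]
      exact card_lt_sum μ (fun e he => (hμ e he).1) e₀ he₀ hne
    have hcardpos : 0 < Multiset.card μ := Multiset.card_pos_iff_exists_mem.mpr ⟨e₀, he₀⟩
    have hns : ∀ z : F, (x : Matrix (Fin n) (Fin n) F) ≠ z • (1 : Matrix (Fin n) (Fin n) F) := by
      intro z hz
      have hz' : N = (z - 1) • (1 : Matrix (Fin n) (Fin n) F) := by
        have h0 : (1 : Matrix (Fin n) (Fin n) F) + N = z • 1 := by rw [← hxdef]; exact hz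
        rw [sub_smul, one_smul, ← h0]
        abel
      have h1 := hNkd 1
      rw [sum_min_one μ (fun e he => (hμ e he).1)] at h1
      have h3 : Matrix.toLin' N = (z - 1) • (1 : Module.End F (Fin n → F)) := by
        rw [hz', map_smul, Matrix.toLin'_one]
        rfl
      rw [h3] at h1
      unfold kd at h1
      rw [pow_one] at h1
      by_cases hz1 : z = 1
      · subst hz1
        rw [sub_self, zero_smul, LinearMap.ker_zero, finrank_top, hfin] at h1
        omega
      · have hk : LinearMap.ker ((z - 1) • (1 : Module.End F (Fin n → F))) = ⊥ := by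
          rw [LinearMap.ker_eq_bot']
          intro v hv
          rw [LinearMap.smul_apply, Module.End.one_apply, smul_eq_zero] at hv
          exact hv.resolve_left (sub_ne_zero.mpr hz1)
        rw [hk, finrank_bot] at h1
        omega
    obtain ⟨U, W, hc, hUm, hU, hW⟩ := H x ⟨1, hxp⟩ hns
    rw [hxdef] at hU hW
    have hinv : ∀ Z : Submodule F (Fin n → F),
        Z.map (Matrix.toLin' (1 + N)) ≤ Z → ∀ v ∈ Z, Matrix.toLin' N v ∈ Z := by
      intro Z hZ v hv
      have h1 := (map_le_iff _ _).mp hZ v hv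
      rw [map_add, Matrix.toLin'_one, LinearMap.add_apply] at h1
      have h2 := Z.sub_mem h1 hv
      simpa using h2
    have h1 : (Matrix.toLin' N) ^ p = 0 := by
      rw [← Matrix.toLin'_pow, hNp, map_zero]
    obtain ⟨ν, hν, hνs⟩ := type_of_compl (Matrix.toLin' N) p μ hNkd h1 U W hc (hinv U hU)
      (hinv W hW)
    exact ⟨ν, hν, hνs.trans hUm⟩

/-- `(⇐)` of S5950, semisimple case. -/
theorem cp_back {p : ℕ} [Fact p.Prime] [CharP F p] (n m r : ℕ) [Fact r.Prime] (hm : m ≤ n)
    (hn : 0 < n) (hrp : r ≠ p)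
    (h : (orderOf ((Fintype.card F : ℕ) : ZMod r) = 1 ∧
        (r ∣ m ∨ (padicValNat r n ≤ padicValNat r (Fintype.card F - 1) ∧
          (r = 2 → Even n → Fintype.card F % 4 = 1)))) ∨
      (2 ≤ orderOf ((Fintype.card F : ℕ) : ZMod r) ∧
        orderOf ((Fintype.card F : ℕ) : ZMod r) ≤ m ∧
        m % orderOf ((Fintype.card F : ℕ) : ZMod r) ≤ n % orderOf ((Fintype.card F : ℕ) : ZMod r)))
    (x : Matrix.SpecialLinearGroup (Fin n) F) (c : F)
    (hx : ((x ^ r : Matrix.SpecialLinearGroup (Fin n) F) : Matrix (Fin n) (Fin n) F)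
      = c • (1 : Matrix (Fin n) (Fin n) F)) :
    ∃ U W : Submodule F (Fin n → F), IsCompl U W ∧ Module.finrank F U = m ∧
      U.map (Matrix.toLin' (x : Matrix (Fin n) (Fin n) F)) ≤ U ∧
      W.map (Matrix.toLin' (x : Matrix (Fin n) (Fin n) F)) ≤ W := by
  have hr := (Fact.out : r.Prime)
  obtain ⟨U, hUm, hU⟩ := el_back n m r hm hn hrp h x c hx
  have hT₀ := toLin_pow_eq x r c hx
  have hc0 : c ≠ 0 := by
    rintro rfl
    have h1 := congrArg Matrix.det hx
    have : Nonempty (Fin n) := Fin.pos_iff_nonempty.mp hn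
    rw [zero_smul, Matrix.det_zero] at h1
    rw [(x ^ r).det_coe] at h1
    exact one_ne_zero h1
  have hrF : (r : F) ≠ 0 := cast_ne_zero_of_ne p r hrp
  have hq1 : 1 ≤ Fintype.card F := Fintype.card_pos
  have hN : ((r * (Fintype.card F - 1) : ℕ) : F) ≠ 0 := by
    rw [Nat.cast_mul, Nat.cast_sub hq1, Nat.cast_card_eq_zero, Nat.cast_one, zero_sub]
    exact mul_ne_zero hrF (neg_ne_zero.mpr one_ne_zero)
  have hTN : Matrix.toLin' (x : Matrix (Fin n) (Fin n) F) ^ (r * (Fintype.card F - 1)) = 1 := by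
    rw [pow_mul, hT₀, smul_pow, one_pow, FiniteField.pow_card_sub_one_eq_one c hc0, one_smul]
  obtain ⟨W, hW, hc⟩ := exists_invariant_compl (Matrix.toLin' (x : Matrix (Fin n) (Fin n) F))
    (r * (Fintype.card F - 1)) hN hTN U ((map_le_iff _ _).mp hU)
  exact ⟨U, W, hc, hUm, hU, (map_le_iff _ _).mpr hW⟩

/-- S5950. -/
theorem cp_main {p : ℕ} [Fact p.Prime] [CharP F p] (n m r : ℕ) [Fact r.Prime] (hm1 : 1 ≤ m)
    (hmn : 2 * m < n)
    (hrΩ : r ∣ Nat.card {P : Submodule F (Fin n → F) × Submodule F (Fin n → F) //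
        IsCompl P.1 P.2 ∧ Module.finrank F ↥P.1 = m}) :
    (∀ x : Matrix.SpecialLinearGroup (Fin n) F,
      (∃ c : F, ((x ^ r : Matrix.SpecialLinearGroup (Fin n) F) : Matrix (Fin n) (Fin n) F)
        = c • (1 : Matrix (Fin n) (Fin n) F)) →
      (∀ c : F, (x : Matrix (Fin n) (Fin n) F) ≠ c • (1 : Matrix (Fin n) (Fin n) F)) →
      ∃ U W : Submodule F (Fin n → F), IsCompl U W ∧ Module.finrank F U = m ∧
        U.map (Matrix.toLin' (x : Matrix (Fin n) (Fin n) F)) ≤ U ∧
        W.map (Matrix.toLin' (x : Matrix (Fin n) (Fin n) F)) ≤ W) ↔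
    ((r = p ∧ 2 < p ∧ (∀ μ : Multiset ℕ, (∀ a ∈ μ, 0 < a ∧ a ≤ p) → μ.sum = n →
        ∃ ν : Multiset ℕ, ν ≤ μ ∧ ν.sum = m)) ∨
     (r = p ∧ p = 2 ∧ (Odd n ∨ Even m)) ∨
     (r ≠ p ∧
      ((orderOf ((Fintype.card F : ℕ) : ZMod r) = 1 ∧
        (r ∣ m ∨ (padicValNat r n ≤ padicValNat r (Fintype.card F - 1) ∧
          (r = 2 → Even n → Fintype.card F % 4 = 1)))) ∨
       (2 ≤ orderOf ((Fintype.card F : ℕ) : ZMod r) ∧
        orderOf ((Fintype.card F : ℕ) : ZMod r) ≤ m ∧
        m % orderOf ((Fintype.card F : ℕ) : ZMod r)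
          ≤ n % orderOf ((Fintype.card F : ℕ) : ZMod r))))) := by
  have hr := (Fact.out : r.Prime)
  have hp := (Fact.out : p.Prime)
  have hn : 0 < n := by omega
  constructor
  · intro H
    by_cases hrp : r = p
    · subst hrp
      have P := cp_forward_unip n m (by omega) H
      rcases Nat.lt_or_ge 2 r with h2 | h2
      · exact Or.inl ⟨rfl, h2, P⟩
      · have hr2 : r = 2 := le_antisymm h2 hr.two_le
        refine Or.inr (Or.inl ⟨rfl, hr2, ?_⟩)
        by_contra hcon
        push Not at hcon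
        obtain ⟨hne, hmo⟩ := hcon
        rw [Nat.not_odd_iff_even] at hne
        rw [Nat.not_even_iff_odd] at hmo
        obtain ⟨k, hk⟩ := hne
        obtain ⟨ν, hν, hνs⟩ := P (Multiset.replicate k 2)
          (by
            intro a ha
            rw [Multiset.mem_replicate] at ha
            rw [ha.2, hr2]
            omega)
          (by rw [Multiset.sum_replicate, smul_eq_mul]; omega)
        rw [Multiset.le_replicate_iff] at hν
        obtain ⟨j, -, rfl⟩ := hν
        rw [Multiset.sum_replicate, smul_eq_mul] at hνs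
        obtain ⟨t, ht⟩ := hmo
        omega
    · refine Or.inr (Or.inr ?_)
      obtain ⟨k, hk⟩ := card_compl_pairs (F := F) n m (by omega)
      rw [hk] at hrΩ
      have hrq : ¬ r ∣ Fintype.card F ^ k := by
        intro h1
        have h2 := hr.dvd_of_dvd_pow h1
        obtain ⟨f, -, hf⟩ := FiniteField.card F p
        rw [hf] at h2
        have h3 := hr.dvd_of_dvd_pow h2
        exact hrp ((Nat.prime_dvd_prime_iff_eq hr hp).mp h3)
      have hrΩ' := ((Nat.Prime.dvd_mul hr).mp hrΩ).resolve_right hrq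
      exact el_forward n m r hm1 (by omega) hrΩ' (fun x hx hns => by
        obtain ⟨U, W, -, hUm, hU, -⟩ := H x hx hns
        exact ⟨U, hUm, hU⟩)
  · rintro (⟨rfl, -, P⟩ | ⟨rfl, h2, hpar⟩ | ⟨hrp, h⟩) x ⟨c, hx⟩ _
    · exact cp_back_unip n m hn P x c hx
    · refine cp_back_unip n m hn ?_ x c hx
      intro μ hμ hsum
      rw [h2] at hμ
      exact sub_partition_two n m (by omega) hpar μ hμ hsum
    · exact cp_back n m r (by omega) hn hrp h x c hx

end Main

end Cfsg.Agent.H42.El
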