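import Mathlib
import Cfsg.Agent.H42.ElMain
import Cfsg.Agent.H62.ElFLAGCOUNT

set_option autoImplicit false

/-! Elements of prime order of `PSL_n(q)` and invariant flags `U ≤ W` (S5951; helper42). -/

namespace Cfsg.Agent.H42.El

open Cfsg.Agent.Lib.Helper30.El (not_dvd_card_subspaces_char not_dvd_card_subspaces_of_le_mod)
open Cfsg.Agent.H99.Kum (kummer_dvd_finrank kummer_exists_chain kummer_det)
open Cfsg.Agent.H99.El (exists_grid finrank_invariant_mod)
open Cfsg.Agent.H48.El (kummer_det_one_imp exists_kummer_SL exists_semisimple_SL)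
open Cfsg.Agent.H62.El (card_flags)

variable {F : Type*} [Field F] [Fintype F]

/-- `(⇐)` of S5951. -/
theorem fl_back {p : ℕ} [Fact p.Prime] [CharP F p] (n m r : ℕ) [Fact r.Prime] (hmn : 2 * m < n)
    (hrp : r ≠ p)
    (h : (orderOf ((Fintype.card F : ℕ) : ZMod r) = 1 ∧
        (r ∣ m ∨ (padicValNat r n ≤ padicValNat r (Fintype.card F - 1) ∧
          (r = 2 → Even n → Fintype.card F % 4 = 1)))) ∨
      (2 ≤ orderOf ((Fintype.card F : ℕ) : ZMod r) ∧
        orderOf ((Fintype.card F : ℕ) : ZMod r) ≤ m ∧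
        2 * (m % orderOf ((Fintype.card F : ℕ) : ZMod r))
          ≤ n % orderOf ((Fintype.card F : ℕ) : ZMod r)))
    (x : Matrix.SpecialLinearGroup (Fin n) F) (c : F)
    (hx : ((x ^ r : Matrix.SpecialLinearGroup (Fin n) F) : Matrix (Fin n) (Fin n) F)
      = c • (1 : Matrix (Fin n) (Fin n) F)) :
    ∃ U W : Submodule F (Fin n → F), U ≤ W ∧ Module.finrank F U = m ∧
      Module.finrank F W = n - m ∧
      U.map (Matrix.toLin' (x : Matrix (Fin n) (Fin n) F)) ≤ U ∧
      W.map (Matrix.toLin' (x : Matrix (Fin n) (Fin n) F)) ≤ W := by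
  have hr := (Fact.out : r.Prime)
  have hn : 0 < n := by omega
  have hrF : (r : F) ≠ 0 := cast_ne_zero_of_ne p r hrp
  have hipos := orderOf_card_pos (F := F) p r hrp
  have hT₀ := toLin_pow_eq x r c hx
  have hfin : Module.finrank F (Fin n → F) = n := Module.finrank_fin_fun F
  have hdet : LinearMap.det (Matrix.toLin' (x : Matrix (Fin n) (Fin n) F)) = 1 := by
    rw [LinearMap.det_toLin']
    exact x.det_coe
  have hc0 : c ≠ 0 := by
    rintro rfl
    have h1 := congrArg Matrix.det hx
    have : Nonempty (Fin n) := Fin.pos_iff_nonempty.mp hn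
    rw [zero_smul, Matrix.det_zero] at h1
    rw [(x ^ r).det_coe] at h1
    exact one_ne_zero h1
  have hmod : 2 * (m % orderOf ((Fintype.card F : ℕ) : ZMod r))
      ≤ n % orderOf ((Fintype.card F : ℕ) : ZMod r) := by
    rcases h with ⟨h1, _⟩ | ⟨_, _, h3⟩
    · rw [h1, Nat.mod_one]
      exact Nat.zero_le _
    · exact h3
  by_cases hpow : ∃ b : F, b ^ r = c
  · obtain ⟨b, hb⟩ := hpow
    have hb0 : b ≠ 0 := by
      rintro rfl
      rw [zero_pow hr.ne_zero] at hb
      exact hc0 hb.symm
    have hT : (b⁻¹ • Matrix.toLin' (x : Matrix (Fin n) (Fin n) F)) ^ r = 1 := by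
      rw [smul_pow, hT₀, smul_smul, inv_pow, hb, inv_mul_cancel₀ hc0, one_smul]
    obtain ⟨j, G, hj, hG, hmono⟩ := exists_grid
      (b⁻¹ • Matrix.toLin' (x : Matrix (Fin n) (Fin n) F)) r hr hrF hT
    rw [hfin] at hj
    have hinvx : ∀ W : Submodule F (Fin n → F),
        (∀ v ∈ W, (b⁻¹ • Matrix.toLin' (x : Matrix (Fin n) (Fin n) F)) v ∈ W) →
        W.map (Matrix.toLin' (x : Matrix (Fin n) (Fin n) F)) ≤ W := by
      intro W hW
      rw [map_le_iff]
      intro v hv
      have h1 := hW v hv
      rw [LinearMap.smul_apply] at h1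
      have h2 := W.smul_mem b h1
      rwa [smul_smul, mul_inv_cancel₀ hb0, one_smul] at h2
    generalize hi : orderOf ((Fintype.card F : ℕ) : ZMod r) = i at *
    generalize hk : Module.finrank F
      (LinearMap.ker (b⁻¹ • Matrix.toLin' (x : Matrix (Fin n) (Fin n) F) - 1)) = k at *
    have hkmod : n % i ≤ k := by
      have : n % i = k % i := by
        rw [← hj, Nat.mul_add_mod_self_right]
      rw [this]
      exact Nat.mod_le _ _
    have hdm : m / i * i + m % i = m := by
      rw [Nat.mul_comm]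
      exact Nat.div_add_mod m i
    rcases le_or_gt (m / i) j with hs | hs
    · have hAJ : m / i * i ≤ j * i := Nat.mul_le_mul_right i hs
      rcases le_or_gt j (2 * (m / i)) with h2s | h2s
      · -- s' = m / i, t' = n - m - (m / i) * i
        have hJ2 : j * i ≤ 2 * (m / i * i) := by
          calc j * i ≤ 2 * (m / i) * i := Nat.mul_le_mul_right i h2s
            _ = 2 * (m / i * i) := by ring
        obtain ⟨hU1, hU2⟩ := hG (m / i) (m % i) hs (by omega)
        obtain ⟨hW1, hW2⟩ := hG (m / i) (n - m - m / i * i) hs (by omega)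
        refine ⟨G (m / i) (m % i), G (m / i) (n - m - m / i * i),
          hmono _ _ _ _ le_rfl hs (by omega) (by omega), by rw [hU2]; omega, by rw [hW2]; omega,
          hinvx _ hU1, hinvx _ hW1⟩
      · -- s' = j - m / i, t' = k - m % i
        have hsub : (j - m / i) * i = j * i - m / i * i := Nat.sub_mul _ _ _
        obtain ⟨hU1, hU2⟩ := hG (m / i) (m % i) hs (by omega)
        obtain ⟨hW1, hW2⟩ := hG (j - m / i) (k - m % i) (by omega) (by omega)
        refine ⟨G (m / i) (m % i), G (j - m / i) (k - m % i),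
          hmono _ _ _ _ (by omega) (by omega) (by omega) (by omega), by rw [hU2]; omega,
          by rw [hW2, hsub]; omega, hinvx _ hU1, hinvx _ hW1⟩
    · -- all blocks
      have hJA : j * i ≤ m / i * i := Nat.mul_le_mul_right i hs.le
      obtain ⟨hU1, hU2⟩ := hG j (m - j * i) le_rfl (by omega)
      obtain ⟨hW1, hW2⟩ := hG j (n - m - j * i) le_rfl (by omega)
      refine ⟨G j (m - j * i), G j (n - m - j * i),
        hmono _ _ _ _ le_rfl le_rfl (by omega) (by omega), by rw [hU2]; omega,
        by rw [hW2]; omega, hinvx _ hU1, hinvx _ hW1⟩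
  · push Not at hpow
    rcases h with ⟨h1, h2⟩ | ⟨h1, _, _⟩
    · have hrq : r ∣ Fintype.card F - 1 := (orderOf_eq_one_iff_dvd r).mp h1
      have hrn : r ∣ n := by
        have := kummer_dvd_finrank (Matrix.toLin' (x : Matrix (Fin n) (Fin n) F)) r hr c hpow
          hT₀ ⊤ (fun v _ => Submodule.mem_top)
        rwa [finrank_top, hfin] at this
      rcases h2 with h2 | ⟨h2, h3⟩
      · obtain ⟨B, hBmono, hB⟩ := kummer_exists_chain
          (Matrix.toLin' (x : Matrix (Fin n) (Fin n) F)) r hr c hpow hT₀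
        rw [hfin] at hBmono hB
        have hrnm : r ∣ n - m := Nat.dvd_sub hrn h2
        obtain ⟨hU1, hU2⟩ := hB (m / r) (by rw [Nat.mul_div_cancel' h2]; omega)
        obtain ⟨hW1, hW2⟩ := hB ((n - m) / r) (by rw [Nat.mul_div_cancel' hrnm]; omega)
        refine ⟨B (m / r), B ((n - m) / r),
          hBmono _ _ (Nat.div_le_div_right (by omega)) (by rw [Nat.mul_div_cancel' hrnm]; omega),
          by rw [hU2, Nat.mul_div_cancel' h2], by rw [hW2, Nat.mul_div_cancel' hrnm],
          (map_le_iff _ _).mpr hU1, (map_le_iff _ _).mpr hW1⟩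
      · exfalso
        have hd := kummer_det (Matrix.toLin' (x : Matrix (Fin n) (Fin n) F)) r hr c hpow hT₀
        rw [hdet, hfin] at hd
        rcases kummer_det_one_imp r hr hrq c hpow n hn hrn hd.symm with h4 | ⟨h4, h5⟩
        · omega
        · have hev : Even n := by
            rw [h4] at hrn
            exact even_iff_two_dvd.mpr hrn
          have := h3 h4 hev
          omega
    · exfalso
      obtain ⟨b, hb⟩ := exists_pow_eq r (coprime_of_two_le r h1) c hc0
      exact hpow b hb

/-- `(⇒)` of S5951. -/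
theorem fl_forward {p : ℕ} [Fact p.Prime] [CharP F p] (n m r : ℕ) [Fact r.Prime] (hm1 : 1 ≤ m)
    (hmn : 2 * m < n)
    (hrΩ : r ∣ Nat.card {P : Submodule F (Fin n → F) × Submodule F (Fin n → F) //
        P.1 ≤ P.2 ∧ Module.finrank F ↥P.1 = m ∧ Module.finrank F ↥P.2 = n - m})
    (H : ∀ x : Matrix.SpecialLinearGroup (Fin n) F,
      (∃ c : F, ((x ^ r : Matrix.SpecialLinearGroup (Fin n) F) : Matrix (Fin n) (Fin n) F)
        = c • (1 : Matrix (Fin n) (Fin n) F)) →
      (∀ c : F, (x : Matrix (Fin n) (Fin n) F) ≠ c • (1 : Matrix (Fin n) (Fin n) F)) →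
      ∃ U W : Submodule F (Fin n → F), U ≤ W ∧ Module.finrank F U = m ∧
        Module.finrank F W = n - m ∧
        U.map (Matrix.toLin' (x : Matrix (Fin n) (Fin n) F)) ≤ U ∧
        W.map (Matrix.toLin' (x : Matrix (Fin n) (Fin n) F)) ≤ W) :
    r ≠ p ∧
      ((orderOf ((Fintype.card F : ℕ) : ZMod r) = 1 ∧
        (r ∣ m ∨ (padicValNat r n ≤ padicValNat r (Fintype.card F - 1) ∧
          (r = 2 → Even n → Fintype.card F % 4 = 1)))) ∨
      (2 ≤ orderOf ((Fintype.card F : ℕ) : ZMod r) ∧
        orderOf ((Fintype.card F : ℕ) : ZMod r) ≤ m ∧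
        2 * (m % orderOf ((Fintype.card F : ℕ) : ZMod r))
          ≤ n % orderOf ((Fintype.card F : ℕ) : ZMod r))) := by
  have hr := (Fact.out : r.Prime)
  have hn : 0 < n := by omega
  rw [card_flags n m (by omega)] at hrΩ
  have hrp : r ≠ p := by
    rintro rfl
    rcases (Nat.Prime.dvd_mul hr).mp hrΩ with h1 | h1
    · exact not_dvd_card_subspaces_char r n m (by omega) h1
    · exact not_dvd_card_subspaces_char r (n - m) m (by omega) h1
  refine ⟨hrp, ?_⟩
  have hrF : (r : F) ≠ 0 := cast_ne_zero_of_ne p r hrp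
  have hipos := orderOf_card_pos (F := F) p r hrp
  have hfin : Module.finrank F (Fin n → F) = n := Module.finrank_fin_fun F
  have : NeZero n := ⟨by omega⟩
  rcases Nat.lt_or_ge (orderOf ((Fintype.card F : ℕ) : ZMod r)) 2 with hi | hi
  · -- i = 1
    have hi1 : orderOf ((Fintype.card F : ℕ) : ZMod r) = 1 := by omega
    left
    refine ⟨hi1, ?_⟩
    have hrq : r ∣ Fintype.card F - 1 := (orderOf_eq_one_iff_dvd r).mp hi1
    by_contra hcon
    push Not at hcon
    obtain ⟨hrm, hcon2⟩ := hcon
    have hcase : padicValNat r (Fintype.card F - 1) < padicValNat r n ∨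
        (r = 2 ∧ Even n ∧ Fintype.card F % 4 = 3) := by
      by_cases hv : padicValNat r n ≤ padicValNat r (Fintype.card F - 1)
      · right
        obtain ⟨h1, h2, h3⟩ := hcon2 hv
        refine ⟨h1, h2, ?_⟩
        have hq1 : 1 ≤ Fintype.card F := Fintype.card_pos
        rw [h1] at hrq
        obtain ⟨t, ht⟩ := hrq
        omega
      · left
        omega
    obtain ⟨x, c, hc, hx⟩ := exists_kummer_SL r hr hrq n hn hcase
    have hns : ∀ b : F, (x : Matrix (Fin n) (Fin n) F) ≠ b • (1 : Matrix (Fin n) (Fin n) F) := by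
      intro b hb
      apply hc b
      have h1 : ((x ^ r : Matrix.SpecialLinearGroup (Fin n) F) : Matrix (Fin n) (Fin n) F)
          = (b ^ r) • (1 : Matrix (Fin n) (Fin n) F) := by
        rw [Matrix.SpecialLinearGroup.coe_pow, hb, smul_pow, one_pow]
      rw [hx] at h1
      have h2 := congrFun (congrFun h1 0) 0
      simpa using h2.symm
    obtain ⟨U, W, -, hUm, -, hU, -⟩ := H x ⟨c, hx⟩ hns
    have := kummer_dvd_finrank (Matrix.toLin' (x : Matrix (Fin n) (Fin n) F)) r hr c hc
      (toLin_pow_eq x r c hx) U ((map_le_iff _ _).mp hU)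
    rw [hUm] at this
    exact hrm this
  · right
    refine ⟨hi, ?_⟩
    have hco := coprime_of_two_le (F := F) r hi
    have hmod : 2 * (m % orderOf ((Fintype.card F : ℕ) : ZMod r))
        ≤ n % orderOf ((Fintype.card F : ℕ) : ZMod r) := by
      by_contra hcon
      push Not at hcon
      have hin : orderOf ((Fintype.card F : ℕ) : ZMod r) ≤ n := by
        by_contra hlt
        push Not at hlt
        rw [Nat.mod_eq_of_lt hlt, Nat.mod_eq_of_lt (by omega)] at hcon
        omega
      obtain ⟨x, hxr, hx1, hxk⟩ := exists_semisimple_SL r hr hrF n hi hin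
      have hxr' : ((x ^ r : Matrix.SpecialLinearGroup (Fin n) F) : Matrix (Fin n) (Fin n) F)
          = (1 : F) • (1 : Matrix (Fin n) (Fin n) F) := by
        rw [hxr, one_smul]
        rfl
      have hns : ∀ b : F,
          (x : Matrix (Fin n) (Fin n) F) ≠ b • (1 : Matrix (Fin n) (Fin n) F) := by
        intro b hb
        have h1 : ((x ^ r : Matrix.SpecialLinearGroup (Fin n) F) : Matrix (Fin n) (Fin n) F)
            = (b ^ r) • (1 : Matrix (Fin n) (Fin n) F) := by
          rw [Matrix.SpecialLinearGroup.coe_pow, hb, smul_pow, one_pow]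
        rw [hxr'] at h1
        have h2 := congrFun (congrFun h1 0) 0
        have h3 : b ^ r = 1 := by simpa using h2.symm
        have h4 := eq_one_of_pow_eq_one r hr.ne_zero hco b h3
        apply hx1
        apply Subtype.ext
        rw [hb, h4, one_smul]
        rfl
      obtain ⟨U, W, hUW, hUm, hWm, hU, hW⟩ := H x ⟨1, hxr'⟩ hns
      have hT := toLin_pow_eq x r 1 hxr'
      rw [one_smul] at hT
      obtain ⟨aU, haU⟩ := finrank_invariant_mod (Matrix.toLin' (x : Matrix (Fin n) (Fin n) F)) r
        hr hrF hT U ((map_le_iff _ _).mp hU)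
      obtain ⟨aW, haW⟩ := finrank_invariant_mod (Matrix.toLin' (x : Matrix (Fin n) (Fin n) F)) r
        hr hrF hT W ((map_le_iff _ _).mp hW)
      have hle1 : Module.finrank F ↥(U ⊓ LinearMap.ker
          (Matrix.toLin' (x : Matrix (Fin n) (Fin n) F) - 1)) ≤ Module.finrank F ↥(W ⊓
            LinearMap.ker (Matrix.toLin' (x : Matrix (Fin n) (Fin n) F) - 1)) :=
        Submodule.finrank_mono (inf_le_inf_right _ hUW)
      have hle2 : Module.finrank F ↥(W ⊓ LinearMap.ker
          (Matrix.toLin' (x : Matrix (Fin n) (Fin n) F) - 1)) ≤ n % orderOf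
            ((Fintype.card F : ℕ) : ZMod r) := by
        rw [← hxk]
        exact Submodule.finrank_mono inf_le_right
      rw [hUm] at haU
      rw [hWm] at haW
      generalize orderOf ((Fintype.card F : ℕ) : ZMod r) = i at *
      generalize Module.finrank F ↥(U ⊓ LinearMap.ker
          (Matrix.toLin' (x : Matrix (Fin n) (Fin n) F) - 1)) = u at *
      generalize Module.finrank F ↥(W ⊓ LinearMap.ker
          (Matrix.toLin' (x : Matrix (Fin n) (Fin n) F) - 1)) = w at *
      have hlt : n % i < i := Nat.mod_lt _ (by omega)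
      have hmu : m % i = u := by
        rw [haU, Nat.add_mul_mod_self_right, Nat.mod_eq_of_lt (by omega)]
      have hn2 : n = (u + w) + (aU + aW) * i := by
        have : (aU + aW) * i = aU * i + aW * i := Nat.add_mul _ _ _
        omega
      have hnmod : n % i = (u + w) % i := by
        conv_lhs => rw [hn2]
        exact Nat.add_mul_mod_self_right _ _ _
      rcases Nat.lt_or_ge (u + w) i with h1 | h1
      · rw [Nat.mod_eq_of_lt h1] at hnmod
        omega
      · have h2 : u + w - i < i := by omega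
        rw [Nat.mod_eq_sub_mod h1, Nat.mod_eq_of_lt h2] at hnmod
        omega
    refine ⟨?_, hmod⟩
    by_contra hcon
    push Not at hcon
    rw [Nat.mod_eq_of_lt hcon] at hmod
    rcases (Nat.Prime.dvd_mul hr).mp hrΩ with h1 | h1
    · exact not_dvd_card_subspaces_of_le_mod r hr hrF n m (by omega) h1
    · refine not_dvd_card_subspaces_of_le_mod r hr hrF (n - m) m ?_ h1
      generalize orderOf ((Fintype.card F : ℕ) : ZMod r) = i at *
      have hdm := Nat.div_add_mod n i
      have hlt : n % i < i := Nat.mod_lt _ (by omega)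
      have e1 : n - m = (n % i - m) + (n / i) * i := by
        have : i * (n / i) = n / i * i := Nat.mul_comm _ _
        omega
      rw [e1, Nat.add_mul_mod_self_right, Nat.mod_eq_of_lt (by omega)]
      omega

end Cfsg.Agent.H42.El
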