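import Mathlib
import Cfsg.Prelude.Def_Classical
import Cfsg.Prelude.Def_ClassicalGeometry
import Cfsg.Agent.H42.OInv

set_option autoImplicit false

namespace Cfsg.Agent.H42

open Module Matrix

section

variable {F : Type*} [Field F] {ι : Type} [Fintype ι] [DecidableEq ι]

theorem oMat_mul_inv {Qf : (ι → F) → F} (c : ↥(Cfsg.isometryGroup F Qf)) :
    oMat c * oMat c⁻¹ = 1 := by
  rw [← oMat_mul, mul_inv_cancel, oMat_one]

theorem oMat_inv_mul {Qf : (ι → F) → F} (c : ↥(Cfsg.isometryGroup F Qf)) :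
    oMat c⁻¹ * oMat c = 1 := by
  rw [← oMat_mul, inv_mul_cancel, oMat_one]

/-- Conjugate elements have equal `rank (a - 1)`. -/
theorem o_rank_conj {Qf : (ι → F) → F} (a b : ↥(Cfsg.isometryGroup F Qf)) (h : IsConj a b) :
    (oMat a - 1).rank = (oMat b - 1).rank := by
  obtain ⟨c, hc⟩ := isConj_iff.1 h
  have hcc := oMat_mul_inv c
  have hbM' : oMat b = oMat c * oMat a * oMat c⁻¹ := by
    rw [← oMat_mul, ← oMat_mul, hc]
  have h1 : oMat b - 1 = oMat c * (oMat a - 1) * oMat c⁻¹ := by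
    rw [Matrix.mul_sub, Matrix.sub_mul, Matrix.mul_one, hcc, ← hbM']
  rw [h1, Matrix.rank_mul_eq_left_of_isUnit_det _ _ (Matrix.isUnit_det_of_left_inverse hcc),
    Matrix.rank_mul_eq_right_of_isUnit_det _ _ (Matrix.isUnit_det_of_right_inverse hcc)]

/-- The type is a conjugacy invariant (one direction). -/
theorem o_type_conj {Qf : (ι → F) → F} (a b : ↥(Cfsg.isometryGroup F Qf)) (h : IsConj a b)
    (hb : ∀ v, Qf (nOpG (oMat b) v) = 0) : ∀ v, Qf (nOpG (oMat a) v) = 0 := by
  obtain ⟨c, hc⟩ := isConj_iff.1 h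
  have hcc' := oMat_inv_mul c
  have hbM' : oMat b = oMat c * oMat a * oMat c⁻¹ := by
    rw [← oMat_mul, ← oMat_mul, hc]
  have hbc : oMat b * oMat c = oMat c * oMat a := by
    rw [hbM', Matrix.mul_assoc, hcc', Matrix.mul_one]
  intro v
  have h1 := hb (oMat c *ᵥ v)
  rw [nOpG_apply, Matrix.mulVec_mulVec, hbc, ← Matrix.mulVec_mulVec, ← Matrix.mulVec_sub,
    oMat_isom c, ← nOpG_apply] at h1
  exact h1

/-- Rank bounds for an involution. -/
theorem o_rank_bounds [CharP F 2] {Qf : (ι → F) → F} (m : ℕ) (hcard : Fintype.card ι = 2 * m)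
    (a : ↥(Cfsg.isometryGroup F Qf)) (ha : oMat a * oMat a = 1) (ha1 : a ≠ 1) :
    1 ≤ (oMat a - 1).rank ∧ (oMat a - 1).rank ≤ m := by
  have hr : (oMat a - 1).rank = Module.finrank F (LinearMap.range (nOpG (oMat a))) := rfl
  constructor
  · by_contra hcon
    have h0 : Module.finrank F (LinearMap.range (nOpG (oMat a))) = 0 := by
      omega
    rw [Submodule.finrank_eq_zero] at h0
    apply ha1
    apply oMat_injective
    apply mat_ext_mulVecG
    intro x
    have h1 : nOpG (oMat a) x ∈ LinearMap.range (nOpG (oMat a)) :=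
      LinearMap.mem_range_self _ x
    rw [h0, Submodule.mem_bot, nOpG_apply, sub_eq_zero] at h1
    rw [h1, oMat_one, Matrix.one_mulVec]
  · have h1 := LinearMap.finrank_range_add_finrank_ker (nOpG (oMat a))
    have h2 : LinearMap.range (nOpG (oMat a)) ≤ LinearMap.ker (nOpG (oMat a)) := by
      rintro _ ⟨x, rfl⟩
      rw [LinearMap.mem_ker]
      exact nOpG_sq _ ha x
    have h3 := Submodule.finrank_mono h2
    have h4 : Module.finrank F (ι → F) = 2 * m := by
      rw [Module.finrank_fintype_fun_eq_card, hcard]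
    rw [hr]
    omega

/-- Existence of orthogonal involutions with a prescribed presentation shape. -/
theorem o_inv_exists_core [CharP F 2] (Q : QuadraticForm F (ι → F)) {I : Type} [Fintype I]
    [DecidableEq I] (σ : I → I) (hσ : Function.Involutive σ) (w t : I → (ι → F))
    (hww : ∀ a u, QuadraticMap.polarBilin Q (w a) (w u) = 0)
    (hwt : ∀ a u, QuadraticMap.polarBilin Q (w a) (t u) = if a = u then 1 else 0)
    (hiso : ∀ x, Q (∑ s, QuadraticMap.polarBilin Q (w (σ s)) x • w s) =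
      QuadraticMap.polarBilin Q (∑ s, QuadraticMap.polarBilin Q (w (σ s)) x • w s) x) :
    ∃ a : ↥(Cfsg.isometryGroup F (⇑Q)), oMat a * oMat a = 1 ∧
      (oMat a - 1).rank = Fintype.card I ∧
      ∀ x, nOpG (oMat a) x = ∑ s, QuadraticMap.polarBilin Q (w (σ s)) x • w s := by
  classical
  have hsym : ∀ x y : ι → F, QuadraticMap.polarBilin Q x y = QuadraticMap.polarBilin Q y x := by
    intro x y
    simp only [QuadraticMap.polarBilin_apply_apply]
    exact QuadraticMap.polar_comm _ _ _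
  let N : (ι → F) →ₗ[F] (ι → F) :=
    ∑ s, (QuadraticMap.polarBilin Q (w (σ s))).smulRight (w s)
  have hNa : ∀ x, N x = ∑ s, QuadraticMap.polarBilin Q (w (σ s)) x • w s := by
    intro x
    simp [N, LinearMap.sum_apply]
  have hNt : ∀ u, N (t u) = w (σ u) := by
    intro u
    rw [hNa]
    simp only [hwt]
    rw [Finset.sum_eq_single (σ u)]
    · rw [hσ u]
      simp
    · intro s _ hs
      rw [if_neg, zero_smul]
      intro h
      apply hs
      rw [← h, hσ s]
    · intro h
      exact absurd (Finset.mem_univ _) h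
  have hsq : ∀ x, N (N x) = 0 := by
    intro x
    rw [hNa (N x)]
    apply Finset.sum_eq_zero
    intro s _
    rw [hNa x]
    simp only [map_sum, map_smul, smul_eq_mul, hww, mul_zero, Finset.sum_const_zero, zero_smul]
  set A : Matrix ι ι F := 1 + LinearMap.toMatrix' N with hA
  have hAv : ∀ x, A *ᵥ x = x + N x := by
    intro x
    rw [hA, Matrix.add_mulVec, Matrix.one_mulVec, ← Matrix.toLin'_apply, Matrix.toLin'_toMatrix']
  have hnOp : nOpG A = N := by
    apply LinearMap.ext
    intro x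
    rw [nOpG_apply, hAv, add_sub_cancel_left]
  have h2x : ∀ x : ι → F, x + x = 0 := by
    intro x
    rw [← two_smul F x, CharTwo.two_eq_zero, zero_smul]
  have hAA : A * A = 1 := by
    apply mat_ext_mulVecG
    intro x
    rw [← Matrix.mulVec_mulVec, hAv, hAv, Matrix.one_mulVec, map_add, hsq, add_zero, add_assoc,
      h2x, add_zero]
  have hAQ : ∀ x, Q (A *ᵥ x) = Q x := by
    intro x
    rw [hAv]
    have h1 : Q (x + N x) = QuadraticMap.polarBilin Q x (N x) + Q x + Q (N x) := by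
      simp only [QuadraticMap.polarBilin_apply_apply, QuadraticMap.polar]
      ring
    have h3 : Q (N x) = QuadraticMap.polarBilin Q (N x) x := by
      rw [hNa]
      exact hiso x
    rw [h1, h3, hsym x (N x)]
    have h4 : QuadraticMap.polarBilin Q (N x) x + QuadraticMap.polarBilin Q (N x) x = 0 :=
      CharTwo.add_self_eq_zero _
    linear_combination h4
  let U : Matrix.GeneralLinearGroup ι F := ⟨A, A, hAA, hAA⟩
  have hU : U ∈ Cfsg.isometryGroup F (⇑Q) :=
    Cfsg.Agent.H49.mem_isometryGroup_iff.mpr hAQ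
  refine ⟨⟨U, hU⟩, hAA, ?_, ?_⟩
  · have h1 : (A - 1).rank = Module.finrank F (LinearMap.range (nOpG A)) := rfl
    show (A - 1).rank = Fintype.card I
    rw [h1, hnOp]
    apply pres_finrank (QuadraticMap.polarBilin Q) N σ hσ (fun s => t (σ s))
    refine ⟨?_, ?_⟩
    · intro s s'
      rw [hNt, hσ s, hwt]
      by_cases h : σ s = s'
      · rw [if_pos h, if_pos]
        rw [← h, hσ s]
      · rw [if_neg h, if_neg]
        intro h'
        apply h
        rw [h', hσ s']
    · intro x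
      rw [hNa]
      apply Finset.sum_congr rfl
      intro s _
      rw [hNt, hNt, hσ s]
  · intro x
    show nOpG A x = _
    rw [hnOp, hNa]

/-- Existence: non-alternating type from mutually orthogonal vectors with `Q = 1`. -/
theorem o_inv_exists_nonalt [CharP F 2] (Q : QuadraticForm F (ι → F)) {I : Type} [Fintype I]
    [DecidableEq I] [Nonempty I] (w t : I → (ι → F)) (hw : ∀ a, Q (w a) = 1)
    (hww : ∀ a u, a ≠ u → QuadraticMap.polarBilin Q (w a) (w u) = 0)
    (hwt : ∀ a u, QuadraticMap.polarBilin Q (w a) (t u) = if a = u then 1 else 0) :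
    ∃ a : ↥(Cfsg.isometryGroup F (⇑Q)), orderOf a = 2 ∧ (oMat a - 1).rank = Fintype.card I ∧
      ¬ ∀ v, Q (nOpG (oMat a) v) = 0 := by
  have hself : ∀ x : ι → F, QuadraticMap.polarBilin Q x x = 0 := by
    intro x
    rw [QuadraticMap.polarBilin_apply_apply, QuadraticMap.polar_self, two_smul]
    exact CharTwo.add_self_eq_zero _
  have hww' : ∀ a u, QuadraticMap.polarBilin Q (w a) (w u) = 0 := by
    intro a u
    by_cases h : a = u
    · subst h
      exact hself _
    · exact hww a u h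
  obtain ⟨a, haa, hrank, hN⟩ := o_inv_exists_core Q (id : I → I) (fun _ => rfl) w t hww' hwt (by
    intro x
    simp only [id]
    rw [quad_sum_smul_orth Q w _ hww]
    simp only [map_sum, map_smul, LinearMap.sum_apply, LinearMap.smul_apply, smul_eq_mul, hw,
      mul_one])
  have hne : a ≠ 1 := by
    intro h1
    rw [h1, oMat_one, sub_self, Matrix.rank_zero] at hrank
    have := Fintype.card_pos (α := I)
    omega
  refine ⟨a, ?_, hrank, ?_⟩
  · have : Fact (Nat.Prime 2) := ⟨Nat.prime_two⟩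
    apply orderOf_eq_prime _ hne
    rw [sq]
    apply oMat_injective
    rw [oMat_mul, oMat_one]
    exact haa
  · intro halt
    obtain ⟨s0⟩ := ‹Nonempty I›
    have h1 := halt (t s0)
    rw [hN] at h1
    simp only [id, hwt] at h1
    rw [Finset.sum_eq_single s0] at h1
    · rw [if_pos rfl, one_smul, hw] at h1
      exact one_ne_zero h1
    · intro s _ hs
      rw [if_neg hs, zero_smul]
    · intro h
      exact absurd (Finset.mem_univ _) h

/-- Existence: alternating type from a totally singular family with a dual family. -/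
theorem o_inv_exists_alt [CharP F 2] (Q : QuadraticForm F (ι → F)) {I : Type} [Fintype I]
    [DecidableEq I] [Nonempty I] (w t : I ⊕ I → (ι → F)) (hw : ∀ a, Q (w a) = 0)
    (hww : ∀ a u, QuadraticMap.polarBilin Q (w a) (w u) = 0)
    (hwt : ∀ a u, QuadraticMap.polarBilin Q (w a) (t u) = if a = u then 1 else 0) :
    ∃ a : ↥(Cfsg.isometryGroup F (⇑Q)), orderOf a = 2 ∧
      (oMat a - 1).rank = 2 * Fintype.card I ∧ ∀ v, Q (nOpG (oMat a) v) = 0 := by
  have hQ0 : ∀ c : I ⊕ I → F, Q (∑ s, c s • w s) = 0 := by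
    intro c
    rw [quad_sum_smul_orth Q w c (fun a u _ => hww a u)]
    simp only [hw, mul_zero, Finset.sum_const_zero]
  obtain ⟨a, haa, hrank, hN⟩ := o_inv_exists_core Q (Sum.swap : I ⊕ I → I ⊕ I) Sum.swap_swap
    w t hww hwt (by
    intro x
    rw [hQ0]
    simp only [map_sum, map_smul, LinearMap.sum_apply, LinearMap.smul_apply, smul_eq_mul]
    rw [Fintype.sum_sum_type]
    simp only [Sum.swap_inl, Sum.swap_inr]
    have h1 : ∑ i : I, QuadraticMap.polarBilin Q (w (Sum.inr i)) x *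
        QuadraticMap.polarBilin Q (w (Sum.inl i)) x =
        ∑ i : I, QuadraticMap.polarBilin Q (w (Sum.inl i)) x *
          QuadraticMap.polarBilin Q (w (Sum.inr i)) x := by
      apply Finset.sum_congr rfl
      intro i _
      ring
    rw [h1]
    exact (CharTwo.add_self_eq_zero _).symm)
  rw [Fintype.card_sum] at hrank
  have hne : a ≠ 1 := by
    intro h1
    rw [h1, oMat_one, sub_self, Matrix.rank_zero] at hrank
    have := Fintype.card_pos (α := I)
    omega
  refine ⟨a, ?_, by rw [hrank]; ring, ?_⟩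
  · have : Fact (Nat.Prime 2) := ⟨Nat.prime_two⟩
    apply orderOf_eq_prime _ hne
    rw [sq]
    apply oMat_injective
    rw [oMat_mul, oMat_one]
    exact haa
  · intro v
    rw [hN]
    exact hQ0 _

/-- The counting skeleton: number of conjugacy classes of involutions in an orthogonal group in
characteristic two. -/
theorem o_inv_class_count [Finite F] [CharP F 2] (Q : QuadraticForm F (ι → F))
    (hQ : (QuadraticMap.polarBilin Q).Nondegenerate) (m n2 : ℕ)
    (hcard : Fintype.card ι = 2 * m)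
    (E1 : ∀ r, 1 ≤ r → r ≤ m → ∃ a : ↥(Cfsg.isometryGroup F (⇑Q)), orderOf a = 2 ∧
      (oMat a - 1).rank = r ∧ ¬ ∀ v, Q (nOpG (oMat a) v) = 0)
    (E2 : ∀ k, 1 ≤ k → k ≤ n2 → ∃ a : ↥(Cfsg.isometryGroup F (⇑Q)), orderOf a = 2 ∧
      (oMat a - 1).rank = 2 * k ∧ ∀ v, Q (nOpG (oMat a) v) = 0)
    (hU : ∀ a : ↥(Cfsg.isometryGroup F (⇑Q)), orderOf a = 2 →
      (∀ v, Q (nOpG (oMat a) v) = 0) → (oMat a - 1).rank ≤ 2 * n2 + 1) :
    Nat.card {C : ConjClasses ↥(Cfsg.isometryGroup F (⇑Q)) //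
      ∃ g : ↥(Cfsg.isometryGroup F (⇑Q)), ConjClasses.mk g = C ∧ orderOf g = 2} = m + n2 := by
  have E1' : ∀ i : Fin m, ∃ a : ↥(Cfsg.isometryGroup F (⇑Q)), orderOf a = 2 ∧
      (oMat a - 1).rank = (i : ℕ) + 1 ∧ ¬ ∀ v, Q (nOpG (oMat a) v) = 0 :=
    fun i => E1 ((i : ℕ) + 1) (by omega) (by have := i.2; omega)
  have E2' : ∀ i : Fin n2, ∃ a : ↥(Cfsg.isometryGroup F (⇑Q)), orderOf a = 2 ∧
      (oMat a - 1).rank = 2 * ((i : ℕ) + 1) ∧ ∀ v, Q (nOpG (oMat a) v) = 0 :=
    fun i => E2 ((i : ℕ) + 1) (by omega) (by have := i.2; omega)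
  choose A1 hA1 using E1'
  choose A2 hA2 using E2'
  have hsq : ∀ g : ↥(Cfsg.isometryGroup F (⇑Q)), orderOf g = 2 → oMat g * oMat g = 1 := by
    intro g hg
    have := pow_orderOf_eq_one g
    rw [hg, sq] at this
    rw [← oMat_mul, this, oMat_one]
  have hne : ∀ g : ↥(Cfsg.isometryGroup F (⇑Q)), orderOf g = 2 → g ≠ 1 := by
    intro g hg h1
    rw [h1, orderOf_one] at hg
    omega
  let f : Fin m ⊕ Fin n2 → {C : ConjClasses ↥(Cfsg.isometryGroup F (⇑Q)) //
      ∃ g : ↥(Cfsg.isometryGroup F (⇑Q)), ConjClasses.mk g = C ∧ orderOf g = 2} :=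
    Sum.elim (fun i => ⟨ConjClasses.mk (A1 i), A1 i, rfl, (hA1 i).1⟩)
      (fun i => ⟨ConjClasses.mk (A2 i), A2 i, rfl, (hA2 i).1⟩)
  have hinj : Function.Injective f := by
    rintro (a | a) (b | b) h
    · have h1 : IsConj (A1 a) (A1 b) := ConjClasses.mk_eq_mk_iff_isConj.1 (congrArg Subtype.val h)
      have h2 := o_rank_conj _ _ h1
      rw [(hA1 a).2.1, (hA1 b).2.1] at h2
      exact congrArg Sum.inl (Fin.ext (by omega))
    · exfalso
      have h1 : IsConj (A1 a) (A2 b) := ConjClasses.mk_eq_mk_iff_isConj.1 (congrArg Subtype.val h)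
      exact (hA1 a).2.2 (o_type_conj _ _ h1 (hA2 b).2.2)
    · exfalso
      have h1 : IsConj (A2 a) (A1 b) := ConjClasses.mk_eq_mk_iff_isConj.1 (congrArg Subtype.val h)
      exact (hA1 b).2.2 (o_type_conj _ _ h1.symm (hA2 a).2.2)
    · have h1 : IsConj (A2 a) (A2 b) := ConjClasses.mk_eq_mk_iff_isConj.1 (congrArg Subtype.val h)
      have h2 := o_rank_conj _ _ h1
      rw [(hA2 a).2.1, (hA2 b).2.1] at h2
      exact congrArg Sum.inr (Fin.ext (by omega))
  have hsurj : Function.Surjective f := by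
    rintro ⟨C, g, rfl, hg⟩
    obtain ⟨hb1, hb2⟩ := o_rank_bounds m hcard g (hsq g hg) (hne g hg)
    by_cases halt : ∀ v, Q (nOpG (oMat g) v) = 0
    · obtain ⟨k, hk⟩ := o_even_rank_of_alt Q hQ g (hsq g hg) halt
      have hu := hU g hg halt
      have hk2 : k - 1 < n2 := by omega
      refine ⟨Sum.inr ⟨k - 1, hk2⟩, ?_⟩
      apply Subtype.ext
      apply ConjClasses.mk_eq_mk_iff_isConj.2
      apply o_conj_of_type Q hQ _ _ (hsq _ (hA2 _).1) (hsq g hg)
      · rw [(hA2 _).2.1, hk]
        simp only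
        omega
      · exact ⟨fun _ => halt, fun _ => (hA2 _).2.2⟩
    · have hr2 : (oMat g - 1).rank - 1 < m := by omega
      refine ⟨Sum.inl ⟨(oMat g - 1).rank - 1, hr2⟩, ?_⟩
      apply Subtype.ext
      apply ConjClasses.mk_eq_mk_iff_isConj.2
      apply o_conj_of_type Q hQ _ _ (hsq _ (hA1 _).1) (hsq g hg)
      · rw [(hA1 _).2.1]
        simp only
        omega
      · exact ⟨fun h => absurd h (hA1 _).2.2, fun h => absurd h halt⟩
  rw [← Nat.card_congr (Equiv.ofBijective f ⟨hinj, hsurj⟩), Nat.card_sum, Nat.card_fin, Nat.card_fin]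

end

end Cfsg.Agent.H42
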