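import Mathlib
import Cfsg.Agent.H17.HermBasis
import Cfsg.Agent.H17.WittHerm

set_option autoImplicit false

namespace Cfsg.Agent.H42

open Module

section HermOrth

variable {F V : Type*} [Field F] [AddCommGroup V] [Module F V]

/-- the (right) orthogonal complement for a sesquilinear form. -/
def hOrth {σ : F →+* F} (B : V →ₛₗ[σ] V →ₗ[F] F) (Z : Submodule F V) : Submodule F V where
  carrier := {v | ∀ z ∈ Z, B z v = 0}
  add_mem' := by
    intro a b ha hb z hz
    rw [map_add, ha z hz, hb z hz, add_zero]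
  zero_mem' := by
    intro z _
    rw [map_zero]
  smul_mem' := by
    intro c a ha z hz
    rw [map_smul, ha z hz, smul_zero]

theorem mem_hOrth {σ : F →+* F} (B : V →ₛₗ[σ] V →ₗ[F] F) (Z : Submodule F V) (v : V) :
    v ∈ hOrth B Z ↔ ∀ z ∈ Z, B z v = 0 := Iff.rfl

theorem finrank_hOrth [FiniteDimensional F V] (σ : F →+* F) (hσ2 : ∀ a : F, σ (σ a) = a)
    (B : V →ₛₗ[σ] V →ₗ[F] F) (hS : B.IsSymm) (hB : B.Nondegenerate) (Z : Submodule F V) :
    finrank F (hOrth B Z) + finrank F Z = finrank F V := by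
  classical
  let b := Module.finBasis F Z
  let T : V →ₗ[F] (Fin (finrank F Z) → F) := LinearMap.pi (fun i => B (b i : V))
  have hT : ∀ v i, T v i = B (b i : V) v := fun v i => rfl
  have hker : LinearMap.ker T = hOrth B Z := by
    ext v
    rw [LinearMap.mem_ker, mem_hOrth]
    constructor
    · intro h z hz
      have hz' : z = ∑ i, b.repr ⟨z, hz⟩ i • (b i : V) := by
        have h0 := congrArg (fun x : Z => (x : V)) (b.sum_repr ⟨z, hz⟩)
        simp only [Submodule.coe_sum, Submodule.coe_smul] at h0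
        exact h0.symm
      rw [hz', map_sum, LinearMap.sum_apply]
      apply Finset.sum_eq_zero
      intro i _
      rw [LinearMap.map_smulₛₗ, LinearMap.smul_apply]
      have : B (b i : V) v = 0 := by
        have := congrFun h i
        rwa [hT] at this
      rw [this, smul_zero]
    · intro h
      ext i
      rw [hT]
      exact h (b i) (b i).2
  have hsurj : Function.Surjective T := by
    intro c
    let ψ₀ : Z →ₗ[F] F := b.constr F (fun i => σ (c i))
    obtain ⟨ψ, hψ⟩ := LinearMap.exists_extend ψ₀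
    obtain ⟨a, ha⟩ := Cfsg.Agent.H17.herm_repr σ hσ2 B hS hB ψ
    refine ⟨a, ?_⟩
    ext i
    have h1 : ψ (b i : V) = σ (c i) := by
      have h2 : ψ (b i : V) = ψ₀ (b i) := by
        rw [← hψ]; rfl
      rw [h2, Module.Basis.constr_basis]
    rw [hT, ← hS.eq a (b i), ha, h1, hσ2]
  have h1 := LinearMap.finrank_range_add_finrank_ker T
  rw [LinearMap.range_eq_top.mpr hsurj, finrank_top, Module.finrank_fin_fun, hker] at h1
  omega

theorem hOrth_hOrth [FiniteDimensional F V] (σ : F →+* F) (hσ2 : ∀ a : F, σ (σ a) = a)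
    (B : V →ₛₗ[σ] V →ₗ[F] F) (hS : B.IsSymm) (hB : B.Nondegenerate) (Z : Submodule F V) :
    hOrth B (hOrth B Z) = Z := by
  symm
  apply Submodule.eq_of_le_of_finrank_eq
  · intro z hz y hy
    rw [← hS.eq z y, hy z hz, map_zero]
  · have h1 := finrank_hOrth σ hσ2 B hS hB Z
    have h2 := finrank_hOrth σ hσ2 B hS hB (hOrth B Z)
    omega

/-- a complement of a totally isotropic subspace in its orthogonal. -/
theorem ti_compl [FiniteDimensional F V] (σ : F →+* F) (hσ2 : ∀ a : F, σ (σ a) = a)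
    (B : V →ₛₗ[σ] V →ₗ[F] F) (hS : B.IsSymm) (hB : B.Nondegenerate) (W : Submodule F V)
    (hW : W ≤ hOrth B W) :
    ∃ U : Submodule F V, U ≤ hOrth B W ∧ U ⊓ W = ⊥ ∧
      (∀ v ∈ hOrth B W, ∃ w ∈ W, ∃ u ∈ U, v = w + u) ∧
      finrank F U + 2 * finrank F W = finrank F V ∧
      (∀ u ∈ U, (∀ u' ∈ U, B u' u = 0) → u = 0) := by
  obtain ⟨C, hC⟩ := Submodule.exists_isCompl W
  have hdec : ∀ v ∈ hOrth B W, ∃ w ∈ W, ∃ u ∈ C ⊓ hOrth B W, v = w + u := by
    intro v hv
    have hv' : v ∈ W ⊔ C := by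
      rw [hC.sup_eq_top]; exact Submodule.mem_top
    obtain ⟨w, hw, c, hc, rfl⟩ := Submodule.mem_sup.1 hv'
    refine ⟨w, hw, c, ⟨hc, ?_⟩, rfl⟩
    have : c = (w + c) - w := by abel
    rw [this]
    exact Submodule.sub_mem _ hv (hW hw)
  have hinf : (C ⊓ hOrth B W) ⊓ W = ⊥ := by
    rw [eq_bot_iff]
    intro v hv
    have : v ∈ W ⊓ C := ⟨hv.2, hv.1.1⟩
    rw [hC.inf_eq_bot] at this
    exact this
  have hsup : W ⊔ (C ⊓ hOrth B W) = hOrth B W := by
    apply le_antisymm
    · exact sup_le hW inf_le_right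
    · intro v hv
      obtain ⟨w, hw, u, hu, rfl⟩ := hdec v hv
      exact Submodule.add_mem _ (Submodule.mem_sup_left hw) (Submodule.mem_sup_right hu)
  refine ⟨C ⊓ hOrth B W, inf_le_right, hinf, hdec, ?_, ?_⟩
  · have h1 := Submodule.finrank_sup_add_finrank_inf_eq W (C ⊓ hOrth B W)
    have h2 : W ⊓ (C ⊓ hOrth B W) = ⊥ := by rw [inf_comm]; exact hinf
    rw [hsup, h2, finrank_bot] at h1
    have h3 := finrank_hOrth σ hσ2 B hS hB W
    omega
  · intro u hu hu'
    have h1 : u ∈ hOrth B (hOrth B W) := by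
      intro y hy
      obtain ⟨w, hw, u', hu'', rfl⟩ := hdec y hy
      rw [map_add, LinearMap.add_apply, hu.2 w hw, hu' u' hu'', add_zero]
    rw [hOrth_hOrth σ hσ2 B hS hB W] at h1
    have : u ∈ (C ⊓ hOrth B W) ⊓ W := ⟨hu, h1⟩
    rw [hinf] at this
    exact this

/-- counting the isotropic vectors of `W^⊥` outside a totally isotropic `W`. -/
theorem card_iso_compl [Finite F] [FiniteDimensional F V] (σ : F →+* F) (hσ : σ ≠ RingHom.id F)
    (hσ2 : ∀ a : F, σ (σ a) = a)
    (B : V →ₛₗ[σ] V →ₗ[F] F) (hS : B.IsSymm) (hB : B.Nondegenerate) (W : Submodule F V)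
    (hW : W ≤ hOrth B W) (d : ℕ) (hd : d + 2 * finrank F W = finrank F V) :
    Nat.card {v : V // v ∈ hOrth B W ∧ B v v = 0 ∧ v ∉ W} =
      Nat.card W * Nat.card {y : Fin d → F // y ≠ 0 ∧ ∑ i, σ (y i) * y i = 0} := by
  classical
  obtain ⟨U, hU1, hU2, hU3, hU4, hU5⟩ := ti_compl σ hσ2 B hS hB W hW
  have hdU : finrank F U = d := by omega
  let β : U →ₛₗ[σ] U →ₗ[F] F := B.domRestrict₁₂ U U
  have hβ : ∀ u u' : U, β u u' = B u u' := fun _ _ => rfl
  have hβS : β.IsSymm := ⟨fun u u' => by rw [hβ, hβ, hS.eq]⟩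
  have hβR : ∀ u : U, (∀ u' : U, β u' u = 0) → u = 0 := by
    intro u hu
    apply Subtype.ext
    exact hU5 u u.2 (fun u' hu' => hu ⟨u', hu'⟩)
  have hβN : β.Nondegenerate := by
    refine ⟨?_, hβR⟩
    intro u hu
    apply hβR
    intro u'
    rw [← hβS.eq, hu u', map_zero]
  obtain ⟨b, hb⟩ := Cfsg.Agent.H17.herm_onb_aux σ hσ hσ2 d U β hβS hβN hdU
  have hrepr : ∀ (u : U) (j : Fin d), b.repr u j = β (b j) u := by
    intro c j
    conv_rhs => rw [← b.sum_repr c]
    simp only [map_sum, map_smul, smul_eq_mul, hb, mul_ite, mul_one, mul_zero,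
      Finset.sum_ite_eq, Finset.mem_univ, if_true]
  have hnorm : ∀ u : U, B u u = ∑ i, σ (b.repr u i) * b.repr u i := by
    intro u
    rw [← hβ]
    have h1 : β u u = β (∑ i, b.repr u i • b i) u := by rw [b.sum_repr]
    rw [h1, map_sum, LinearMap.sum_apply]
    apply Finset.sum_congr rfl
    intro i _
    rw [LinearMap.map_smulₛₗ, LinearMap.smul_apply, smul_eq_mul, ← hrepr]
  have E1 : {u : U // u ≠ 0 ∧ B u u = 0} ≃
      {y : Fin d → F // y ≠ 0 ∧ ∑ i, σ (y i) * y i = 0} := by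
    refine Equiv.subtypeEquiv b.equivFun.toEquiv ?_
    intro u
    have h1 : (b.equivFun.toEquiv u : Fin d → F) = b.equivFun u := rfl
    rw [h1, hnorm u]
    have h2 : b.equivFun u ≠ 0 ↔ u ≠ 0 := b.equivFun.map_ne_zero_iff
    rw [h2]
    simp only [Module.Basis.equivFun_apply]
  have hsum : ∀ w ∈ W, ∀ u ∈ U, B (w + u) (w + u) = B u u := by
    intro w hw u hu
    have h1 : B w w = 0 := hW hw w hw
    have h2 : B w u = 0 := hU1 hu w hw
    have h3 : B u w = 0 := by rw [← hS.eq w u, h2, map_zero]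
    simp only [map_add, LinearMap.add_apply, h1, h2, h3, zero_add]
  have hbij : Function.Bijective (fun p : W × {u : U // u ≠ 0 ∧ B u u = 0} =>
      (⟨(p.1 : V) + ((p.2.1 : U) : V), by
        refine ⟨Submodule.add_mem _ (hW p.1.2) (hU1 p.2.1.2), ?_, ?_⟩
        · rw [hsum _ p.1.2 _ p.2.1.2]; exact p.2.2.2
        · intro hmem
          have h1 : ((p.2.1 : U) : V) ∈ W := by
            have := Submodule.sub_mem _ hmem p.1.2
            rwa [add_sub_cancel_left] at this
          have h2 : ((p.2.1 : U) : V) ∈ U ⊓ W := ⟨p.2.1.2, h1⟩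
          rw [hU2, Submodule.mem_bot] at h2
          exact p.2.2.1 (Subtype.ext h2)⟩ :
        {v : V // v ∈ hOrth B W ∧ B v v = 0 ∧ v ∉ W})) := by
    constructor
    · rintro ⟨w, ⟨u, hu⟩⟩ ⟨w', ⟨u', hu'⟩⟩ h
      have h0 : (w : V) + (u : V) = (w' : V) + (u' : V) := congrArg Subtype.val h
      have h1 : (u : V) - (u' : V) = (w' : V) - (w : V) := by
        rw [sub_eq_sub_iff_add_eq_add, add_comm]
        exact h0
      have h2 : (u : V) - (u' : V) ∈ U ⊓ W :=
        ⟨Submodule.sub_mem _ u.2 u'.2, by rw [h1]; exact Submodule.sub_mem _ w'.2 w.2⟩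
      rw [hU2, Submodule.mem_bot] at h2
      have h3 : (u : V) = (u' : V) := sub_eq_zero.mp h2
      have h4 : (w : V) = (w' : V) := by
        rw [h3] at h0
        exact add_right_cancel h0
      have h5 : u = u' := Subtype.ext h3
      have h6 : w = w' := Subtype.ext h4
      subst h5
      subst h6
      rfl
    · rintro ⟨v, hv1, hv2, hv3⟩
      obtain ⟨w, hw, u, hu, rfl⟩ := hU3 v hv1
      have hu0 : (⟨u, hu⟩ : U) ≠ 0 := by
        intro h0
        have h1 : u = 0 := congrArg Subtype.val h0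
        apply hv3
        rw [h1, add_zero]
        exact hw
      have huu : B u u = 0 := by
        rw [← hsum w hw u hu]; exact hv2
      exact ⟨(⟨w, hw⟩, ⟨⟨u, hu⟩, hu0, huu⟩), rfl⟩
  rw [← Nat.card_eq_of_bijective _ hbij, Nat.card_prod, Nat.card_congr E1]


end HermOrth

end Cfsg.Agent.H42
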