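import Mathlib
import Cfsg.Prelude.Def_ClassicalGeometry
import Cfsg.Prelude.Def_LieClassical
import Cfsg.Agent.H42.HermOrth
import Cfsg.Agent.H42.SUBasic
import Cfsg.Agent.H7.Unitary

set_option autoImplicit false

namespace Cfsg.Agent.H42

open Module Cfsg.Agent.H17

section SUFrames

variable {F : Type*} [Field F] [Fintype F] {q : ℕ}

/-- the number of nonzero isotropic vectors of the standard Hermitian space of dimension `d`. -/
noncomputable def isoCount (F : Type*) [Field F] (q d : ℕ) : ℕ :=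
  Nat.card {y : Fin d → F // y ≠ 0 ∧ Cfsg.hermForm d F q y y = 0}

/-- totally isotropic `k`-frames. -/
def tiFrames (F : Type*) [Field F] (q n k : ℕ) : Set (Fin k → Fin n → F) :=
  {x | LinearIndependent F x ∧ ∀ i j, Cfsg.hermForm n F q (x i) (x j) = 0}

theorem card_eq_mul_of_fibers {α β : Type*} [Finite α] [Finite β] (f : α → β) (c : ℕ)
    (h : ∀ b, Nat.card {a // f a = b} = c) : Nat.card α = Nat.card β * c := by
  classical
  have := Fintype.ofFinite β
  rw [← Nat.card_congr (Equiv.sigmaFiberEquiv f), Nat.card_sigma]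
  simp [h, Nat.card_eq_fintype_card]

theorem hermForm_symm_zero (hF : Fintype.card F = q ^ 2) (n : ℕ) (u v : Fin n → F)
    (h : Cfsg.hermForm n F q u v = 0) : Cfsg.hermForm n F q v u = 0 := by
  have hq := two_le_of_card_sq hF
  rw [← hermForm_conj n hF, h, zero_pow (by omega)]

theorem hermS_span_zero (hF : Fintype.card F = q ^ 2) (n : ℕ) {ι : Type*} (x : ι → Fin n → F)
    (v : Fin n → F) (h : ∀ i, hermS hF n (x i) v = 0) :
    ∀ z ∈ Submodule.span F (Set.range x), hermS hF n z v = 0 := by
  intro z hz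
  induction hz using Submodule.span_induction with
  | mem y hy =>
    obtain ⟨i, rfl⟩ := hy
    exact h i
  | zero => simp
  | add a b _ _ ha hb => rw [map_add, LinearMap.add_apply, ha, hb, add_zero]
  | smul c a _ ha => rw [LinearMap.map_smulₛₗ, LinearMap.smul_apply, ha, smul_zero]

/-- the key count: isotropic vectors orthogonal to, but outside, the span of a t.i. frame. -/
theorem card_frame_ext (hF : Fintype.card F = q ^ 2) (n k : ℕ) (hk : 2 * k ≤ n)
    (x : Fin k → Fin n → F) (hx : x ∈ tiFrames F q n k) :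
    Nat.card {v : Fin n → F // (∀ i, Cfsg.hermForm n F q (x i) v = 0) ∧
      Cfsg.hermForm n F q v v = 0 ∧ v ∉ Submodule.span F (Set.range x)} =
      q ^ (2 * k) * isoCount F q (n - 2 * k) := by
  classical
  have hq := two_le_of_card_sq hF
  have hσ := frobH_ne_id hF
  have hσ2 := frobH_invol hF
  have hS := hermS_isSymm hF n
  have hnd := hermS_nondegenerate hF n
  obtain ⟨hxl, hx0⟩ := hx
  set W := Submodule.span F (Set.range x) with hWdef
  have hfr : finrank F W = k := by
    rw [hWdef, finrank_span_eq_card hxl, Fintype.card_fin]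
  have hmem : ∀ v : Fin n → F, v ∈ hOrth (hermS hF n) W ↔ ∀ i, Cfsg.hermForm n F q (x i) v = 0 := by
    intro v
    rw [mem_hOrth]
    constructor
    · intro h i
      have := h (x i) (Submodule.subset_span ⟨i, rfl⟩)
      rw [hermS_apply] at this
      exact hermForm_symm_zero hF n _ _ this
    · intro h
      apply hermS_span_zero hF n x v
      intro i
      rw [hermS_apply]
      exact hermForm_symm_zero hF n _ _ (h i)
  have hW : W ≤ hOrth (hermS hF n) W := by
    intro w hw
    rw [mem_hOrth]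
    intro z hz
    -- B z w = 0 for z, w in the span
    have h1 : ∀ i, hermS hF n z (x i) = 0 := by
      intro i
      apply hermS_span_zero hF n x (x i) _ z hz
      intro j
      rw [hermS_apply]
      exact hx0 i j
    have h2 : ∀ i, hermS hF n (x i) z = 0 := by
      intro i
      rw [← hS.eq z (x i), h1 i, map_zero]
    have h3 := hermS_span_zero hF n x z h2 w hw
    rw [← hS.eq w z, h3, map_zero]
  have hd : (n - 2 * k) + 2 * finrank F W = finrank F (Fin n → F) := by
    rw [hfr, Module.finrank_fin_fun]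
    omega
  have hmain := card_iso_compl (frobH hF) hσ hσ2 (hermS hF n) hS hnd W hW (n - 2 * k) hd
  have hcW : Nat.card W = q ^ (2 * k) := by
    rw [Module.natCard_eq_pow_finrank (K := F), hfr, Nat.card_eq_fintype_card, hF, ← pow_mul]
  have e1 : {v : Fin n → F // (∀ i, Cfsg.hermForm n F q (x i) v = 0) ∧
      Cfsg.hermForm n F q v v = 0 ∧ v ∉ W} ≃
      {v : Fin n → F // v ∈ hOrth (hermS hF n) W ∧ hermS hF n v v = 0 ∧ v ∉ W} :=
    Equiv.subtypeEquivRight (fun v => by rw [hmem v, hermS_apply])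
  have e2 : {y : Fin (n - 2 * k) → F // y ≠ 0 ∧ ∑ i, frobH hF (y i) * y i = 0} ≃
      {y : Fin (n - 2 * k) → F // y ≠ 0 ∧ Cfsg.hermForm (n - 2 * k) F q y y = 0} :=
    Equiv.subtypeEquivRight (fun y => by
      have : ∑ i, frobH hF (y i) * y i = Cfsg.hermForm (n - 2 * k) F q y y := by
        unfold Cfsg.hermForm
        exact Finset.sum_congr rfl (fun i _ => by rw [frobH_apply, mul_comm])
      rw [this])
  rw [Nat.card_congr e1, hmain, hcW, Nat.card_congr e2, isoCount]

theorem snoc_mem_tiFrames (hF : Fintype.card F = q ^ 2) (n k : ℕ) (x : Fin k → Fin n → F)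
    (v : Fin n → F) :
    (Fin.snoc x v : Fin (k + 1) → Fin n → F) ∈ tiFrames F q n (k + 1) ↔
      x ∈ tiFrames F q n k ∧ ((∀ i, Cfsg.hermForm n F q (x i) v = 0) ∧
        Cfsg.hermForm n F q v v = 0 ∧ v ∉ Submodule.span F (Set.range x)) := by
  have hc : ∀ i : Fin k, (Fin.snoc x v : Fin (k + 1) → Fin n → F) i.castSucc = x i :=
    fun i => Fin.snoc_castSucc (α := fun _ => Fin n → F) v x i
  have hl : (Fin.snoc x v : Fin (k + 1) → Fin n → F) (Fin.last k) = v :=
    Fin.snoc_last (α := fun _ => Fin n → F) v x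
  constructor
  · rintro ⟨h1, h2⟩
    rw [linearIndependent_finSnoc] at h1
    refine ⟨⟨h1.1, fun i j => ?_⟩, fun i => ?_, ?_, h1.2⟩
    · have := h2 i.castSucc j.castSucc
      rwa [hc, hc] at this
    · have := h2 i.castSucc (Fin.last k)
      rwa [hc, hl] at this
    · have := h2 (Fin.last k) (Fin.last k)
      rwa [hl] at this
  · rintro ⟨⟨h1, h2⟩, h3, h4, h5⟩
    refine ⟨linearIndependent_finSnoc.mpr ⟨h1, h5⟩, ?_⟩
    intro i j
    induction i using Fin.lastCases with
    | last =>
      induction j using Fin.lastCases with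
      | last => rw [hl]; exact h4
      | cast j => rw [hl, hc]; exact hermForm_symm_zero hF n _ _ (h3 j)
    | cast i =>
      induction j using Fin.lastCases with
      | last => rw [hl, hc]; exact h3 i
      | cast j => rw [hc, hc]; exact h2 i j

theorem card_tiFrames_succ (hF : Fintype.card F = q ^ 2) (n k : ℕ) (hk : 2 * k ≤ n) :
    Nat.card (tiFrames F q n (k + 1)) =
      Nat.card (tiFrames F q n k) * (q ^ (2 * k) * isoCount F q (n - 2 * k)) := by
  have hinit : ∀ x' : tiFrames F q n (k + 1),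
      (Fin.init (x' : Fin (k + 1) → Fin n → F) : Fin k → Fin n → F) ∈ tiFrames F q n k := by
    intro x'
    have h1 : (Fin.snoc (Fin.init (x' : Fin (k + 1) → Fin n → F))
        ((x' : Fin (k + 1) → Fin n → F) (Fin.last k)) : Fin (k + 1) → Fin n → F) = x' :=
      Fin.snoc_init_self (α := fun _ => Fin n → F) _
    have h2 := x'.2
    rw [← h1, snoc_mem_tiFrames hF] at h2
    exact h2.1
  apply card_eq_mul_of_fibers (fun x' : tiFrames F q n (k + 1) =>
    (⟨Fin.init (x' : Fin (k + 1) → Fin n → F), hinit x'⟩ : tiFrames F q n k))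
  intro x
  rw [← card_frame_ext hF n k hk x.1 x.2]
  symm
  apply Nat.card_eq_of_bijective (fun v : {v : Fin n → F // (∀ i, Cfsg.hermForm n F q (x.1 i) v = 0) ∧
      Cfsg.hermForm n F q v v = 0 ∧ v ∉ Submodule.span F (Set.range x.1)} =>
    (⟨⟨(Fin.snoc x.1 v.1 : Fin (k + 1) → Fin n → F),
      (snoc_mem_tiFrames hF n k x.1 v.1).mpr ⟨x.2, v.2⟩⟩, by
        apply Subtype.ext
        exact Fin.init_snoc (α := fun _ => Fin n → F) v.1 x.1⟩ :
      {a : tiFrames F q n (k + 1) //
        (⟨Fin.init (a : Fin (k + 1) → Fin n → F), hinit a⟩ : tiFrames F q n k) = x}))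
  constructor
  · intro v v' h
    have h1 : (Fin.snoc x.1 v.1 : Fin (k + 1) → Fin n → F) = Fin.snoc x.1 v'.1 :=
      congrArg (fun a : {a : tiFrames F q n (k + 1) //
        (⟨Fin.init (a : Fin (k + 1) → Fin n → F), hinit a⟩ : tiFrames F q n k) = x} =>
          ((a : tiFrames F q n (k + 1)) : Fin (k + 1) → Fin n → F)) h
    have h2 := congrFun h1 (Fin.last k)
    rw [Fin.snoc_last (α := fun _ => Fin n → F), Fin.snoc_last (α := fun _ => Fin n → F)] at h2
    exact Subtype.ext h2
  · rintro ⟨⟨x', hx'⟩, hx'x⟩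
    have h0 : (Fin.init x' : Fin k → Fin n → F) = x.1 := congrArg Subtype.val hx'x
    have h1 : (Fin.snoc (Fin.init x') (x' (Fin.last k)) : Fin (k + 1) → Fin n → F) = x' :=
      Fin.snoc_init_self (α := fun _ => Fin n → F) _
    rw [h0] at h1
    have h2 := hx'
    rw [← h1, snoc_mem_tiFrames hF] at h2
    refine ⟨⟨x' (Fin.last k), h2.2⟩, ?_⟩
    apply Subtype.ext
    apply Subtype.ext
    exact h1

theorem card_tiFrames_zero (n : ℕ) : Nat.card (tiFrames F q n 0) = 1 := by
  have : Unique (tiFrames F q n 0) :=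
    { default := ⟨fun i => i.elim0, linearIndependent_empty_type, fun i => i.elim0⟩
      uniq := by
        rintro ⟨x, hx⟩
        apply Subtype.ext
        funext i
        exact i.elim0 }
  exact Nat.card_unique


theorem isoCount_add_one (d : ℕ) :
    isoCount F q d + 1 = Nat.card {v : Fin d → F // Cfsg.hermForm d F q v v = 0} := by
  classical
  have h0 : Cfsg.hermForm d F q (0 : Fin d → F) 0 = 0 := hermForm_zero_left d 0
  rw [isoCount, Nat.card_eq_fintype_card, Nat.card_eq_fintype_card, Fintype.card_subtype,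
    Fintype.card_subtype]
  have h1 : (Finset.univ.filter (fun y : Fin d → F => y ≠ 0 ∧ Cfsg.hermForm d F q y y = 0)) =
      (Finset.univ.filter (fun y : Fin d → F => Cfsg.hermForm d F q y y = 0)).erase 0 := by
    ext y
    simp
  rw [h1, Finset.card_erase_of_mem (by simp [h0])]
  have : 0 < (Finset.univ.filter (fun y : Fin d → F => Cfsg.hermForm d F q y y = 0)).card :=
    Finset.card_pos.mpr ⟨0, by simp [h0]⟩
  omega

theorem isoCount_succ_succ (hF : Fintype.card F = q ^ 2) (e : ℕ) :
    isoCount F q (e + 2) = (if Even e then q ^ (e + 1) + 1 else q ^ (e + 1) - 1) *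
      (if Even (e + 1) then q ^ (e + 2) + 1 else q ^ (e + 2) - 1) := by
  have hq := two_le_of_card_sq hF
  have hq0 : (q : ℤ) ≠ 0 := by exact_mod_cast (by omega : q ≠ 0)
  have h := Cfsg.Agent.H7.herm_card_zero hF (e + 2)
  rw [← isoCount_add_one] at h
  push_cast at h
  have h1 : 1 ≤ q ^ (e + 1) := Nat.one_le_pow _ _ (by omega)
  have h2 : 1 ≤ q ^ (e + 2) := Nat.one_le_pow _ _ (by omega)
  by_cases he : Even e
  · have he1 : ¬ Even (e + 1) := by
      rw [Nat.even_add_one]; exact not_not.mpr he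
    have hs : (-1 : ℤ) ^ (e + 2) = 1 := Even.neg_one_pow (by
      rw [Nat.even_add]; simp [he])
    rw [if_pos he, if_neg he1]
    rw [hs] at h
    zify [h2]
    apply mul_left_cancel₀ hq0
    linear_combination h
  · have he1 : Even (e + 1) := by
      rw [Nat.even_add_one]; exact he
    have hs : (-1 : ℤ) ^ (e + 2) = -1 := Odd.neg_one_pow (by
      rw [Nat.odd_add]; simp [Nat.not_even_iff_odd.mp he])
    rw [if_neg he, if_pos he1]
    rw [hs] at h
    zify [h1]
    apply mul_left_cancel₀ hq0
    linear_combination h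

theorem card_GU_rec (hF : Fintype.card F = q ^ 2) (e : ℕ) :
    Nat.card (Cfsg.GU (e + 2) F q) =
      q ^ (2 * e + 1) * isoCount F q (e + 2) * Nat.card (Cfsg.GU e F q) := by
  rw [Cfsg.Agent.H7.card_GU hF, Cfsg.Agent.H7.card_GU hF, isoCount_succ_succ hF,
    Finset.prod_range_succ, Finset.prod_range_succ]
  have ht : (e + 2) * (e + 2 - 1) / 2 = e * (e - 1) / 2 + (2 * e + 1) := by
    rw [show e + 2 = e + 1 + 1 from rfl, Nat.triangle_succ, Nat.triangle_succ]
    generalize e * (e - 1) / 2 = t
    omega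
  rw [ht, pow_add]
  ring

theorem card_tiFrames_mul (hF : Fintype.card F = q ^ 2) (n : ℕ) :
    ∀ k, 2 * k ≤ n → Nat.card (tiFrames F q n k) * q ^ (k * (2 * n - 3 * k)) *
      Nat.card (Cfsg.GU (n - 2 * k) F q) = Nat.card (Cfsg.GU n F q) := by
  intro k
  induction k with
  | zero =>
    intro _
    rw [card_tiFrames_zero]
    simp
  | succ k ih =>
    intro hk
    obtain ⟨e, rfl⟩ : ∃ e, n = 2 * (k + 1) + e := ⟨n - 2 * (k + 1), by omega⟩
    have ih' := ih (by omega)
    have e1 : 2 * (k + 1) + e - 2 * k = e + 2 := by omega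
    have e2 : 2 * (k + 1) + e - 2 * (k + 1) = e := by omega
    have e3 : 2 * (2 * (k + 1) + e) - 3 * (k + 1) = k + 1 + 2 * e := by omega
    have e4 : 2 * (2 * (k + 1) + e) - 3 * k = k + 4 + 2 * e := by omega
    rw [e1, e4, card_GU_rec hF e] at ih'
    rw [card_tiFrames_succ hF _ k (by omega), e1, e2, e3, ← ih']
    ring


end SUFrames

end Cfsg.Agent.H42
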