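import Mathlib
import Cfsg.Agent.H42.SUFrames
import Cfsg.Agent.H42.SUInv

set_option autoImplicit false

namespace Cfsg.Agent.H42

open Module Matrix Cfsg.Agent.H17

section Abstract

theorem card_fiber_orbit {G X : Type*} [Group G] [Finite G] (act : G → X → X)
    (hone : ∀ x, act 1 x = x) (hmul : ∀ g h x, act (g * h) x = act g (act h x))
    (s : X) (Y : Set X) (hY : ∀ y ∈ Y, ∃ g : G, act g s = y) :
    Nat.card {g : G // act g s ∈ Y} = Nat.card Y * Nat.card {h : G // act h s = s} := by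
  classical
  choose c hc using hY
  have hbij : Function.Bijective (fun p : Y × {h : G // act h s = s} =>
      (⟨c p.1.1 p.1.2 * p.2.1, by rw [hmul, p.2.2, hc]; exact p.1.2⟩ :
        {g : G // act g s ∈ Y})) := by
    constructor
    · rintro ⟨⟨y, hy⟩, ⟨h, hh⟩⟩ ⟨⟨y', hy'⟩, ⟨h', hh'⟩⟩ heq
      have h1 : c y hy * h = c y' hy' * h' := congrArg Subtype.val heq
      have h2 : y = y' := by
        have := congrArg (fun g => act g s) h1
        simp only [hmul, hh, hh', hc] at this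
        exact this
      subst h2
      have h3 : h = h' := mul_left_cancel h1
      subst h3
      rfl
    · rintro ⟨g, hg⟩
      obtain ⟨c₀, hc₀, hc₀'⟩ : ∃ c₀, c₀ = c (act g s) hg ∧ act c₀ s = act g s :=
        ⟨_, rfl, hc _ _⟩
      have hst : act (c₀⁻¹ * g) s = s := by
        rw [hmul, ← hc₀', ← hmul, inv_mul_cancel, hone]
      refine ⟨(⟨act g s, hg⟩, ⟨c₀⁻¹ * g, hst⟩), ?_⟩
      apply Subtype.ext
      show c (act g s) hg * (c₀⁻¹ * g) = g
      rw [← hc₀, mul_inv_cancel_left]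
  rw [← Nat.card_eq_of_bijective _ hbij, Nat.card_prod]

end Abstract

section SUPara

variable {F : Type*} [Field F] [Fintype F] {q : ℕ}

/-- an invertible matrix mapping a subspace into itself stabilises it. -/
theorem stab_of_maps {n : ℕ} (g : GL (Fin n) F) (W : Submodule F (Fin n → F))
    (h : ∀ v ∈ W, (g : Matrix (Fin n) (Fin n) F) *ᵥ v ∈ W) :
    ∀ v, v ∈ W ↔ (g : Matrix (Fin n) (Fin n) F) *ᵥ v ∈ W := by
  intro v
  refine ⟨h v, fun hv => ?_⟩
  have hinj : ∀ a b : Fin n → F, (g : Matrix (Fin n) (Fin n) F) *ᵥ a =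
      (g : Matrix (Fin n) (Fin n) F) *ᵥ b → a = b := by
    intro a b hab
    have := congrArg (fun x => ((g⁻¹ : GL (Fin n) F) : Matrix (Fin n) (Fin n) F) *ᵥ x) hab
    simpa [Matrix.mulVec_mulVec] using this
  let L : W →ₗ[F] W := (Matrix.toLin' (g : Matrix (Fin n) (Fin n) F)).restrict
    (fun x hx => by rw [Matrix.toLin'_apply]; exact h x hx)
  have hL : ∀ x : W, ((L x : W) : Fin n → F) = (g : Matrix (Fin n) (Fin n) F) *ᵥ (x : Fin n → F) := by
    intro x
    show Matrix.toLin' (g : Matrix (Fin n) (Fin n) F) x = _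
    rw [Matrix.toLin'_apply]
  have hLinj : Function.Injective L := by
    intro a b hab
    apply Subtype.ext
    apply hinj
    rw [← hL, ← hL, hab]
  have hLsurj : Function.Surjective L := LinearMap.injective_iff_surjective.mp hLinj
  obtain ⟨w, hw⟩ := hLsurj ⟨_, hv⟩
  have h1 := congrArg Subtype.val hw
  rw [hL] at h1
  rw [← hinj _ _ h1]
  exact w.2

/-- the action of `GU` on frames. -/
def frAct (n k : ℕ) (g : Cfsg.GU n F q) (s : Fin k → Fin n → F) : Fin k → Fin n → F :=
  fun i => ((g : GL (Fin n) F) : Matrix (Fin n) (Fin n) F) *ᵥ s i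

theorem frAct_one (n k : ℕ) (s : Fin k → Fin n → F) : frAct n k (1 : Cfsg.GU n F q) s = s := by
  funext i
  show ((1 : GL (Fin n) F) : Matrix (Fin n) (Fin n) F) *ᵥ s i = s i
  simp

theorem frAct_mul (n k : ℕ) (g h : Cfsg.GU n F q) (s : Fin k → Fin n → F) :
    frAct n k (g * h) s = frAct n k g (frAct n k h s) := by
  funext i
  show ((g * h : GL (Fin n) F) : Matrix (Fin n) (Fin n) F) *ᵥ s i = _
  rw [Units.val_mul, ← Matrix.mulVec_mulVec]
  rfl

theorem gu_mem_iff (n : ℕ) (g : GL (Fin n) F) :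
    g ∈ Cfsg.GU n F q ↔ ∀ u v, Cfsg.hermForm n F q ((g : Matrix (Fin n) (Fin n) F) *ᵥ u)
      ((g : Matrix (Fin n) (Fin n) F) *ᵥ v) = Cfsg.hermForm n F q u v := Iff.rfl

/-- Witt: `GU` is transitive on totally isotropic frames. -/
theorem gu_trans_frames (hF : Fintype.card F = q ^ 2) (n k : ℕ) (s x : Fin k → Fin n → F)
    (hs : s ∈ tiFrames F q n k) (hx : x ∈ tiFrames F q n k) :
    ∃ g : Cfsg.GU n F q, frAct n k g s = x := by
  classical
  have hq := two_le_of_card_sq hF
  have hσ := frobH_ne_id hF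
  have hσ2 := frobH_invol hF
  have hS := hermS_isSymm hF n
  have hnd := hermS_nondegenerate hF n
  obtain ⟨hsl, hs0⟩ := hs
  obtain ⟨hxl, hx0⟩ := hx
  let bs := Module.Basis.span hsl
  let f₀ : Submodule.span F (Set.range s) →ₗ[F] (Fin n → F) := bs.constr F x
  obtain ⟨f, hf⟩ := LinearMap.exists_extend f₀
  have hfs : ∀ i, f (s i) = x i := by
    intro i
    have h1 : f ((bs i : Submodule.span F (Set.range s)) : Fin n → F) = f₀ (bs i) := by
      rw [← hf]; rfl
    rw [Module.Basis.constr_basis] at h1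
    have h2 : ((bs i : Submodule.span F (Set.range s)) : Fin n → F) = s i := by
      rw [Module.Basis.span_apply]
    rw [h2] at h1
    exact h1
  have hX : ∀ y ∈ Submodule.span F (Set.range s), ∃ c : Fin k → F, y = ∑ i, c i • s i := by
    intro y hy
    obtain ⟨c, hc⟩ := (Submodule.mem_span_range_iff_exists_fun F).mp hy
    exact ⟨c, hc.symm⟩
  have hBs : ∀ c c' : Fin k → F, hermS hF n (∑ i, c i • s i) (∑ j, c' j • s j) = 0 := by
    intro c c'
    simp only [map_sum, LinearMap.sum_apply, LinearMap.map_smulₛₗ, LinearMap.smul_apply, map_smul,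
      hermS_apply, hs0, smul_zero, Finset.sum_const_zero]
  have hBx : ∀ c c' : Fin k → F, hermS hF n (∑ i, c i • x i) (∑ j, c' j • x j) = 0 := by
    intro c c'
    simp only [map_sum, LinearMap.sum_apply, LinearMap.map_smulₛₗ, LinearMap.smul_apply, map_smul,
      hermS_apply, hx0, smul_zero, Finset.sum_const_zero]
  have hfX : ∀ c : Fin k → F, f (∑ i, c i • s i) = ∑ i, c i • x i := by
    intro c
    simp only [map_sum, map_smul, hfs]
  obtain ⟨g, hg, hgX⟩ := witt_herm (frobH hF) hσ hσ2 (hermS hF n) hS hnd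
    (Submodule.span F (Set.range s)) f
    (by
      intro y hy y' hy'
      obtain ⟨c, rfl⟩ := hX y hy
      obtain ⟨c', rfl⟩ := hX y' hy'
      rw [hfX, hfX, hBs, hBx])
    (by
      intro y hy h0
      obtain ⟨c, rfl⟩ := hX y hy
      rw [hfX] at h0
      have hc : c = 0 := by
        funext i
        exact (Fintype.linearIndependent_iff.mp hxl) c h0 i
      rw [hc]
      simp)
  obtain ⟨G, hGdef⟩ : ∃ G : Matrix (Fin n) (Fin n) F,
      G = LinearMap.toMatrix' (g : (Fin n → F) →ₗ[F] (Fin n → F)) := ⟨_, rfl⟩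
  have hGv : ∀ x, G *ᵥ x = g x := by
    intro x
    rw [hGdef, ← Matrix.toLin'_apply, Matrix.toLin'_toMatrix']
    rfl
  have hGpres : ∀ u v, Cfsg.hermForm n F q (G *ᵥ u) (G *ᵥ v) = Cfsg.hermForm n F q u v := by
    intro u v
    rw [hGv, hGv, ← hermS_apply hF, hg, hermS_apply]
  obtain ⟨g', hg'1, hg'2⟩ := Cfsg.Agent.H7.exists_GUI_of_preserves (ι := Fin n) q (by omega) G hGpres
  refine ⟨⟨g', hg'2⟩, ?_⟩
  funext i
  show (g' : Matrix (Fin n) (Fin n) F) *ᵥ s i = x i
  rw [hg'1, hGv, hgX (s i) (Submodule.subset_span ⟨i, rfl⟩), hfs]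

theorem gl_mulVec_injective {n : ℕ} (g : GL (Fin n) F) :
    Function.Injective (fun v : Fin n → F => (g : Matrix (Fin n) (Fin n) F) *ᵥ v) := by
  intro a b hab
  have := congrArg (fun x => ((g⁻¹ : GL (Fin n) F) : Matrix (Fin n) (Fin n) F) *ᵥ x) hab
  simpa [Matrix.mulVec_mulVec] using this

theorem gl_linearIndependent {n k : ℕ} (g : GL (Fin n) F) (x : Fin k → Fin n → F)
    (hx : LinearIndependent F x) :
    LinearIndependent F (fun i => (g : Matrix (Fin n) (Fin n) F) *ᵥ x i) := by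
  have h1 : (fun i => (g : Matrix (Fin n) (Fin n) F) *ᵥ x i) =
      (Matrix.toLin' (g : Matrix (Fin n) (Fin n) F)) ∘ x := by
    funext i
    simp [Matrix.toLin'_apply]
  rw [h1]
  apply hx.map'
  rw [LinearMap.ker_eq_bot]
  intro a b hab
  rw [Matrix.toLin'_apply, Matrix.toLin'_apply] at hab
  exact gl_mulVec_injective g hab

/-- frames of a subspace. -/
def wFrames (k : ℕ) {n : ℕ} (W : Submodule F (Fin n → F)) : Set (Fin k → Fin n → F) :=
  {x | LinearIndependent F x ∧ ∀ i, x i ∈ W}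

theorem card_wFrames (hF : Fintype.card F = q ^ 2) {n k : ℕ} (W : Submodule F (Fin n → F))
    (hWk : finrank F W = k) :
    Nat.card (wFrames k W) = ∏ i : Fin k, ((q ^ 2) ^ k - (q ^ 2) ^ (i : ℕ)) := by
  have e : wFrames k W ≃ {t : Fin k → W // LinearIndependent F t} :=
    { toFun := fun x => ⟨fun i => ⟨x.1 i, x.2.2 i⟩,
        (LinearMap.linearIndependent_iff W.subtype (Submodule.ker_subtype W)).mp
          (show LinearIndependent F (W.subtype ∘ fun i => (⟨x.1 i, x.2.2 i⟩ : W)) from x.2.1)⟩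
      invFun := fun t => ⟨fun i => (t.1 i : Fin n → F),
        ⟨(LinearMap.linearIndependent_iff W.subtype (Submodule.ker_subtype W)).mpr t.2,
          fun i => (t.1 i).2⟩⟩
      left_inv := fun x => rfl
      right_inv := fun t => rfl }
  rw [Nat.card_congr e, card_linearIndependent (by rw [hWk]), hF, hWk]

theorem card_stab_mul (hF : Fintype.card F = q ^ 2) {n k : ℕ} (W : Submodule F (Fin n → F))
    (hWk : finrank F W = k)
    (hW : ∀ u ∈ W, ∀ v ∈ W, Cfsg.hermForm n F q u v = 0) :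
    Nat.card ↥((Cfsg.stabilizing (Cfsg.glToMat (Fin n) F) (W : Set (Fin n → F))).subgroupOf
      (Cfsg.GU n F q)) * Nat.card (tiFrames F q n k) =
      Nat.card (wFrames k W) * Nat.card (Cfsg.GU n F q) := by
  classical
  let b := Module.finBasisOfFinrankEq F W hWk
  obtain ⟨s, hsdef⟩ : ∃ s : Fin k → Fin n → F, s = fun i => (b i : Fin n → F) := ⟨_, rfl⟩
  have hsl : LinearIndependent F s := by
    rw [hsdef]
    exact (LinearMap.linearIndependent_iff W.subtype (Submodule.ker_subtype W)).mpr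
      b.linearIndependent
  have hsW : ∀ i, s i ∈ W := fun i => by rw [hsdef]; exact (b i).2
  have hspan : ∀ v ∈ W, ∃ c : Fin k → F, v = ∑ i, c i • s i := by
    intro v hv
    refine ⟨fun i => b.repr ⟨v, hv⟩ i, ?_⟩
    have h0 := congrArg (fun x : W => (x : Fin n → F)) (b.sum_repr ⟨v, hv⟩)
    simp only [Submodule.coe_sum, Submodule.coe_smul] at h0
    rw [hsdef]
    exact h0.symm
  have hsT : s ∈ tiFrames F q n k := ⟨hsl, fun i j => hW _ (hsW i) _ (hsW j)⟩
  have hgT : ∀ g : Cfsg.GU n F q, frAct n k g s ∈ tiFrames F q n k := by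
    intro g
    refine ⟨gl_linearIndependent g.1 s hsl, fun i j => ?_⟩
    show Cfsg.hermForm n F q (((g : GL (Fin n) F) : Matrix (Fin n) (Fin n) F) *ᵥ s i)
      (((g : GL (Fin n) F) : Matrix (Fin n) (Fin n) F) *ᵥ s j) = 0
    rw [(gu_mem_iff n g.1).mp g.2]
    exact hsT.2 i j
  have h1 := card_fiber_orbit (frAct n k (F := F) (q := q)) (frAct_one n k) (frAct_mul n k) s
    (tiFrames F q n k) (fun y hy => gu_trans_frames hF n k s y hsT hy)
  have h1' : Nat.card {g : Cfsg.GU n F q // frAct n k g s ∈ tiFrames F q n k} =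
      Nat.card (Cfsg.GU n F q) := Nat.card_congr (Equiv.subtypeUnivEquiv hgT)
  have hWT : ∀ y ∈ wFrames k W, y ∈ tiFrames F q n k :=
    fun y hy => ⟨hy.1, fun i j => hW _ (hy.2 i) _ (hy.2 j)⟩
  have h2 := card_fiber_orbit (frAct n k (F := F) (q := q)) (frAct_one n k) (frAct_mul n k) s
    (wFrames k W) (fun y hy => gu_trans_frames hF n k s y hsT (hWT y hy))
  have h2' : Nat.card {g : Cfsg.GU n F q // frAct n k g s ∈ wFrames k W} =
      Nat.card ↥((Cfsg.stabilizing (Cfsg.glToMat (Fin n) F) (W : Set (Fin n → F))).subgroupOf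
        (Cfsg.GU n F q)) := by
    apply Nat.card_congr
    apply Equiv.subtypeEquivRight
    intro g
    rw [Subgroup.mem_subgroupOf]
    constructor
    · intro h
      apply stab_of_maps g.1 W
      intro v hv
      obtain ⟨c, rfl⟩ := hspan v hv
      have h3 : ((g : GL (Fin n) F) : Matrix (Fin n) (Fin n) F) *ᵥ (∑ i, c i • s i) =
          ∑ i, c i • (((g : GL (Fin n) F) : Matrix (Fin n) (Fin n) F) *ᵥ s i) := by
        rw [← Matrix.toLin'_apply, map_sum]
        simp [Matrix.toLin'_apply]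
      rw [h3]
      exact Submodule.sum_mem _ (fun i _ => Submodule.smul_mem _ _ (h.2 i))
    · intro h
      exact ⟨gl_linearIndependent g.1 s hsl, fun i => (h (s i)).mp (hsW i)⟩
  rw [← h2', h2, ← h1', h1]
  ring


theorem exists_hilbert90 (hF : Fintype.card F = q ^ 2) (z : F) (hz : z ^ (q + 1) = 1) :
    ∃ μ : F, μ ≠ 0 ∧ z * μ ^ q = μ := by
  classical
  have hq := two_le_of_card_sq hF
  have hz0 : z ≠ 0 := by
    rintro rfl
    rw [zero_pow (by omega)] at hz
    exact zero_ne_one hz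
  obtain ⟨ζ, hζ⟩ := IsCyclic.exists_generator (α := Fˣ)
  have hord : orderOf ζ = q ^ 2 - 1 := by
    rw [orderOf_eq_card_of_forall_mem_zpowers hζ, Nat.card_units, Nat.card_eq_fintype_card, hF]
  obtain ⟨j, hj⟩ : ∃ j : ℕ, ζ ^ j = Units.mk0 z hz0 := by
    have := hζ (Units.mk0 z hz0)
    rw [← mem_powers_iff_mem_zpowers] at this
    exact this
  have h1 : ζ ^ (j * (q + 1)) = 1 := by
    rw [pow_mul, hj]
    apply Units.ext
    simp [hz]
  have h2 : (q ^ 2 - 1) ∣ j * (q + 1) := by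
    rw [← hord]; exact orderOf_dvd_of_pow_eq_one h1
  have h3 : q ^ 2 - 1 = (q - 1) * (q + 1) := by
    have h1 : 1 ≤ q := by omega
    zify [h1, Nat.one_le_pow 2 q h1]
    ring
  rw [h3] at h2
  have h4 : (q - 1) ∣ j := Nat.dvd_of_mul_dvd_mul_right (by omega) h2
  obtain ⟨m, rfl⟩ := h4
  have hz' : z = ((ζ ^ m : Fˣ) : F) ^ (q - 1) := by
    have := congrArg Units.val hj
    rw [Units.val_mk0] at this
    rw [← this, mul_comm (q - 1) m, pow_mul]
    simp
  have hν : ((ζ ^ m : Fˣ) : F) ≠ 0 := Units.ne_zero _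
  refine ⟨((ζ ^ m : Fˣ) : F)⁻¹, inv_ne_zero hν, ?_⟩
  have h5 : ((ζ ^ m : Fˣ) : F) ^ q = ((ζ ^ m : Fˣ) : F) ^ (q - 1) * ((ζ ^ m : Fˣ) : F) := by
    rw [← pow_succ, Nat.sub_add_cancel (by omega)]
  rw [hz', inv_pow, h5]
  field_simp

end SUPara

section HypScale2

variable {F V : Type*} [Field F] [AddCommGroup V] [Module F V]

/-- the map scaling `u` by `μ` and `w` by `ν` on a hyperbolic pair `(u, w)`. -/
noncomputable def hypScale2 {σ : F →+* F} (B : V →ₛₗ[σ] V →ₗ[F] F) (u w : V) (μ ν : F) :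
    V →ₗ[F] V :=
  LinearMap.id + (μ - 1) • (B w).smulRight u + (ν - 1) • (B u).smulRight w

theorem hypScale2_apply {σ : F →+* F} (B : V →ₛₗ[σ] V →ₗ[F] F) (u w : V) (μ ν : F) (x : V) :
    hypScale2 B u w μ ν x = x + (μ - 1) • B w x • u + (ν - 1) • B u x • w := by
  simp [hypScale2]

theorem hypScale2_isom {σ : F →+* F} (B : V →ₛₗ[σ] V →ₗ[F] F) (hS : B.IsSymm)
    (hσ2 : ∀ a : F, σ (σ a) = a) (u w : V)
    (huu : B u u = 0) (hww : B w w = 0) (hwu : B w u = 1) (μ ν : F) (hμν : σ μ * ν = 1)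
    (x y : V) :
    B (hypScale2 B u w μ ν x) (hypScale2 B u w μ ν y) = B x y := by
  have hsl : ∀ (a : F) (x y : V), B (a • x) y = σ a * B x y := by
    intro a x y
    rw [LinearMap.map_smulₛₗ₂]
    rfl
  have hsr : ∀ (a : F) (x y : V), B x (a • y) = a * B x y := by
    intro a x y
    rw [map_smul, smul_eq_mul]
  have huw : B u w = 1 := by
    rw [← hS.eq w u, hwu, map_one]
  have hxu : B x u = σ (B u x) := (hS.eq u x).symm
  have hxw : B x w = σ (B w x) := (hS.eq w x).symm
  have hνμ : σ ν * μ = 1 := by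
    have := congrArg σ hμν
    rw [map_mul, hσ2, map_one] at this
    rw [mul_comm]
    exact this
  rw [hypScale2_apply, hypScale2_apply]
  simp only [map_add, LinearMap.add_apply, hsl, hsr, huu, hww, hwu, huw, hxu, hxw, map_sub,
    map_one, map_mul, mul_zero, mul_one, add_zero, zero_add]
  linear_combination (σ (B u x) * B w y) * hνμ + (σ (B w x) * B u y) * hμν

end HypScale2

section SUPara2

variable {F : Type*} [Field F] [Fintype F] {q : ℕ}

/-- The matrix of `hypScale2` for the Hermitian form. -/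
noncomputable def hypMat2 (n : ℕ) (q : ℕ) (u w : Fin n → F) (μ ν : F) : Matrix (Fin n) (Fin n) F :=
  1 + (Matrix.of fun i (k : Fin 2) => if k = 0 then (μ - 1) * u i else (ν - 1) * w i) *
    (Matrix.of fun (k : Fin 2) j => if k = 0 then w j ^ q else u j ^ q)

theorem hypMat2_mulVec (hF : Fintype.card F = q ^ 2) (n : ℕ) (u w : Fin n → F) (μ ν : F)
    (x : Fin n → F) : hypMat2 n q u w μ ν *ᵥ x = hypScale2 (hermS hF n) u w μ ν x := by
  rw [hypScale2_apply, hypMat2, Matrix.add_mulVec, Matrix.one_mulVec, ← Matrix.mulVec_mulVec,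
    add_assoc]
  congr 1
  ext i
  simp only [Matrix.mulVec, dotProduct, Fin.sum_univ_two, Matrix.of_apply, hermS_apply,
    Cfsg.hermForm, Pi.smul_apply, Pi.add_apply, smul_eq_mul, if_true]
  simp only [Fin.isValue, one_ne_zero, if_false]
  have e1 : ∑ j, w j ^ q * x j = ∑ j, x j * w j ^ q :=
    Finset.sum_congr rfl (fun j _ => mul_comm _ _)
  have e2 : ∑ j, u j ^ q * x j = ∑ j, x j * u j ^ q :=
    Finset.sum_congr rfl (fun j _ => mul_comm _ _)
  rw [e1, e2]
  ring

theorem hypMat2_det (hF : Fintype.card F = q ^ 2) (n : ℕ) (u w : Fin n → F) (μ ν : F)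
    (huu : hermS hF n u u = 0) (hww : hermS hF n w w = 0) (hwu : hermS hF n w u = 1)
    (huw : hermS hF n u w = 1) :
    (hypMat2 n q u w μ ν).det = μ * ν := by
  rw [hypMat2, Matrix.det_one_add_mul_comm, Matrix.det_fin_two]
  simp only [Matrix.add_apply, Matrix.mul_apply, Matrix.of_apply, Matrix.one_apply, if_true]
  simp only [Fin.isValue, one_ne_zero, zero_ne_one, if_false, if_true]
  rw [hermS_apply, Cfsg.hermForm] at huu hww hwu huw
  have e1 : ∑ j, w j ^ q * ((μ - 1) * u j) = (μ - 1) * ∑ j, u j * w j ^ q := by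
    rw [Finset.mul_sum]
    exact Finset.sum_congr rfl (fun j _ => by ring)
  have e2 : ∑ j, w j ^ q * ((ν - 1) * w j) = (ν - 1) * ∑ j, w j * w j ^ q := by
    rw [Finset.mul_sum]
    exact Finset.sum_congr rfl (fun j _ => by ring)
  have e3 : ∑ j, u j ^ q * ((μ - 1) * u j) = (μ - 1) * ∑ j, u j * u j ^ q := by
    rw [Finset.mul_sum]
    exact Finset.sum_congr rfl (fun j _ => by ring)
  have e4 : ∑ j, u j ^ q * ((ν - 1) * w j) = (ν - 1) * ∑ j, w j * u j ^ q := by
    rw [Finset.mul_sum]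
    exact Finset.sum_congr rfl (fun j _ => by ring)
  rw [e1, e2, e3, e4, huu, hww, hwu, huw]
  ring


theorem exists_stab_det (hF : Fintype.card F = q ^ 2) {n k : ℕ} (hn : 1 ≤ n)
    (W : Submodule F (Fin n → F)) (hWk : finrank F W = k)
    (hW : ∀ u ∈ W, ∀ v ∈ W, Cfsg.hermForm n F q u v = 0) (z : F) (hz : z ^ (q + 1) = 1) :
    ∃ g : GL (Fin n) F, g ∈ Cfsg.GU n F q ∧
      g ∈ Cfsg.stabilizing (Cfsg.glToMat (Fin n) F) (W : Set (Fin n → F)) ∧
      (g : Matrix (Fin n) (Fin n) F).det = z := by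
  classical
  have hq := two_le_of_card_sq hF
  have hσ := frobH_ne_id hF
  have hσ2 := frobH_invol hF
  have hS := hermS_isSymm hF n
  have hnd := hermS_nondegenerate hF n
  have hz0 : z ≠ 0 := by
    rintro rfl
    rw [zero_pow (by omega)] at hz
    exact zero_ne_one hz
  rcases Nat.eq_zero_or_pos k with hk0 | hkpos
  · -- W = ⊥
    have hWbot : W = ⊥ := by
      rw [hk0] at hWk
      exact Submodule.finrank_eq_zero.mp hWk
    refine ⟨Cfsg.Agent.H7.glDiagOne (⟨0, hn⟩ : Fin n) z hz0,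
      Cfsg.Agent.H7.GUI_glDiagOne_mem _ _ hz _, ?_, ?_⟩
    · apply stab_of_maps
      intro v hv
      rw [hWbot, Submodule.mem_bot] at hv
      rw [hv, Matrix.mulVec_zero]
      exact Submodule.zero_mem _
    · have := Cfsg.Agent.H7.det_glDiagOne (⟨0, hn⟩ : Fin n) z hz0
      exact congrArg Units.val this
  · -- a hyperbolic pair with `u ∈ W`
    obtain ⟨u', hu'⟩ := (Module.finrank_pos_iff_exists_ne_zero (R := F) (M := W)).mp (by omega)
    obtain ⟨u, hu⟩ : ∃ u : Fin n → F, u = (u' : Fin n → F) := ⟨_, rfl⟩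
    have huW : u ∈ W := by rw [hu]; exact u'.2
    have hu0 : u ≠ 0 := by
      rw [hu]
      intro h0
      exact hu' (Subtype.ext h0)
    have huu : hermS hF n u u = 0 := by
      rw [hermS_apply]; exact hW u huW u huW
    obtain ⟨a, ha, _⟩ := herm_partner (frobH hF) hσ2 (hermS hF n) hS hnd u ⊥
      (by rw [Submodule.mem_bot]; exact hu0)
    have haa : frobH hF (-(hermS hF n a a)) = -(hermS hF n a a) := by
      rw [map_neg, hS.eq]
    obtain ⟨c, hc⟩ := exists_trace_eq (frobH hF) hσ hσ2 _ haa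
    obtain ⟨w, hw⟩ : ∃ w : Fin n → F, w = a + c • u := ⟨_, rfl⟩
    have hua : hermS hF n u a = 1 := by
      rw [← hS.eq a u, ha, map_one]
    have hwu : hermS hF n w u = 1 := by
      rw [hw, map_add, LinearMap.add_apply, LinearMap.map_smulₛₗ, LinearMap.smul_apply, huu,
        smul_zero, add_zero, ha]
    have huw : hermS hF n u w = 1 := by
      rw [← hS.eq w u, hwu, map_one]
    have hww : hermS hF n w w = 0 := by
      rw [hw]
      simp only [map_add, LinearMap.add_apply, LinearMap.map_smulₛₗ, LinearMap.smul_apply, map_smul,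
        smul_eq_mul, huu, ha, hua, mul_zero, mul_one, add_zero]
      linear_combination hc
    obtain ⟨μ, hμ0, hμ⟩ := exists_hilbert90 hF z hz
    have hμq : μ ^ q ≠ 0 := pow_ne_zero _ hμ0
    obtain ⟨ν, hν⟩ : ∃ ν : F, ν = (μ ^ q)⁻¹ := ⟨_, rfl⟩
    have hμν : frobH hF μ * ν = 1 := by
      rw [frobH_apply, hν, mul_inv_cancel₀ hμq]
    have hMv := hypMat2_mulVec hF n u w μ ν
    have hMpres : ∀ x y, Cfsg.hermForm n F q (hypMat2 n q u w μ ν *ᵥ x)
        (hypMat2 n q u w μ ν *ᵥ y) = Cfsg.hermForm n F q x y := by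
      intro x y
      rw [hMv, hMv, ← hermS_apply hF, hypScale2_isom (hermS hF n) hS hσ2 u w huu hww hwu μ ν hμν,
        hermS_apply]
    obtain ⟨g, hg1, hg2⟩ := Cfsg.Agent.H7.exists_GUI_of_preserves (ι := Fin n) q (by omega)
      (hypMat2 n q u w μ ν) hMpres
    refine ⟨g, hg2, ?_, ?_⟩
    · apply stab_of_maps
      intro v hv
      rw [hg1, hMv, hypScale2_apply]
      have h1 : hermS hF n u v = 0 := by
        rw [hermS_apply]; exact hW v hv u huW
      rw [h1, zero_smul, smul_zero, add_zero]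
      exact Submodule.add_mem _ hv (Submodule.smul_mem _ _ (Submodule.smul_mem _ _ huW))
    · rw [hg1, hypMat2_det hF n u w μ ν huu hww hwu huw, hν, eq_comm,
        eq_mul_inv_iff_mul_eq₀ hμq]
      exact hμ

theorem card_su_stab_mul (hF : Fintype.card F = q ^ 2) {n k : ℕ} (hn : 1 ≤ n)
    (W : Submodule F (Fin n → F)) (hWk : finrank F W = k)
    (hW : ∀ u ∈ W, ∀ v ∈ W, Cfsg.hermForm n F q u v = 0) :
    (q + 1) * Nat.card ↥((Cfsg.stabilizing (Cfsg.slToMat n F) (W : Set (Fin n → F))).subgroupOf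
      (Cfsg.SU n F q)) =
      Nat.card ↥((Cfsg.stabilizing (Cfsg.glToMat (Fin n) F) (W : Set (Fin n → F))).subgroupOf
        (Cfsg.GU n F q)) := by
  have hq := two_le_of_card_sq hF
  let detU : ↥((Cfsg.stabilizing (Cfsg.glToMat (Fin n) F) (W : Set (Fin n → F))).subgroupOf
      (Cfsg.GU n F q)) →* Fˣ :=
    Matrix.GeneralLinearGroup.det.comp ((Cfsg.GU n F q).subtype.comp (Subgroup.subtype _))
  have hrange : detU.range = (powMonoidHom (q + 1) : Fˣ →* Fˣ).ker := by
    ext z
    rw [MonoidHom.mem_ker, powMonoidHom_apply]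
    constructor
    · rintro ⟨g, rfl⟩
      apply Units.ext
      have := Cfsg.Agent.H7.GUI_det_pow hF g.1.1 g.1.2
      simpa [detU] using this
    · intro hz
      have hz' : (z : F) ^ (q + 1) = 1 := by
        have := congrArg Units.val hz
        simpa using this
      obtain ⟨g, hg1, hg2, hg3⟩ := exists_stab_det hF hn W hWk hW (z : F) hz'
      refine ⟨⟨⟨g, hg1⟩, hg2⟩, ?_⟩
      apply Units.ext
      exact hg3
  have e : ↥((Cfsg.stabilizing (Cfsg.slToMat n F) (W : Set (Fin n → F))).subgroupOf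
      (Cfsg.SU n F q)) ≃ detU.ker :=
    { toFun := fun s => ⟨⟨⟨Matrix.SpecialLinearGroup.toGL s.1.1, s.1.2⟩, s.2⟩, by
        rw [MonoidHom.mem_ker]
        apply Units.ext
        show (s.1.1.1).det = 1
        exact s.1.1.2⟩
      invFun := fun g => ⟨⟨⟨g.1.1.1.1, by
        have := g.2
        rw [MonoidHom.mem_ker] at this
        have h2 := congrArg Units.val this
        exact h2⟩, g.1.1.2⟩, g.1.2⟩
      left_inv := by intro s; rfl
      right_inv := by
        intro g
        apply Subtype.ext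
        apply Subtype.ext
        apply Subtype.ext
        apply Units.ext
        rfl }
  have h1 := Subgroup.card_mul_index detU.ker
  rw [Subgroup.index_ker, hrange, Cfsg.Agent.H7.card_norm_one_units hF] at h1
  rw [Nat.card_congr e, mul_comm]
  exact h1

/-- The order of the stabiliser in `SU_n(q)` of a totally isotropic `k`-subspace. -/
theorem card_su_stabilizer_ti (hF : Fintype.card F = q ^ 2) (n k : ℕ) (hn : 1 ≤ n)
    (hk : 2 * k ≤ n) (W : Submodule F (Fin n → F)) (hWk : finrank F W = k)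
    (hW : ∀ u ∈ W, ∀ v ∈ W, Cfsg.hermForm n F q u v = 0) :
    (q + 1) * Nat.card ↥((Cfsg.stabilizing (Cfsg.slToMat n F) (W : Set (Fin n → F))).subgroupOf
      (Cfsg.SU n F q)) =
      q ^ (k * (2 * n - 3 * k)) * (∏ i : Fin k, ((q ^ 2) ^ k - (q ^ 2) ^ (i : ℕ))) *
        (q ^ ((n - 2 * k) * ((n - 2 * k) - 1) / 2) *
          ∏ i ∈ Finset.range (n - 2 * k), (if Even i then q ^ (i + 1) + 1 else q ^ (i + 1) - 1)) := by
  rw [card_su_stab_mul hF hn W hWk hW, ← Cfsg.Agent.H7.card_GU hF, ← card_wFrames hF W hWk]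
  have h1 := card_stab_mul hF W hWk hW
  have h2 := card_tiFrames_mul hF n k hk
  have hX : 0 < Nat.card (tiFrames F q n k) := by
    apply Nat.pos_of_ne_zero
    intro h0
    rw [h0] at h2
    have h3 : 0 < Nat.card (Cfsg.GU n F q) := Nat.card_pos
    simp only [zero_mul] at h2
    omega
  apply Nat.eq_of_mul_eq_mul_right hX
  rw [h1, ← h2]
  ring


end SUPara2

end Cfsg.Agent.H42
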