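import Mathlib
import Cfsg.Prelude.Def_Classical
import Cfsg.Prelude.Def_ClassicalGeometry
import Cfsg.Agent.H17.Witt
import Cfsg.Agent.H42.OInvCount
import Cfsg.Agent.H42.SUPara

set_option autoImplicit false

/-! Centralisers of involutions of orthogonal groups in characteristic two via frames of
`im (x - 1)`: the fibre theorem (helper42). -/

namespace Cfsg.Agent.H42

open Module Matrix

section

variable {F : Type*} [Field F]

/-- The permutation matrix of a map. -/
def permM {I : Type} [DecidableEq I] (F : Type*) [Field F] (σ : I → I) : Matrix I I F :=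
  Matrix.of fun i j => if σ i = j then 1 else 0

theorem permM_mulVec {I : Type} [Fintype I] [DecidableEq I] (σ : I → I) (y : I → F) :
    permM F σ *ᵥ y = fun s => y (σ s) := by
  funext s
  simp [permM, Matrix.mulVec, dotProduct]

theorem permM_mul_apply {I : Type} [Fintype I] [DecidableEq I] (σ : I → I) (M : Matrix I I F)
    (u j : I) : (permM F σ * M) u j = M (σ u) j := by
  simp [permM, Matrix.mul_apply]

theorem permM_mul_self {I : Type} [Fintype I] [DecidableEq I] (σ : I → I)
    (hσ : Function.Involutive σ) : permM F σ * permM F σ = 1 := by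
  ext u j
  rw [permM_mul_apply, permM, Matrix.of_apply, hσ u, Matrix.one_apply]

theorem permM_isom_symm {I : Type} [Fintype I] [DecidableEq I] (σ : I → I)
    (hσ : Function.Involutive σ) (P : Matrix I I F)
    (hP : P * permM F σ * Pᵀ = permM F σ) : Pᵀ * permM F σ * P = permM F σ := by
  have hCC := permM_mul_self (F := F) σ hσ
  have h1 : (P * permM F σ) * (Pᵀ * permM F σ) = 1 := by
    rw [← Matrix.mul_assoc, hP, hCC]
  have h2 : (Pᵀ * permM F σ) * (P * permM F σ) = 1 := mul_eq_one_comm.mp h1
  calc Pᵀ * permM F σ * P = Pᵀ * permM F σ * P * (permM F σ * permM F σ) := by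
        rw [hCC, Matrix.mul_one]
    _ = (Pᵀ * permM F σ) * (P * permM F σ) * permM F σ := by
        simp only [Matrix.mul_assoc]
    _ = permM F σ := by rw [h2, Matrix.one_mul]

end

section

variable {F : Type*} [Field F] {ι : Type} [Fintype ι] [DecidableEq ι]
variable (Q : QuadraticForm F (ι → F))

/-- An isometric linear equivalence as an element of the isometry group. -/
theorem isom_of_equiv (g : (ι → F) ≃ₗ[F] (ι → F)) (hg : ∀ v, Q (g v) = Q v) :
    ∃ U : ↥(Cfsg.isometryGroup F (⇑Q)), ∀ x, oMat U *ᵥ x = g x := by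
  set G : Matrix ι ι F := LinearMap.toMatrix' (g : (ι → F) →ₗ[F] (ι → F)) with hGdef
  set G' : Matrix ι ι F := LinearMap.toMatrix' (g.symm : (ι → F) →ₗ[F] (ι → F)) with hG'def
  have hGv : ∀ x, G *ᵥ x = g x := by
    intro x
    rw [← Matrix.toLin'_apply, hGdef, Matrix.toLin'_toMatrix']
    rfl
  have hG'v : ∀ x, G' *ᵥ x = g.symm x := by
    intro x
    rw [← Matrix.toLin'_apply, hG'def, Matrix.toLin'_toMatrix']
    rfl
  have hGG' : G * G' = 1 := by
    apply mat_ext_mulVecG
    intro x
    rw [← Matrix.mulVec_mulVec, hG'v, hGv, LinearEquiv.apply_symm_apply, Matrix.one_mulVec]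
  have hG'G : G' * G = 1 := by
    apply mat_ext_mulVecG
    intro x
    rw [← Matrix.mulVec_mulVec, hG'v, hGv, LinearEquiv.symm_apply_apply, Matrix.one_mulVec]
  let U : Matrix.GeneralLinearGroup ι F := ⟨G, G', hGG', hG'G⟩
  have hU : U ∈ Cfsg.isometryGroup F (⇑Q) :=
    Cfsg.Agent.H49.mem_isometryGroup_iff.mpr (fun u => by
      show Q (G *ᵥ u) = Q u
      rw [hGv, hg])
  exact ⟨⟨U, hU⟩, hGv⟩

/-- The coefficient functionals of a family. -/
noncomputable def frB {I : Type} (w : I → ι → F) : (ι → F) →ₗ[F] (I → F) :=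
  LinearMap.pi fun u => QuadraticMap.polarBilin Q (w u)

omit [Fintype ι] [DecidableEq ι] in
theorem frB_apply {I : Type} (w : I → ι → F) (x : ι → F) (u : I) :
    frB Q w x u = QuadraticMap.polarBilin Q (w u) x := rfl

omit [Fintype ι] [DecidableEq ι] in
theorem pb_symm (x y : ι → F) :
    QuadraticMap.polarBilin Q x y = QuadraticMap.polarBilin Q y x := by
  simp only [QuadraticMap.polarBilin_apply_apply]
  exact QuadraticMap.polar_comm _ _ _

variable {I : Type} [Fintype I] [DecidableEq I]

omit [DecidableEq ι] [DecidableEq I] in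
theorem lc_act (A : Matrix ι ι F) (w : I → ι → F) (c : I → F) :
    A *ᵥ Fintype.linearCombination F w c =
      Fintype.linearCombination F (fun s => A *ᵥ w s) c := by
  rw [Fintype.linearCombination_apply, Fintype.linearCombination_apply, Matrix.mulVec_sum]
  apply Finset.sum_congr rfl
  intro s _
  rw [Matrix.mulVec_smul]

omit [DecidableEq ι] [Fintype I] [DecidableEq I] in
theorem frB_act (A : Matrix ι ι F) (hA : ∀ x, Q (A *ᵥ x) = Q x) (w : I → ι → F) (x : ι → F) :
    frB Q (fun s => A *ᵥ w s) (A *ᵥ x) = frB Q w x := by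
  funext u
  rw [frB_apply, frB_apply, polar_isomG Q A hA]

omit [Fintype ι] [DecidableEq ι] in
theorem frB_dual (w t : I → ι → F)
    (hwt : ∀ s u, QuadraticMap.polarBilin Q (w s) (t u) = if s = u then 1 else 0) (c : I → F) :
    frB Q w (Fintype.linearCombination F t c) = c := by
  funext u
  rw [frB_apply, Fintype.linearCombination_apply, map_sum]
  simp only [map_smul, smul_eq_mul, hwt, mul_ite, mul_one, mul_zero, Finset.sum_ite_eq,
    Finset.mem_univ, if_true]

omit [Fintype ι] [DecidableEq ι] in
theorem frB_dual' (w t : I → ι → F)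
    (hwt : ∀ s u, QuadraticMap.polarBilin Q (w s) (t u) = if s = u then 1 else 0) (c : I → F) :
    frB Q t (Fintype.linearCombination F w c) = c := by
  funext u
  rw [frB_apply, Fintype.linearCombination_apply, map_sum]
  have h1 : ∀ s ∈ Finset.univ, QuadraticMap.polarBilin Q (t u) (c s • w s) =
      if s = u then c s else 0 := by
    intro s _
    rw [map_smul, smul_eq_mul, pb_symm Q (t u), hwt]
    split_ifs <;> simp
  rw [Finset.sum_congr rfl h1, Finset.sum_ite_eq']
  simp

omit [Fintype ι] [DecidableEq ι] [DecidableEq I] in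
theorem lc_orth (w : I → ι → F) (hww : ∀ s u, QuadraticMap.polarBilin Q (w s) (w u) = 0)
    (c d : I → F) :
    QuadraticMap.polarBilin Q (Fintype.linearCombination F w c)
      (Fintype.linearCombination F w d) = 0 := by
  rw [Fintype.linearCombination_apply, Fintype.linearCombination_apply]
  simp only [map_sum, map_smul, LinearMap.sum_apply, LinearMap.smul_apply, smul_eq_mul, hww,
    mul_zero, Finset.sum_const_zero]

omit [Fintype ι] [DecidableEq ι] in
theorem lc_pair (w t : I → ι → F)
    (hwt : ∀ s u, QuadraticMap.polarBilin Q (w s) (t u) = if s = u then 1 else 0) (c d : I → F) :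
    QuadraticMap.polarBilin Q (Fintype.linearCombination F w c)
      (Fintype.linearCombination F t d) = ∑ u, c u * d u := by
  rw [Fintype.linearCombination_apply, Fintype.linearCombination_apply]
  simp only [map_sum, map_smul, LinearMap.sum_apply, LinearMap.smul_apply, smul_eq_mul, hwt,
    mul_ite, mul_one, mul_zero, Finset.sum_ite_eq', Finset.mem_univ, if_true]
  apply Finset.sum_congr rfl
  intro u _
  rw [mul_comm]

omit [Fintype ι] [DecidableEq ι] [DecidableEq I] in
theorem lc_toFr (w : I → ι → F) (P : Matrix I I F) (c : I → F) :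
    Fintype.linearCombination F (fun s => Fintype.linearCombination F w (Pᵀ s)) c =
      Fintype.linearCombination F w (P *ᵥ c) := by
  simp only [Fintype.linearCombination_apply, Matrix.transpose_apply, Finset.smul_sum, smul_smul,
    Matrix.mulVec, dotProduct, Finset.sum_smul]
  rw [Finset.sum_comm]
  apply Finset.sum_congr rfl
  intro u _
  apply Finset.sum_congr rfl
  intro s _
  rw [mul_comm]

omit [Fintype ι] [DecidableEq ι] [DecidableEq I] in
theorem frB_toFr (w : I → ι → F) (P : Matrix I I F) (x : ι → F) :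
    frB Q (fun s => Fintype.linearCombination F w (Pᵀ s)) x = Pᵀ *ᵥ frB Q w x := by
  funext s
  rw [frB_apply, Fintype.linearCombination_apply]
  simp only [map_sum, map_smul, LinearMap.sum_apply, LinearMap.smul_apply, smul_eq_mul,
    Matrix.mulVec, dotProduct, frB_apply]

/-- The operator presented by a frame `w` with shape `σ`. -/
noncomputable def pOp (σ : I → I) (w : I → ι → F) (x : ι → F) : ι → F :=
  Fintype.linearCombination F w (permM F σ *ᵥ frB Q w x)

omit [Fintype ι] [DecidableEq ι] in
theorem pOp_sum (σ : I → I) (w : I → ι → F) (x : ι → F) :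
    pOp Q σ w x = ∑ s, QuadraticMap.polarBilin Q (w (σ s)) x • w s := by
  rw [pOp, permM_mulVec, Fintype.linearCombination_apply]
  rfl

omit [DecidableEq ι] in
theorem pOp_act (σ : I → I) (A : Matrix ι ι F) (hA : ∀ x, Q (A *ᵥ x) = Q x) (w : I → ι → F)
    (x : ι → F) : pOp Q σ (fun s => A *ᵥ w s) (A *ᵥ x) = A *ᵥ pOp Q σ w x := by
  rw [pOp, pOp, frB_act Q A hA, lc_act]

omit [Fintype ι] [DecidableEq ι] in
theorem pOp_toFr (σ : I → I) (w : I → ι → F) (P : Matrix I I F) (x : ι → F) :
    pOp Q σ (fun s => Fintype.linearCombination F w (Pᵀ s)) x =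
      Fintype.linearCombination F w ((P * permM F σ * Pᵀ) *ᵥ frB Q w x) := by
  rw [pOp, frB_toFr, lc_toFr, Matrix.mulVec_mulVec, Matrix.mulVec_mulVec, Matrix.mul_assoc]

/-- Witt transitivity on frames with the same `Q`-values, mutually orthogonal, with dual
families. -/
theorem witt_frames (hQ : (QuadraticMap.polarBilin Q).Nondegenerate)
    (w w' t t' : I → (ι → F))
    (hww : ∀ a u, a ≠ u → QuadraticMap.polarBilin Q (w a) (w u) = 0)
    (hww' : ∀ a u, a ≠ u → QuadraticMap.polarBilin Q (w' a) (w' u) = 0)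
    (hwt : ∀ a u, QuadraticMap.polarBilin Q (w a) (t u) = if a = u then 1 else 0)
    (hwt' : ∀ a u, QuadraticMap.polarBilin Q (w' a) (t' u) = if a = u then 1 else 0)
    (hQw : ∀ a, Q (w a) = Q (w' a)) :
    ∃ U : ↥(Cfsg.isometryGroup F (⇑Q)), ∀ a, oMat U *ᵥ w a = w' a := by
  let f : (ι → F) →ₗ[F] (ι → F) := (Fintype.linearCombination F w').comp (frB Q t)
  have hf : ∀ c : I → F, f (Fintype.linearCombination F w c) =
      Fintype.linearCombination F w' c := by
    intro c
    show Fintype.linearCombination F w' (frB Q t (Fintype.linearCombination F w c)) = _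
    rw [frB_dual' Q w t hwt]
  have hX : ∀ x ∈ Submodule.span F (Set.range w), ∃ c : I → F,
      x = Fintype.linearCombination F w c := by
    intro x hx
    obtain ⟨c, hc⟩ := (Submodule.mem_span_range_iff_exists_fun F).1 hx
    exact ⟨c, by rw [Fintype.linearCombination_apply, hc]⟩
  obtain ⟨g, hg, hgX⟩ := Cfsg.Agent.H17.witt_quad Q hQ (Submodule.span F (Set.range w)) f
    (by
      intro x hx
      obtain ⟨c, rfl⟩ := hX x hx
      rw [hf, Fintype.linearCombination_apply, Fintype.linearCombination_apply,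
        quad_sum_smul_orth Q w c hww, quad_sum_smul_orth Q w' c hww']
      apply Finset.sum_congr rfl
      intro s _
      rw [hQw])
    (by
      intro x hx h0
      obtain ⟨c, rfl⟩ := hX x hx
      rw [hf] at h0
      have h1 := frB_dual' Q w' t' hwt' c
      rw [h0, map_zero] at h1
      rw [← h1, map_zero])
  obtain ⟨U, hU⟩ := isom_of_equiv Q g hg
  refine ⟨U, fun a => ?_⟩
  rw [hU, hgX _ (Submodule.subset_span ⟨a, rfl⟩)]
  have h1 := hf (Pi.single a 1)
  rw [Fintype.linearCombination_apply_single, Fintype.linearCombination_apply_single, one_smul,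
    one_smul] at h1
  exact h1

/-- The presented operator of a transformed frame equals the operator iff the matrix preserves
the shape. -/
theorem pres_toFr_iff (σ : I → I) (w t : I → ι → F)
    (hwt : ∀ s u, QuadraticMap.polarBilin Q (w s) (t u) = if s = u then 1 else 0)
    (N : (ι → F) → (ι → F)) (hN : ∀ x, N x = pOp Q σ w x) (P : Matrix I I F) :
    (∀ x, N x = pOp Q σ (fun s => Fintype.linearCombination F w (Pᵀ s)) x) ↔
      P * permM F σ * Pᵀ = permM F σ := by
  constructor
  · intro h
    apply mat_ext_mulVecG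
    intro c
    have h1 := h (Fintype.linearCombination F t c)
    rw [hN, pOp_toFr, pOp, frB_dual Q w t hwt] at h1
    have h2 := congrArg (frB Q t) h1
    rw [frB_dual' Q w t hwt, frB_dual' Q w t hwt] at h2
    exact h2.symm
  · intro h x
    rw [pOp_toFr, h, hN, pOp]

/-- **Fibre theorem**: the centraliser of an involution presented by a frame `w` of shape `σ`
has order `|Isom(shape)|` times the order of the pointwise stabiliser of the frame. -/
theorem card_cent_frame [Fintype F] [CharP F 2]
    (hQ : (QuadraticMap.polarBilin Q).Nondegenerate)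
    (σ : I → I) (hσ : Function.Involutive σ)
    (a : ↥(Cfsg.isometryGroup F (⇑Q))) (w t : I → (ι → F))
    (hww : ∀ s u, QuadraticMap.polarBilin Q (w s) (w u) = 0)
    (hwt : ∀ s u, QuadraticMap.polarBilin Q (w s) (t u) = if s = u then 1 else 0)
    (hN : ∀ x, nOpG (oMat a) x = ∑ s, QuadraticMap.polarBilin Q (w (σ s)) x • w s) :
    Nat.card {g : ↥(Cfsg.isometryGroup F (⇑Q)) // g * a = a * g} =
      Nat.card {P : Matrix I I F // P * permM F σ * Pᵀ = permM F σ} *
        Nat.card {g : ↥(Cfsg.isometryGroup F (⇑Q)) // ∀ s, oMat g *ᵥ w s = w s} := by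
  classical
  have hN' : ∀ x, nOpG (oMat a) x = pOp Q σ w x := fun x => by rw [hN, pOp_sum]
  let Y : Set (I → ι → F) := {w' | (∀ s u, QuadraticMap.polarBilin Q (w' s) (w' u) = 0) ∧
      (∃ t' : I → ι → F, ∀ s u,
        QuadraticMap.polarBilin Q (w' s) (t' u) = if s = u then 1 else 0) ∧
      ∀ x, nOpG (oMat a) x = pOp Q σ w' x}
  let act : ↥(Cfsg.isometryGroup F (⇑Q)) → (I → ι → F) → (I → ι → F) :=
    fun g w' s => oMat g *ᵥ w' s
  -- frame vectors as images
  have himg : ∀ w' t' : I → ι → F,
      (∀ s u, QuadraticMap.polarBilin Q (w' s) (t' u) = if s = u then 1 else 0) →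
      (∀ x, nOpG (oMat a) x = pOp Q σ w' x) → ∀ s, nOpG (oMat a) (t' (σ s)) = w' s := by
    intro w' t' hd hp s
    rw [hp, pOp_sum]
    rw [Finset.sum_eq_single s]
    · rw [hd, if_pos rfl, one_smul]
    · intro s' _ hs'
      rw [hd, if_neg, zero_smul]
      intro h
      exact hs' (hσ.injective h)
    · intro h
      exact absurd (Finset.mem_univ _) h
  have hQval : ∀ w' t' : I → ι → F,
      (∀ s u, QuadraticMap.polarBilin Q (w' s) (t' u) = if s = u then 1 else 0) →
      (∀ x, nOpG (oMat a) x = pOp Q σ w' x) → ∀ s, Q (w' s) = if s = σ s then 1 else 0 := by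
    intro w' t' hd hp s
    have h1 := himg w' t' hd hp s
    have h2 := nOpG_quad Q (oMat a) (oMat_isom a) (t' (σ s))
    rw [h1, hd] at h2
    exact h2
  have hY : ∀ y ∈ Y, ∃ g, act g w = y := by
    rintro y ⟨hy1, ⟨ty, hy2⟩, hy3⟩
    obtain ⟨U, hU⟩ := witt_frames Q hQ w y t ty (fun a u _ => hww a u) (fun a u _ => hy1 a u)
      hwt hy2 (fun s => by rw [hQval w t hwt hN', hQval y ty hy2 hy3])
    exact ⟨U, funext hU⟩
  have h1 := card_fiber_orbit act (fun x => by
      funext s
      show oMat (1 : ↥(Cfsg.isometryGroup F (⇑Q))) *ᵥ x s = x s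
      rw [oMat_one, Matrix.one_mulVec]) (fun g h x => by
      funext s
      show oMat (g * h) *ᵥ x s = oMat g *ᵥ (oMat h *ᵥ x s)
      rw [oMat_mul, Matrix.mulVec_mulVec]) w Y hY
  have e2 : {g : ↥(Cfsg.isometryGroup F (⇑Q)) // g * a = a * g} ≃ {g // act g w ∈ Y} := by
    refine Equiv.subtypeEquivRight (fun g => ?_)
    have hcomm : g * a = a * g ↔
        ∀ x, nOpG (oMat a) (oMat g *ᵥ x) = oMat g *ᵥ nOpG (oMat a) x := by
      constructor
      · intro h x
        have h' : oMat g * oMat a = oMat a * oMat g := by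
          rw [← oMat_mul, ← oMat_mul, h]
        rw [nOpG_apply, nOpG_apply, Matrix.mulVec_sub, Matrix.mulVec_mulVec,
          Matrix.mulVec_mulVec, h']
      · intro h
        apply oMat_injective
        rw [oMat_mul, oMat_mul]
        apply mat_ext_mulVecG
        intro x
        have h' := h x
        rw [nOpG_apply, nOpG_apply, Matrix.mulVec_sub, Matrix.mulVec_mulVec,
          Matrix.mulVec_mulVec] at h'
        exact (sub_left_injective h').symm
    rw [hcomm]
    constructor
    · intro h
      refine ⟨?_, ⟨fun u => oMat g *ᵥ t u, ?_⟩, ?_⟩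
      · intro s u
        show QuadraticMap.polarBilin Q (oMat g *ᵥ w s) (oMat g *ᵥ w u) = 0
        rw [polar_isomG Q _ (oMat_isom g), hww]
      · intro s u
        show QuadraticMap.polarBilin Q (oMat g *ᵥ w s) (oMat g *ᵥ t u) = _
        rw [polar_isomG Q _ (oMat_isom g), hwt]
      · intro x'
        have hx : oMat g *ᵥ (oMat g⁻¹ *ᵥ x') = x' := by
          rw [Matrix.mulVec_mulVec, oMat_mul_inv, Matrix.one_mulVec]
        calc nOpG (oMat a) x' = nOpG (oMat a) (oMat g *ᵥ (oMat g⁻¹ *ᵥ x')) := by rw [hx]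
          _ = oMat g *ᵥ nOpG (oMat a) (oMat g⁻¹ *ᵥ x') := h _
          _ = oMat g *ᵥ pOp Q σ w (oMat g⁻¹ *ᵥ x') := by rw [hN']
          _ = pOp Q σ (fun s => oMat g *ᵥ w s) (oMat g *ᵥ (oMat g⁻¹ *ᵥ x')) :=
              (pOp_act Q σ (oMat g) (oMat_isom g) w _).symm
          _ = pOp Q σ (fun s => oMat g *ᵥ w s) x' := by rw [hx]
    · rintro ⟨-, -, h3⟩ x
      rw [h3 (oMat g *ᵥ x)]
      show pOp Q σ (fun s => oMat g *ᵥ w s) (oMat g *ᵥ x) = _
      rw [pOp_act Q σ (oMat g) (oMat_isom g), ← hN']
  have e3 : {h // act h w = w} ≃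
      {g : ↥(Cfsg.isometryGroup F (⇑Q)) // ∀ s, oMat g *ᵥ w s = w s} :=
    Equiv.subtypeEquivRight (fun g => funext_iff)
  have e4 : {P : Matrix I I F // P * permM F σ * Pᵀ = permM F σ} ≃ Y := by
    refine Equiv.ofBijective (fun P => ⟨fun s => Fintype.linearCombination F w (P.1ᵀ s), ?_⟩)
      ⟨?_, ?_⟩
    · refine ⟨?_, ⟨fun s => Fintype.linearCombination F t (fun u => P.1 (σ u) (σ s)), ?_⟩, ?_⟩
      · intro s u
        exact lc_orth Q w hww _ _
      · intro s s'
        rw [lc_pair Q w t hwt]
        have h2 := congrFun (congrFun (permM_isom_symm σ hσ P.1 P.2) s) (σ s')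
        rw [Matrix.mul_assoc, Matrix.mul_apply] at h2
        simp only [permM_mul_apply, Matrix.transpose_apply] at h2
        simp only [Matrix.transpose_apply]
        rw [h2, permM, Matrix.of_apply]
        by_cases hss : s = s'
        · rw [if_pos hss, if_pos (by rw [hss])]
        · rw [if_neg hss, if_neg (fun h => hss (hσ.injective h))]
      · exact (pres_toFr_iff Q σ w t hwt _ hN' P.1).2 P.2
    · rintro ⟨P, hP⟩ ⟨P', hP'⟩ h
      apply Subtype.ext
      have h1 : (fun s => Fintype.linearCombination F w (Pᵀ s)) =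
          (fun s => Fintype.linearCombination F w (P'ᵀ s)) := congrArg Subtype.val h
      ext u s
      have h2 := congrArg (frB Q t) (congrFun h1 s)
      rw [frB_dual' Q w t hwt, frB_dual' Q w t hwt] at h2
      exact congrFun h2 u
    · rintro ⟨w', hw1, ⟨t', hw2⟩, hw3⟩
      have hcl : (fun s => Fintype.linearCombination F w
          ((Matrix.of fun u s => frB Q t (w' s) u : Matrix I I F)ᵀ s)) = w' := by
        funext s
        have h5 : ((Matrix.of fun u s => frB Q t (w' s) u : Matrix I I F)ᵀ s) =
            frB Q t (w' s) := rfl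
        rw [h5, ← himg w' t' hw2 hw3 s, hN', pOp, frB_dual' Q w t hwt]
      refine ⟨⟨Matrix.of fun u s => frB Q t (w' s) u, ?_⟩, ?_⟩
      · apply (pres_toFr_iff Q σ w t hwt _ hN' _).1
        rw [hcl]
        exact hw3
      · apply Subtype.ext
        exact hcl
  rw [Nat.card_congr e2, h1, Nat.card_congr e3, Nat.card_congr e4]

end

end Cfsg.Agent.H42
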