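import Mathlib
import Cfsg.Agent.H42.OCFrame
import Cfsg.Agent.H42.Char2Onb
import Cfsg.Agent.H50.InvCentForms
import Cfsg.Agent.H50.SpCard

set_option autoImplicit false

/-! Isometry groups of the shape matrices of involution presentations (helper42). -/

namespace Cfsg.Agent.H42

open Matrix

section

variable {F : Type*} [Field F]

theorem permM_id {I : Type} [DecidableEq I] : permM F (id : I → I) = 1 := by
  ext i j
  simp [permM, Matrix.one_apply]

theorem permM_swap [CharP F 2] (k : ℕ) :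
    permM F (Sum.swap : Fin k ⊕ Fin k → Fin k ⊕ Fin k) = J (Fin k) F := by
  ext (i | i) (j | j)
  · simp [permM, J]
  · simp only [permM, J, Matrix.of_apply, Sum.swap_inl, Sum.inr.injEq, fromBlocks_apply₁₂,
      Matrix.neg_apply, Matrix.one_apply]
    rw [CharTwo.neg_eq]
  · simp [permM, J, Matrix.one_apply]
  · simp [permM, J]

theorem card_isom_swap [Fintype F] [CharP F 2] {q : ℕ} (hF : Fintype.card F = q) (k : ℕ) :
    Nat.card {P : Matrix (Fin k ⊕ Fin k) (Fin k ⊕ Fin k) F //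
      P * permM F Sum.swap * Pᵀ = permM F Sum.swap} =
      q ^ (k ^ 2) * ∏ i ∈ Finset.range k, (q ^ (2 * (i + 1)) - 1) := by
  rw [permM_swap, Cfsg.Agent.H50.InvCent.card_isom_J, Cfsg.Agent.H50.SpCard.card_sp hF k]

/-- A non-alternating symmetric invertible matrix over a perfect field of characteristic two
is congruent to the identity; hence the isometry groups have the same order. -/
theorem card_isom_congr_one [CharP F 2] (hsq : ∀ a : F, ∃ b : F, b * b = a) (r : ℕ)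
    (M M' : Matrix (Fin r) (Fin r) F) (hM : Mᵀ = M) (hMM' : M * M' = 1)
    (hna : ∃ i, M i i ≠ 0) :
    Nat.card {P : Matrix (Fin r) (Fin r) F // P * 1 * Pᵀ = 1} =
      Nat.card {P : Matrix (Fin r) (Fin r) F // P * M * Pᵀ = M} := by
  have hβ : ∀ x y : Fin r → F, Matrix.toLinearMap₂' F M x y = x ⬝ᵥ M *ᵥ y :=
    Matrix.toLinearMap₂'_apply' M
  obtain ⟨u, hu1, -⟩ := char2_onb_aux hsq r (Fin r → F) (Matrix.toLinearMap₂' F M)
    (by
      intro x y
      rw [hβ, hβ, Matrix.dotProduct_mulVec, ← Matrix.mulVec_transpose, hM, dotProduct_comm])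
    (by
      intro x hx
      funext j
      have h1 := hx (M' *ᵥ Pi.single j 1)
      rw [hβ, Matrix.mulVec_mulVec, hMM', Matrix.one_mulVec] at h1
      simpa using h1)
    (by simp)
    (by
      obtain ⟨i, hi⟩ := hna
      refine ⟨Pi.single i 1, ?_⟩
      rw [hβ]
      simpa using hi)
  set U : Matrix (Fin r) (Fin r) F := Matrix.of u with hU
  have hc : U * M * Uᵀ = 1 := by
    ext i j
    rw [Matrix.one_apply, ← hu1 i j, hβ]
    simp only [Matrix.mul_apply, Matrix.transpose_apply, dotProduct, Matrix.mulVec, hU,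
      Matrix.of_apply, Finset.sum_mul, Finset.mul_sum]
    rw [Finset.sum_comm]
    apply Finset.sum_congr rfl
    intro a _
    apply Finset.sum_congr rfl
    intro b _
    ring
  have ha : U * (M * Uᵀ) = 1 := by rw [← Matrix.mul_assoc]; exact hc
  have hb : (M * Uᵀ) * U = 1 := mul_eq_one_comm.mp ha
  have hUUM : Uᵀ * U * M = 1 := by
    have h1 : M * (Uᵀ * U) = 1 := by rw [← Matrix.mul_assoc]; exact hb
    exact mul_eq_one_comm.mp h1
  have hd : (M * Uᵀ) * (M * Uᵀ)ᵀ = M := by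
    rw [Matrix.transpose_mul, Matrix.transpose_transpose, hM]
    calc M * Uᵀ * (U * M) = M * (Uᵀ * U * M) := by simp only [Matrix.mul_assoc]
      _ = M := by rw [hUUM, Matrix.mul_one]
  let e : Matrix (Fin r) (Fin r) F ≃ Matrix (Fin r) (Fin r) F :=
    { toFun := fun P => (M * Uᵀ) * P * U
      invFun := fun P => U * P * (M * Uᵀ)
      left_inv := fun P => by
        show U * ((M * Uᵀ) * P * U) * (M * Uᵀ) = P
        calc U * ((M * Uᵀ) * P * U) * (M * Uᵀ) = (U * (M * Uᵀ)) * P * (U * (M * Uᵀ)) := by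
              simp only [Matrix.mul_assoc]
          _ = P := by rw [ha, Matrix.one_mul, Matrix.mul_one]
      right_inv := fun P => by
        show (M * Uᵀ) * (U * P * (M * Uᵀ)) * U = P
        calc (M * Uᵀ) * (U * P * (M * Uᵀ)) * U = ((M * Uᵀ) * U) * P * ((M * Uᵀ) * U) := by
              simp only [Matrix.mul_assoc]
          _ = P := by rw [hb, Matrix.one_mul, Matrix.mul_one] }
  refine Nat.card_congr (e.subtypeEquiv (fun P => ?_))
  show P * 1 * Pᵀ = 1 ↔ ((M * Uᵀ) * P * U) * M * ((M * Uᵀ) * P * U)ᵀ = M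
  have key : ((M * Uᵀ) * P * U) * M * ((M * Uᵀ) * P * U)ᵀ =
      (M * Uᵀ) * (P * Pᵀ) * (M * Uᵀ)ᵀ := by
    calc ((M * Uᵀ) * P * U) * M * ((M * Uᵀ) * P * U)ᵀ
        = (M * Uᵀ) * P * (U * M * Uᵀ) * Pᵀ * (M * Uᵀ)ᵀ := by
          rw [Matrix.transpose_mul ((M * Uᵀ) * P) U, Matrix.transpose_mul (M * Uᵀ) P]
          simp only [Matrix.mul_assoc]
      _ = (M * Uᵀ) * (P * Pᵀ) * (M * Uᵀ)ᵀ := by
          rw [hc, Matrix.mul_one]
          simp only [Matrix.mul_assoc]
  rw [Matrix.mul_one, key]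
  constructor
  · intro h
    rw [h, Matrix.mul_one, hd]
  · intro h
    calc P * Pᵀ = (U * (M * Uᵀ)) * (P * Pᵀ) * (U * (M * Uᵀ))ᵀ := by
          rw [ha, Matrix.one_mul, Matrix.transpose_one, Matrix.mul_one]
      _ = U * ((M * Uᵀ) * (P * Pᵀ) * (M * Uᵀ)ᵀ) * Uᵀ := by
          rw [Matrix.transpose_mul U (M * Uᵀ)]
          simp only [Matrix.mul_assoc]
      _ = U * ((M * Uᵀ) * (M * Uᵀ)ᵀ) * Uᵀ := by rw [h, hd]
      _ = (U * (M * Uᵀ)) * (U * (M * Uᵀ))ᵀ := by
          rw [Matrix.transpose_mul U (M * Uᵀ)]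
          simp only [Matrix.mul_assoc]
      _ = 1 := by rw [ha, Matrix.one_mul, Matrix.transpose_one]

theorem card_isom_one_of [CharP F 2] (hsq : ∀ a : F, ∃ b : F, b * b = a) {n : Type}
    [Fintype n] [DecidableEq n] (r : ℕ) (hr : Fintype.card n = r) (M M' : Matrix n n F)
    (hM : Mᵀ = M) (hMM' : M * M' = 1) (i₀ : n) (hi : M i₀ i₀ ≠ 0) :
    Nat.card {P : Matrix (Fin r) (Fin r) F // P * 1 * Pᵀ = 1} =
      Nat.card {P : Matrix n n F // P * M * Pᵀ = M} := by
  obtain ⟨B', C', hB', hBC', hcard, -, hdiag⟩ :=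
    Cfsg.Agent.H50.InvCent.transfer (Fintype.equivFinOfCardEq hr) M M' hM hMM'
  rw [← hcard]
  exact card_isom_congr_one hsq r B' C' hB' hBC' ⟨_, by rw [hdiag]; exact hi⟩

theorem sq_surj_of_finite [Finite F] [CharP F 2] : ∀ a : F, ∃ b : F, b * b = a := by
  intro x
  obtain ⟨r, hr⟩ := FiniteField.isSquare_of_char_two (ringChar.eq F 2) x
  exact ⟨r, hr.symm⟩

theorem card_isom_one_odd [Fintype F] [CharP F 2] {q : ℕ} (hF : Fintype.card F = q) (k : ℕ) :
    Nat.card {P : Matrix (Fin (2 * k + 1)) (Fin (2 * k + 1)) F // P * 1 * Pᵀ = 1} =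
      q ^ (k ^ 2) * ∏ i ∈ Finset.range k, (q ^ (2 * (i + 1)) - 1) := by
  rw [card_isom_one_of sq_surj_of_finite (2 * k + 1)
    (by simp only [Fintype.card_sum, Fintype.card_fin, Fintype.card_unit]; omega)
    (Cfsg.Agent.H50.InvCent.Bodd F k) (Cfsg.Agent.H50.InvCent.Bodd F k)
    (Cfsg.Agent.H50.InvCent.Bodd_transpose k) (Cfsg.Agent.H50.InvCent.Bodd_mul_self k)
    (Sum.inl ()) (by rw [Cfsg.Agent.H50.InvCent.Bodd_diag]; exact one_ne_zero),
    Cfsg.Agent.H50.InvCent.card_isom_Bodd, Cfsg.Agent.H50.SpCard.card_sp hF k]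

theorem card_isom_one_even [Fintype F] [CharP F 2] {q : ℕ} (hF : Fintype.card F = q) (k : ℕ) :
    Nat.card {P : Matrix (Fin (2 * (k + 1))) (Fin (2 * (k + 1))) F // P * 1 * Pᵀ = 1} =
      q ^ (2 * (k + 1) - 1) * (q ^ (k ^ 2) * ∏ i ∈ Finset.range k, (q ^ (2 * (i + 1)) - 1)) := by
  have hc : (Pi.single (Sum.inl 0) 1 : Fin (k + 1) ⊕ Fin (k + 1) → F) ≠ 0 := by
    intro h
    have := congrFun h (Sum.inl 0)
    simp at this
  rw [card_isom_one_of sq_surj_of_finite (2 * (k + 1))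
    (by simp only [Fintype.card_sum, Fintype.card_fin]; omega)
    (Cfsg.Agent.H50.InvCent.Bc (Pi.single (Sum.inl 0) 1))
    (Cfsg.Agent.H50.InvCent.Bc (J (Fin (k + 1)) F *ᵥ Pi.single (Sum.inl 0) 1))
    (Cfsg.Agent.H50.InvCent.Bc_transpose _) (Cfsg.Agent.H50.InvCent.Bc_mul_inv _)
    (Sum.inl 0) (by rw [Cfsg.Agent.H50.InvCent.Bc_diag]; simp),
    Cfsg.Agent.H50.InvCent.card_isom_Bc hF k _ hc]

end

end Cfsg.Agent.H42
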