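import Mathlib
import Cfsg.Prelude.Def_Classical
import Cfsg.Prelude.Def_ClassicalGeometry
import Cfsg.Agent.H7.OrthStd
import Cfsg.Agent.H7.Quad
import Cfsg.Agent.H49.Plus
import Cfsg.Agent.H42.OCFrame

set_option autoImplicit false

/-! Pointwise stabilisers of frames in orthogonal groups of plus type: peeling off hyperbolic
pairs (helper42). -/

namespace Cfsg.Agent.H42

open Module Matrix

section Basic

variable {F : Type*} [Field F] {κ : Type} [Fintype κ] [DecidableEq κ]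

/-- The number of isometries fixing every vector of a family. -/
noncomputable def stabCard (Qf : (κ → F) → F) {A : Type} (x : A → κ → F) : ℕ :=
  Nat.card {g : ↥(Cfsg.isometryGroup F Qf) // ∀ a, oMat g *ᵥ x a = x a}

theorem stabCard_congr (Qf : (κ → F) → F) {A B : Type} (x : A → κ → F) (y : B → κ → F)
    (h : ∀ g : ↥(Cfsg.isometryGroup F Qf),
      (∀ a, oMat g *ᵥ x a = x a) ↔ (∀ b, oMat g *ᵥ y b = y b)) :
    stabCard Qf x = stabCard Qf y :=
  Nat.card_congr (Equiv.subtypeEquivRight h)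

theorem stabCard_conj (Qf : (κ → F) → F) {A : Type} (h : ↥(Cfsg.isometryGroup F Qf))
    (x : A → κ → F) : stabCard Qf (fun a => oMat h *ᵥ x a) = stabCard Qf x := by
  refine Nat.card_congr ((MulAut.conj h⁻¹).toEquiv.subtypeEquiv ?_)
  intro g
  show (∀ a, oMat g *ᵥ (oMat h *ᵥ x a) = oMat h *ᵥ x a) ↔
    ∀ a, oMat (h⁻¹ * g * h⁻¹⁻¹) *ᵥ x a = x a
  rw [inv_inv]
  apply forall_congr'
  intro a
  rw [oMat_mul, oMat_mul, ← Matrix.mulVec_mulVec, ← Matrix.mulVec_mulVec]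
  constructor
  · intro h1
    rw [h1, Matrix.mulVec_mulVec, oMat_inv_mul, Matrix.one_mulVec]
  · intro h1
    have h2 : oMat h *ᵥ (oMat h⁻¹ *ᵥ (oMat g *ᵥ (oMat h *ᵥ x a))) = oMat h *ᵥ x a :=
      congrArg (fun v => oMat h *ᵥ v) h1
    rw [Matrix.mulVec_mulVec, oMat_mul_inv, Matrix.one_mulVec] at h2
    exact h2

theorem stabCard_option (Qf : (κ → F) → F) {A : Type} (w₀ : κ → F) (x : A → κ → F) :
    stabCard Qf (fun o : Option A => o.elim w₀ x) =
      Nat.card {g : ↥(Cfsg.isometryGroup F Qf) //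
        oMat g *ᵥ w₀ = w₀ ∧ ∀ a, oMat g *ᵥ x a = x a} :=
  Nat.card_congr (Equiv.subtypeEquivRight (fun _ => Option.forall))

/-- Reindexing the coordinates: an equivalence of isometry groups. -/
theorem exists_reindex_equiv {ι ι' : Type} [Fintype ι] [DecidableEq ι] [Fintype ι']
    [DecidableEq ι'] (e : ι ≃ ι') (Q : (ι → F) → F) (Q' : (ι' → F) → F)
    (h : ∀ v : ι' → F, Q' v = Q (v ∘ e)) :
    ∃ Ψ : ↥(Cfsg.isometryGroup F Q) ≃ ↥(Cfsg.isometryGroup F Q'),
      ∀ g (v : ι' → F), oMat (Ψ g) *ᵥ v = (oMat g *ᵥ (v ∘ e)) ∘ e.symm := by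
  let φ : GL ι F ≃* GL ι' F := Units.mapEquiv (Matrix.reindexAlgEquiv F F e).toMulEquiv
  have hφ : ∀ g : GL ι F, (φ g).1 = g.1.submatrix e.symm e.symm := fun g => rfl
  have hmem : ∀ g : GL ι F, g ∈ Cfsg.isometryGroup F Q ↔ φ g ∈ Cfsg.isometryGroup F Q' := by
    intro g
    rw [Cfsg.Agent.H49.mem_isometryGroup_iff, Cfsg.Agent.H49.mem_isometryGroup_iff]
    constructor
    · intro hg v
      show Q' ((φ g).1 *ᵥ v) = Q' v
      rw [hφ, Matrix.submatrix_mulVec_equiv, h, h]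
      simp only [Equiv.symm_symm]
      have e1 : ((g.1 *ᵥ (v ∘ e)) ∘ e.symm) ∘ e = g.1 *ᵥ (v ∘ e) := by
        funext i; simp
      rw [e1]
      exact hg (v ∘ e)
    · intro hg u
      have h1 := hg (u ∘ e.symm)
      change Q' ((φ g).1 *ᵥ (u ∘ e.symm)) = Q' (u ∘ e.symm) at h1
      rw [hφ, Matrix.submatrix_mulVec_equiv, h, h] at h1
      simp only [Equiv.symm_symm] at h1
      have e1 : (u ∘ e.symm) ∘ e = u := by funext i; simp
      have e2 : ((g.1 *ᵥ ((u ∘ e.symm) ∘ e)) ∘ e.symm) ∘ e = g.1 *ᵥ u := by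
        rw [e1]; funext i; simp
      rw [e2, e1] at h1
      exact h1
  refine ⟨φ.toEquiv.subtypeEquiv hmem, ?_⟩
  intro g v
  show (φ g.1).1 *ᵥ v = _
  rw [hφ, Matrix.submatrix_mulVec_equiv]
  simp only [Equiv.symm_symm]

theorem stabCard_reindex {ι ι' : Type} [Fintype ι] [DecidableEq ι] [Fintype ι']
    [DecidableEq ι'] (e : ι ≃ ι') (Q : (ι → F) → F) (Q' : (ι' → F) → F)
    (h : ∀ v : ι' → F, Q' v = Q (v ∘ e)) {A : Type} (x : A → ι' → F) :
    stabCard Q' x = stabCard Q (fun a => x a ∘ e) := by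
  obtain ⟨Ψ, hΨ⟩ := exists_reindex_equiv e Q Q' h
  symm
  refine Nat.card_congr (Ψ.subtypeEquiv ?_)
  intro g
  apply forall_congr'
  intro a
  rw [hΨ]
  show oMat g *ᵥ (x a ∘ e) = x a ∘ e ↔ (oMat g *ᵥ (x a ∘ e)) ∘ e.symm = x a
  constructor
  · intro h1
    rw [h1]
    funext i
    simp
  · intro h1
    have h2 : ((oMat g *ᵥ (x a ∘ e)) ∘ e.symm) ∘ e = x a ∘ e :=
      congrArg (fun v : ι' → F => v ∘ e) h1
    have h3 : ((oMat g *ᵥ (x a ∘ e)) ∘ e.symm) ∘ e = oMat g *ᵥ (x a ∘ e) := by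
      funext i
      simp
    rw [h3] at h2
    exact h2

end Basic

section Hyp

variable {F : Type*} [Field F] {κ : Type} [Fintype κ] [DecidableEq κ]
  (R : QuadraticForm F (κ → F))

/-- The stabiliser of the standard hyperbolic pair consists of the block matrices
(after `H7.card_stab_hypExt`, with the bijection made explicit). -/
theorem stab_hyp_bij :
    ∃ Φ : ↥(Cfsg.isometryGroup F (⇑R)) →
        {g : ↥(Cfsg.isometryGroup F (⇑(Cfsg.Agent.H7.hypExt R))) //
          oMat g *ᵥ Cfsg.Agent.H7.hypE κ F = Cfsg.Agent.H7.hypE κ F ∧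
          oMat g *ᵥ Cfsg.Agent.H7.hypF κ F = Cfsg.Agent.H7.hypF κ F},
      Function.Bijective Φ ∧
      ∀ g, oMat (Φ g).1 = Matrix.fromBlocks (oMat g) 0 0 (1 : Matrix (Fin 2) (Fin 2) F) := by
  have hdet : ∀ g : ↥(Cfsg.isometryGroup F (⇑R)),
      (Matrix.fromBlocks ((g : Matrix.GeneralLinearGroup κ F) : Matrix κ κ F) 0 0
        (1 : Matrix (Fin 2) (Fin 2) F)).det ≠ 0 := by
    intro g
    rw [Matrix.det_fromBlocks_zero₂₁, Matrix.det_one, mul_one]
    exact Matrix.GeneralLinearGroup.det_ne_zero g.1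
  let Φ : ↥(Cfsg.isometryGroup F (⇑R)) →
      {g : ↥(Cfsg.isometryGroup F (⇑(Cfsg.Agent.H7.hypExt R))) //
        oMat g *ᵥ Cfsg.Agent.H7.hypE κ F = Cfsg.Agent.H7.hypE κ F ∧
        oMat g *ᵥ Cfsg.Agent.H7.hypF κ F = Cfsg.Agent.H7.hypF κ F} := fun g =>
    ⟨⟨Matrix.GeneralLinearGroup.mkOfDetNeZero _ (hdet g),
      Cfsg.Agent.H49.mem_isometryGroup_iff.mpr (fun u => by
        show Cfsg.Agent.H7.hypExt R ((Matrix.fromBlocks
          ((g : Matrix.GeneralLinearGroup κ F) : Matrix κ κ F) 0 0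
          (1 : Matrix (Fin 2) (Fin 2) F)) *ᵥ u) = Cfsg.Agent.H7.hypExt R u
        rw [Cfsg.Agent.H7.fromBlocks_one_mulVec', Cfsg.Agent.H7.hypExt_apply,
          Cfsg.Agent.H7.hypExt_apply]
        simp only [Sum.elim_comp_inl, Sum.elim_inr, Function.comp_apply]
        rw [Cfsg.Agent.H49.isometry_apply g])⟩, by
      constructor
      · show (Matrix.fromBlocks ((g : Matrix.GeneralLinearGroup κ F) : Matrix κ κ F) 0 0
          (1 : Matrix (Fin 2) (Fin 2) F)) *ᵥ Cfsg.Agent.H7.hypE κ F = Cfsg.Agent.H7.hypE κ F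
        rw [Cfsg.Agent.H7.fromBlocks_one_mulVec']
        have : Cfsg.Agent.H7.hypE κ F ∘ Sum.inl = 0 := rfl
        rw [this, Matrix.mulVec_zero]
        rfl
      · show (Matrix.fromBlocks ((g : Matrix.GeneralLinearGroup κ F) : Matrix κ κ F) 0 0
          (1 : Matrix (Fin 2) (Fin 2) F)) *ᵥ Cfsg.Agent.H7.hypF κ F = Cfsg.Agent.H7.hypF κ F
        rw [Cfsg.Agent.H7.fromBlocks_one_mulVec']
        have : Cfsg.Agent.H7.hypF κ F ∘ Sum.inl = 0 := rfl
        rw [this, Matrix.mulVec_zero]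
        rfl⟩
  refine ⟨Φ, ⟨?_, ?_⟩, fun g => rfl⟩
  · intro g g' h
    have h1 : (Matrix.fromBlocks ((g : Matrix.GeneralLinearGroup κ F) : Matrix κ κ F) 0 0
        (1 : Matrix (Fin 2) (Fin 2) F)) =
        (Matrix.fromBlocks ((g' : Matrix.GeneralLinearGroup κ F) : Matrix κ κ F) 0 0
        (1 : Matrix (Fin 2) (Fin 2) F)) := by
      have := congrArg (fun x : {g : ↥(Cfsg.isometryGroup F (⇑(Cfsg.Agent.H7.hypExt R))) //
        oMat g *ᵥ Cfsg.Agent.H7.hypE κ F = Cfsg.Agent.H7.hypE κ F ∧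
        oMat g *ᵥ Cfsg.Agent.H7.hypF κ F = Cfsg.Agent.H7.hypF κ F} => x.1.1.1) h
      exact this
    have h2 := (Matrix.fromBlocks_inj.mp h1).1
    exact Subtype.ext (Units.ext h2)
  · rintro ⟨N, hNe, hNf⟩
    have hrow1 : ∀ x : κ ⊕ Fin 2 → F,
        (((N : Matrix.GeneralLinearGroup (κ ⊕ Fin 2) F) : Matrix (κ ⊕ Fin 2) (κ ⊕ Fin 2) F) *ᵥ x)
          (Sum.inr 1) = x (Sum.inr 1) := by
      intro x
      have h := Cfsg.Agent.H49.isometry_polar (Cfsg.Agent.H7.hypExt R) N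
        (Cfsg.Agent.H7.hypE κ F) x
      rw [hNe, Cfsg.Agent.H7.polar_hypE, Cfsg.Agent.H7.polar_hypE] at h
      exact h
    have hrow0 : ∀ x : κ ⊕ Fin 2 → F,
        (((N : Matrix.GeneralLinearGroup (κ ⊕ Fin 2) F) : Matrix (κ ⊕ Fin 2) (κ ⊕ Fin 2) F) *ᵥ x)
          (Sum.inr 0) = x (Sum.inr 0) := by
      intro x
      have h := Cfsg.Agent.H49.isometry_polar (Cfsg.Agent.H7.hypExt R) N
        (Cfsg.Agent.H7.hypF κ F) x
      rw [hNf, Cfsg.Agent.H7.polar_hypF, Cfsg.Agent.H7.polar_hypF] at h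
      exact h
    have hrow : ∀ (i : Fin 2) (k : κ ⊕ Fin 2),
        ((N : Matrix.GeneralLinearGroup (κ ⊕ Fin 2) F) : Matrix (κ ⊕ Fin 2) (κ ⊕ Fin 2) F)
          (Sum.inr i) k = (Pi.single k (1 : F) : κ ⊕ Fin 2 → F) (Sum.inr i) := by
      intro i k
      fin_cases i
      · have := hrow0 (Pi.single k 1)
        rw [Matrix.mulVec_single_one] at this
        exact this
      · have := hrow1 (Pi.single k 1)
        rw [Matrix.mulVec_single_one] at this
        exact this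
    have hcol : ∀ (k : κ) (j : Fin 2),
        ((N : Matrix.GeneralLinearGroup (κ ⊕ Fin 2) F) : Matrix (κ ⊕ Fin 2) (κ ⊕ Fin 2) F)
          (Sum.inl k) (Sum.inr j) = 0 := by
      intro k j
      fin_cases j
      · have := congrFun hNe (Sum.inl k)
        rw [Cfsg.Agent.H7.hypE_eq_single, Matrix.mulVec_single_one] at this
        simpa using this
      · have := congrFun hNf (Sum.inl k)
        rw [Cfsg.Agent.H7.hypF_eq_single, Matrix.mulVec_single_one] at this
        simpa using this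
    have hM : ((N : Matrix.GeneralLinearGroup (κ ⊕ Fin 2) F) :
        Matrix (κ ⊕ Fin 2) (κ ⊕ Fin 2) F) =
        Matrix.fromBlocks ((N : Matrix.GeneralLinearGroup (κ ⊕ Fin 2) F) :
          Matrix (κ ⊕ Fin 2) (κ ⊕ Fin 2) F).toBlocks₁₁ 0 0 (1 : Matrix (Fin 2) (Fin 2) F) := by
      conv_lhs => rw [← Matrix.fromBlocks_toBlocks ((N : Matrix.GeneralLinearGroup (κ ⊕ Fin 2) F) :
        Matrix (κ ⊕ Fin 2) (κ ⊕ Fin 2) F)]
      congr 1
      · ext i j
        simpa [Matrix.toBlocks₁₂] using hcol i j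
      · ext i j
        simpa [Matrix.toBlocks₂₁] using hrow i (Sum.inl j)
      · ext i j
        have := hrow i (Sum.inr j)
        simp only [Matrix.toBlocks₂₂, Matrix.of_apply]
        rw [this, Matrix.one_apply, Pi.single_apply]
        simp [eq_comm]
    have hA : ∀ u : κ → F, R (((N : Matrix.GeneralLinearGroup (κ ⊕ Fin 2) F) :
        Matrix (κ ⊕ Fin 2) (κ ⊕ Fin 2) F).toBlocks₁₁ *ᵥ u) = R u := by
      intro u
      have := Cfsg.Agent.H49.isometry_apply N (Sum.elim u 0)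
      rw [hM, Cfsg.Agent.H7.fromBlocks_one_mulVec', Cfsg.Agent.H7.hypExt_apply,
        Cfsg.Agent.H7.hypExt_apply] at this
      simpa using this
    have hdetN : ((N : Matrix.GeneralLinearGroup (κ ⊕ Fin 2) F) :
        Matrix (κ ⊕ Fin 2) (κ ⊕ Fin 2) F).toBlocks₁₁.det ≠ 0 := by
      have h := Matrix.GeneralLinearGroup.det_ne_zero (N : Matrix.GeneralLinearGroup (κ ⊕ Fin 2) F)
      rw [hM, Matrix.det_fromBlocks_zero₂₁, Matrix.det_one, mul_one] at h
      exact h
    refine ⟨⟨Matrix.GeneralLinearGroup.mkOfDetNeZero _ hdetN,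
      Cfsg.Agent.H49.mem_isometryGroup_iff.mpr hA⟩, ?_⟩
    apply Subtype.ext
    apply Subtype.ext
    apply Units.ext
    show Matrix.fromBlocks ((N : Matrix.GeneralLinearGroup (κ ⊕ Fin 2) F) :
      Matrix (κ ⊕ Fin 2) (κ ⊕ Fin 2) F).toBlocks₁₁ 0 0 (1 : Matrix (Fin 2) (Fin 2) F) = _
    exact hM.symm

/-- One hyperbolic step: isometries of `hypExt R` fixing the first hyperbolic vector and the
lifts of a family `u`. -/
theorem hyp_step [Fintype F] {A : Type} (u : A → κ → F) :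
    Nat.card {g : ↥(Cfsg.isometryGroup F (⇑(Cfsg.Agent.H7.hypExt R))) //
        oMat g *ᵥ Cfsg.Agent.H7.hypE κ F = Cfsg.Agent.H7.hypE κ F ∧
        ∀ a, oMat g *ᵥ Sum.elim (u a) 0 = Sum.elim (u a) 0} =
      Nat.card {y : κ → F // ∀ a, QuadraticMap.polar (⇑R) (u a) y = 0} *
        Nat.card {g : ↥(Cfsg.isometryGroup F (⇑R)) // ∀ a, oMat g *ᵥ u a = u a} := by
  classical
  let act : ↥(Cfsg.isometryGroup F (⇑(Cfsg.Agent.H7.hypExt R))) →
      (κ ⊕ Fin 2 → F) × (κ ⊕ Fin 2 → F) × (A → κ ⊕ Fin 2 → F) →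
      (κ ⊕ Fin 2 → F) × (κ ⊕ Fin 2 → F) × (A → κ ⊕ Fin 2 → F) :=
    fun g p => (oMat g *ᵥ p.1, oMat g *ᵥ p.2.1, fun a => oMat g *ᵥ p.2.2 a)
  let s : (κ ⊕ Fin 2 → F) × (κ ⊕ Fin 2 → F) × (A → κ ⊕ Fin 2 → F) :=
    (Cfsg.Agent.H7.hypE κ F, Cfsg.Agent.H7.hypF κ F, fun a => Sum.elim (u a) 0)
  let Y : Set ((κ ⊕ Fin 2 → F) × (κ ⊕ Fin 2 → F) × (A → κ ⊕ Fin 2 → F)) :=
    {p | p.1 = Cfsg.Agent.H7.hypE κ F ∧
      (Cfsg.Agent.H7.hypExt R p.2.1 = 0 ∧
        QuadraticMap.polar (⇑(Cfsg.Agent.H7.hypExt R)) (Cfsg.Agent.H7.hypE κ F) p.2.1 = 1 ∧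
        ∀ a, QuadraticMap.polar (⇑(Cfsg.Agent.H7.hypExt R)) (Sum.elim (u a) 0) p.2.1 = 0) ∧
      p.2.2 = fun a => Sum.elim (u a) 0}
  have hupE : ∀ a, QuadraticMap.polar (⇑(Cfsg.Agent.H7.hypExt R)) (Cfsg.Agent.H7.hypE κ F)
      (Sum.elim (u a) 0) = 0 := by
    intro a
    rw [Cfsg.Agent.H7.polar_hypE]
    rfl
  have hupF : ∀ a, QuadraticMap.polar (⇑(Cfsg.Agent.H7.hypExt R)) (Cfsg.Agent.H7.hypF κ F)
      (Sum.elim (u a) 0) = 0 := by
    intro a
    rw [Cfsg.Agent.H7.polar_hypF]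
    rfl
  have hY : ∀ y ∈ Y, ∃ g, act g s = y := by
    rintro ⟨e, f, v⟩ ⟨he, ⟨hf0, hf1, hfu⟩, hv⟩
    simp only at he hf0 hf1 hfu hv
    subst he
    subst hv
    have hen : QuadraticMap.polar (⇑(Cfsg.Agent.H7.hypExt R)) (Cfsg.Agent.H7.hypE κ F)
        (f - Cfsg.Agent.H7.hypF κ F) = 0 := by
      rw [QuadraticMap.polar_sub_right, hf1, Cfsg.Agent.H7.polar_hypE_hypF, sub_self]
    refine ⟨Cfsg.Agent.H7.eichlerG (Cfsg.Agent.H7.hypExt R) (Cfsg.Agent.H7.hypE κ F)
      (f - Cfsg.Agent.H7.hypF κ F) (Cfsg.Agent.H7.hypExt_hypE R) hen, ?_⟩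
    refine Prod.ext ?_ (Prod.ext ?_ ?_)
    · show oMat _ *ᵥ Cfsg.Agent.H7.hypE κ F = Cfsg.Agent.H7.hypE κ F
      rw [Cfsg.Agent.H7.eichlerG_mulVec,
        Cfsg.Agent.H7.qf_polar_self_of_zero _ _ (Cfsg.Agent.H7.hypExt_hypE R),
        QuadraticMap.polar_comm (⇑(Cfsg.Agent.H7.hypExt R)) (f - Cfsg.Agent.H7.hypF κ F)
          (Cfsg.Agent.H7.hypE κ F), hen]
      simp
    · show oMat _ *ᵥ Cfsg.Agent.H7.hypF κ F = f
      rw [Cfsg.Agent.H7.eichlerG_mulVec, Cfsg.Agent.H7.polar_hypE_hypF, Cfsg.Agent.H7.qf_sub,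
        hf0, Cfsg.Agent.H7.hypExt_hypF, QuadraticMap.polar_sub_left,
        Cfsg.Agent.H7.qf_polar_self_of_zero _ _ (Cfsg.Agent.H7.hypExt_hypF R)]
      have : QuadraticMap.polar (⇑(Cfsg.Agent.H7.hypExt R)) f (Cfsg.Agent.H7.hypF κ F) - 0 +
          (0 + 0 - QuadraticMap.polar (⇑(Cfsg.Agent.H7.hypExt R)) f (Cfsg.Agent.H7.hypF κ F)) * 1
          = 0 := by
        ring
      rw [this, zero_smul, one_smul]
      abel
    · funext a
      show oMat _ *ᵥ Sum.elim (u a) 0 = Sum.elim (u a) 0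
      rw [Cfsg.Agent.H7.eichlerG_mulVec, hupE a, QuadraticMap.polar_sub_left,
        QuadraticMap.polar_comm (⇑(Cfsg.Agent.H7.hypExt R)) f, hfu a, hupF a]
      simp
  have h1 := card_fiber_orbit act (fun x => by
      show (oMat (1 : ↥(Cfsg.isometryGroup F (⇑(Cfsg.Agent.H7.hypExt R)))) *ᵥ x.1,
        oMat (1 : ↥(Cfsg.isometryGroup F (⇑(Cfsg.Agent.H7.hypExt R)))) *ᵥ x.2.1,
        fun a => oMat (1 : ↥(Cfsg.isometryGroup F (⇑(Cfsg.Agent.H7.hypExt R)))) *ᵥ x.2.2 a) = x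
      simp only [oMat_one, Matrix.one_mulVec]) (fun g h x => by
      show (oMat (g * h) *ᵥ x.1, oMat (g * h) *ᵥ x.2.1, fun a => oMat (g * h) *ᵥ x.2.2 a) =
        (oMat g *ᵥ (oMat h *ᵥ x.1), oMat g *ᵥ (oMat h *ᵥ x.2.1),
          fun a => oMat g *ᵥ (oMat h *ᵥ x.2.2 a))
      simp only [oMat_mul, Matrix.mulVec_mulVec]) s Y hY
  have e1 : {g : ↥(Cfsg.isometryGroup F (⇑(Cfsg.Agent.H7.hypExt R))) //
      oMat g *ᵥ Cfsg.Agent.H7.hypE κ F = Cfsg.Agent.H7.hypE κ F ∧
      ∀ a, oMat g *ᵥ Sum.elim (u a) 0 = Sum.elim (u a) 0} ≃ {g // act g s ∈ Y} := by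
    refine Equiv.subtypeEquivRight (fun g => ?_)
    constructor
    · rintro ⟨h1, h2⟩
      refine ⟨h1, ⟨?_, ?_, ?_⟩, funext h2⟩
      · show Cfsg.Agent.H7.hypExt R (oMat g *ᵥ Cfsg.Agent.H7.hypF κ F) = 0
        rw [Cfsg.Agent.H49.isometry_apply g, Cfsg.Agent.H7.hypExt_hypF]
      · show QuadraticMap.polar (⇑(Cfsg.Agent.H7.hypExt R)) (Cfsg.Agent.H7.hypE κ F)
          (oMat g *ᵥ Cfsg.Agent.H7.hypF κ F) = 1
        have h3 := Cfsg.Agent.H49.isometry_polar (Cfsg.Agent.H7.hypExt R) g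
          (Cfsg.Agent.H7.hypE κ F) (Cfsg.Agent.H7.hypF κ F)
        rw [show ((g : Matrix.GeneralLinearGroup (κ ⊕ Fin 2) F) :
          Matrix (κ ⊕ Fin 2) (κ ⊕ Fin 2) F) *ᵥ Cfsg.Agent.H7.hypE κ F =
          Cfsg.Agent.H7.hypE κ F from h1, Cfsg.Agent.H7.polar_hypE_hypF] at h3
        exact h3
      · intro a
        show QuadraticMap.polar (⇑(Cfsg.Agent.H7.hypExt R)) (Sum.elim (u a) 0)
          (oMat g *ᵥ Cfsg.Agent.H7.hypF κ F) = 0
        have h3 := Cfsg.Agent.H49.isometry_polar (Cfsg.Agent.H7.hypExt R) g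
          (Sum.elim (u a) 0) (Cfsg.Agent.H7.hypF κ F)
        rw [show ((g : Matrix.GeneralLinearGroup (κ ⊕ Fin 2) F) :
          Matrix (κ ⊕ Fin 2) (κ ⊕ Fin 2) F) *ᵥ Sum.elim (u a) 0 =
          Sum.elim (u a) 0 from h2 a, QuadraticMap.polar_comm _ _ (Cfsg.Agent.H7.hypF κ F),
          hupF a] at h3
        exact h3
    · rintro ⟨h1, -, h3⟩
      exact ⟨h1, congrFun h3⟩
  have e2 : Y ≃ {y : κ → F // ∀ a, QuadraticMap.polar (⇑R) (u a) y = 0} :=
    { toFun := fun p => ⟨p.1.2.1 ∘ Sum.inl, fun a => by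
        have h := p.2.2.1.2.2 a
        rw [Cfsg.Agent.H7.polar_hypExt] at h
        simpa using h⟩
      invFun := fun y => ⟨(Cfsg.Agent.H7.hypE κ F, Sum.elim y.1 ![-R y.1, 1],
          fun a => Sum.elim (u a) 0), by
        refine ⟨rfl, ⟨?_, ?_, ?_⟩, rfl⟩
        · show Cfsg.Agent.H7.hypExt R (Sum.elim y.1 ![-R y.1, 1]) = 0
          rw [Cfsg.Agent.H7.hypExt_apply]
          simp
        · show QuadraticMap.polar (⇑(Cfsg.Agent.H7.hypExt R)) (Cfsg.Agent.H7.hypE κ F)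
            (Sum.elim y.1 ![-R y.1, 1]) = 1
          rw [Cfsg.Agent.H7.polar_hypE]
          simp
        · intro a
          show QuadraticMap.polar (⇑(Cfsg.Agent.H7.hypExt R)) (Sum.elim (u a) 0)
            (Sum.elim y.1 ![-R y.1, 1]) = 0
          rw [Cfsg.Agent.H7.polar_hypExt]
          simpa using y.2 a⟩
      left_inv := by
        rintro ⟨⟨e, f, v⟩, he, ⟨hf0, hf1, hfu⟩, hv⟩
        simp only at he hf0 hf1 hfu hv
        subst he
        subst hv
        apply Subtype.ext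
        refine Prod.ext rfl (Prod.ext ?_ rfl)
        rw [Cfsg.Agent.H7.polar_hypE] at hf1
        rw [Cfsg.Agent.H7.hypExt_apply, hf1, mul_one] at hf0
        funext k
        rcases k with k | k
        · rfl
        · fin_cases k
          · show -R (f ∘ Sum.inl) = f (Sum.inr 0)
            linear_combination -hf0
          · show (1 : F) = f (Sum.inr 1)
            exact hf1.symm
      right_inv := fun y => rfl }
  obtain ⟨Φ, hΦ, hΦm⟩ := stab_hyp_bij R
  have e3a : {h // act h s = s} ≃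
      {h : ↥(Cfsg.isometryGroup F (⇑(Cfsg.Agent.H7.hypExt R))) //
        (oMat h *ᵥ Cfsg.Agent.H7.hypE κ F = Cfsg.Agent.H7.hypE κ F ∧
          oMat h *ᵥ Cfsg.Agent.H7.hypF κ F = Cfsg.Agent.H7.hypF κ F) ∧
        ∀ a, oMat h *ᵥ Sum.elim (u a) 0 = Sum.elim (u a) 0} := by
    refine Equiv.subtypeEquivRight (fun h => ?_)
    constructor
    · intro hh
      exact ⟨⟨congrArg Prod.fst hh, congrArg (fun p => p.2.1) hh⟩,
        congrFun (congrArg (fun p => p.2.2) hh)⟩
    · rintro ⟨⟨h1, h2⟩, h3⟩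
      exact Prod.ext h1 (Prod.ext h2 (funext h3))
  have e3b := (Equiv.subtypeSubtypeEquivSubtypeInter
    (fun h : ↥(Cfsg.isometryGroup F (⇑(Cfsg.Agent.H7.hypExt R))) =>
      oMat h *ᵥ Cfsg.Agent.H7.hypE κ F = Cfsg.Agent.H7.hypE κ F ∧
        oMat h *ᵥ Cfsg.Agent.H7.hypF κ F = Cfsg.Agent.H7.hypF κ F)
    (fun h => ∀ a, oMat h *ᵥ Sum.elim (u a) 0 = Sum.elim (u a) 0))
  have e3c : {g : ↥(Cfsg.isometryGroup F (⇑R)) // ∀ a, oMat g *ᵥ u a = u a} ≃
      {h : {h : ↥(Cfsg.isometryGroup F (⇑(Cfsg.Agent.H7.hypExt R))) //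
        oMat h *ᵥ Cfsg.Agent.H7.hypE κ F = Cfsg.Agent.H7.hypE κ F ∧
          oMat h *ᵥ Cfsg.Agent.H7.hypF κ F = Cfsg.Agent.H7.hypF κ F} //
        ∀ a, oMat h.1 *ᵥ Sum.elim (u a) 0 = Sum.elim (u a) 0} := by
    refine (Equiv.ofBijective Φ hΦ).subtypeEquiv (fun g => ?_)
    apply forall_congr'
    intro a
    show _ ↔ oMat (Φ g).1 *ᵥ Sum.elim (u a) 0 = Sum.elim (u a) 0
    rw [hΦm, Cfsg.Agent.H7.fromBlocks_one_mulVec']
    simp only [Sum.elim_comp_inl, Sum.elim_comp_inr]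
    constructor
    · intro h
      rw [h]
    · intro h
      exact congrArg (fun v : κ ⊕ Fin 2 → F => v ∘ Sum.inl) h
  rw [Nat.card_congr e1, h1, Nat.card_congr e2, Nat.card_congr e3a, ← Nat.card_congr e3b,
    ← Nat.card_congr e3c]

/-- Peeling a singular vector off a frame in a hyperbolic extension. -/
theorem hyp_peel [Fintype F]
    (hR : ∀ w : κ → F, w ≠ 0 → R w = 0 → ∃ y, QuadraticMap.polar (⇑R) w y ≠ 0)
    {A : Type} [Fintype A] [DecidableEq A] (w₀ : κ ⊕ Fin 2 → F) (x t : A → κ ⊕ Fin 2 → F)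
    (hw₀ : Cfsg.Agent.H7.hypExt R w₀ = 0) (hne : w₀ ≠ 0)
    (h0x : ∀ a, QuadraticMap.polar (⇑(Cfsg.Agent.H7.hypExt R)) w₀ (x a) = 0)
    (h0t : ∀ a, QuadraticMap.polar (⇑(Cfsg.Agent.H7.hypExt R)) w₀ (t a) = 0)
    (hxt : ∀ a b, QuadraticMap.polar (⇑(Cfsg.Agent.H7.hypExt R)) (x a) (t b) =
      if a = b then 1 else 0) :
    ∃ u t' : A → κ → F, (∀ a, R (u a) = Cfsg.Agent.H7.hypExt R (x a)) ∧
      (∀ a b, QuadraticMap.polar (⇑R) (u a) (u b) =
        QuadraticMap.polar (⇑(Cfsg.Agent.H7.hypExt R)) (x a) (x b)) ∧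
      (∀ a b, QuadraticMap.polar (⇑R) (u a) (t' b) = if a = b then 1 else 0) ∧
      Nat.card {g : ↥(Cfsg.isometryGroup F (⇑(Cfsg.Agent.H7.hypExt R))) //
          oMat g *ᵥ w₀ = w₀ ∧ ∀ a, oMat g *ᵥ x a = x a} * Fintype.card F ^ Fintype.card A =
        Fintype.card F ^ Fintype.card κ * stabCard (⇑R) u := by
  classical
  obtain ⟨g₀, hg₀⟩ := Cfsg.Agent.H7.exists_isometry_singular (Cfsg.Agent.H7.hypExt R)
    (Cfsg.Agent.H7.hypExt_NS R hR) (Cfsg.Agent.H7.hypE κ F) (Cfsg.Agent.H7.hypF κ F) w₀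
    (Cfsg.Agent.H7.hypExt_hypE R) (Cfsg.Agent.H7.hypExt_hypF R)
    (Cfsg.Agent.H7.polar_hypE_hypF R) hw₀ hne
  have hh : oMat g₀⁻¹ *ᵥ w₀ = Cfsg.Agent.H7.hypE κ F := by
    rw [← hg₀]
    exact Cfsg.Agent.H49.coe_inv_mulVec_cancel g₀ _
  have hpol : ∀ v v' : κ ⊕ Fin 2 → F,
      QuadraticMap.polar (⇑(Cfsg.Agent.H7.hypExt R)) (oMat g₀⁻¹ *ᵥ v) (oMat g₀⁻¹ *ᵥ v') =
        QuadraticMap.polar (⇑(Cfsg.Agent.H7.hypExt R)) v v' :=
    fun v v' => Cfsg.Agent.H49.isometry_polar (Cfsg.Agent.H7.hypExt R) g₀⁻¹ v v'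
  have hy1 : ∀ a, (oMat g₀⁻¹ *ᵥ x a) (Sum.inr 1) = 0 := by
    intro a
    have h1 := hpol w₀ (x a)
    rw [hh, Cfsg.Agent.H7.polar_hypE, h0x] at h1
    exact h1
  have hty1 : ∀ a, (oMat g₀⁻¹ *ᵥ t a) (Sum.inr 1) = 0 := by
    intro a
    have h1 := hpol w₀ (t a)
    rw [hh, Cfsg.Agent.H7.polar_hypE, h0t] at h1
    exact h1
  have hdec : ∀ a, oMat g₀⁻¹ *ᵥ x a = Sum.elim ((oMat g₀⁻¹ *ᵥ x a) ∘ Sum.inl) 0 +
      (oMat g₀⁻¹ *ᵥ x a) (Sum.inr 0) • Cfsg.Agent.H7.hypE κ F := by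
    intro a
    funext k
    rcases k with k | k
    · simp [Cfsg.Agent.H7.hypE]
    · fin_cases k
      · simp [Cfsg.Agent.H7.hypE]
      · simp [Cfsg.Agent.H7.hypE, hy1 a]
  refine ⟨fun a => (oMat g₀⁻¹ *ᵥ x a) ∘ Sum.inl, fun a => (oMat g₀⁻¹ *ᵥ t a) ∘ Sum.inl,
    ?_, ?_, ?_, ?_⟩
  · intro a
    have h1 := Cfsg.Agent.H7.hypExt_apply R (oMat g₀⁻¹ *ᵥ x a)
    rw [hy1 a, mul_zero, add_zero, Cfsg.Agent.H49.isometry_apply g₀⁻¹] at h1
    exact h1.symm
  · intro a b
    have h1 := Cfsg.Agent.H7.polar_hypExt R (oMat g₀⁻¹ *ᵥ x a) (oMat g₀⁻¹ *ᵥ x b)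
    rw [hy1 a, hy1 b, mul_zero, zero_mul, add_zero, add_zero, hpol] at h1
    exact h1.symm
  · intro a b
    have h1 := Cfsg.Agent.H7.polar_hypExt R (oMat g₀⁻¹ *ᵥ x a) (oMat g₀⁻¹ *ᵥ t b)
    rw [hy1 a, hty1 b, mul_zero, zero_mul, add_zero, add_zero, hpol, hxt] at h1
    exact h1.symm
  · -- the count
    have c1 : Nat.card {g : ↥(Cfsg.isometryGroup F (⇑(Cfsg.Agent.H7.hypExt R))) //
        oMat g *ᵥ w₀ = w₀ ∧ ∀ a, oMat g *ᵥ x a = x a} =
        Nat.card {g : ↥(Cfsg.isometryGroup F (⇑(Cfsg.Agent.H7.hypExt R))) //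
          oMat g *ᵥ Cfsg.Agent.H7.hypE κ F = Cfsg.Agent.H7.hypE κ F ∧
          ∀ a, oMat g *ᵥ Sum.elim ((oMat g₀⁻¹ *ᵥ x a) ∘ Sum.inl) 0 =
            Sum.elim ((oMat g₀⁻¹ *ᵥ x a) ∘ Sum.inl) 0} := by
      rw [← stabCard_option, ← stabCard_conj _ g₀⁻¹]
      refine Nat.card_congr (Equiv.subtypeEquivRight (fun g => ?_))
      rw [Option.forall]
      show (oMat g *ᵥ (oMat g₀⁻¹ *ᵥ w₀) = oMat g₀⁻¹ *ᵥ w₀ ∧
        ∀ a, oMat g *ᵥ (oMat g₀⁻¹ *ᵥ x a) = oMat g₀⁻¹ *ᵥ x a) ↔ _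
      rw [hh]
      apply and_congr_right
      intro hE
      apply forall_congr'
      intro a
      have h2 : oMat g *ᵥ (oMat g₀⁻¹ *ᵥ x a) =
          oMat g *ᵥ Sum.elim ((oMat g₀⁻¹ *ᵥ x a) ∘ Sum.inl) 0 +
            (oMat g₀⁻¹ *ᵥ x a) (Sum.inr 0) • Cfsg.Agent.H7.hypE κ F := by
        conv_lhs => rw [hdec a]
        rw [Matrix.mulVec_add, Matrix.mulVec_smul, hE]
      rw [h2]
      constructor
      · intro h3
        exact add_right_cancel (h3.trans (hdec a))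
      · intro h3
        rw [h3]
        exact (hdec a).symm
    have c2 : Nat.card {y : κ → F // ∀ a, QuadraticMap.polar (⇑R)
        ((oMat g₀⁻¹ *ᵥ x a) ∘ Sum.inl) y = 0} * Fintype.card F ^ Fintype.card A =
        Fintype.card F ^ Fintype.card κ := by
      have hd : ∀ a b, QuadraticMap.polarBilin R ((oMat g₀⁻¹ *ᵥ x a) ∘ Sum.inl)
          ((oMat g₀⁻¹ *ᵥ t b) ∘ Sum.inl) = if a = b then 1 else 0 := by
        intro a b
        have h1 := Cfsg.Agent.H7.polar_hypExt R (oMat g₀⁻¹ *ᵥ x a) (oMat g₀⁻¹ *ᵥ t b)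
        rw [hy1 a, hty1 b, mul_zero, zero_mul, add_zero, add_zero, hpol, hxt] at h1
        exact h1.symm
      have hsurj : Function.Surjective
          (frB R (fun a => (oMat g₀⁻¹ *ᵥ x a) ∘ Sum.inl)).toAddMonoidHom := by
        intro c
        exact ⟨_, frB_dual R _ _ hd c⟩
      have h5 := Cfsg.Agent.H7.card_fiber_mul _ hsurj 0
      rw [Nat.card_eq_fintype_card (α := A → F), Nat.card_eq_fintype_card (α := κ → F),
        Fintype.card_fun, Fintype.card_fun] at h5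
      rw [← h5]
      congr 1
      refine Nat.card_congr (Equiv.subtypeEquivRight (fun y => ?_))
      constructor
      · intro h
        funext a
        exact h a
      · intro h a
        exact congrFun h a
    rw [c1, hyp_step, mul_assoc, mul_comm (Nat.card _) (Fintype.card F ^ Fintype.card A),
      ← mul_assoc, c2]
    rfl

end Hyp

section Plus

variable {F : Type*} [Field F] [Fintype F]

/-- Peeling a singular vector off a frame in the plus-type space. -/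
theorem plus_peel (m : ℕ) {A : Type} [Fintype A] [DecidableEq A]
    (w₀ : Fin (m + 1) ⊕ Fin (m + 1) → F) (x t : A → Fin (m + 1) ⊕ Fin (m + 1) → F)
    (hw₀ : Cfsg.quadFormPlus (m + 1) F w₀ = 0) (hne : w₀ ≠ 0)
    (h0x : ∀ a, QuadraticMap.polar (Cfsg.quadFormPlus (m + 1) F) w₀ (x a) = 0)
    (h0t : ∀ a, QuadraticMap.polar (Cfsg.quadFormPlus (m + 1) F) w₀ (t a) = 0)
    (hxt : ∀ a b, QuadraticMap.polar (Cfsg.quadFormPlus (m + 1) F) (x a) (t b) =
      if a = b then 1 else 0) :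
    ∃ u t' : A → Fin m ⊕ Fin m → F,
      (∀ a, Cfsg.quadFormPlus m F (u a) = Cfsg.quadFormPlus (m + 1) F (x a)) ∧
      (∀ a b, QuadraticMap.polar (Cfsg.quadFormPlus m F) (u a) (u b) =
        QuadraticMap.polar (Cfsg.quadFormPlus (m + 1) F) (x a) (x b)) ∧
      (∀ a b, QuadraticMap.polar (Cfsg.quadFormPlus m F) (u a) (t' b) = if a = b then 1 else 0) ∧
      stabCard (Cfsg.quadFormPlus (m + 1) F) (fun o : Option A => o.elim w₀ x) *
          Fintype.card F ^ Fintype.card A =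
        Fintype.card F ^ (2 * m) * stabCard (Cfsg.quadFormPlus m F) u := by
  classical
  have hQ : ∀ v : Fin (m + 1) ⊕ Fin (m + 1) → F, Cfsg.quadFormPlus (m + 1) F v =
      Cfsg.Agent.H7.hypExt (Cfsg.Agent.H7.qPlus m F) (v ∘ Cfsg.Agent.H7.hE m) :=
    Cfsg.Agent.H7.quadFormPlus_succ m
  have hpol : ∀ v v' : Fin (m + 1) ⊕ Fin (m + 1) → F,
      QuadraticMap.polar (Cfsg.quadFormPlus (m + 1) F) v v' =
        QuadraticMap.polar (⇑(Cfsg.Agent.H7.hypExt (Cfsg.Agent.H7.qPlus m F)))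
          (v ∘ Cfsg.Agent.H7.hE m) (v' ∘ Cfsg.Agent.H7.hE m) := by
    intro v v'
    unfold QuadraticMap.polar
    rw [hQ, hQ, hQ]
    rfl
  have hne' : w₀ ∘ Cfsg.Agent.H7.hE m ≠ 0 := by
    intro h
    apply hne
    funext i
    have := congrFun h ((Cfsg.Agent.H7.hE m).symm i)
    simpa using this
  obtain ⟨u, t', h1, h2, h3, h4⟩ := hyp_peel (Cfsg.Agent.H7.qPlus m F)
    (by
      have := Cfsg.Agent.H7.NSf_plus (F := F) m
      rw [← Cfsg.Agent.H7.qPlus_coe] at this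
      exact this)
    (w₀ ∘ Cfsg.Agent.H7.hE m) (fun a => x a ∘ Cfsg.Agent.H7.hE m)
    (fun a => t a ∘ Cfsg.Agent.H7.hE m) (by rw [← hQ]; exact hw₀) hne'
    (fun a => by rw [← hpol]; exact h0x a) (fun a => by rw [← hpol]; exact h0t a)
    (fun a b => by rw [← hpol]; exact hxt a b)
  refine ⟨u, t', ?_, ?_, ?_, ?_⟩
  · intro a
    rw [hQ, ← h1]
    exact (congrFun (Cfsg.Agent.H7.qPlus_coe m) (u a)).symm
  · intro a b
    rw [hpol, ← h2, Cfsg.Agent.H7.qPlus_coe]
  · intro a b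
    rw [← h3, Cfsg.Agent.H7.qPlus_coe]
  · rw [stabCard_reindex (Cfsg.Agent.H7.hE m)
      (⇑(Cfsg.Agent.H7.hypExt (Cfsg.Agent.H7.qPlus m F))) (Cfsg.quadFormPlus (m + 1) F) hQ]
    have e1 : stabCard (⇑(Cfsg.Agent.H7.hypExt (Cfsg.Agent.H7.qPlus m F)))
        (fun o : Option A => (o.elim w₀ x) ∘ Cfsg.Agent.H7.hE m) =
        Nat.card {g : ↥(Cfsg.isometryGroup F (⇑(Cfsg.Agent.H7.hypExt (Cfsg.Agent.H7.qPlus m F)))) //
          oMat g *ᵥ (w₀ ∘ Cfsg.Agent.H7.hE m) = w₀ ∘ Cfsg.Agent.H7.hE m ∧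
          ∀ a, oMat g *ᵥ (x a ∘ Cfsg.Agent.H7.hE m) = x a ∘ Cfsg.Agent.H7.hE m} :=
      Nat.card_congr (Equiv.subtypeEquivRight (fun _ => Option.forall))
    rw [e1, h4, Cfsg.Agent.H7.qPlus_coe]
    congr 2
    simp only [Fintype.card_sum, Fintype.card_fin]
    omega

theorem tri_step (s : ℕ) : (s + 1) * (s + 1 - 1) / 2 = s * (s - 1) / 2 + s := by
  cases s with
  | zero => rfl
  | succ n =>
    simp only [Nat.add_sub_cancel]
    have h : (n + 1 + 1) * (n + 1) = (n + 1) * n + 2 * (n + 1) := by ring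
    rw [h, Nat.add_mul_div_left _ _ (by norm_num : 0 < 2)]

/-- Peeling all singular vectors of a frame: the stabiliser of a frame consisting of a totally
singular part `w` (size `s`) and an extra part `z` reduces to the stabiliser of a copy of `z`
in the space of dimension `2 (m - s)`. -/
theorem card_stab_peel {J : Type} [Fintype J] [DecidableEq J] :
    ∀ (s m : ℕ) (w t : Fin s → Fin m ⊕ Fin m → F) (z tz : J → Fin m ⊕ Fin m → F),
      (∀ i, Cfsg.quadFormPlus m F (w i) = 0) →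
      (∀ i i', QuadraticMap.polar (Cfsg.quadFormPlus m F) (w i) (w i') = 0) →
      (∀ i j, QuadraticMap.polar (Cfsg.quadFormPlus m F) (w i) (z j) = 0) →
      (∀ i i', QuadraticMap.polar (Cfsg.quadFormPlus m F) (w i) (t i') =
        if i = i' then 1 else 0) →
      (∀ i j, QuadraticMap.polar (Cfsg.quadFormPlus m F) (w i) (tz j) = 0) →
      (∀ j i, QuadraticMap.polar (Cfsg.quadFormPlus m F) (z j) (t i) = 0) →
      (∀ j j', QuadraticMap.polar (Cfsg.quadFormPlus m F) (z j) (tz j') =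
        if j = j' then 1 else 0) →
      ∃ k, m = s + k ∧ ∃ z' tz' : J → Fin k ⊕ Fin k → F,
        (∀ j, Cfsg.quadFormPlus k F (z' j) = Cfsg.quadFormPlus m F (z j)) ∧
        (∀ j j', QuadraticMap.polar (Cfsg.quadFormPlus k F) (z' j) (z' j') =
          QuadraticMap.polar (Cfsg.quadFormPlus m F) (z j) (z j')) ∧
        (∀ j j', QuadraticMap.polar (Cfsg.quadFormPlus k F) (z' j) (tz' j') =
          if j = j' then 1 else 0) ∧
        stabCard (Cfsg.quadFormPlus m F) (Sum.elim w z) *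
            Fintype.card F ^ (s * Fintype.card J) =
          Fintype.card F ^ (2 * k * s + s * (s - 1) / 2) *
            stabCard (Cfsg.quadFormPlus k F) z' := by
  classical
  intro s
  induction s with
  | zero =>
    intro m w t z tz _ _ _ _ _ _ hz
    refine ⟨m, by omega, z, tz, fun _ => rfl, fun _ _ => rfl, hz, ?_⟩
    have e : stabCard (Cfsg.quadFormPlus m F) (Sum.elim w z) =
        stabCard (Cfsg.quadFormPlus m F) z := by
      apply stabCard_congr
      intro g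
      constructor
      · intro h j
        exact h (Sum.inr j)
      · intro h a
        rcases a with a | j
        · exact a.elim0
        · exact h j
    rw [e]
    simp
  | succ s ih =>
    intro m w t z tz hw hww hwz hwt hwtz hzt hztz
    cases m with
    | zero =>
      exfalso
      have h := hwt 0 0
      rw [if_pos rfl] at h
      unfold QuadraticMap.polar at h
      simp [Cfsg.quadFormPlus] at h
    | succ m' =>
      have hne : w 0 ≠ 0 := by
        intro h0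
        have h := hwt 0 0
        rw [if_pos rfl, h0] at h
        unfold QuadraticMap.polar at h
        simp [Cfsg.quadFormPlus] at h
      obtain ⟨u, t', h1, h2, h3, h4⟩ := plus_peel m' (w 0)
        (Sum.elim (fun i : Fin s => w i.succ) z) (Sum.elim (fun i : Fin s => t i.succ) tz)
        (hw 0) hne
        (by
          rintro (i | j)
          · exact hww 0 i.succ
          · exact hwz 0 j)
        (by
          rintro (i | j)
          · have := hwt 0 i.succ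
            rw [if_neg (Fin.succ_ne_zero i).symm] at this
            exact this
          · exact hwtz 0 j)
        (by
          rintro (i | j) (i' | j')
          · show QuadraticMap.polar (Cfsg.quadFormPlus (m' + 1) F) (w i.succ) (t i'.succ) = _
            rw [hwt]
            simp only [Fin.succ_inj, Sum.inl.injEq]
          · show QuadraticMap.polar (Cfsg.quadFormPlus (m' + 1) F) (w i.succ) (tz j') = _
            rw [hwtz, if_neg (by simp)]
          · show QuadraticMap.polar (Cfsg.quadFormPlus (m' + 1) F) (z j) (t i'.succ) = _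
            rw [hzt, if_neg (by simp)]
          · show QuadraticMap.polar (Cfsg.quadFormPlus (m' + 1) F) (z j) (tz j') = _
            rw [hztz]
            simp only [Sum.inr.injEq])
      obtain ⟨k, hk, z', tz', g1, g2, g3, g4⟩ := ih m' (fun i => u (Sum.inl i))
        (fun i => t' (Sum.inl i)) (fun j => u (Sum.inr j)) (fun j => t' (Sum.inr j))
        (fun i => by rw [h1]; exact hw i.succ)
        (fun i i' => by rw [h2]; exact hww _ _)
        (fun i j => by rw [h2]; exact hwz _ _)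
        (fun i i' => by rw [h3]; simp only [Sum.inl.injEq])
        (fun i j => by rw [h3, if_neg (by simp)])
        (fun j i => by rw [h3, if_neg (by simp)])
        (fun j j' => by rw [h3]; simp only [Sum.inr.injEq])
      refine ⟨k, by omega, z', tz', ?_, ?_, g3, ?_⟩
      · intro j
        rw [g1, h1]
        rfl
      · intro j j'
        rw [g2, h2]
        rfl
      · have e1 : stabCard (Cfsg.quadFormPlus (m' + 1) F) (Sum.elim w z) =
            stabCard (Cfsg.quadFormPlus (m' + 1) F) (fun o : Option (Fin s ⊕ J) =>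
              o.elim (w 0) (Sum.elim (fun i : Fin s => w i.succ) z)) := by
          apply stabCard_congr
          intro g
          constructor
          · intro h o
            rcases o with _ | (i | j)
            · exact h (Sum.inl 0)
            · exact h (Sum.inl i.succ)
            · exact h (Sum.inr j)
          · intro h a
            rcases a with i | j
            · refine Fin.cases ?_ (fun i' => ?_) i
              · exact h none
              · exact h (some (Sum.inl i'))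
            · exact h (some (Sum.inr j))
        have e2 : (Sum.elim (fun i => u (Sum.inl i)) (fun j => u (Sum.inr j)) :
            Fin s ⊕ J → Fin m' ⊕ Fin m' → F) = u := by
          funext a
          rcases a with a | a <;> rfl
        rw [e2] at g4
        rw [Fintype.card_sum, Fintype.card_fin] at h4
        rw [← e1] at h4
        have hq : 0 < Fintype.card F := Fintype.card_pos
        apply Nat.eq_of_mul_eq_mul_right (pow_pos hq s)
        rw [tri_step]
        calc stabCard (Cfsg.quadFormPlus (m' + 1) F) (Sum.elim w z) *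
              Fintype.card F ^ ((s + 1) * Fintype.card J) * Fintype.card F ^ s
            = (stabCard (Cfsg.quadFormPlus (m' + 1) F) (Sum.elim w z) *
                Fintype.card F ^ (s + Fintype.card J)) * Fintype.card F ^ (s * Fintype.card J) := by
              ring
          _ = Fintype.card F ^ (2 * m') * (stabCard (Cfsg.quadFormPlus m' F) u *
                Fintype.card F ^ (s * Fintype.card J)) := by
              rw [h4]
              ring
          _ = Fintype.card F ^ (2 * m') * (Fintype.card F ^ (2 * k * s + s * (s - 1) / 2) *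
                stabCard (Cfsg.quadFormPlus k F) z') := by
              rw [g4]
          _ = Fintype.card F ^ (2 * k * (s + 1) + (s * (s - 1) / 2 + s)) *
                stabCard (Cfsg.quadFormPlus k F) z' * Fintype.card F ^ s := by
              rw [hk]
              ring

omit [Fintype F] in
theorem stabCard_empty {κ : Type} [Fintype κ] [DecidableEq κ] (Qf : (κ → F) → F)
    (z : Empty → κ → F) : stabCard Qf z = Nat.card ↥(Cfsg.isometryGroup F Qf) :=
  Nat.card_congr (Equiv.subtypeUnivEquiv (fun _ a => a.elim))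

/-- Stabiliser of a totally singular frame with a dual family. -/
theorem card_stab_ts (s m : ℕ) (w t : Fin s → Fin m ⊕ Fin m → F)
    (hw : ∀ i, Cfsg.quadFormPlus m F (w i) = 0)
    (hww : ∀ i i', QuadraticMap.polar (Cfsg.quadFormPlus m F) (w i) (w i') = 0)
    (hwt : ∀ i i', QuadraticMap.polar (Cfsg.quadFormPlus m F) (w i) (t i') =
      if i = i' then 1 else 0) :
    ∃ k, m = s + k ∧ stabCard (Cfsg.quadFormPlus m F) w =
      Fintype.card F ^ (2 * k * s + s * (s - 1) / 2) *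
        Nat.card ↥(Cfsg.isometryGroup F (Cfsg.quadFormPlus k F)) := by
  obtain ⟨k, hk, z', tz', -, -, -, h⟩ := card_stab_peel (J := Empty) s m w t
    (fun j => j.elim) (fun j => j.elim) hw hww (fun i j => j.elim) hwt (fun i j => j.elim)
    (fun j => j.elim) (fun j => j.elim)
  refine ⟨k, hk, ?_⟩
  have e : stabCard (Cfsg.quadFormPlus m F)
      (Sum.elim w (fun j : Empty => j.elim) : Fin s ⊕ Empty → Fin m ⊕ Fin m → F) =
      stabCard (Cfsg.quadFormPlus m F) w := by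
    apply stabCard_congr
    intro g
    constructor
    · intro h i
      exact h (Sum.inl i)
    · intro h a
      rcases a with i | j
      · exact h i
      · exact j.elim
  rw [e, stabCard_empty] at h
  simpa using h

/-- Transitivity on vectors with `Q = 1`: orbit-stabiliser. -/
theorem card_stab_one (k : ℕ) (z tz : Fin k ⊕ Fin k → F)
    (hz : Cfsg.quadFormPlus k F z = 1)
    (hztz : QuadraticMap.polar (Cfsg.quadFormPlus k F) z tz = 1) :
    stabCard (Cfsg.quadFormPlus k F) (fun _ : Unit => z) *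
        Nat.card {v : Fin k ⊕ Fin k → F // Cfsg.quadFormPlus k F v = 1} =
      Nat.card ↥(Cfsg.isometryGroup F (Cfsg.quadFormPlus k F)) := by
  classical
  let act : ↥(Cfsg.isometryGroup F (Cfsg.quadFormPlus k F)) → (Fin k ⊕ Fin k → F) →
      (Fin k ⊕ Fin k → F) := fun g v => oMat g *ᵥ v
  have hY : ∀ v ∈ {v : Fin k ⊕ Fin k → F | Cfsg.quadFormPlus k F v = 1},
      ∃ g, act g z = v := by
    intro v hv
    have hv1 : Cfsg.quadFormPlus k F v = 1 := hv
    have hv0 : v ≠ 0 := by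
      rintro rfl
      simp [Cfsg.quadFormPlus] at hv1
    obtain ⟨y, hy⟩ : ∃ y, QuadraticMap.polarBilin (Cfsg.Agent.H49.QP k F) v y ≠ 0 := by
      by_contra hcon
      push Not at hcon
      exact hv0 ((Cfsg.Agent.H49.QP_nondeg k F).1 v hcon)
    obtain ⟨U, hU⟩ := witt_frames (Cfsg.Agent.H49.QP k F) (Cfsg.Agent.H49.QP_nondeg k F)
      (fun _ : Unit => z) (fun _ => v) (fun _ => tz)
      (fun _ => (QuadraticMap.polarBilin (Cfsg.Agent.H49.QP k F) v y)⁻¹ • y)
      (fun a u hau => absurd (Subsingleton.elim a u) hau)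
      (fun a u hau => absurd (Subsingleton.elim a u) hau)
      (fun a u => by
        rw [if_pos (Subsingleton.elim a u)]
        exact hztz)
      (fun a u => by
        rw [if_pos (Subsingleton.elim a u), map_smul, smul_eq_mul, inv_mul_cancel₀ hy])
      (fun _ => by
        show Cfsg.quadFormPlus k F z = Cfsg.quadFormPlus k F v
        rw [hz, hv1])
    exact ⟨U, hU ()⟩
  have h1 := card_fiber_orbit act (fun x => by
      show oMat (1 : ↥(Cfsg.isometryGroup F (Cfsg.quadFormPlus k F))) *ᵥ x = x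
      rw [oMat_one, Matrix.one_mulVec]) (fun g h x => by
      show oMat (g * h) *ᵥ x = oMat g *ᵥ (oMat h *ᵥ x)
      rw [oMat_mul, Matrix.mulVec_mulVec]) z _ hY
  have e1 : {g : ↥(Cfsg.isometryGroup F (Cfsg.quadFormPlus k F)) //
      act g z ∈ {v : Fin k ⊕ Fin k → F | Cfsg.quadFormPlus k F v = 1}} ≃
      ↥(Cfsg.isometryGroup F (Cfsg.quadFormPlus k F)) :=
    Equiv.subtypeUnivEquiv (fun g => by
      show Cfsg.quadFormPlus k F (oMat g *ᵥ z) = 1
      rw [Cfsg.Agent.H49.isometry_apply g, hz])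
  have e2 : {h : ↥(Cfsg.isometryGroup F (Cfsg.quadFormPlus k F)) // act h z = z} ≃
      {g : ↥(Cfsg.isometryGroup F (Cfsg.quadFormPlus k F)) // ∀ _ : Unit, oMat g *ᵥ z = z} :=
    Equiv.subtypeEquivRight (fun g => ⟨fun h _ => h, fun h => h ()⟩)
  rw [Nat.card_congr e1, Nat.card_congr e2] at h1
  rw [h1, mul_comm]
  rfl

/-- Stabiliser of a frame consisting of a totally singular part and one vector with `Q = 1`. -/
theorem card_stab_mixed (s m : ℕ) (w t : Fin s → Fin m ⊕ Fin m → F) (z tz : Fin m ⊕ Fin m → F)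
    (hw : ∀ i, Cfsg.quadFormPlus m F (w i) = 0) (hz : Cfsg.quadFormPlus m F z = 1)
    (hww : ∀ i i', QuadraticMap.polar (Cfsg.quadFormPlus m F) (w i) (w i') = 0)
    (hwz : ∀ i, QuadraticMap.polar (Cfsg.quadFormPlus m F) (w i) z = 0)
    (hwt : ∀ i i', QuadraticMap.polar (Cfsg.quadFormPlus m F) (w i) (t i') =
      if i = i' then 1 else 0)
    (hwtz : ∀ i, QuadraticMap.polar (Cfsg.quadFormPlus m F) (w i) tz = 0)
    (hzt : ∀ i, QuadraticMap.polar (Cfsg.quadFormPlus m F) z (t i) = 0)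
    (hztz : QuadraticMap.polar (Cfsg.quadFormPlus m F) z tz = 1) :
    ∃ k, m = s + k ∧ 1 ≤ k ∧
      Nat.card {g : ↥(Cfsg.isometryGroup F (Cfsg.quadFormPlus m F)) //
          (∀ i, oMat g *ᵥ w i = w i) ∧ oMat g *ᵥ z = z} * Fintype.card F ^ s *
        Nat.card {v : Fin k ⊕ Fin k → F // Cfsg.quadFormPlus k F v = 1} =
      Fintype.card F ^ (2 * k * s + s * (s - 1) / 2) *
        Nat.card ↥(Cfsg.isometryGroup F (Cfsg.quadFormPlus k F)) := by
  obtain ⟨k, hk, z', tz', h1, -, h3, h⟩ := card_stab_peel (J := Unit) s m w t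
    (fun _ => z) (fun _ => tz) hw hww (fun i _ => hwz i) hwt (fun i _ => hwtz i)
    (fun _ i => hzt i) (fun j j' => by rw [if_pos (Subsingleton.elim j j')]; exact hztz)
  have hz' : Cfsg.quadFormPlus k F (z' ()) = 1 := by rw [h1, hz]
  have hztz' : QuadraticMap.polar (Cfsg.quadFormPlus k F) (z' ()) (tz' ()) = 1 := by
    rw [h3, if_pos rfl]
  refine ⟨k, hk, ?_, ?_⟩
  · by_contra hk0
    have hk0' : k = 0 := by omega
    subst hk0'
    simp [Cfsg.quadFormPlus] at hz'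
  · have e : stabCard (Cfsg.quadFormPlus m F)
        (Sum.elim w (fun _ : Unit => z) : Fin s ⊕ Unit → Fin m ⊕ Fin m → F) =
        Nat.card {g : ↥(Cfsg.isometryGroup F (Cfsg.quadFormPlus m F)) //
          (∀ i, oMat g *ᵥ w i = w i) ∧ oMat g *ᵥ z = z} := by
      refine Nat.card_congr (Equiv.subtypeEquivRight (fun g => ?_))
      constructor
      · intro h
        exact ⟨fun i => h (Sum.inl i), h (Sum.inr ())⟩
      · rintro ⟨h1, h2⟩ a
        rcases a with i | j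
        · exact h1 i
        · exact h2
    have e' : z' = fun _ : Unit => z' () := by
      funext j
      rfl
    rw [e, Fintype.card_unit, mul_one, e'] at h
    rw [h, mul_assoc, card_stab_one k (z' ()) (tz' ()) hz' hztz']

end Plus

end Cfsg.Agent.H42
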