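import Mathlib
import Cfsg.Prelude.Def_Classical
import Cfsg.Prelude.Def_ClassicalGeometry
import Cfsg.Agent.H42.OInvCount
import Cfsg.Agent.H49.Plus

set_option autoImplicit false

namespace Cfsg.Agent.H42

open Module Matrix Cfsg.Agent.H49

section

variable {F : Type*} [Field F] {m : ℕ}

/-- The standard vectors `e_i`. -/
def eP (i : Fin m) : Fin m ⊕ Fin m → F := Pi.single (Sum.inl i) 1

/-- The standard vectors `f_i`. -/
def fP (i : Fin m) : Fin m ⊕ Fin m → F := Pi.single (Sum.inr i) 1

theorem pb_eP (i : Fin m) (y : Fin m ⊕ Fin m → F) :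
    QuadraticMap.polarBilin (QP m F) (eP i) y = y (Sum.inr i) :=
  polar_QP_single_inl m F i y

theorem pb_fP (i : Fin m) (y : Fin m ⊕ Fin m → F) :
    QuadraticMap.polarBilin (QP m F) (fP i) y = y (Sum.inl i) :=
  polar_QP_single_inr m F i y

theorem eP_inl (i j : Fin m) : (eP i : Fin m ⊕ Fin m → F) (Sum.inl j) = if i = j then 1 else 0 := by
  simp [eP, Pi.single_apply, eq_comm]

theorem eP_inr (i j : Fin m) : (eP i : Fin m ⊕ Fin m → F) (Sum.inr j) = 0 := by
  simp [eP]

theorem fP_inl (i j : Fin m) : (fP i : Fin m ⊕ Fin m → F) (Sum.inl j) = 0 := by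
  simp [fP]

theorem fP_inr (i j : Fin m) : (fP i : Fin m ⊕ Fin m → F) (Sum.inr j) = if i = j then 1 else 0 := by
  simp [fP, Pi.single_apply, eq_comm]

theorem QP_eP (i : Fin m) : QP m F (eP i) = 0 := by
  rw [QP_apply]
  apply Finset.sum_eq_zero
  intro j _
  rw [eP_inr, mul_zero]

theorem QP_eP_add_fP (i : Fin m) : QP m F (eP i + fP i) = 1 := by
  rw [QP_apply]
  simp only [Pi.add_apply, eP_inl, eP_inr, fP_inl, fP_inr, add_zero, zero_add]
  rw [Finset.sum_eq_single i]
  · simp
  · intro j _ hj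
    rw [if_neg (Ne.symm hj), mul_zero]
  · intro h
    exact absurd (Finset.mem_univ _) h

/-- The non-alternating family: `Q (w s) = 1`. -/
theorem naP_one {I : Type} (j : I → Fin m) (s : I) :
    QP m F (eP (j s) + fP (j s)) = 1 := QP_eP_add_fP _

/-- The non-alternating family: orthogonality. -/
theorem naP_orth {I : Type} (j : I → Fin m) (hj : Function.Injective j) (s u : I) (hsu : s ≠ u) :
    QuadraticMap.polarBilin (QP m F) (eP (j s) + fP (j s)) (eP (j u) + fP (j u)) = 0 := by
  have h : j s ≠ j u := fun h => hsu (hj h)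
  rw [LinearMap.map_add₂, pb_eP, pb_fP]
  simp only [Pi.add_apply, eP_inl, eP_inr, fP_inl, fP_inr, add_zero, zero_add,
    if_neg (Ne.symm h)]

/-- The non-alternating family: duality. -/
theorem naP_dual {I : Type} [DecidableEq I] (j : I → Fin m) (hj : Function.Injective j) (s u : I) :
    QuadraticMap.polarBilin (QP m F) (eP (j s) + fP (j s)) (fP (j u)) = if s = u then 1 else 0 := by
  rw [map_add, LinearMap.add_apply, pb_eP, pb_fP, fP_inl, fP_inr, add_zero]
  by_cases h : s = u
  · subst h
    simp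
  · have h' : j u ≠ j s := fun h' => h (hj h'.symm)
    rw [if_neg h', if_neg h]

/-- The alternating family: orthogonality. -/
theorem aP_orth {I : Type} (j : I → Fin m) (s u : I) :
    QuadraticMap.polarBilin (QP m F) (eP (j s)) (eP (j u)) = 0 := by
  rw [pb_eP, eP_inr]

/-- The alternating family: duality. -/
theorem aP_dual {I : Type} [DecidableEq I] (j : I → Fin m) (hj : Function.Injective j) (s u : I) :
    QuadraticMap.polarBilin (QP m F) (eP (j s)) (fP (j u)) = if s = u then 1 else 0 := by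
  rw [pb_eP, fP_inr]
  by_cases h : s = u
  · subst h
    simp
  · have h' : j u ≠ j s := fun h' => h (hj h'.symm)
    rw [if_neg h', if_neg h]

/-- An injection `Fin k ⊕ Fin k → Fin m` for `2k ≤ m`. -/
def jSum {k : ℕ} (hkm : 2 * k ≤ m) : Fin k ⊕ Fin k → Fin m :=
  Sum.elim (fun i => ⟨(i : ℕ), by have := i.2; omega⟩) (fun i => ⟨k + (i : ℕ), by have := i.2; omega⟩)

theorem jSum_injective {k : ℕ} (hkm : 2 * k ≤ m) : Function.Injective (jSum hkm) := by
  rintro (a | a) (b | b) h
  · have := congrArg Fin.val h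
    simp only [jSum, Sum.elim_inl] at this
    exact congrArg Sum.inl (Fin.ext this)
  · have := congrArg Fin.val h
    simp only [jSum, Sum.elim_inl, Sum.elim_inr] at this
    have := a.2
    omega
  · have := congrArg Fin.val h
    simp only [jSum, Sum.elim_inl, Sum.elim_inr] at this
    have := b.2
    omega
  · have := congrArg Fin.val h
    simp only [jSum, Sum.elim_inr] at this
    exact congrArg Sum.inr (Fin.ext (by omega))

/-- Existence of involutions of non-alternating type of each rank `1 ≤ r ≤ m` in `O⁺`. -/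
theorem oplus_exists_nonalt [CharP F 2] (r : ℕ) (hr1 : 1 ≤ r) (hrm : r ≤ m) :
    ∃ a : ↥(Cfsg.isometryGroup F (⇑(QP m F))), orderOf a = 2 ∧ (oMat a - 1).rank = r ∧
      ¬ ∀ v, QP m F (nOpG (oMat a) v) = 0 := by
  have : Nonempty (Fin r) := ⟨⟨0, hr1⟩⟩
  obtain ⟨a, h1, h2, h3⟩ := o_inv_exists_nonalt (QP m F) (I := Fin r)
    (fun s => eP (Fin.castLE hrm s) + fP (Fin.castLE hrm s))
    (fun s => fP (Fin.castLE hrm s))
    (fun s => naP_one (Fin.castLE hrm) s)
    (fun s u hsu => naP_orth (Fin.castLE hrm) (Fin.castLE_injective hrm) s u hsu)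
    (fun s u => naP_dual (Fin.castLE hrm) (Fin.castLE_injective hrm) s u)
  exact ⟨a, h1, by rw [h2, Fintype.card_fin], h3⟩

/-- Existence of involutions of alternating type of each even rank `2 ≤ 2k ≤ m` in `O⁺`. -/
theorem oplus_exists_alt [CharP F 2] (k : ℕ) (hk1 : 1 ≤ k) (hkm : 2 * k ≤ m) :
    ∃ a : ↥(Cfsg.isometryGroup F (⇑(QP m F))), orderOf a = 2 ∧ (oMat a - 1).rank = 2 * k ∧
      ∀ v, QP m F (nOpG (oMat a) v) = 0 := by
  have : Nonempty (Fin k) := ⟨⟨0, hk1⟩⟩
  obtain ⟨a, h1, h2, h3⟩ := o_inv_exists_alt (QP m F) (I := Fin k)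
    (fun s => eP (jSum hkm s)) (fun s => fP (jSum hkm s))
    (fun s => QP_eP _)
    (fun s u => aP_orth (jSum hkm) s u)
    (fun s u => aP_dual (jSum hkm) (jSum_injective hkm) s u)
  exact ⟨a, h1, by rw [h2, Fintype.card_fin], h3⟩

/-- The number of conjugacy classes of involutions of `O⁺_{2m}(q)`, `q` even. -/
theorem oplus_inv_class_count [Fintype F] [CharP F 2] :
    Nat.card {C : ConjClasses ↥(Cfsg.isometryGroup F (Cfsg.quadFormPlus m F)) //
      ∃ g : ↥(Cfsg.isometryGroup F (Cfsg.quadFormPlus m F)),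
        ConjClasses.mk g = C ∧ orderOf g = 2} = m + m / 2 := by
  have hcard : Fintype.card (Fin m ⊕ Fin m) = 2 * m := by
    rw [Fintype.card_sum, Fintype.card_fin]
    ring
  exact o_inv_class_count (QP m F) (QP_nondeg m F) m (m / 2) hcard
    (fun r hr1 hrm => oplus_exists_nonalt r hr1 hrm)
    (fun k hk1 hk2 => oplus_exists_alt k hk1 (by omega))
    (fun a ha halt => by
      have hsq : oMat a * oMat a = 1 := by
        have := pow_orderOf_eq_one a
        rw [ha, sq] at this
        rw [← oMat_mul, this, oMat_one]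
      have hne : a ≠ 1 := by
        intro h1
        rw [h1, orderOf_one] at ha
        omega
      have := (o_rank_bounds m hcard a hsq hne).2
      omega)

end

end Cfsg.Agent.H42
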