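import Mathlib
import Cfsg.Prelude.Def_Classical
import Cfsg.Prelude.Def_ClassicalGeometry
import Cfsg.Agent.H42.OInvCount
import Cfsg.Agent.H42.CD2x
import Cfsg.Agent.H49.ClassTwo

set_option autoImplicit false

namespace Cfsg.Agent.H42

open Module Matrix Cfsg.Agent.H49

theorem sub_isConj_iff {G : Type*} [Group G] (H : Subgroup G) (x y : H) :
    IsConj x y ↔ ∃ h ∈ H, h * (x : G) * h⁻¹ = (y : G) := by
  rw [isConj_iff]
  constructor
  · rintro ⟨c, hc⟩
    refine ⟨c, c.2, ?_⟩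
    have := congrArg Subtype.val hc
    simpa using this
  · rintro ⟨h, hh, e⟩
    refine ⟨⟨h, hh⟩, Subtype.ext ?_⟩
    simpa using e

theorem orderOf_conj_eq {G : Type*} [Group G] (g a : G) : orderOf (g * a * g⁻¹) = orderOf a := by
  have := orderOf_injective (MulAut.conj g).toMonoidHom (MulAut.conj g).injective a
  simpa using this

section

variable {F : Type*} [Field F] {ι : Type} [Fintype ι] [DecidableEq ι]

/-- If `t` fixes `w`, the reflection in `w` commutes with `t`. -/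
theorem refl_commute_of_fix (Q : QuadraticForm F (ι → F)) (t : ↥(Cfsg.isometryGroup F (⇑Q)))
    (w : ι → F) (hw : oMat t *ᵥ w = w) : reflG Q w * t = t * reflG Q w := by
  have h := conj_reflG Q t w
  rw [hw] at h
  exact (mul_inv_eq_iff_eq_mul.mp h).symm

/-- Non-split classes: an `O`-class of involutions of non-alternating type, or of rank `< m`,
is a single `Ω`-orbit. -/
theorem omega_conj_nonsplit [Fintype F] [CharP F 2] (Q : QuadraticForm F (ι → F))
    (hQ : (QuadraticMap.polarBilin Q).Nondegenerate) {m : ℕ} (hV : finrank F (ι → F) = 2 * m)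
    (hidx : (Cfsg.Omega F (⇑Q)).index = 2)
    (hrefl : ∀ v, Q v ≠ 0 → reflG Q v ∉ Cfsg.Omega F (⇑Q))
    (t s : ↥(Cfsg.isometryGroup F (⇑Q))) (ht : oMat t * oMat t = 1) (hts : IsConj t s)
    (hty : (¬ ∀ v, Q (nOpG (oMat t) v) = 0) ∨ (oMat t - 1).rank < m) :
    ∃ h ∈ Cfsg.Omega F (⇑Q), h * t * h⁻¹ = s := by
  have htv : ∀ y, oMat t *ᵥ y = y + nOpG (oMat t) y := by
    intro y
    rw [nOpG_apply]
    abel
  have hfix : ∃ w, Q w ≠ 0 ∧ oMat t *ᵥ w = w := by
    rcases hty with hna | hrk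
    · push Not at hna
      obtain ⟨x, hx⟩ := hna
      refine ⟨nOpG (oMat t) x, hx, ?_⟩
      rw [htv, nOpG_sq _ ht, add_zero]
    · obtain ⟨x, hx, hxW⟩ := exists_anisotropic_orthogonal Q hQ
        (LinearMap.range (nOpG (oMat t))) (by
          have : finrank F (LinearMap.range (nOpG (oMat t))) = (oMat t - 1).rank := rfl
          rw [this, hV]
          omega)
      refine ⟨x, hx, ?_⟩
      have hN0 : nOpG (oMat t) x = 0 := by
        apply hQ.1
        intro y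
        rw [nOpG_selfadj Q (oMat t) (oMat_isom t) ht x y]
        exact hxW _ (LinearMap.mem_range_self _ y)
      rw [htv, hN0, add_zero]
  obtain ⟨w, hw, hfw⟩ := hfix
  obtain ⟨g, hg⟩ := isConj_iff.1 hts
  by_cases hgΩ : g ∈ Cfsg.Omega F (⇑Q)
  · exact ⟨g, hgΩ, hg⟩
  · refine ⟨g * reflG Q w, ?_, ?_⟩
    · rw [Subgroup.mul_mem_iff_of_index_two hidx]
      exact ⟨fun h => absurd h hgΩ, fun h => absurd h (hrefl w hw)⟩
    · have hc := refl_commute_of_fix Q t w hfw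
      rw [_root_.mul_inv_rev, reflG_inv]
      calc g * reflG Q w * t * (reflG Q w * g⁻¹)
          = g * (reflG Q w * t * reflG Q w) * g⁻¹ := by group
        _ = g * (t * reflG Q w * reflG Q w) * g⁻¹ := by rw [hc]
        _ = g * t * g⁻¹ := by rw [mul_assoc t, reflG_mul_self, mul_one]
        _ = s := hg

/-- Split class: the centralizer of an involution of alternating type and rank `m` lies in
`Ω`. -/
theorem omega_centralizer_split [Fintype F] (Q : QuadraticForm F (ι → F)) (h2 : (2 : F) = 0)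
    (hQ : (QuadraticMap.polarBilin Q).Nondegenerate) {m : ℕ} (hV : finrank F (ι → F) = 2 * m)
    (hex0 : Fintype.card F ≠ 2 ∨ m ≠ 2) (t c : ↥(Cfsg.isometryGroup F (⇑Q)))
    (halt : ∀ v, Q (nOpG (oMat t) v) = 0) (hrk : (oMat t - 1).rank = m)
    (hc : c * t = t * c) : c ∈ Cfsg.Omega F (⇑Q) := by
  have hts : IsTS Q (LinearMap.range (nOpG (oMat t))) := by
    rintro _ ⟨v, rfl⟩
    exact halt v
  have hdim : finrank F (LinearMap.range (nOpG (oMat t))) = m := hrk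
  apply (even_iff_mem_commutator_two Q h2 hQ hV hex0 _ hts hdim c).1
  have hle : LinearMap.range (nOpG (oMat t)) ≤
      (LinearMap.range (nOpG (oMat t))).map (Matrix.mulVecLin (oMat c)) := by
    rintro _ ⟨x, rfl⟩
    refine ⟨nOpG (oMat t) (oMat c⁻¹ *ᵥ x), LinearMap.mem_range_self _ _, ?_⟩
    have h1 : oMat c * oMat t * oMat c⁻¹ = oMat t := by
      rw [← oMat_mul, hc, oMat_mul, Matrix.mul_assoc, oMat_mul_inv, Matrix.mul_one]
    rw [Matrix.mulVecLin_apply, nOpG_apply, nOpG_apply, Matrix.mulVec_sub, Matrix.mulVec_mulVec,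
      Matrix.mulVec_mulVec, Matrix.mulVec_mulVec, h1, oMat_mul_inv, Matrix.one_mulVec]
  rw [inf_eq_left.2 hle, hdim, Nat.sub_self]
  exact Even.zero

/-- The counting skeleton for `Ω`: number of conjugacy classes of involutions in the commutator
subgroup of an orthogonal group in characteristic two. -/
theorem omega_inv_class_count [Fintype F] [CharP F 2] (Q : QuadraticForm F (ι → F))
    (hQ : (QuadraticMap.polarBilin Q).Nondegenerate) (m n2 : ℕ) (hm : 0 < m)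
    (hcard : Fintype.card ι = 2 * m)
    (hex : Fintype.card F ≠ 2 ∨ m ≠ 2 ∨
      ¬ ∃ K : Submodule F (ι → F), IsTS Q K ∧ finrank F K = 2)
    (hex0 : 2 * n2 = m → (Fintype.card F ≠ 2 ∨ m ≠ 2))
    (hn2 : 2 * n2 ≤ m)
    (E1 : ∀ r, 1 ≤ r → r ≤ m → ∃ a : ↥(Cfsg.isometryGroup F (⇑Q)), orderOf a = 2 ∧
      (oMat a - 1).rank = r ∧ ¬ ∀ v, Q (nOpG (oMat a) v) = 0)
    (E2 : ∀ k, 1 ≤ k → k ≤ n2 → ∃ a : ↥(Cfsg.isometryGroup F (⇑Q)), orderOf a = 2 ∧
      (oMat a - 1).rank = 2 * k ∧ ∀ v, Q (nOpG (oMat a) v) = 0)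
    (hU : ∀ a : ↥(Cfsg.isometryGroup F (⇑Q)), orderOf a = 2 →
      (∀ v, Q (nOpG (oMat a) v) = 0) → (oMat a - 1).rank ≤ 2 * n2 + 1) :
    Nat.card {C : ConjClasses ↥(Cfsg.Omega F (⇑Q)) //
      ∃ g : ↥(Cfsg.Omega F (⇑Q)), ConjClasses.mk g = C ∧ orderOf g = 2} =
      m / 2 + n2 + (if 2 * n2 = m then 1 else 0) := by
  classical
  have h2 : (2 : F) = 0 := CharTwo.two_eq_zero
  have hV : finrank F (ι → F) = 2 * m := by
    rw [Module.finrank_fintype_fun_eq_card, hcard]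
  have hA : ∀ g : ↥(Cfsg.isometryGroup F (⇑Q)),
      g ∈ Cfsg.Omega F (⇑Q) ↔ Even (oMat g - 1).rank :=
    fun g => mem_commutator_iff_even_rank_twox Q h2 hQ hV hex hm g
  obtain ⟨v0, hv0, -⟩ := exists_anisotropic_orthogonal Q hQ ⊥ (by
    rw [finrank_bot, hV]
    omega)
  have hidx : (Cfsg.Omega F (⇑Q)).index = 2 := index_commutator_char_twox Q h2 hQ hV hex v0 hv0
  have hrefl : ∀ v, Q v ≠ 0 → reflG Q v ∉ Cfsg.Omega F (⇑Q) := by
    intro v hv
    show reflG Q v ∉ commutator ↥(Cfsg.isometryGroup F (⇑Q))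
    rw [commutator_eq_evenSub_twox Q h2 hQ hV hex]
    exact Cfsg.Agent.H7.reflG_not_mem_evenSub Q hQ v hv
  have E1' : ∀ i : Fin (m / 2), ∃ a : ↥(Cfsg.isometryGroup F (⇑Q)), orderOf a = 2 ∧
      (oMat a - 1).rank = 2 * ((i : ℕ) + 1) ∧ ¬ ∀ v, Q (nOpG (oMat a) v) = 0 :=
    fun i => E1 (2 * ((i : ℕ) + 1)) (by omega) (by have := i.2; omega)
  have E2' : ∀ i : Fin n2, ∃ a : ↥(Cfsg.isometryGroup F (⇑Q)), orderOf a = 2 ∧
      (oMat a - 1).rank = 2 * ((i : ℕ) + 1) ∧ ∀ v, Q (nOpG (oMat a) v) = 0 :=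
    fun i => E2 ((i : ℕ) + 1) (by omega) (by have := i.2; omega)
  choose A1 hA1 using E1'
  choose A2 hA2 using E2'
  have hA1Ω : ∀ i, A1 i ∈ Cfsg.Omega F (⇑Q) := fun i => (hA _).2 (by
    rw [(hA1 i).2.1]
    exact even_two_mul _)
  have hA2Ω : ∀ i, A2 i ∈ Cfsg.Omega F (⇑Q) := fun i => (hA _).2 (by
    rw [(hA2 i).2.1]
    exact even_two_mul _)
  have hsq : ∀ g : ↥(Cfsg.isometryGroup F (⇑Q)), orderOf g = 2 → oMat g * oMat g = 1 := by
    intro g hg
    have := pow_orderOf_eq_one g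
    rw [hg, sq] at this
    rw [← oMat_mul, this, oMat_one]
  have hne : ∀ g : ↥(Cfsg.isometryGroup F (⇑Q)), orderOf g = 2 → g ≠ 1 := by
    intro g hg h1
    rw [h1, orderOf_one] at hg
    omega
  let cls : ∀ a : ↥(Cfsg.isometryGroup F (⇑Q)), a ∈ Cfsg.Omega F (⇑Q) → orderOf a = 2 →
      {C : ConjClasses ↥(Cfsg.Omega F (⇑Q)) //
        ∃ g : ↥(Cfsg.Omega F (⇑Q)), ConjClasses.mk g = C ∧ orderOf g = 2} :=
    fun a ha ho => ⟨ConjClasses.mk ⟨a, ha⟩, ⟨a, ha⟩, rfl, by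
      rw [← ho]
      exact Subgroup.orderOf_mk a ha⟩
  have val_conj : ∀ (a b : ↥(Cfsg.isometryGroup F (⇑Q))) (ha : a ∈ Cfsg.Omega F (⇑Q))
      (hb : b ∈ Cfsg.Omega F (⇑Q)),
      ConjClasses.mk (⟨a, ha⟩ : ↥(Cfsg.Omega F (⇑Q))) = ConjClasses.mk ⟨b, hb⟩ →
        ∃ h ∈ Cfsg.Omega F (⇑Q), h * a * h⁻¹ = b := by
    intro a b ha hb h
    rwa [ConjClasses.mk_eq_mk_iff_isConj, sub_isConj_iff] at h
  have mk_of_conj : ∀ (a b : ↥(Cfsg.isometryGroup F (⇑Q))) (ha : a ∈ Cfsg.Omega F (⇑Q))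
      (hb : b ∈ Cfsg.Omega F (⇑Q)), (∃ h ∈ Cfsg.Omega F (⇑Q), h * a * h⁻¹ = b) →
        ConjClasses.mk (⟨a, ha⟩ : ↥(Cfsg.Omega F (⇑Q))) = ConjClasses.mk ⟨b, hb⟩ := by
    intro a b ha hb h
    rwa [ConjClasses.mk_eq_mk_iff_isConj, sub_isConj_iff]
  have cls_surj : ∀ x : {C : ConjClasses ↥(Cfsg.Omega F (⇑Q)) //
      ∃ g : ↥(Cfsg.Omega F (⇑Q)), ConjClasses.mk g = C ∧ orderOf g = 2},
      ∃ a ha ho, x = cls a ha ho := by
    rintro ⟨C, g, rfl, hg⟩
    exact ⟨g.1, g.2, by rw [← hg]; exact Subgroup.orderOf_coe g, rfl⟩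
  have hclassify : ∀ g : ↥(Cfsg.isometryGroup F (⇑Q)), g ∈ Cfsg.Omega F (⇑Q) → orderOf g = 2 →
      (∃ i : Fin (m / 2), IsConj (A1 i) g) ∨ (∃ i : Fin n2, IsConj (A2 i) g) := by
    intro g hgΩ hg
    obtain ⟨hb1, hb2⟩ := o_rank_bounds m hcard g (hsq g hg) (hne g hg)
    obtain ⟨k, hk⟩ := (hA g).1 hgΩ
    by_cases halt : ∀ v, Q (nOpG (oMat g) v) = 0
    · right
      have hu := hU g hg halt
      have hk2 : k - 1 < n2 := by omega
      refine ⟨⟨k - 1, hk2⟩, ?_⟩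
      apply o_conj_of_type Q hQ _ _ (hsq _ (hA2 _).1) (hsq g hg)
      · rw [(hA2 _).2.1, hk]
        simp only
        omega
      · exact ⟨fun _ => halt, fun _ => (hA2 _).2.2⟩
    · left
      have hk2 : k - 1 < m / 2 := by omega
      refine ⟨⟨k - 1, hk2⟩, ?_⟩
      apply o_conj_of_type Q hQ _ _ (hsq _ (hA1 _).1) (hsq g hg)
      · rw [(hA1 _).2.1, hk]
        simp only
        omega
      · exact ⟨fun h => absurd h (hA1 _).2.2, fun h => absurd h halt⟩
  have hconjO : ∀ a b : ↥(Cfsg.isometryGroup F (⇑Q)),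
      (∃ h ∈ Cfsg.Omega F (⇑Q), h * a * h⁻¹ = b) → IsConj a b := by
    rintro a b ⟨h, -, e⟩
    exact isConj_iff.2 ⟨h, e⟩
  have inj11 : ∀ a b : Fin (m / 2), IsConj (A1 a) (A1 b) → a = b := by
    intro a b h1
    have h2 := o_rank_conj _ _ h1
    rw [(hA1 a).2.1, (hA1 b).2.1] at h2
    exact Fin.ext (by omega)
  have inj22 : ∀ a b : Fin n2, IsConj (A2 a) (A2 b) → a = b := by
    intro a b h1
    have h2 := o_rank_conj _ _ h1
    rw [(hA2 a).2.1, (hA2 b).2.1] at h2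
    exact Fin.ext (by omega)
  have inj12 : ∀ (a : Fin (m / 2)) (b : Fin n2), ¬ IsConj (A1 a) (A2 b) := by
    intro a b h1
    exact (hA1 a).2.2 (o_type_conj _ _ h1 (hA2 b).2.2)
  by_cases hsplit : 2 * n2 = m
  · rw [if_pos hsplit]
    obtain ⟨i0, hi0⟩ : ∃ i : Fin n2, (i : ℕ) = n2 - 1 := ⟨⟨n2 - 1, by omega⟩, rfl⟩
    have ht0rk : (oMat (A2 i0) - 1).rank = m := by
      rw [(hA2 i0).2.1, hi0]
      omega
    obtain ⟨t0', ht0'⟩ : ∃ t : ↥(Cfsg.isometryGroup F (⇑Q)),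
        t = reflG Q v0 * A2 i0 * (reflG Q v0)⁻¹ := ⟨_, rfl⟩
    have hnorm : (Cfsg.Omega F (⇑Q)).Normal := by
      show (commutator ↥(Cfsg.isometryGroup F (⇑Q))).Normal
      infer_instance
    have ht0'Ω : t0' ∈ Cfsg.Omega F (⇑Q) := by
      rw [ht0']
      exact hnorm.conj_mem _ (hA2Ω i0) _
    have ht0'ord : orderOf t0' = 2 := by
      rw [ht0', orderOf_conj_eq]
      exact (hA2 i0).1
    have hconj0 : IsConj (A2 i0) t0' := isConj_iff.2 ⟨reflG Q v0, ht0'.symm⟩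
    have hnot : ¬ ∃ h ∈ Cfsg.Omega F (⇑Q), h * A2 i0 * h⁻¹ = t0' := by
      rintro ⟨h, hh, e⟩
      have hc : ((reflG Q v0)⁻¹ * h) * A2 i0 = A2 i0 * ((reflG Q v0)⁻¹ * h) := by
        have e' : h * A2 i0 = reflG Q v0 * A2 i0 * (reflG Q v0)⁻¹ * h := by
          rw [← ht0', ← e]
          group
        calc (reflG Q v0)⁻¹ * h * A2 i0 = (reflG Q v0)⁻¹ * (h * A2 i0) := by group
          _ = (reflG Q v0)⁻¹ * (reflG Q v0 * A2 i0 * (reflG Q v0)⁻¹ * h) := by rw [e']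
          _ = A2 i0 * ((reflG Q v0)⁻¹ * h) := by group
      have hcΩ := omega_centralizer_split Q h2 hQ hV (hex0 hsplit) (A2 i0)
        ((reflG Q v0)⁻¹ * h) (hA2 i0).2.2 ht0rk hc
      have h3 := Subgroup.mul_mem _ hh (Subgroup.inv_mem _ hcΩ)
      have h4 : h * ((reflG Q v0)⁻¹ * h)⁻¹ = reflG Q v0 := by group
      rw [h4] at h3
      exact hrefl v0 hv0 h3
    have hsplit2 : ∀ s : ↥(Cfsg.isometryGroup F (⇑Q)), IsConj (A2 i0) s →
        (∃ h ∈ Cfsg.Omega F (⇑Q), h * A2 i0 * h⁻¹ = s) ∨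
          (∃ h ∈ Cfsg.Omega F (⇑Q), h * t0' * h⁻¹ = s) := by
      intro s hs
      obtain ⟨g, hg⟩ := isConj_iff.1 hs
      by_cases hgΩ : g ∈ Cfsg.Omega F (⇑Q)
      · exact Or.inl ⟨g, hgΩ, hg⟩
      · right
        refine ⟨g * (reflG Q v0)⁻¹, ?_, ?_⟩
        · rw [Subgroup.mul_mem_iff_of_index_two hidx, reflG_inv]
          exact ⟨fun h => absurd h hgΩ, fun h => absurd h (hrefl v0 hv0)⟩
        · rw [ht0', ← hg]
          group
    let f : (Fin (m / 2) ⊕ Fin n2) ⊕ Unit → {C : ConjClasses ↥(Cfsg.Omega F (⇑Q)) //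
        ∃ g : ↥(Cfsg.Omega F (⇑Q)), ConjClasses.mk g = C ∧ orderOf g = 2} :=
      Sum.elim (Sum.elim (fun i => cls (A1 i) (hA1Ω i) (hA1 i).1)
        (fun i => cls (A2 i) (hA2Ω i) (hA2 i).1)) (fun _ => cls t0' ht0'Ω ht0'ord)
    have hinj : Function.Injective f := by
      rintro ((a | a) | ⟨⟩) ((b | b) | ⟨⟩) h
      · exact congrArg (fun i => Sum.inl (Sum.inl i)) (inj11 a b (hconjO _ _ (val_conj _ _ _ _ (congrArg Subtype.val h))))
      · exact absurd (hconjO _ _ (val_conj _ _ _ _ (congrArg Subtype.val h))) (inj12 a b)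
      · exfalso
        have h1 : IsConj (A1 a) t0' := hconjO _ _ (val_conj _ _ _ _ (congrArg Subtype.val h))
        exact inj12 a i0 (h1.trans hconj0.symm)
      · exact absurd (hconjO _ _ (val_conj _ _ _ _ (congrArg Subtype.val h))).symm (inj12 b a)
      · exact congrArg (fun i => Sum.inl (Sum.inr i)) (inj22 a b (hconjO _ _ (val_conj _ _ _ _ (congrArg Subtype.val h))))
      · exfalso
        have h0 := val_conj _ _ _ _ (congrArg Subtype.val h)
        have h1 : IsConj (A2 a) t0' := hconjO _ _ h0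
        have h3 := inj22 a i0 (h1.trans hconj0.symm)
        subst h3
        exact hnot h0
      · exfalso
        have h1 : IsConj t0' (A1 b) := hconjO _ _ (val_conj _ _ _ _ (congrArg Subtype.val h))
        exact inj12 b i0 (h1.symm.trans hconj0.symm)
      · exfalso
        have h0 := val_conj _ _ _ _ (congrArg Subtype.val h)
        have h1 : IsConj t0' (A2 b) := hconjO _ _ h0
        have h3 := inj22 b i0 (h1.symm.trans hconj0.symm)
        subst h3
        obtain ⟨c, hc, e⟩ := h0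
        apply hnot
        refine ⟨c⁻¹, Subgroup.inv_mem _ hc, ?_⟩
        rw [← e]
        group
      · rfl
    have hsurj : Function.Surjective f := by
      intro x
      obtain ⟨g, hgΩ, hg, rfl⟩ := cls_surj x
      rcases hclassify g hgΩ hg with ⟨i, hconj⟩ | ⟨i, hconj⟩
      · exact ⟨Sum.inl (Sum.inl i), Subtype.ext <| mk_of_conj _ _ _ _ <| (omega_conj_nonsplit Q hQ hV hidx hrefl
          (A1 i) g (hsq _ (hA1 i).1) hconj (Or.inl (hA1 i).2.2))⟩
      · by_cases hi : i = i0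
        · subst hi
          rcases hsplit2 g hconj with h | h
          · exact ⟨Sum.inl (Sum.inr i), Subtype.ext <| mk_of_conj _ _ _ _ <| h⟩
          · exact ⟨Sum.inr (), Subtype.ext <| mk_of_conj _ _ _ _ <| h⟩
        · refine ⟨Sum.inl (Sum.inr i), Subtype.ext <| mk_of_conj _ _ _ _ <| (omega_conj_nonsplit Q hQ hV hidx
            hrefl (A2 i) g (hsq _ (hA2 i).1) hconj (Or.inr ?_))⟩
          rw [(hA2 i).2.1]
          have h6 : (i : ℕ) ≠ n2 - 1 := fun h => hi (Fin.ext (h.trans hi0.symm))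
          have := i.2
          omega
    rw [← Nat.card_congr (Equiv.ofBijective f ⟨hinj, hsurj⟩), Nat.card_sum, Nat.card_sum,
      Nat.card_fin, Nat.card_fin, Nat.card_unique]
  · rw [if_neg hsplit, add_zero]
    let f : Fin (m / 2) ⊕ Fin n2 → {C : ConjClasses ↥(Cfsg.Omega F (⇑Q)) //
        ∃ g : ↥(Cfsg.Omega F (⇑Q)), ConjClasses.mk g = C ∧ orderOf g = 2} :=
      Sum.elim (fun i => cls (A1 i) (hA1Ω i) (hA1 i).1)
        (fun i => cls (A2 i) (hA2Ω i) (hA2 i).1)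
    have hinj : Function.Injective f := by
      rintro (a | a) (b | b) h
      · exact congrArg Sum.inl (inj11 a b (hconjO _ _ (val_conj _ _ _ _ (congrArg Subtype.val h))))
      · exact absurd (hconjO _ _ (val_conj _ _ _ _ (congrArg Subtype.val h))) (inj12 a b)
      · exact absurd (hconjO _ _ (val_conj _ _ _ _ (congrArg Subtype.val h))).symm (inj12 b a)
      · exact congrArg Sum.inr (inj22 a b (hconjO _ _ (val_conj _ _ _ _ (congrArg Subtype.val h))))
    have hsurj : Function.Surjective f := by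
      intro x
      obtain ⟨g, hgΩ, hg, rfl⟩ := cls_surj x
      rcases hclassify g hgΩ hg with ⟨i, hconj⟩ | ⟨i, hconj⟩
      · exact ⟨Sum.inl i, Subtype.ext <| mk_of_conj _ _ _ _ <| (omega_conj_nonsplit Q hQ hV hidx hrefl
          (A1 i) g (hsq _ (hA1 i).1) hconj (Or.inl (hA1 i).2.2))⟩
      · refine ⟨Sum.inr i, Subtype.ext <| mk_of_conj _ _ _ _ <| (omega_conj_nonsplit Q hQ hV hidx
          hrefl (A2 i) g (hsq _ (hA2 i).1) hconj (Or.inr ?_))⟩
        rw [(hA2 i).2.1]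
        have := i.2
        omega
    rw [← Nat.card_congr (Equiv.ofBijective f ⟨hinj, hsurj⟩), Nat.card_sum, Nat.card_fin,
      Nat.card_fin]

end

end Cfsg.Agent.H42
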