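import Mathlib
import Cfsg.Prelude.Def_Classical
import Cfsg.Prelude.Def_ClassicalGeometry
import Cfsg.Agent.H42.OCFrame
import Cfsg.Agent.H42.OCStab
import Cfsg.Agent.H42.OCFib
import Cfsg.Agent.H42.OmegaInv
import Cfsg.Agent.H42.OPlus
import Cfsg.Agent.S0287

set_option autoImplicit false

/-! Orders of centralisers of involutions in `O⁺_{2m}(q)` and `Ω⁺_{2m}(q)`, `q` even
(helper42). -/

namespace Cfsg.Agent.H42

open Module Matrix Cfsg.Agent.H49

section Abstract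

/-- If an element outside an index-two subgroup centralises `x`, the centraliser of `x` in the
subgroup has half the order. -/
theorem card_cent_half {G : Type*} [Group G] [Finite G] (Ω : Subgroup G) (hidx : Ω.index = 2)
    (x r : G) (hr : r ∉ Ω) (hrx : r * x = x * r) :
    Nat.card {g : G // g * x = x * g} = 2 * Nat.card {g : Ω // (g : G) * x = x * (g : G)} := by
  classical
  have hrx' : r⁻¹ * x = x * r⁻¹ :=
    inv_mul_eq_iff_eq_mul.mpr (by rw [← mul_assoc, hrx, mul_inv_cancel_right])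
  have e1 : {g : G // g * x = x * g} ≃
      {g : {g : G // g * x = x * g} // g.1 ∈ Ω} ⊕ {g : {g : G // g * x = x * g} // ¬ g.1 ∈ Ω} :=
    (Equiv.sumCompl _).symm
  have e2 : {g : {g : G // g * x = x * g} // g.1 ∈ Ω} ≃
      {g : Ω // (g : G) * x = x * (g : G)} :=
    { toFun := fun g => ⟨⟨g.1.1, g.2⟩, g.1.2⟩
      invFun := fun g => ⟨⟨g.1.1, g.2⟩, g.1.2⟩
      left_inv := fun g => rfl
      right_inv := fun g => rfl }
  have e3 : {g : {g : G // g * x = x * g} // ¬ g.1 ∈ Ω} ≃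
      {g : {g : G // g * x = x * g} // g.1 ∈ Ω} :=
    { toFun := fun g => ⟨⟨r * g.1.1, by
          rw [mul_assoc, g.1.2, ← mul_assoc, hrx, mul_assoc]⟩, by
          show r * g.1.1 ∈ Ω
          rw [Subgroup.mul_mem_iff_of_index_two hidx]
          exact ⟨fun h => absurd h hr, fun h => absurd h g.2⟩⟩
      invFun := fun g => ⟨⟨r⁻¹ * g.1.1, by
          rw [mul_assoc, g.1.2, ← mul_assoc, hrx', mul_assoc]⟩, by
          show ¬ r⁻¹ * g.1.1 ∈ Ω
          rw [Subgroup.mul_mem_iff_of_index_two hidx]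
          intro h
          exact hr (Ω.inv_mem_iff.mp (h.mpr g.2))⟩
      left_inv := fun g => by
        apply Subtype.ext
        apply Subtype.ext
        show r⁻¹ * (r * g.1.1) = g.1.1
        rw [inv_mul_cancel_left]
      right_inv := fun g => by
        apply Subtype.ext
        apply Subtype.ext
        show r * (r⁻¹ * g.1.1) = g.1.1
        rw [mul_inv_cancel_left] }
  rw [Nat.card_congr e1, Nat.card_sum, Nat.card_congr e3, Nat.card_congr e2]
  ring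

theorem card_cent_full {G : Type*} [Group G] (Ω : Subgroup G) (x : G)
    (h : ∀ g : G, g * x = x * g → g ∈ Ω) :
    Nat.card {g : Ω // (g : G) * x = x * (g : G)} = Nat.card {g : G // g * x = x * g} :=
  Nat.card_congr
    { toFun := fun g => ⟨g.1.1, g.2⟩
      invFun := fun g => ⟨⟨g.1, h g.1 g.2⟩, g.2⟩
      left_inv := fun g => rfl
      right_inv := fun g => rfl }

end Abstract

section Main

variable {F : Type*} [Field F] [Fintype F] [CharP F 2]

/-- Alternating type: the centraliser order in `O⁺_{2m}(q)`. -/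
theorem card_cent_O_alt {q : ℕ} (hF : Fintype.card F = q) (m : ℕ)
    (a : ↥(Cfsg.isometryGroup F (⇑(QP m F)))) (ha : oMat a * oMat a = 1)
    (halt : ∀ v, QP m F (nOpG (oMat a) v) = 0) :
    ∃ k k' : ℕ, m = 2 * k + k' ∧ (oMat a - 1).rank = 2 * k ∧
      Nat.card {g : ↥(Cfsg.isometryGroup F (⇑(QP m F))) // g * a = a * g} =
        (q ^ (k ^ 2) * ∏ i ∈ Finset.range k, (q ^ (2 * (i + 1)) - 1)) *
          (q ^ (2 * k' * (2 * k) + (2 * k) * (2 * k - 1) / 2) *
            Nat.card ↥(Cfsg.isometryGroup F (Cfsg.quadFormPlus k' F))) := by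
  classical
  have hQ := QP_nondeg m F
  have hsym := pb_symm (QP m F)
  have hnd : ∀ x : Fin m ⊕ Fin m → F,
      (∀ y, QuadraticMap.polarBilin (QP m F) x y = 0) → x = 0 := hQ.1
  have hNa := nOpG_selfadj (QP m F) (oMat a) (oMat_isom a) ha
  have hqa := nOpG_quad (QP m F) (oMat a) (oMat_isom a)
  obtain ⟨k, t, hP⟩ := pres_alt (QuadraticMap.polarBilin (QP m F)) hsym hnd _ hNa
    (fun x => by rw [← hqa]; exact halt x)
  have hrank := pres_finrank _ _ _ Sum.swap_swap t hP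
  rw [Fintype.card_sum, Fintype.card_fin] at hrank
  have hrank' : (oMat a - 1).rank = k + k := hrank
  have hww : ∀ s u, QuadraticMap.polarBilin (QP m F) (nOpG (oMat a) (t s))
      (nOpG (oMat a) (t u)) = 0 := by
    intro s u
    rw [hNa, nOpG_sq _ ha, map_zero]
  have hwt : ∀ s u, QuadraticMap.polarBilin (QP m F) (nOpG (oMat a) (t s))
      (t (Sum.swap u)) = if s = u then 1 else 0 := by
    intro s u
    rw [hP.1]
    simp only [(Function.Involutive.injective Sum.swap_swap).eq_iff]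
  have hcent := card_cent_frame (QP m F) hQ Sum.swap Sum.swap_swap a
    (fun s => nOpG (oMat a) (t s)) (fun s => t (Sum.swap s)) hww hwt hP.2
  obtain ⟨k', hk', hst⟩ := card_stab_ts (k + k) m
    (fun i => nOpG (oMat a) (t (finSumFinEquiv.symm i)))
    (fun i => t (Sum.swap (finSumFinEquiv.symm i)))
    (fun i => halt _) (fun i i' => hww _ _)
    (fun i i' => by
      have h := hwt (finSumFinEquiv.symm i) (finSumFinEquiv.symm i')
      refine h.trans ?_
      simp only [EmbeddingLike.apply_eq_iff_eq])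
  have est : Nat.card {g : ↥(Cfsg.isometryGroup F (⇑(QP m F))) //
      ∀ s, oMat g *ᵥ nOpG (oMat a) (t s) = nOpG (oMat a) (t s)} =
      stabCard (Cfsg.quadFormPlus m F)
        (fun i : Fin (k + k) => nOpG (oMat a) (t (finSumFinEquiv.symm i))) := by
    refine Nat.card_congr (Equiv.subtypeEquivRight (fun g => ?_))
    constructor
    · intro h i
      exact h _
    · intro h s
      have := h (finSumFinEquiv s)
      simp only [Equiv.symm_apply_apply] at this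
      exact this
  refine ⟨k, k', by omega, by omega, ?_⟩
  rw [hcent, card_isom_swap hF k, est, hst, hF]
  have e : k + k = 2 * k := by ring
  rw [e]

/-- Non-alternating type: the centraliser order in `O⁺_{2m}(q)`. -/
theorem card_cent_O_nonalt {q : ℕ} (hF : Fintype.card F = q) (m : ℕ)
    (a : ↥(Cfsg.isometryGroup F (⇑(QP m F)))) (ha : oMat a * oMat a = 1)
    (hna : ¬ ∀ v, QP m F (nOpG (oMat a) v) = 0) :
    ∃ s k : ℕ, m = s + k ∧ 1 ≤ k ∧ (oMat a - 1).rank = s + 1 ∧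
      Nat.card {g : ↥(Cfsg.isometryGroup F (⇑(QP m F))) // g * a = a * g} * q ^ s *
          Nat.card {v : Fin k ⊕ Fin k → F // Cfsg.quadFormPlus k F v = 1} =
        Nat.card {P : Matrix (Fin (s + 1)) (Fin (s + 1)) F // P * 1 * Pᵀ = 1} *
          (q ^ (2 * k * s + s * (s - 1) / 2) *
            Nat.card ↥(Cfsg.isometryGroup F (Cfsg.quadFormPlus k F))) := by
  classical
  have hQ := QP_nondeg m F
  have hsym := pb_symm (QP m F)
  have hnd : ∀ x : Fin m ⊕ Fin m → F,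
      (∀ y, QuadraticMap.polarBilin (QP m F) x y = 0) → x = 0 := hQ.1
  have hNa := nOpG_selfadj (QP m F) (oMat a) (oMat_isom a) ha
  have hqa := nOpG_quad (QP m F) (oMat a) (oMat_isom a)
  have hna' : ∃ x, QuadraticMap.polarBilin (QP m F) (nOpG (oMat a) x) x ≠ 0 := by
    by_contra hcon
    push Not at hcon
    exact hna (fun v => by rw [hqa]; exact hcon v)
  obtain ⟨r, t, hP⟩ := pres_nonalt sq_surj_of_finite (QuadraticMap.polarBilin (QP m F)) hsym hnd
    _ hNa hna'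
  have hrank := pres_finrank _ _ _ (fun x => rfl) t hP
  rw [Fintype.card_fin] at hrank
  have hrank' : (oMat a - 1).rank = r := hrank
  rcases r with _ | s
  · exfalso
    obtain ⟨x₀, hx₀⟩ := hna'
    have h := hP.2 x₀
    simp only [Finset.univ_eq_empty, Finset.sum_empty] at h
    rw [h] at hx₀
    simp at hx₀
  have hww : ∀ i j, QuadraticMap.polarBilin (QP m F) (nOpG (oMat a) (t i))
      (nOpG (oMat a) (t j)) = 0 := by
    intro i j
    rw [hNa, nOpG_sq _ ha, map_zero]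
  have hwt : ∀ i j, QuadraticMap.polarBilin (QP m F) (nOpG (oMat a) (t i)) (t j) =
      if i = j then 1 else 0 := fun i j => hP.1 i j
  have hcent := card_cent_frame (QP m F) hQ id (fun _ => rfl) a
    (fun i => nOpG (oMat a) (t i)) t hww hwt hP.2
  rw [permM_id] at hcent
  have hQw : ∀ i, QP m F (nOpG (oMat a) (t i)) = 1 := by
    intro i
    rw [hqa, hwt, if_pos rfl]
  have hone : (1 : F) + 1 = 0 := CharTwo.add_self_eq_zero 1
  have hwtz : ∀ i, QuadraticMap.polarBilin (QP m F) (nOpG (oMat a) (t i)) (∑ j, t j) = 1 := by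
    intro i
    rw [map_sum]
    simp only [hwt, Finset.sum_ite_eq, Finset.mem_univ, if_true]
  obtain ⟨k, hk, hk1, hst⟩ := card_stab_mixed s m
    (fun i : Fin s => nOpG (oMat a) (t 0) + nOpG (oMat a) (t i.succ))
    (fun i : Fin s => t i.succ) (nOpG (oMat a) (t 0)) (∑ j, t j)
    (fun i => by
      show QP m F (nOpG (oMat a) (t 0) + nOpG (oMat a) (t i.succ)) = 0
      rw [Cfsg.Agent.H7.qf_add, hQw, hQw]
      have h := hww 0 i.succ
      rw [QuadraticMap.polarBilin_apply_apply] at h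
      rw [h, add_zero, hone])
    (hQw 0)
    (fun i i' => by
      show QuadraticMap.polarBilin (QP m F) (nOpG (oMat a) (t 0) + nOpG (oMat a) (t i.succ))
        (nOpG (oMat a) (t 0) + nOpG (oMat a) (t i'.succ)) = 0
      simp only [map_add, LinearMap.add_apply, hww, add_zero])
    (fun i => by
      show QuadraticMap.polarBilin (QP m F) (nOpG (oMat a) (t 0) + nOpG (oMat a) (t i.succ))
        (nOpG (oMat a) (t 0)) = 0
      simp only [map_add, LinearMap.add_apply, hww, add_zero])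
    (fun i i' => by
      show QuadraticMap.polarBilin (QP m F) (nOpG (oMat a) (t 0) + nOpG (oMat a) (t i.succ))
        (t i'.succ) = _
      rw [map_add, LinearMap.add_apply, hwt, hwt, if_neg (Fin.succ_ne_zero i').symm, zero_add]
      simp only [Fin.succ_inj])
    (fun i => by
      show QuadraticMap.polarBilin (QP m F) (nOpG (oMat a) (t 0) + nOpG (oMat a) (t i.succ))
        (∑ j, t j) = 0
      rw [map_add, LinearMap.add_apply, hwtz, hwtz, hone])
    (fun i => by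
      show QuadraticMap.polarBilin (QP m F) (nOpG (oMat a) (t 0)) (t i.succ) = 0
      rw [hwt, if_neg (Fin.succ_ne_zero i).symm])
    (hwtz 0)
  have est : Nat.card {g : ↥(Cfsg.isometryGroup F (⇑(QP m F))) //
      ∀ i, oMat g *ᵥ nOpG (oMat a) (t i) = nOpG (oMat a) (t i)} =
      Nat.card {g : ↥(Cfsg.isometryGroup F (Cfsg.quadFormPlus m F)) //
        (∀ i : Fin s, oMat g *ᵥ (nOpG (oMat a) (t 0) + nOpG (oMat a) (t i.succ)) =
          nOpG (oMat a) (t 0) + nOpG (oMat a) (t i.succ)) ∧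
        oMat g *ᵥ nOpG (oMat a) (t 0) = nOpG (oMat a) (t 0)} := by
    refine Nat.card_congr (Equiv.subtypeEquivRight (fun g => ?_))
    constructor
    · intro h
      refine ⟨fun i => ?_, h 0⟩
      rw [Matrix.mulVec_add, h 0, h i.succ]
    · rintro ⟨h1, h2⟩ i
      refine Fin.cases h2 (fun i' => ?_) i
      have h3 := h1 i'
      rw [Matrix.mulVec_add, h2] at h3
      exact add_left_cancel h3
  refine ⟨s, k, hk, hk1, hrank', ?_⟩
  rw [hcent, est]
  rw [hF] at hst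
  calc Nat.card {P : Matrix (Fin (s + 1)) (Fin (s + 1)) F // P * 1 * Pᵀ = 1} *
        Nat.card {g : ↥(Cfsg.isometryGroup F (Cfsg.quadFormPlus m F)) //
          (∀ i : Fin s, oMat g *ᵥ (nOpG (oMat a) (t 0) + nOpG (oMat a) (t i.succ)) =
            nOpG (oMat a) (t 0) + nOpG (oMat a) (t i.succ)) ∧
          oMat g *ᵥ nOpG (oMat a) (t 0) = nOpG (oMat a) (t 0)} * q ^ s *
        Nat.card {v : Fin k ⊕ Fin k → F // Cfsg.quadFormPlus k F v = 1}
      = Nat.card {P : Matrix (Fin (s + 1)) (Fin (s + 1)) F // P * 1 * Pᵀ = 1} *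
        (Nat.card {g : ↥(Cfsg.isometryGroup F (Cfsg.quadFormPlus m F)) //
          (∀ i : Fin s, oMat g *ᵥ (nOpG (oMat a) (t 0) + nOpG (oMat a) (t i.succ)) =
            nOpG (oMat a) (t 0) + nOpG (oMat a) (t i.succ)) ∧
          oMat g *ᵥ nOpG (oMat a) (t 0) = nOpG (oMat a) (t 0)} * q ^ s *
        Nat.card {v : Fin k ⊕ Fin k → F // Cfsg.quadFormPlus k F v = 1}) := by ring
    _ = _ := by rw [hst]

/-- Non-split involutions: the centraliser in `Ω` has index two in the centraliser in `O`. -/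
theorem omega_half_plus (m : ℕ) (h : Fintype.card F ≠ 2 ∨ m ≠ 2)
    (x : ↥(Cfsg.isometryGroup F (⇑(QP m F)))) (hx : oMat x * oMat x = 1)
    (hty : (¬ ∀ v, QP m F (nOpG (oMat x) v) = 0) ∨ (oMat x - 1).rank < m) :
    Nat.card {g : ↥(Cfsg.isometryGroup F (⇑(QP m F))) // g * x = x * g} =
      2 * Nat.card {g : ↥(Cfsg.Omega F (⇑(QP m F))) //
        (g : ↥(Cfsg.isometryGroup F (⇑(QP m F)))) * x = x * g} := by
  have h2 : (2 : F) = 0 := CharTwo.two_eq_zero
  have hQ := QP_nondeg m F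
  have hV : finrank F (Fin m ⊕ Fin m → F) = 2 * m := finrank_plus m F
  have hex : Fintype.card F ≠ 2 ∨ m ≠ 2 ∨
      ¬ ∃ K : Submodule F (Fin m ⊕ Fin m → F), IsTS (QP m F) K ∧ finrank F K = 2 :=
    h.elim Or.inl (fun h => Or.inr (Or.inl h))
  have htv : ∀ y, oMat x *ᵥ y = y + nOpG (oMat x) y := by
    intro y
    rw [nOpG_apply]
    abel
  have hfix : ∃ w, QP m F w ≠ 0 ∧ oMat x *ᵥ w = w := by
    rcases hty with hna | hrk
    · push Not at hna
      obtain ⟨x₀, hx₀⟩ := hna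
      refine ⟨nOpG (oMat x) x₀, hx₀, ?_⟩
      rw [htv, nOpG_sq _ hx, add_zero]
    · obtain ⟨x₀, hx₀, hxW⟩ := exists_anisotropic_orthogonal (QP m F) hQ
        (LinearMap.range (nOpG (oMat x))) (by
          have : finrank F (LinearMap.range (nOpG (oMat x))) = (oMat x - 1).rank := rfl
          rw [this, hV]
          omega)
      refine ⟨x₀, hx₀, ?_⟩
      have hN0 : nOpG (oMat x) x₀ = 0 := by
        apply hQ.1
        intro y
        rw [nOpG_selfadj (QP m F) (oMat x) (oMat_isom x) hx x₀ y]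
        exact hxW _ (LinearMap.mem_range_self _ y)
      rw [htv, hN0, add_zero]
  obtain ⟨w, hw, hfw⟩ := hfix
  have hidx := index_commutator_char_twox (QP m F) h2 hQ hV hex w hw
  have hr : reflG (QP m F) w ∉ commutator ↥(Cfsg.isometryGroup F (⇑(QP m F))) := by
    rw [commutator_eq_evenSub_twox (QP m F) h2 hQ hV hex]
    exact Cfsg.Agent.H7.reflG_not_mem_evenSub (QP m F) hQ w hw
  exact card_cent_half _ hidx x (reflG (QP m F) w) hr (refl_commute_of_fix (QP m F) x w hfw)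

theorem card_Q_one {q : ℕ} (hF : Fintype.card F = q) (k₁ : ℕ) :
    Nat.card {v : Fin (k₁ + 1) ⊕ Fin (k₁ + 1) → F // Cfsg.quadFormPlus (k₁ + 1) F v = 1} =
      q ^ k₁ * (q ^ (k₁ + 1) - 1) := by
  classical
  have hq : 2 ≤ q := by rw [← hF]; exact Fintype.one_lt_card
  have h := Cfsg.Agent.H7.card_quadFormPlus_eq (F := F) (k₁ + 1) 1
  rw [hF, if_neg one_ne_zero, add_zero, Nat.add_sub_cancel] at h
  have h1 : 1 ≤ q ^ (k₁ + 1) := Nat.one_le_pow _ _ (by omega)
  apply Nat.cast_injective (R := ℤ)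
  rw [h]
  push_cast [Nat.cast_sub h1]
  ring

theorem expo_alt (k k' : ℕ) :
    2 * (2 * k + k') * (2 * k) - (3 * (2 * k) ^ 2 + 2 * k) / 2 =
      2 * k' * (2 * k) + (2 * k) * (2 * k - 1) / 2 := by
  have h1 : (3 * (2 * k) ^ 2 + 2 * k) / 2 = 6 * k * k + k := by
    have : 3 * (2 * k) ^ 2 + 2 * k = 2 * (6 * k * k + k) := by ring
    rw [this, Nat.mul_div_cancel_left _ (by norm_num : 0 < 2)]
  have h2 : (2 * k) * (2 * k - 1) / 2 = k * (2 * k - 1) := by
    rw [Nat.mul_assoc, Nat.mul_div_cancel_left _ (by norm_num : 0 < 2)]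
  rw [h1, h2]
  cases k with
  | zero => simp
  | succ n =>
    have h3 : 2 * (n + 1) - 1 = 2 * n + 1 := by omega
    rw [h3]
    have h4 : 2 * (2 * (n + 1) + k') * (2 * (n + 1)) =
        (6 * (n + 1) * (n + 1) + (n + 1)) + (2 * k' * (2 * (n + 1)) + (n + 1) * (2 * n + 1)) := by
      ring
    rw [h4, Nat.add_sub_cancel_left]

theorem expo_odd (j k₁ : ℕ) :
    2 * (2 * j + (k₁ + 1)) * (2 * j + 1 - 1) - (3 * (2 * j + 1) ^ 2 - 3 * (2 * j + 1)) / 2 +
        k₁ ^ 2 + 2 * j + k₁ =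
      2 * (k₁ + 1) * (2 * j) + (2 * j) * (2 * j - 1) / 2 + (k₁ + 1) * k₁ := by
  have h0 : 2 * j + 1 - 1 = 2 * j := by omega
  have h1 : (3 * (2 * j + 1) ^ 2 - 3 * (2 * j + 1)) / 2 = 6 * j * j + 3 * j := by
    have : 3 * (2 * j + 1) ^ 2 = 2 * (6 * j * j + 3 * j) + 3 * (2 * j + 1) := by ring
    rw [this, Nat.add_sub_cancel, Nat.mul_div_cancel_left _ (by norm_num : 0 < 2)]
  have h2 : (2 * j) * (2 * j - 1) / 2 = j * (2 * j - 1) := by
    rw [Nat.mul_assoc, Nat.mul_div_cancel_left _ (by norm_num : 0 < 2)]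
  have h4 : 2 * (2 * j + (k₁ + 1)) * (2 * j) =
      (6 * j * j + 3 * j) + (2 * j * j + 4 * j * k₁ + j) := by ring
  rw [h0, h1, h2, h4, Nat.add_sub_cancel_left]
  cases j with
  | zero =>
    simp
    ring
  | succ n =>
    have h3 : 2 * (n + 1) - 1 = 2 * n + 1 := by omega
    rw [h3]
    ring

theorem expo_even (j k₁ : ℕ) :
    2 * (2 * j + 1 + (k₁ + 1)) * (2 * j + 1 + 1 - 1) -
          (3 * (2 * j + 1 + 1) ^ 2 - 5 * (2 * j + 1 + 1)) / 2 - 1 + k₁ ^ 2 + k₁ =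
      2 * (k₁ + 1) * (2 * j + 1) + (2 * j + 1) * (2 * j + 1 - 1) / 2 + (k₁ + 1) * k₁ := by
  have h0 : 2 * j + 1 + 1 - 1 = 2 * j + 1 := by omega
  have h0' : 2 * j + 1 - 1 = 2 * j := by omega
  have h1 : (3 * (2 * j + 1 + 1) ^ 2 - 5 * (2 * j + 1 + 1)) / 2 = 6 * j * j + 7 * j + 1 := by
    have : 3 * (2 * j + 1 + 1) ^ 2 = 2 * (6 * j * j + 7 * j + 1) + 5 * (2 * j + 1 + 1) := by ring
    rw [this, Nat.add_sub_cancel, Nat.mul_div_cancel_left _ (by norm_num : 0 < 2)]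
  have h2 : (2 * j + 1) * (2 * j) / 2 = (2 * j + 1) * j := by
    have : (2 * j + 1) * (2 * j) = 2 * ((2 * j + 1) * j) := by ring
    rw [this, Nat.mul_div_cancel_left _ (by norm_num : 0 < 2)]
  have h4 : 2 * (2 * j + 1 + (k₁ + 1)) * (2 * j + 1) =
      (6 * j * j + 7 * j + 1) + ((2 * j * j + 4 * j * k₁ + 5 * j + 2 * k₁ + 2) + 1) := by ring
  rw [h0, h0', h1, h2, h4, Nat.add_sub_cancel_left, Nat.add_sub_cancel]
  ring

/-- Non-alternating type: the centraliser order in `Ω⁺_{2m}(q)` (common part). -/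
theorem card_cent_omega_nonalt {q : ℕ} (hF : Fintype.card F = q) {m : ℕ}
    (h : Fintype.card F ≠ 2 ∨ m ≠ 2)
    (x : ↥(Cfsg.isometryGroup F (⇑(QP m F)))) (ha : oMat x * oMat x = 1)
    (hna : ¬ ∀ v, QP m F (nOpG (oMat x) v) = 0) :
    ∃ s k₁ : ℕ, m = s + (k₁ + 1) ∧ (oMat x - 1).rank = s + 1 ∧
      Nat.card {g : ↥(Cfsg.Omega F (⇑(QP m F))) //
          (g : ↥(Cfsg.isometryGroup F (⇑(QP m F)))) * x = x * g} * q ^ s * q ^ k₁ =
        Nat.card {P : Matrix (Fin (s + 1)) (Fin (s + 1)) F // P * 1 * Pᵀ = 1} *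
          (q ^ (2 * (k₁ + 1) * s + s * (s - 1) / 2 + (k₁ + 1) * k₁) *
            ∏ i ∈ Finset.range k₁, (q ^ (2 * (i + 1)) - 1)) := by
  have hq : 2 ≤ q := by rw [← hF]; exact Fintype.one_lt_card
  obtain ⟨s, k, hm, hk1, hrk, hC⟩ := card_cent_O_nonalt hF m x ha hna
  obtain ⟨k₁, rfl⟩ : ∃ k₁, k = k₁ + 1 := ⟨k - 1, by omega⟩
  refine ⟨s, k₁, hm, hrk, ?_⟩
  have hhalf := omega_half_plus m h x ha (Or.inl hna)
  have h287 := Cfsg.Agent.S0287.result hF (k₁ + 1) (by omega)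
  simp only [Nat.add_sub_cancel] at h287
  rw [hhalf, card_Q_one hF k₁, h287] at hC
  have hA : 0 < q ^ (k₁ + 1) - 1 := by
    have : 1 < q ^ (k₁ + 1) := Nat.one_lt_pow (Nat.succ_ne_zero k₁) (by omega)
    omega
  apply Nat.eq_of_mul_eq_mul_left (show 0 < 2 * (q ^ (k₁ + 1) - 1) by positivity)
  calc 2 * (q ^ (k₁ + 1) - 1) * (Nat.card {g : ↥(Cfsg.Omega F (⇑(QP m F))) //
          (g : ↥(Cfsg.isometryGroup F (⇑(QP m F)))) * x = x * g} * q ^ s * q ^ k₁)
      = 2 * Nat.card {g : ↥(Cfsg.Omega F (⇑(QP m F))) //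
          (g : ↥(Cfsg.isometryGroup F (⇑(QP m F)))) * x = x * g} * q ^ s *
          (q ^ k₁ * (q ^ (k₁ + 1) - 1)) := by ring
    _ = _ := hC
    _ = _ := by
      rw [pow_add]
      ring

omit [Fintype F] [CharP F 2] in
theorem oMat_sq_of_pow {m : ℕ} (x : ↥(Cfsg.isometryGroup F (Cfsg.quadFormPlus m F)))
    (hx : x ^ 2 = 1) : oMat x * oMat x = 1 := by
  rw [sq] at hx
  rw [← oMat_mul, hx, oMat_one]

/-- Type `b_s` (`s` odd): centraliser order in `Ω⁺_{2m}(q)`, `q` even. -/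
theorem card_cent_omega_odd {q : ℕ} (hF : Fintype.card F = q) {m s : ℕ} (h : Fintype.card F ≠ 2 ∨ m ≠ 2) (x : ↥(Cfsg.isometryGroup F (Cfsg.quadFormPlus m F))) (hx : x ^ 2 = 1) (hs : (((x : Matrix.GeneralLinearGroup (Fin m ⊕ Fin m) F) : Matrix (Fin m ⊕ Fin m) (Fin m ⊕ Fin m) F) - 1).rank = s) (hodd : Odd s) : Nat.card {g : ↥(Cfsg.Omega F (Cfsg.quadFormPlus m F)) // (g : ↥(Cfsg.isometryGroup F (Cfsg.quadFormPlus m F))) * x = x * (g : ↥(Cfsg.isometryGroup F (Cfsg.quadFormPlus m F)))} = q ^ (2 * m * (s - 1) - (3 * s ^ 2 - 3 * s) / 2) * ((q : ℕ) ^ (((s - 1) / 2) ^ 2) * ∏ i : Fin ((s - 1) / 2), (q ^ (2 * ((i : ℕ) + 1)) - 1)) * ((q : ℕ) ^ ((m - s) ^ 2) * ∏ i : Fin (m - s), (q ^ (2 * ((i : ℕ) + 1)) - 1)) := by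
  have hq : 2 ≤ q := by rw [← hF]; exact Fintype.one_lt_card
  have ha := oMat_sq_of_pow x hx
  have hna : ¬ ∀ v, QP m F (nOpG (oMat x) v) = 0 := by
    intro halt
    have := o_even_rank_of_alt (QP m F) (QP_nondeg m F) x ha halt
    rw [show (oMat x - 1).rank = s from hs] at this
    exact (Nat.not_even_iff_odd.mpr hodd) this
  obtain ⟨s', k₁, hm, hrk, hC⟩ := card_cent_omega_nonalt hF h x ha hna
  have hs' : s = s' + 1 := by rw [← hs]; exact hrk
  obtain ⟨j, hj⟩ : ∃ j, s' = 2 * j := by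
    obtain ⟨c, hc⟩ := hodd
    exact ⟨c, by omega⟩
  subst hj
  subst hs'
  subst hm
  rw [card_isom_one_odd hF j] at hC
  rw [Fin.prod_univ_eq_prod_range (fun i => q ^ (2 * (i + 1)) - 1) ((2 * j + 1 - 1) / 2),
    Fin.prod_univ_eq_prod_range (fun i => q ^ (2 * (i + 1)) - 1)
      (2 * j + (k₁ + 1) - (2 * j + 1))]
  have e1 : (2 * j + 1 - 1) / 2 = j := by omega
  have e2 : 2 * j + (k₁ + 1) - (2 * j + 1) = k₁ := by omega
  rw [e1, e2]
  have hE := expo_odd j k₁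
  generalize (2 * (2 * j + (k₁ + 1)) * (2 * j + 1 - 1) -
    (3 * (2 * j + 1) ^ 2 - 3 * (2 * j + 1)) / 2) = T at hE ⊢
  apply Nat.eq_of_mul_eq_mul_right (show 0 < q ^ (2 * j) * q ^ k₁ by positivity)
  calc Nat.card {g : ↥(Cfsg.Omega F (Cfsg.quadFormPlus (2 * j + (k₁ + 1)) F)) //
          (g : ↥(Cfsg.isometryGroup F (Cfsg.quadFormPlus (2 * j + (k₁ + 1)) F))) * x = x * g} *
        (q ^ (2 * j) * q ^ k₁)
      = Nat.card {g : ↥(Cfsg.Omega F (Cfsg.quadFormPlus (2 * j + (k₁ + 1)) F)) //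
          (g : ↥(Cfsg.isometryGroup F (Cfsg.quadFormPlus (2 * j + (k₁ + 1)) F))) * x = x * g} *
        q ^ (2 * j) * q ^ k₁ := by ring
    _ = _ := hC
    _ = _ := by
      rw [← hE]
      ring

/-- Type `c_s` (`s` even, non-alternating): centraliser order in `Ω⁺_{2m}(q)`, `q` even. -/
theorem card_cent_omega_even_nonalt {q : ℕ} (hF : Fintype.card F = q) {m s : ℕ} (h : Fintype.card F ≠ 2 ∨ m ≠ 2) (x : ↥(Cfsg.isometryGroup F (Cfsg.quadFormPlus m F))) (hx : x ^ 2 = 1) (hs : (((x : Matrix.GeneralLinearGroup (Fin m ⊕ Fin m) F) : Matrix (Fin m ⊕ Fin m) (Fin m ⊕ Fin m) F) - 1).rank = s) (heven : Even s) (hna : ∃ v : Fin m ⊕ Fin m → F, Cfsg.quadFormPlus m F ((((x : Matrix.GeneralLinearGroup (Fin m ⊕ Fin m) F) : Matrix (Fin m ⊕ Fin m) (Fin m ⊕ Fin m) F) - 1).mulVec v) ≠ 0) : Nat.card {g : ↥(Cfsg.Omega F (Cfsg.quadFormPlus m F)) // (g : ↥(Cfsg.isometryGroup F (Cfsg.quadFormPlus m F))) * x = x * (g : ↥(Cfsg.isometryGroup F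 (Cfsg.quadFormPlus m F)))} = q ^ (2 * m * (s - 1) - (3 * s ^ 2 - 5 * s) / 2 - 1) * ((q : ℕ) ^ (((s - 2) / 2) ^ 2) * ∏ i : Fin ((s - 2) / 2), (q ^ (2 * ((i : ℕ) + 1)) - 1)) * ((q : ℕ) ^ ((m - s) ^ 2) * ∏ i : Fin (m - s), (q ^ (2 * ((i : ℕ) + 1)) - 1)) := by
  have hq : 2 ≤ q := by rw [← hF]; exact Fintype.one_lt_card
  have ha := oMat_sq_of_pow x hx
  have hna' : ¬ ∀ v, QP m F (nOpG (oMat x) v) = 0 := by
    intro hall
    obtain ⟨v, hv⟩ := hna
    exact hv (hall v)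
  obtain ⟨s', k₁, hm, hrk, hC⟩ := card_cent_omega_nonalt hF h x ha hna'
  have hs' : s = s' + 1 := by rw [← hs]; exact hrk
  obtain ⟨j, hj⟩ : ∃ j, s' = 2 * j + 1 := by
    obtain ⟨c, hc⟩ := heven
    exact ⟨c - 1, by omega⟩
  subst hj
  subst hs'
  subst hm
  have hI : Nat.card {P : Matrix (Fin (2 * j + 1 + 1)) (Fin (2 * j + 1 + 1)) F //
      P * 1 * Pᵀ = 1} =
      q ^ (2 * (j + 1) - 1) * (q ^ (j ^ 2) * ∏ i ∈ Finset.range j, (q ^ (2 * (i + 1)) - 1)) :=
    card_isom_one_even hF j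
  have e3 : 2 * (j + 1) - 1 = 2 * j + 1 := by omega
  rw [hI, e3] at hC
  rw [Fin.prod_univ_eq_prod_range (fun i => q ^ (2 * (i + 1)) - 1) ((2 * j + 1 + 1 - 2) / 2),
    Fin.prod_univ_eq_prod_range (fun i => q ^ (2 * (i + 1)) - 1)
      (2 * j + 1 + (k₁ + 1) - (2 * j + 1 + 1))]
  have e1 : (2 * j + 1 + 1 - 2) / 2 = j := by omega
  have e2 : 2 * j + 1 + (k₁ + 1) - (2 * j + 1 + 1) = k₁ := by omega
  rw [e1, e2]
  have hE := expo_even j k₁
  generalize (2 * (2 * j + 1 + (k₁ + 1)) * (2 * j + 1 + 1 - 1) -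
    (3 * (2 * j + 1 + 1) ^ 2 - 5 * (2 * j + 1 + 1)) / 2 - 1) = T at hE ⊢
  apply Nat.eq_of_mul_eq_mul_right (show 0 < q ^ (2 * j + 1) * q ^ k₁ by positivity)
  calc Nat.card {g : ↥(Cfsg.Omega F (Cfsg.quadFormPlus (2 * j + 1 + (k₁ + 1)) F)) //
          (g : ↥(Cfsg.isometryGroup F (Cfsg.quadFormPlus (2 * j + 1 + (k₁ + 1)) F))) * x =
            x * g} * (q ^ (2 * j + 1) * q ^ k₁)
      = Nat.card {g : ↥(Cfsg.Omega F (Cfsg.quadFormPlus (2 * j + 1 + (k₁ + 1)) F)) //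
          (g : ↥(Cfsg.isometryGroup F (Cfsg.quadFormPlus (2 * j + 1 + (k₁ + 1)) F))) * x =
            x * g} * q ^ (2 * j + 1) * q ^ k₁ := by ring
    _ = _ := hC
    _ = _ := by
      rw [← hE]
      ring

/-- Type `a_s` (`s` even, alternating): centraliser order in `Ω⁺_{2m}(q)`, `q` even. -/
theorem card_cent_omega_alt {q : ℕ} (hF : Fintype.card F = q) {m s : ℕ} (h : Fintype.card F ≠ 2 ∨ m ≠ 2) (x : ↥(Cfsg.isometryGroup F (Cfsg.quadFormPlus m F))) (hx : x ^ 2 = 1) (hs : (((x : Matrix.GeneralLinearGroup (Fin m ⊕ Fin m) F) : Matrix (Fin m ⊕ Fin m) (Fin m ⊕ Fin m) F) - 1).rank = s) (halt : ∀ v : Fin m ⊕ Fin m → F, Cfsg.quadFormPlus m F ((((x : Matrix.GeneralLinearGroup (Fin m ⊕ Fin m) F) : Matrix (Fin m ⊕ Fin m) (Fin m ⊕ Fin m) F) - 1).mulVec v) = 0) : Nat.card {g : ↥(Cfsg.Omega F (Cfsg.quadFormPlus m F)) // (g : ↥(Cfsg.isometryGroup F (Cfsg.quadFormPlus m F))) * x = x * (g : ↥(Cfsg.isometryGroup F (Cfsg.quadFormPlus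 m F)))} = q ^ (2 * m * s - (3 * s ^ 2 + s) / 2) * ((q : ℕ) ^ ((s / 2) ^ 2) * ∏ i : Fin (s / 2), (q ^ (2 * ((i : ℕ) + 1)) - 1)) * (if s = m then 1 else q ^ ((m - s) * (m - s - 1)) * (q ^ (m - s) - 1) * ∏ i : Fin (m - s - 1), (q ^ (2 * ((i : ℕ) + 1)) - 1)) := by
  have hq : 2 ≤ q := by rw [← hF]; exact Fintype.one_lt_card
  have ha := oMat_sq_of_pow x hx
  have halt' : ∀ v, QP m F (nOpG (oMat x) v) = 0 := halt
  obtain ⟨k, k', hm, hrk, hC⟩ := card_cent_O_alt hF m x ha halt'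
  have hs' : s = 2 * k := by rw [← hs]; exact hrk
  subst hs'
  subst hm
  rw [Fin.prod_univ_eq_prod_range (fun i => q ^ (2 * (i + 1)) - 1) (2 * k / 2)]
  have e1 : 2 * k / 2 = k := by omega
  rw [e1, expo_alt k k']
  by_cases hk' : k' = 0
  · subst hk'
    rw [if_pos (by omega)]
    have hfull := card_cent_full (Cfsg.Omega F (⇑(QP (2 * k + 0) F))) x
      (fun g hg => omega_centralizer_split (QP (2 * k + 0) F) CharTwo.two_eq_zero
        (QP_nondeg (2 * k + 0) F) (finrank_plus (2 * k + 0) F) h x g halt'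
        (by rw [hrk]; omega) hg)
    refine hfull.trans ?_
    rw [hC, Cfsg.Agent.H7.card_isometry_plus_zero]
    ring
  · rw [if_neg (by omega)]
    have hhalf := omega_half_plus (2 * k + k') h x ha (Or.inr (by rw [hrk]; omega))
    have h287 := Cfsg.Agent.S0287.result hF k' (by omega)
    rw [Fin.prod_univ_eq_prod_range (fun i => q ^ (2 * (i + 1)) - 1) (2 * k + k' - 2 * k - 1)]
    have e2 : 2 * k + k' - 2 * k = k' := by omega
    rw [e2]
    rw [hhalf, h287] at hC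
    apply Nat.eq_of_mul_eq_mul_left (show 0 < 2 by norm_num)
    refine hC.trans ?_
    ring

end Main

end Cfsg.Agent.H42
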