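import Mathlib
import Cfsg.Prelude.Def_Classical
import Cfsg.Prelude.Def_GeometricClasses
import Cfsg.Agent.H42.OCMain
import Cfsg.Agent.H49.GeoGlue
import Cfsg.Agent.H49.Count
import Cfsg.Agent.H49.Levi

set_option autoImplicit false

/-! Elements of prime order of `Ω⁺_{2d}(q)`, `q` even, and fixed nonsingular 1-spaces
(helper42). -/

namespace Cfsg.Agent.H42

open Module Matrix Cfsg.Agent.H49

section Lines

variable {F : Type*} [Field F] [Fintype F] {ι : Type} [Fintype ι] [DecidableEq ι]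

/-- Nonsingular lines versus nonsingular vectors. -/
theorem card_nonsing_lines (Qf : (ι → F) → F)
    (hsmul : ∀ (c : F) (v : ι → F), Qf (c • v) = c ^ 2 * Qf v) :
    Nat.card {W : Submodule F (ι → F) // finrank F ↥W = 1 ∧ ∃ v ∈ W, Qf v ≠ 0} *
        (Fintype.card F - 1) = Nat.card {v : ι → F // Qf v ≠ 0} := by
  classical
  have hQ0 : Qf 0 = 0 := by
    have := hsmul 0 0
    simpa using this
  have hne : ∀ v, Qf v ≠ 0 → v ≠ 0 := fun v hv h0 => hv (h0 ▸ hQ0)
  let φ : {v : ι → F // Qf v ≠ 0} →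
      {W : Submodule F (ι → F) // finrank F ↥W = 1 ∧ ∃ v ∈ W, Qf v ≠ 0} :=
    fun v => ⟨F ∙ v.1, finrank_span_singleton (hne _ v.2), v.1,
      Submodule.mem_span_singleton_self _, v.2⟩
  letI : Fintype {W : Submodule F (ι → F) // finrank F ↥W = 1 ∧ ∃ v ∈ W, Qf v ≠ 0} :=
    Fintype.ofFinite _
  rw [← Nat.card_congr (Equiv.sigmaFiberEquiv φ), Nat.card_sigma]
  have hfib : ∀ W, Nat.card {v // φ v = W} = Fintype.card F - 1 := by
    rintro ⟨W, h1, v₀, hv₀W, hv₀⟩
    have hv₀ne := hne v₀ hv₀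
    have hW : W = F ∙ v₀ := by
      symm
      apply Submodule.eq_of_le_of_finrank_eq
      · rwa [Submodule.span_singleton_le_iff_mem]
      · rw [finrank_span_singleton hv₀ne, h1]
    rw [← Fintype.card_units, ← Nat.card_eq_fintype_card]
    symm
    refine Nat.card_congr (Equiv.ofBijective (fun c : Fˣ => ⟨⟨(c : F) • v₀, by
      rw [hsmul]; exact mul_ne_zero (pow_ne_zero _ c.ne_zero) hv₀⟩, ?_⟩) ⟨?_, ?_⟩)
    · apply Subtype.ext
      show F ∙ ((c : F) • v₀) = W
      rw [hW]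
      exact Submodule.span_singleton_smul_eq c.isUnit v₀
    · intro c c' h
      have h1 : (c : F) • v₀ = (c' : F) • v₀ := congrArg (fun z => (z.1.1 : ι → F)) h
      exact Units.ext (smul_left_injective F hv₀ne h1)
    · rintro ⟨⟨v, hv⟩, hvW⟩
      have hvW' : F ∙ v = W := congrArg Subtype.val hvW
      have hmem : v ∈ F ∙ v₀ := by
        rw [← hW, ← hvW']
        exact Submodule.mem_span_singleton_self _
      obtain ⟨c, rfl⟩ := Submodule.mem_span_singleton.1 hmem
      have hc : c ≠ 0 := by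
        rintro rfl
        apply hv
        rw [zero_smul]; exact hQ0
      exact ⟨Units.mk0 c hc, rfl⟩
  simp only [hfib]
  rw [Finset.sum_const, Finset.card_univ, smul_eq_mul, Nat.card_eq_fintype_card]

omit [Fintype F] in
/-- A matrix fixes a nonsingular line iff it has a nonsingular eigenvector. -/
theorem ns_line_iff (Qf : (ι → F) → F) (hQ0 : Qf 0 = 0) (M : Matrix ι ι F) :
    (∃ W : Submodule F (ι → F), (finrank F ↥W = 1 ∧ ∃ v ∈ W, Qf v ≠ 0) ∧
      W.map (Matrix.toLin' M) ≤ W) ↔ ∃ (v : ι → F) (c : F), Qf v ≠ 0 ∧ M *ᵥ v = c • v := by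
  have hne : ∀ v, Qf v ≠ 0 → v ≠ 0 := fun v hv h0 => hv (h0 ▸ hQ0)
  constructor
  · rintro ⟨W, ⟨h1, v, hvW, hv⟩, hmap⟩
    have hW : F ∙ v = W := by
      apply Submodule.eq_of_le_of_finrank_eq
      · rwa [Submodule.span_singleton_le_iff_mem]
      · rw [finrank_span_singleton (hne v hv), h1]
    have hmem : M *ᵥ v ∈ F ∙ v := by
      rw [hW]
      apply hmap
      exact ⟨v, hvW, Matrix.toLin'_apply M v⟩
    obtain ⟨c, hc⟩ := Submodule.mem_span_singleton.1 hmem
    exact ⟨v, c, hv, hc.symm⟩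
  · rintro ⟨v, c, hv, hc⟩
    refine ⟨F ∙ v, ⟨finrank_span_singleton (hne v hv), v, Submodule.mem_span_singleton_self _,
      hv⟩, ?_⟩
    rw [Submodule.map_le_iff_le_comap, Submodule.span_singleton_le_iff_mem, Submodule.mem_comap,
      Matrix.toLin'_apply, hc]
    exact Submodule.smul_mem _ _ (Submodule.mem_span_singleton_self _)

end Lines

section FieldMat

variable {F : Type*} [Field F] [Fintype F]

/-- A matrix of order dividing `r` with at most one eigenvalue in `F` and no fixed vectors,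
from multiplication by an element of order `r` in the extension of degree `d`. -/
theorem exists_fpf_matrix [CharP F 2] {q : ℕ} (hq : Fintype.card F = q) (d : ℕ) (hd : 0 < d)
    (r : ℕ) (hr : r.Prime) (hdiv : r ∣ q ^ d - 1) :
    ∃ g : Matrix (Fin d) (Fin d) F, g ^ r = 1 ∧
      (∀ (μ ν : F) (w w' : Fin d → F), w ≠ 0 → w' ≠ 0 → g *ᵥ w = μ • w → g *ᵥ w' = ν • w' →
        μ = ν) ∧
      (∀ w : Fin d → F, g *ᵥ w = w → w = 0) := by
  classical
  have : NeZero d := ⟨hd.ne'⟩
  have : Fact (Nat.Prime 2) := ⟨Nat.prime_two⟩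
  let L := FiniteField.Extension F 2 d
  letI : Fintype L := Fintype.ofFinite L
  have hcardL : Fintype.card L = q ^ d := by
    rw [Fintype.card_eq_nat_card, FiniteField.natCard_extension, Nat.card_eq_fintype_card, hq]
  have : Fact r.Prime := ⟨hr⟩
  obtain ⟨ζ, hζ⟩ := exists_prime_orderOf_dvd_card (G := Lˣ) r (by
    rw [Fintype.card_units, hcardL]; exact hdiv)
  let b : Basis (Fin d) F L := Module.finBasisOfFinrankEq F L (FiniteField.finrank_extension F 2 d)
  have key : ∀ (μ : F) (w : Fin d → F), w ≠ 0 →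
      Algebra.leftMulMatrix b (ζ : L) *ᵥ w = μ • w → (ζ : L) = algebraMap F L μ := by
    intro μ w hw h
    set y : L := b.equivFun.symm w with hy
    have hwy : w = ⇑(b.repr y) := by
      rw [hy, ← Basis.equivFun_apply, LinearEquiv.apply_symm_apply]
    have hy0 : y ≠ 0 := by
      intro h0
      apply hw
      rw [hwy, h0, map_zero]
      rfl
    rw [hwy, Algebra.leftMulMatrix_mulVec_repr] at h
    have h2 : b.repr ((ζ : L) * y) = b.repr (μ • y) := by
      apply DFunLike.coe_injective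
      rw [h, map_smul]
      rfl
    have h3 : (ζ : L) * y = μ • y := b.repr.injective h2
    rw [Algebra.smul_def] at h3
    exact mul_right_cancel₀ hy0 h3
  refine ⟨Algebra.leftMulMatrix b (ζ : L), ?_, ?_, ?_⟩
  · rw [← map_pow, ← Units.val_pow_eq_pow_val, ← hζ, pow_orderOf_eq_one, Units.val_one, map_one]
  · intro μ ν w w' hw hw' h h'
    have h1 := key μ w hw h
    have h2 := key ν w' hw' h'
    exact (algebraMap F L).injective (h1.symm.trans h2)
  · intro w h
    by_contra hw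
    have h1 := key 1 w hw (by rw [h, one_smul])
    rw [map_one] at h1
    have h2 : ζ = 1 := Units.ext h1
    rw [h2, orderOf_one] at hζ
    exact hr.one_lt.ne hζ

end FieldMat

section Plus

variable {F : Type*} [Field F] [Fintype F] [CharP F 2]

omit [Fintype F] in
/-- In characteristic two, `z ^ 2 = 1` forces `z = 1`. -/
theorem sq_eq_one_char2 (z : F) (h : z ^ 2 = 1) : z = 1 := by
  have h1 : (z + 1) ^ 2 = 0 := by rw [CharTwo.add_sq, h, one_pow, CharTwo.add_self_eq_zero]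
  have h2 : z + 1 = 0 := (pow_eq_zero_iff (two_ne_zero)).1 h1
  exact CharTwo.add_eq_zero.1 h2

omit [Fintype F] [CharP F 2] in
theorem plus_ns_vec {d : ℕ} (hd : 1 ≤ d) :
    ∃ v : Fin d ⊕ Fin d → F, Cfsg.quadFormPlus d F v = 1 :=
  ⟨eP (⟨0, hd⟩ : Fin d) + fP (⟨0, hd⟩ : Fin d), QP_eP_add_fP _⟩

/-- An involution of `O⁺_{2d}(q)`, `q` even, `d` odd, fixes a nonsingular vector. -/
theorem plus_inv_fix {d : ℕ} (hd : 1 ≤ d) (hodd : Odd d)
    (a : ↥(Cfsg.isometryGroup F (Cfsg.quadFormPlus d F))) (z : F)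
    (hz : oMat a * oMat a = z • (1 : Matrix (Fin d ⊕ Fin d) (Fin d ⊕ Fin d) F)) (hne : a ≠ 1) :
    ∃ (v : Fin d ⊕ Fin d → F) (c : F), Cfsg.quadFormPlus d F v ≠ 0 ∧ oMat a *ᵥ v = c • v := by
  have hQ := QP_nondeg d F
  have hV : finrank F (Fin d ⊕ Fin d → F) = 2 * d := finrank_plus d F
  have hcard : Fintype.card (Fin d ⊕ Fin d) = 2 * d := by
    rw [Fintype.card_sum, Fintype.card_fin]
    ring
  have hz1 : z = 1 := by
    obtain ⟨v, hv⟩ := plus_ns_vec (F := F) hd
    apply sq_eq_one_char2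
    have h1 : Cfsg.quadFormPlus d F (oMat a *ᵥ (oMat a *ᵥ v)) = 1 := by
      rw [oMat_isom (Qf := Cfsg.quadFormPlus d F) a, oMat_isom (Qf := Cfsg.quadFormPlus d F) a, hv]
    rw [Matrix.mulVec_mulVec, hz, Matrix.smul_mulVec, Matrix.one_mulVec] at h1
    have h2 : QP d F (z • v) = (z * z) • QP d F v := QuadraticMap.map_smul _ _ _
    have h3 : QP d F v = 1 := hv
    have h4 : QP d F (z • v) = 1 := h1
    rw [h3, h4, smul_eq_mul, mul_one] at h2
    rw [sq, ← h2]
  rw [hz1, one_smul] at hz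
  have htv : ∀ y, oMat a *ᵥ y = y + nOpG (oMat a) y := by
    intro y
    rw [nOpG_apply]
    abel
  have hty : (¬ ∀ v, QP d F (nOpG (oMat a) v) = 0) ∨ (oMat a - 1).rank < d := by
    by_cases halt : ∀ v, QP d F (nOpG (oMat a) v) = 0
    · right
      have h1 := o_even_rank_of_alt (QP d F) hQ a hz halt
      have h2 := (o_rank_bounds d hcard a hz hne).2
      rcases h1 with ⟨k, hk⟩
      rcases hodd with ⟨l, hl⟩
      omega
    · exact Or.inl halt
  have hfix : ∃ w, QP d F w ≠ 0 ∧ oMat a *ᵥ w = w := by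
    rcases hty with hna | hrk
    · push Not at hna
      obtain ⟨x₀, hx₀⟩ := hna
      refine ⟨nOpG (oMat a) x₀, hx₀, ?_⟩
      rw [htv, nOpG_sq _ hz, add_zero]
    · obtain ⟨x₀, hx₀, hxW⟩ := exists_anisotropic_orthogonal (QP d F) hQ
        (LinearMap.range (nOpG (oMat a))) (by
          have : finrank F (LinearMap.range (nOpG (oMat a))) = (oMat a - 1).rank := rfl
          rw [this, hV]
          omega)
      refine ⟨x₀, hx₀, ?_⟩
      have hN0 : nOpG (oMat a) x₀ = 0 := by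
        apply hQ.1
        intro y
        rw [nOpG_selfadj (QP d F) (oMat a) (oMat_isom a) hz x₀ y]
        exact hxW _ (LinearMap.mem_range_self _ y)
      rw [htv, hN0, add_zero]
  obtain ⟨w, hw, hfw⟩ := hfix
  exact ⟨w, 1, hw, by rw [hfw, one_smul]⟩

/-- For `d` even there is an involution in `Ω⁺_{2d}(q)`, `q` even, without nonsingular
eigenvectors. -/
theorem plus_inv_nofix {d : ℕ} (hd : 4 ≤ d) (heven : Even d) :
    ∃ a : ↥(Cfsg.isometryGroup F (Cfsg.quadFormPlus d F)),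
      a ∈ Cfsg.Omega F (Cfsg.quadFormPlus d F) ∧ a ^ 2 = 1 ∧
      ¬ ∃ (v : Fin d ⊕ Fin d → F) (c : F), Cfsg.quadFormPlus d F v ≠ 0 ∧
        oMat a *ᵥ v = c • v := by
  have h2 : (2 : F) = 0 := CharTwo.two_eq_zero
  have hQ := QP_nondeg d F
  have hV : finrank F (Fin d ⊕ Fin d → F) = 2 * d := finrank_plus d F
  have hex : Fintype.card F ≠ 2 ∨ d ≠ 2 ∨
      ¬ ∃ K : Submodule F (Fin d ⊕ Fin d → F), IsTS (QP d F) K ∧ finrank F K = 2 :=
    Or.inr (Or.inl (by omega))
  obtain ⟨a, ho, hrk, halt⟩ := oplus_exists_alt (F := F) (m := d) (d / 2) (by omega) (by omega)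
  have hrk' : (oMat a - 1).rank = d := by
    rw [hrk]
    obtain ⟨k, hk⟩ := heven
    omega
  have hsq : a ^ 2 = 1 := by rw [← ho]; exact pow_orderOf_eq_one a
  have hz : oMat a * oMat a = 1 := by
    rw [← oMat_mul, ← sq, hsq, oMat_one]
  refine ⟨a, ?_, hsq, ?_⟩
  · exact (mem_commutator_iff_even_rank_twox (QP d F) h2 hQ hV hex (by omega) a).2
      (by rw [hrk]; exact even_two_mul _)
  · rintro ⟨v, c, hv, hc⟩
    have hv0 : v ≠ 0 := by
      rintro rfl
      apply hv
      simp [Cfsg.quadFormPlus]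
    have hc1 : c = 1 := by
      apply sq_eq_one_char2
      have h1 : oMat a *ᵥ (oMat a *ᵥ v) = v := by
        rw [Matrix.mulVec_mulVec, hz, Matrix.one_mulVec]
      rw [hc, Matrix.mulVec_smul, hc, smul_smul] at h1
      have h3 : (c * c - 1) • v = 0 := by rw [sub_smul, h1, one_smul, sub_self]
      rcases smul_eq_zero.1 h3 with h4 | h4
      · rw [sq]
        exact sub_eq_zero.1 h4
      · exact absurd h4 hv0
    rw [hc1, one_smul] at hc
    have hker : v ∈ LinearMap.ker (nOpG (oMat a)) := by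
      rw [LinearMap.mem_ker, nOpG_apply, hc, sub_self]
    have hle : LinearMap.range (nOpG (oMat a)) ≤ LinearMap.ker (nOpG (oMat a)) := by
      rintro _ ⟨u, rfl⟩
      rw [LinearMap.mem_ker]
      exact nOpG_sq _ hz u
    have hrange : finrank F (LinearMap.range (nOpG (oMat a))) = d := hrk'
    have hrn := LinearMap.finrank_range_add_finrank_ker (nOpG (oMat a))
    rw [hV, hrange] at hrn
    have heq : LinearMap.range (nOpG (oMat a)) = LinearMap.ker (nOpG (oMat a)) :=
      Submodule.eq_of_le_of_finrank_eq hle (by rw [hrange]; omega)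
    rw [← heq] at hker
    obtain ⟨u, rfl⟩ := hker
    exact hv (halt u)

/-- For an odd prime `r` dividing `q ^ d - 1` there is an element of order `r` in
`Ω⁺_{2d}(q)`, `q` even, without nonsingular eigenvectors. -/
theorem plus_odd_nofix {q : ℕ} (hq : Fintype.card F = q) {d : ℕ} (hd : 4 ≤ d) (r : ℕ)
    (hr : r.Prime) (hr2 : r ≠ 2) (hdiv : r ∣ q ^ d - 1) :
    ∃ a : ↥(Cfsg.isometryGroup F (Cfsg.quadFormPlus d F)),
      a ∈ Cfsg.Omega F (Cfsg.quadFormPlus d F) ∧ a ^ r = 1 ∧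
      ¬ ∃ (v : Fin d ⊕ Fin d → F) (c : F), Cfsg.quadFormPlus d F v ≠ 0 ∧
        oMat a *ᵥ v = c • v := by
  classical
  have h2 : (2 : F) = 0 := CharTwo.two_eq_zero
  have hQ := QP_nondeg d F
  have hV : finrank F (Fin d ⊕ Fin d → F) = 2 * d := finrank_plus d F
  have hex : Fintype.card F ≠ 2 ∨ d ≠ 2 ∨
      ¬ ∃ K : Submodule F (Fin d ⊕ Fin d → F), IsTS (QP d F) K ∧ finrank F K = 2 :=
    Or.inr (Or.inl (by omega))
  obtain ⟨g, hgr, hP2, hP3⟩ := exists_fpf_matrix hq d (by omega) r hr hdiv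
  have hr1 : r - 1 + 1 = r := Nat.sub_add_cancel hr.pos
  let G : Matrix.GeneralLinearGroup (Fin d) F :=
    ⟨g, g ^ (r - 1), by rw [← pow_succ', hr1, hgr], by rw [← pow_succ, hr1, hgr]⟩
  have hGr : G ^ r = 1 := by
    apply Units.ext
    rw [Units.val_pow_eq_pow_val]
    exact hgr
  have hGinv : ((G⁻¹ : Matrix.GeneralLinearGroup (Fin d) F) : Matrix (Fin d) (Fin d) F) * g = 1 :=
    Units.inv_mul G
  let a : ↥(Cfsg.isometryGroup F (Cfsg.quadFormPlus d F)) := leviO d F G
  have har : a ^ r = 1 := by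
    show (leviO d F G) ^ r = 1
    rw [← map_pow, hGr, map_one]
  refine ⟨a, ?_, har, ?_⟩
  · obtain ⟨v0, hv0⟩ := plus_ns_vec (F := F) (d := d) (by omega)
    have hidx := index_commutator_char_twox (QP d F) h2 hQ hV hex v0
      (by rw [show QP d F v0 = 1 from hv0]; exact one_ne_zero)
    have hodd : r % 2 = 1 := by
      rcases hr.eq_two_or_odd with h | h
      · exact absurd h hr2
      · exact h
    have h1 : a = (a ^ ((r + 1) / 2)) ^ 2 := by
      rw [← pow_mul, show (r + 1) / 2 * 2 = r + 1 by omega, pow_succ, har, one_mul]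
    rw [h1]
    exact Subgroup.sq_mem_of_index_two hidx _
  · rintro ⟨v, c, hv, hc⟩
    have hl : g *ᵥ (v ∘ Sum.inl) = c • (v ∘ Sum.inl) := by
      funext j
      have := congrFun hc (Sum.inl j)
      rw [leviO_mulVec_inl] at this
      exact this
    have hrr : ((G⁻¹ : Matrix.GeneralLinearGroup (Fin d) F) : Matrix (Fin d) (Fin d) F)ᵀ *ᵥ
        (v ∘ Sum.inr) = c • (v ∘ Sum.inr) := by
      funext j
      have := congrFun hc (Sum.inr j)
      rw [leviO_mulVec_inr] at this
      exact this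
    have hwl : v ∘ Sum.inl ≠ 0 := by
      intro h0
      apply hv
      show ∑ i : Fin d, v (Sum.inl i) * v (Sum.inr i) = 0
      apply Finset.sum_eq_zero
      intro i _
      have : v (Sum.inl i) = 0 := congrFun h0 i
      rw [this, zero_mul]
    have hwr : v ∘ Sum.inr ≠ 0 := by
      intro h0
      apply hv
      show ∑ i : Fin d, v (Sum.inl i) * v (Sum.inr i) = 0
      apply Finset.sum_eq_zero
      intro i _
      have : v (Sum.inr i) = 0 := congrFun h0 i
      rw [this, mul_zero]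
    have hc0 : c ≠ 0 := by
      rintro rfl
      rw [zero_smul] at hrr
      apply hwr
      have := congrArg (fun y => gᵀ *ᵥ y) hrr
      simp only [Matrix.mulVec_mulVec, Matrix.mulVec_zero, ← Matrix.transpose_mul, hGinv,
        Matrix.transpose_one, Matrix.one_mulVec] at this
      exact this
    -- `gᵀ` has eigenvalue `c⁻¹`
    have hT : gᵀ *ᵥ (v ∘ Sum.inr) = c⁻¹ • (v ∘ Sum.inr) := by
      have := congrArg (fun y => gᵀ *ᵥ y) hrr
      simp only [Matrix.mulVec_mulVec, ← Matrix.transpose_mul, hGinv,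
        Matrix.transpose_one, Matrix.one_mulVec, Matrix.mulVec_smul] at this
      rw [eq_comm, inv_smul_eq_iff₀ hc0]
      exact this
    have hdet : (g - c⁻¹ • (1 : Matrix (Fin d) (Fin d) F)).det = 0 := by
      rw [← Matrix.det_transpose]
      apply Matrix.exists_mulVec_eq_zero_iff.1
      refine ⟨v ∘ Sum.inr, hwr, ?_⟩
      rw [Matrix.transpose_sub, Matrix.transpose_smul, Matrix.transpose_one, Matrix.sub_mulVec,
        hT, Matrix.smul_mulVec, Matrix.one_mulVec, sub_self]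
    obtain ⟨w'', hw'', hw''e⟩ := Matrix.exists_mulVec_eq_zero_iff.2 hdet
    rw [Matrix.sub_mulVec, Matrix.smul_mulVec, Matrix.one_mulVec, sub_eq_zero] at hw''e
    have hcc := hP2 c c⁻¹ _ _ hwl hw'' hl hw''e
    have hc1 : c = 1 := by
      apply sq_eq_one_char2
      rw [sq]
      nth_rewrite 2 [hcc]
      exact mul_inv_cancel₀ hc0
    rw [hc1, one_smul] at hl
    exact hwl (hP3 _ hl)

/-- The number of nonsingular vectors of the hyperbolic form. -/
theorem card_nonsing_plus {q : ℕ} (hq : Fintype.card F = q) (d : ℕ) (hd : 1 ≤ d) :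
    Nat.card {v : Fin d ⊕ Fin d → F // Cfsg.quadFormPlus d F v ≠ 0} =
      q ^ (d - 1) * ((q - 1) * (q ^ d - 1)) := by
  classical
  have hq2 : 2 ≤ q := by rw [← hq]; exact Fintype.one_lt_card
  have h0 := card_zeros_plus (F := F) d
  rw [hq] at h0
  have htot : Fintype.card (Fin d ⊕ Fin d → F) = q ^ (d + d) := by
    rw [Fintype.card_fun, Fintype.card_sum, Fintype.card_fin, hq]
  have h1 : Nat.card {v : Fin d ⊕ Fin d → F // Cfsg.quadFormPlus d F v ≠ 0} =
      q ^ (d + d) - ((q ^ d - 1) * q ^ (d - 1) + q ^ d) := by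
    rw [Nat.card_eq_fintype_card, Fintype.card_subtype_compl, htot, ← Nat.card_eq_fintype_card, h0]
  rw [h1]
  obtain ⟨d', rfl⟩ : ∃ d', d = d' + 1 := ⟨d - 1, by omega⟩
  obtain ⟨q', rfl⟩ : ∃ q', q = q' + 1 := ⟨q - 1, by omega⟩
  rw [Nat.add_sub_cancel, Nat.add_sub_cancel]
  have hB : (q' + 1) ^ (d' + 1) = (q' + 1) * (q' + 1) ^ d' := pow_succ' _ _
  obtain ⟨b, hb⟩ : ∃ b, (q' + 1) ^ (d' + 1) = b + 1 :=
    ⟨(q' + 1) ^ (d' + 1) - 1, by have := Nat.one_le_pow (d' + 1) (q' + 1) (by omega); omega⟩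
  have e1 : (q' + 1) ^ (d' + 1 + (d' + 1)) = (q' + 1) ^ (d' + 1) * (q' + 1) ^ (d' + 1) :=
    pow_add _ _ _
  rw [e1, hb, Nat.add_sub_cancel]
  rw [hb] at hB
  generalize (q' + 1) ^ d' = A at hB ⊢
  apply Nat.sub_eq_of_eq_add
  have : A * (q' * b) + (b * A + (b + 1)) = b * ((q' + 1) * A) + (b + 1) := by ring
  rw [this, ← hB]
  ring

/-- Main theorem: elements of prime order `r` of `Ω⁺_{2d}(q)`, `q` even, all fix a nonsingular
1-space iff `r = 2` and `d` is odd. -/
theorem elus_plus {q : ℕ} (hq : Fintype.card F = q) (d : ℕ) (hd : 4 ≤ d) (r : ℕ) [Fact r.Prime]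
    (hrΩ : r ∣ Nat.card {W : Submodule F (Fin d ⊕ Fin d → F) // Module.finrank F ↥W = 1 ∧ ∃ v ∈ W, Cfsg.quadFormPlus d F v ≠ 0}) :
    (∀ x : GL (Fin d ⊕ Fin d) F, x ∈ Cfsg.Geo.omegaGL (Cfsg.quadFormPlus d F) →
      (∃ z : F, ((x ^ r : GL (Fin d ⊕ Fin d) F) : Matrix (Fin d ⊕ Fin d) (Fin d ⊕ Fin d) F) = z • (1 : Matrix (Fin d ⊕ Fin d) (Fin d ⊕ Fin d) F)) →
      (∀ z : F, (x : Matrix (Fin d ⊕ Fin d) (Fin d ⊕ Fin d) F) ≠ z • (1 : Matrix (Fin d ⊕ Fin d) (Fin d ⊕ Fin d) F)) →
      ∃ W : Submodule F (Fin d ⊕ Fin d → F), (Module.finrank F ↥W = 1 ∧ ∃ v ∈ W, Cfsg.quadFormPlus d F v ≠ 0) ∧ W.map (Matrix.toLin' (x : Matrix (Fin d ⊕ Fin d) (Fin d ⊕ Fin d) F)) ≤ W) ↔ (r = 2 ∧ Odd d) := by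
  classical
  have hQ0 : Cfsg.quadFormPlus d F 0 = 0 := by simp [Cfsg.quadFormPlus]
  have hr := (Fact.out : r.Prime)
  have hq2 : 2 ≤ q := by rw [← hq]; exact Fintype.one_lt_card
  constructor
  · intro H
    by_contra hcon
    have hbad : ∃ a : ↥(Cfsg.isometryGroup F (Cfsg.quadFormPlus d F)),
        a ∈ Cfsg.Omega F (Cfsg.quadFormPlus d F) ∧ a ^ r = 1 ∧
        ¬ ∃ (v : Fin d ⊕ Fin d → F) (c : F), Cfsg.quadFormPlus d F v ≠ 0 ∧
          oMat a *ᵥ v = c • v := by
      by_cases hr2 : r = 2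
      · subst hr2
        have heven : Even d := by
          rcases Nat.even_or_odd d with h | h
          · exact h
          · exact absurd ⟨rfl, h⟩ hcon
        exact plus_inv_nofix hd heven
      · have hlines := card_nonsing_lines (Cfsg.quadFormPlus d F) (by
          intro c v
          have : QP d F (c • v) = (c * c) • QP d F v := QuadraticMap.map_smul _ _ _
          rw [sq]
          exact this)
        rw [card_nonsing_plus hq d (by omega), hq] at hlines
        have h1 : r ∣ q ^ (d - 1) * ((q - 1) * (q ^ d - 1)) := by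
          rw [← hlines]
          exact Dvd.dvd.mul_right hrΩ _
        have hnq : ¬ r ∣ q := by
          intro h
          obtain ⟨n, -, hn⟩ := FiniteField.card F 2
          rw [hq] at hn
          rw [hn] at h
          have := (Nat.prime_dvd_prime_iff_eq hr Nat.prime_two).1 (hr.dvd_of_dvd_pow h)
          exact hr2 this
        have h2 : r ∣ (q - 1) * (q ^ d - 1) := by
          rcases (Nat.Prime.dvd_mul hr).1 h1 with h | h
          · exact absurd (hr.dvd_of_dvd_pow h) hnq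
          · exact h
        have h3 : r ∣ q ^ d - 1 := by
          rcases (Nat.Prime.dvd_mul hr).1 h2 with h | h
          · exact h.trans (Nat.sub_one_dvd_pow_sub_one (x := q) (n := d))
          · exact h
        exact plus_odd_nofix hq hd r hr hr2 h3
    obtain ⟨a, haΩ, har, hnf⟩ := hbad
    have hnf' := (ns_line_iff (Cfsg.quadFormPlus d F) hQ0 (oMat a)).not.2 hnf
    apply hnf'
    apply H (a : GL (Fin d ⊕ Fin d) F)
    · exact (mem_omegaGL_iff _ _).2 ⟨a, haΩ, rfl⟩
    · refine ⟨1, ?_⟩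
      rw [one_smul]
      have h1 : ((a : GL (Fin d ⊕ Fin d) F)) ^ r = 1 := by
        rw [← Subgroup.coe_pow, har]
        rfl
      rw [h1]
      rfl
    · intro z hz
      apply hnf
      obtain ⟨v0, hv0⟩ := plus_ns_vec (F := F) (d := d) (by omega)
      refine ⟨v0, z, by rw [hv0]; exact one_ne_zero, ?_⟩
      show ((a : GL (Fin d ⊕ Fin d) F) : Matrix (Fin d ⊕ Fin d) (Fin d ⊕ Fin d) F) *ᵥ v0 = z • v0
      rw [hz, Matrix.smul_mulVec, Matrix.one_mulVec]
  · rintro ⟨rfl, hodd⟩ x hxΩ ⟨z, hz⟩ hns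
    obtain ⟨a, haΩ, rfl⟩ := (mem_omegaGL_iff _ x).1 hxΩ
    rw [ns_line_iff (Cfsg.quadFormPlus d F) hQ0]
    apply plus_inv_fix (by omega) hodd a z
    · rw [← hz, sq]
      rfl
    · rintro rfl
      exact hns 1 (by rw [one_smul]; rfl)

end Plus

end Cfsg.Agent.H42
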