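import Mathlib
import Cfsg.Prelude.Def_Classical
import Cfsg.Prelude.Def_ClassicalGeometry
import Cfsg.Agent.H42.OPlus
import Cfsg.Agent.H49.MinusForm

set_option autoImplicit false

namespace Cfsg.Agent.H42

open Module Matrix Cfsg.Agent.H49

section

variable {F : Type*} [Field F] {k : ℕ}

theorem QMin_elim (a b : F) (v : Fin k ⊕ Fin k → F) (z : Fin 2 → F) :
    QMin k F a b (Sum.elim v z) = QP k F v + binQ a b z := by
  show sumQ (QP k F) (binQ a b) (Sum.elim v z) = _
  rw [sumQ_apply, Sum.elim_comp_inl, Sum.elim_comp_inr]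

theorem pb_QMin_elim (a b : F) (v v' : Fin k ⊕ Fin k → F) (z z' : Fin 2 → F) :
    QuadraticMap.polarBilin (QMin k F a b) (Sum.elim v z) (Sum.elim v' z') =
      QuadraticMap.polarBilin (QP k F) v v' + QuadraticMap.polarBilin (binQ a b) z z' := by
  show QuadraticMap.polar (⇑(sumQ (QP k F) (binQ a b))) _ _ = _
  rw [polar_sumQ, Sum.elim_comp_inl, Sum.elim_comp_inr, Sum.elim_comp_inl, Sum.elim_comp_inr]
  rfl

/-- In characteristic two over a finite field, anisotropy of the binary form forces `a ≠ 0`. -/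
theorem aniso_a_ne_zero [Finite F] [CharP F 2] (a b : F)
    (hab : ∀ z₁ z₂ : F, z₁ ^ 2 + a * z₁ * z₂ + b * z₂ ^ 2 = 0 → z₁ = 0 ∧ z₂ = 0) : a ≠ 0 := by
  intro ha
  obtain ⟨c, hc⟩ := FiniteField.isSquare_of_char_two (ringChar.eq F 2) b
  have h2 : (2 : F) = 0 := CharTwo.two_eq_zero
  have := hab c 1 (by
    rw [ha, hc]
    linear_combination (c ^ 2) * h2)
  exact one_ne_zero this.2

theorem QMin_nondeg' [Finite F] [CharP F 2] (a b : F)
    (hab : ∀ z₁ z₂ : F, z₁ ^ 2 + a * z₁ * z₂ + b * z₂ ^ 2 = 0 → z₁ = 0 ∧ z₂ = 0) :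
    (QuadraticMap.polarBilin (QMin k F a b)).Nondegenerate := by
  apply QMin_nondeg
  have ha := aniso_a_ne_zero a b hab
  have h2 : (2 : F) = 0 := CharTwo.two_eq_zero
  have h4 : (4 : F) = 0 := by linear_combination 2 * h2
  rw [h4, zero_mul, sub_zero]
  exact pow_ne_zero 2 ha

/-- A totally singular subspace of the minus-type form has dimension at most `k`. -/
theorem qmin_ts_finrank_le (a b : F)
    (hnd : (QuadraticMap.polarBilin (QMin k F a b)).Nondegenerate)
    (hab : ∀ z₁ z₂ : F, z₁ ^ 2 + a * z₁ * z₂ + b * z₂ ^ 2 = 0 → z₁ = 0 ∧ z₂ = 0)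
    (U : Submodule F ((Fin k ⊕ Fin k) ⊕ Fin 2 → F)) (hU : ∀ u ∈ U, QMin k F a b u = 0) :
    finrank F U ≤ k := by
  set φ : ((Fin k ⊕ Fin k) ⊕ Fin 2 → F) →ₗ[F] (Fin k → F) :=
    LinearMap.funLeft F F (fun i : Fin k => (Sum.inl (Sum.inr i) : (Fin k ⊕ Fin k) ⊕ Fin 2))
    with hφ
  obtain ⟨Y, hY⟩ : ∃ Y : Submodule F ((Fin k ⊕ Fin k) ⊕ Fin 2 → F), Y = LinearMap.ker φ :=
    ⟨_, rfl⟩
  have hYmem : ∀ v, v ∈ Y ↔ ∀ i, v (Sum.inl (Sum.inr i)) = 0 := by
    intro v
    rw [hY, LinearMap.mem_ker]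
    constructor
    · intro h i
      exact congrFun h i
    · intro h
      funext i
      exact h i
  have hV := finrank_minus (F := F) k
  have hYdim : k + 2 ≤ finrank F Y := by
    have h1 := LinearMap.finrank_range_add_finrank_ker φ
    have h2 : finrank F (LinearMap.range φ) ≤ k := by
      have := Submodule.finrank_le (LinearMap.range φ)
      rw [Module.finrank_fintype_fun_eq_card, Fintype.card_fin] at this
      exact this
    rw [hV, ← hY] at h1
    omega
  have hpol : ∀ x y : (Fin k ⊕ Fin k) ⊕ Fin 2 → F,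
      QuadraticMap.polarBilin (QMin k F a b) x y =
        QuadraticMap.polar (⇑(QP k F)) (x ∘ Sum.inl) (y ∘ Sum.inl) +
          QuadraticMap.polar (⇑(binQ a b)) (x ∘ Sum.inr) (y ∘ Sum.inr) :=
    fun x y => polar_sumQ _ _ x y
  have hUU : ∀ u ∈ U, ∀ v ∈ U, QuadraticMap.polarBilin (QMin k F a b) u v = 0 := by
    intro u hu v hv
    rw [QuadraticMap.polarBilin_apply_apply, QuadraticMap.polar, hU _ (U.add_mem hu hv), hU u hu,
      hU v hv]
    simp
  have hK : U ⊓ Y ≤
      LinearMap.BilinForm.orthogonal (QuadraticMap.polarBilin (QMin k F a b)) (U ⊔ Y) := by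
    rintro v ⟨hvU, hvY⟩
    rw [LinearMap.BilinForm.mem_orthogonal_iff]
    intro n hn
    obtain ⟨u, hu, y, hy, rfl⟩ := Submodule.mem_sup.1 hn
    rw [LinearMap.map_add₂, hUU u hu v hvU, zero_add]
    have hv0 := (hYmem v).1 hvY
    have hy0 := (hYmem y).1 hy
    have hQv := hU v hvU
    have hQv' : QMin k F a b v = QP k F (v ∘ Sum.inl) + binQ a b (v ∘ Sum.inr) := rfl
    have hQP0 : QP k F (v ∘ Sum.inl) = 0 := by
      rw [QP_apply]
      apply Finset.sum_eq_zero
      intro i _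
      show v (Sum.inl (Sum.inl i)) * v (Sum.inl (Sum.inr i)) = 0
      rw [hv0 i, mul_zero]
    rw [hQv', hQP0, zero_add, binQ_apply] at hQv
    obtain ⟨hz0, hz1⟩ := hab _ _ hQv
    have hvr : v ∘ Sum.inr = 0 := by
      funext j
      fin_cases j
      · exact hz0
      · exact hz1
    rw [hpol, hvr, polar_QP, QuadraticMap.polar_zero_right, add_zero]
    apply Finset.sum_eq_zero
    intro i _
    show y (Sum.inl (Sum.inl i)) * v (Sum.inl (Sum.inr i)) +
      v (Sum.inl (Sum.inl i)) * y (Sum.inl (Sum.inr i)) = 0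
    rw [hv0 i, hy0 i, mul_zero, mul_zero, add_zero]
  have h1 := Submodule.finrank_mono hK
  rw [LinearMap.BilinForm.finrank_orthogonal hnd, hV] at h1
  have h2 := Submodule.finrank_sup_add_finrank_inf_eq U Y
  have h3 := Submodule.finrank_le (U ⊔ Y)
  rw [hV] at h3
  omega

/-- Existence of involutions of non-alternating type of each rank `1 ≤ r ≤ k + 1` in `O⁻`. -/
theorem ominus_exists_nonalt [CharP F 2] (a b : F) (ha : a ≠ 0) (r : ℕ) (hr1 : 1 ≤ r)
    (hrk : r ≤ k + 1) :
    ∃ g : ↥(Cfsg.isometryGroup F (⇑(QMin k F a b))), orderOf g = 2 ∧ (oMat g - 1).rank = r ∧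
      ¬ ∀ v, QMin k F a b (nOpG (oMat g) v) = 0 := by
  have hr' : r - 1 ≤ k := by omega
  obtain ⟨g, h1, h2, h3⟩ := o_inv_exists_nonalt (QMin k F a b) (I := Fin (r - 1) ⊕ Unit)
    (Sum.elim (fun s => Sum.elim (eP (Fin.castLE hr' s) + fP (Fin.castLE hr' s)) 0)
      (fun _ => Sum.elim 0 ![1, 0]))
    (Sum.elim (fun s => Sum.elim (fP (Fin.castLE hr' s)) 0)
      (fun _ => Sum.elim 0 ![0, a⁻¹]))
    (by
      rintro (s | ⟨⟩)
      · simp only [Sum.elim_inl]
        rw [QMin_elim, naP_one (Fin.castLE hr') s, map_zero, add_zero]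
      · simp only [Sum.elim_inr]
        rw [QMin_elim, map_zero, zero_add, binQ_apply]
        simp)
    (by
      rintro (s | ⟨⟩) (u | ⟨⟩) hne
      · simp only [Sum.elim_inl]
        rw [pb_QMin_elim, naP_orth (Fin.castLE hr') (Fin.castLE_injective hr') s u
          (fun h => hne (congrArg Sum.inl h))]
        simp only [map_zero, LinearMap.zero_apply, add_zero]
      · simp only [Sum.elim_inl, Sum.elim_inr]
        rw [pb_QMin_elim]
        simp only [map_zero, LinearMap.zero_apply, add_zero]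
      · simp only [Sum.elim_inl, Sum.elim_inr]
        rw [pb_QMin_elim]
        simp only [map_zero, LinearMap.zero_apply, add_zero]
      · exact absurd rfl hne)
    (by
      rintro (s | ⟨⟩) (u | ⟨⟩)
      · simp only [Sum.elim_inl, Sum.inl.injEq]
        rw [pb_QMin_elim, naP_dual (Fin.castLE hr') (Fin.castLE_injective hr') s u]
        simp only [map_zero, LinearMap.zero_apply, add_zero]
      · simp only [Sum.elim_inl, Sum.elim_inr, reduceCtorEq, if_false]
        rw [pb_QMin_elim]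
        simp only [map_zero, LinearMap.zero_apply, add_zero]
      · simp only [Sum.elim_inl, Sum.elim_inr, reduceCtorEq, if_false]
        rw [pb_QMin_elim]
        simp only [map_zero, LinearMap.zero_apply, add_zero]
      · simp only [Sum.elim_inr, if_true]
        rw [pb_QMin_elim, QuadraticMap.polarBilin_apply_apply (Q := binQ a b), polar_binQ]
        simp only [map_zero, LinearMap.zero_apply, zero_add]
        simp [ha])
  refine ⟨g, h1, ?_, h3⟩
  rw [h2, Fintype.card_sum, Fintype.card_fin, Fintype.card_unit]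
  omega

/-- Existence of involutions of alternating type of each even rank `2 ≤ 2k' ≤ k` in `O⁻`. -/
theorem ominus_exists_alt [CharP F 2] (a b : F) (k' : ℕ) (hk1 : 1 ≤ k') (hkm : 2 * k' ≤ k) :
    ∃ g : ↥(Cfsg.isometryGroup F (⇑(QMin k F a b))), orderOf g = 2 ∧
      (oMat g - 1).rank = 2 * k' ∧ ∀ v, QMin k F a b (nOpG (oMat g) v) = 0 := by
  have : Nonempty (Fin k') := ⟨⟨0, hk1⟩⟩
  obtain ⟨g, h1, h2, h3⟩ := o_inv_exists_alt (QMin k F a b) (I := Fin k')
    (fun s => Sum.elim (eP (jSum hkm s)) 0) (fun s => Sum.elim (fP (jSum hkm s)) 0)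
    (fun s => by rw [QMin_elim, QP_eP, map_zero, add_zero])
    (fun s u => by
      rw [pb_QMin_elim, aP_orth (jSum hkm) s u]
      simp only [map_zero, LinearMap.zero_apply, add_zero])
    (fun s u => by
      rw [pb_QMin_elim, aP_dual (jSum hkm) (jSum_injective hkm) s u]
      simp only [map_zero, LinearMap.zero_apply, add_zero])
  exact ⟨g, h1, by rw [h2, Fintype.card_fin], h3⟩

/-- The number of conjugacy classes of involutions of `O⁻_{2m}(q)`, `q` even. -/
theorem ominus_inv_class_count [Fintype F] [CharP F 2] {m : ℕ} (hm : 1 ≤ m) (a b : F)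
    (hab : ∀ z₁ z₂ : F, z₁ ^ 2 + a * z₁ * z₂ + b * z₂ ^ 2 = 0 → z₁ = 0 ∧ z₂ = 0) :
    Nat.card {C : ConjClasses ↥(Cfsg.isometryGroup F (Cfsg.quadFormMinus (m - 1) F a b)) //
      ∃ g : ↥(Cfsg.isometryGroup F (Cfsg.quadFormMinus (m - 1) F a b)),
        ConjClasses.mk g = C ∧ orderOf g = 2} = m + (m - 1) / 2 := by
  have hcard : Fintype.card ((Fin (m - 1) ⊕ Fin (m - 1)) ⊕ Fin 2) = 2 * m := by
    rw [Fintype.card_sum, Fintype.card_sum, Fintype.card_fin, Fintype.card_fin]
    omega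
  have hnd : (QuadraticMap.polarBilin (QMin (m - 1) F a b)).Nondegenerate := QMin_nondeg' a b hab
  exact o_inv_class_count (QMin (m - 1) F a b) hnd m ((m - 1) / 2) hcard
    (fun r hr1 hrm => ominus_exists_nonalt a b (aniso_a_ne_zero a b hab) r hr1 (by omega))
    (fun k' hk1 hk2 => ominus_exists_alt a b k' hk1 (by omega))
    (fun g hg halt => by
      have h1 : (oMat g - 1).rank = finrank F (LinearMap.range (nOpG (oMat g))) := rfl
      have h2 := qmin_ts_finrank_le a b hnd hab (LinearMap.range (nOpG (oMat g))) (by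
        rintro _ ⟨v, rfl⟩
        exact halt v)
      omega)

end

end Cfsg.Agent.H42
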