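import Mathlib
import Cfsg.Prelude.Def_Classical
import Cfsg.Agent.H42.OInv
import Cfsg.Agent.H42.OMinus
import Cfsg.Agent.H42.OCFib
import Cfsg.Agent.H49.Plus
import Cfsg.Agent.H49.MinusForm

set_option autoImplicit false

/-! Classification of nondegenerate quadratic forms of even dimension over a finite field of
characteristic two (helper42): hyperbolic frames, plus/minus standard forms. -/

namespace Cfsg.Agent.H42

open Module Cfsg.Agent.H49

section QClass

variable {F V : Type*} [Field F] [AddCommGroup V] [Module F V]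
variable (Q : QuadraticForm F V)

/-- A hyperbolic frame: `e`, `f` singular, mutually orthogonal, dual to each other. -/
structure IsHFrame {I : Type*} [DecidableEq I] (e f : I → V) : Prop where
  Qe : ∀ i, Q (e i) = 0
  Qf : ∀ i, Q (f i) = 0
  ee : ∀ i j, QuadraticMap.polarBilin Q (e i) (e j) = 0
  ff : ∀ i j, QuadraticMap.polarBilin Q (f i) (f j) = 0
  ef : ∀ i j, QuadraticMap.polarBilin Q (e i) (f j) = if i = j then 1 else 0

/-- The orthogonal complement of a frame. -/
def frPerp {I : Type*} (e f : I → V) : Submodule F V :=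
  LinearMap.BilinForm.orthogonal (QuadraticMap.polarBilin Q)
    (Submodule.span F (Set.range e ∪ Set.range f))

theorem pbq_symm (x y : V) : QuadraticMap.polarBilin Q x y = QuadraticMap.polarBilin Q y x := by
  simp only [QuadraticMap.polarBilin_apply_apply]
  exact QuadraticMap.polar_comm _ _ _

theorem mem_frPerp {I : Type*} (e f : I → V) (u : V) :
    u ∈ frPerp Q e f ↔ (∀ i, QuadraticMap.polarBilin Q (e i) u = 0) ∧
      (∀ i, QuadraticMap.polarBilin Q (f i) u = 0) := by
  constructor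
  · intro h
    exact ⟨fun i => h _ (Submodule.subset_span (Or.inl ⟨i, rfl⟩)),
      fun i => h _ (Submodule.subset_span (Or.inr ⟨i, rfl⟩))⟩
  · rintro ⟨h1, h2⟩ n hn
    induction hn using Submodule.span_induction with
    | mem x hx =>
      rcases hx with ⟨i, rfl⟩ | ⟨i, rfl⟩
      · exact h1 i
      · exact h2 i
    | zero => simp
    | add x y _ _ hx hy => rw [map_add, LinearMap.add_apply, hx, hy, add_zero]
    | smul c x _ hx => rw [map_smul, LinearMap.smul_apply, hx, smul_zero]

theorem finrank_frPerp_ge [FiniteDimensional F V] {I : Type*} [Fintype I] (e f : I → V)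
    (hQ : (QuadraticMap.polarBilin Q).Nondegenerate) :
    finrank F V ≤ finrank F (frPerp Q e f) + 2 * Fintype.card I := by
  have h1 := LinearMap.BilinForm.finrank_orthogonal hQ
    (Submodule.span F (Set.range e ∪ Set.range f))
  have h2 : finrank F (Submodule.span F (Set.range e ∪ Set.range f)) ≤ 2 * Fintype.card I := by
    have h3 := finrank_range_le_card (R := F) (Sum.elim e f)
    rw [Set.Sum.elim_range, Fintype.card_sum] at h3
    have h4 : Set.finrank F (Set.range e ∪ Set.range f) =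
        finrank F (Submodule.span F (Set.range e ∪ Set.range f)) := rfl
    omega
  have h5 : finrank F (frPerp Q e f) =
      finrank F V - finrank F (Submodule.span F (Set.range e ∪ Set.range f)) := h1
  omega

variable {Q}

/-- Orthogonal projection onto the complement of a frame. -/
theorem frProj {I : Type*} [Fintype I] [DecidableEq I] {e f : I → V} (hfr : IsHFrame Q e f)
    (y : V) : ∃ y' ∈ frPerp Q e f, ∀ w ∈ frPerp Q e f,
      QuadraticMap.polarBilin Q w y' = QuadraticMap.polarBilin Q w y := by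
  refine ⟨y - ∑ i, QuadraticMap.polarBilin Q (f i) y • e i -
    ∑ i, QuadraticMap.polarBilin Q (e i) y • f i, ?_, ?_⟩
  · rw [mem_frPerp]
    constructor
    · intro j
      simp only [map_sub, map_sum, map_smul, smul_eq_mul, hfr.ee, hfr.ef, mul_zero,
        Finset.sum_const_zero, sub_zero, mul_ite, mul_one, Finset.sum_ite_eq, Finset.mem_univ,
        if_true, sub_self]
    · intro j
      have h1 : ∀ i, QuadraticMap.polarBilin Q (f j) (e i) = if i = j then 1 else 0 := by
        intro i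
        rw [pbq_symm, hfr.ef]
      simp only [map_sub, map_sum, map_smul, smul_eq_mul, hfr.ff, h1, mul_zero,
        Finset.sum_const_zero, mul_ite, mul_one, Finset.sum_ite_eq', Finset.mem_univ,
        if_true, sub_self]
  · intro w hw
    rw [mem_frPerp] at hw
    have h1 : ∀ i, QuadraticMap.polarBilin Q w (e i) = 0 := fun i => by rw [pbq_symm, hw.1]
    have h2 : ∀ i, QuadraticMap.polarBilin Q w (f i) = 0 := fun i => by rw [pbq_symm, hw.2]
    simp only [map_sub, map_sum, map_smul, smul_eq_mul, h1, h2, mul_zero, Finset.sum_const_zero,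
      sub_zero]

/-- Extending a frame by a hyperbolic pair from its complement. -/
theorem frame_extend {I : Type*} [DecidableEq I] {e f : I → V} (hfr : IsHFrame Q e f)
    (w y : V) (hw : w ∈ frPerp Q e f) (hy : y ∈ frPerp Q e f) (hQw : Q w = 0) (hQy : Q y = 0)
    (hwy : QuadraticMap.polarBilin Q w y = 1) :
    IsHFrame Q (fun o : Option I => o.elim w e) (fun o : Option I => o.elim y f) := by
  rw [mem_frPerp] at hw hy
  have hww : QuadraticMap.polarBilin Q w w = 0 := by
    rw [QuadraticMap.polarBilin_apply_apply, QuadraticMap.polar_self, hQw, smul_zero]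
  have hyy : QuadraticMap.polarBilin Q y y = 0 := by
    rw [QuadraticMap.polarBilin_apply_apply, QuadraticMap.polar_self, hQy, smul_zero]
  constructor
  · rintro (_ | i)
    · exact hQw
    · exact hfr.Qe i
  · rintro (_ | i)
    · exact hQy
    · exact hfr.Qf i
  · rintro (_ | i) (_ | j)
    · exact hww
    · show QuadraticMap.polarBilin Q w (e j) = 0
      rw [pbq_symm, hw.1]
    · exact hw.1 i
    · exact hfr.ee i j
  · rintro (_ | i) (_ | j)
    · exact hyy
    · show QuadraticMap.polarBilin Q y (f j) = 0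
      rw [pbq_symm, hy.2]
    · exact hy.2 i
    · exact hfr.ff i j
  · rintro (_ | i) (_ | j)
    · simpa using hwy
    · show QuadraticMap.polarBilin Q w (f j) = if none = some j then 1 else 0
      rw [pbq_symm, hw.2]
      simp
    · show QuadraticMap.polarBilin Q (e i) y = if some i = none then 1 else 0
      rw [hy.1]
      simp
    · show QuadraticMap.polarBilin Q (e i) (f j) = if some i = some j then 1 else 0
      rw [hfr.ef]
      simp

theorem frame_reindex {I J : Type*} [DecidableEq I] [DecidableEq J] {e f : I → V}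
    (hfr : IsHFrame Q e f) (φ : J ≃ I) : IsHFrame Q (e ∘ φ) (f ∘ φ) := by
  constructor
  · intro i; exact hfr.Qe _
  · intro i; exact hfr.Qf _
  · intro i j; exact hfr.ee _ _
  · intro i j; exact hfr.ff _ _
  · intro i j
    show QuadraticMap.polarBilin Q (e (φ i)) (f (φ j)) = _
    rw [hfr.ef]
    simp [φ.apply_eq_iff_eq]

theorem quad_sub_smul (x w : V) (t : F) :
    Q (x - t • w) = Q x + t * t * Q w - t * QuadraticMap.polar Q x w := by
  rw [sub_eq_add_neg, ← neg_smul, QuadraticMap.map_add Q, QuadraticMap.map_smul,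
    QuadraticMap.polar_smul_right, smul_eq_mul, smul_eq_mul]
  ring

/-- A hyperbolic partner inside the complement of a frame. -/
theorem exists_hyp_pair {I : Type*} [Fintype I] [DecidableEq I] {e f : I → V}
    (hQ : (QuadraticMap.polarBilin Q).Nondegenerate) (hfr : IsHFrame Q e f)
    (w : V) (hw : w ∈ frPerp Q e f) (hw0 : w ≠ 0) (hQw : Q w = 0) :
    ∃ y ∈ frPerp Q e f, Q y = 0 ∧ QuadraticMap.polarBilin Q w y = 1 := by
  have hww : QuadraticMap.polarBilin Q w w = 0 := by
    rw [QuadraticMap.polarBilin_apply_apply, QuadraticMap.polar_self, hQw, smul_zero]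
  obtain ⟨y₀, hy₀⟩ : ∃ y₀, QuadraticMap.polarBilin Q w y₀ ≠ 0 := by
    by_contra h
    push Not at h
    exact hw0 (hQ.1 w h)
  obtain ⟨y₁, hy₁W, hy₁⟩ := frProj hfr y₀
  have hc := hy₁ w hw
  set c := QuadraticMap.polarBilin Q w y₀ with hcdef
  set y₂ := c⁻¹ • y₁ with hy₂def
  have hy₂W : y₂ ∈ frPerp Q e f := Submodule.smul_mem _ _ hy₁W
  have hwy₂ : QuadraticMap.polarBilin Q w y₂ = 1 := by
    rw [hy₂def, map_smul, smul_eq_mul, hc, inv_mul_cancel₀ hy₀]
  refine ⟨y₂ - Q y₂ • w, Submodule.sub_mem _ hy₂W (Submodule.smul_mem _ _ hw), ?_, ?_⟩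
  · have hp : QuadraticMap.polar Q y₂ w = 1 := by
      rw [← QuadraticMap.polarBilin_apply_apply, pbq_symm, hwy₂]
    rw [quad_sub_smul, hQw, hp]
    ring
  · rw [map_sub, hwy₂, map_smul, hww, smul_zero, sub_zero]

variable (Q)

/-- In characteristic two over a finite field, a subspace of dimension at least three contains a
nonzero singular vector. -/
theorem exists_sing_of_finrank [Finite F] [CharP F 2] [FiniteDimensional F V]
    (W : Submodule F V) (hW : 3 ≤ finrank F W) : ∃ w ∈ W, w ≠ 0 ∧ Q w = 0 := by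
  by_contra hcon
  push Not at hcon
  obtain ⟨u₁, hu₁W, hu₁0⟩ : ∃ u ∈ W, u ≠ 0 := by
    have : W ≠ ⊥ := by
      rintro rfl
      simp at hW
    exact Submodule.exists_mem_ne_zero_of_ne_bot this
  have hsc : ∀ u ∈ W, u ≠ 0 → ∃ u' ∈ W, u' ≠ 0 ∧ Q u' = 1 ∧ ∃ t : F, t ≠ 0 ∧ u' = t • u := by
    intro u huW hu0
    obtain ⟨t, ht⟩ := sq_surj_of_finite (F := F) (Q u)
    have ht0 : t ≠ 0 := by
      rintro rfl
      exact hcon u huW hu0 (by rw [← ht]; ring)
    refine ⟨t⁻¹ • u, W.smul_mem _ huW, smul_ne_zero (inv_ne_zero ht0) hu0, ?_, t⁻¹,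
      inv_ne_zero ht0, rfl⟩
    rw [QuadraticMap.map_smul, smul_eq_mul, ← ht]
    field_simp
  obtain ⟨v₁, hv₁W, hv₁0, hQv₁, -⟩ := hsc u₁ hu₁W hu₁0
  let ℓ : V →ₗ[F] F := QuadraticMap.polarBilin Q v₁
  have hK : finrank F V ≤ finrank F (LinearMap.ker ℓ) + 1 := by
    have h0 := LinearMap.finrank_range_add_finrank_ker ℓ
    have h1 : finrank F (LinearMap.range ℓ) ≤ 1 := by
      have := Submodule.finrank_le (LinearMap.range ℓ)
      simpa using this
    omega
  have hinf : 2 ≤ finrank F ↥(W ⊓ LinearMap.ker ℓ) := by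
    have h1 := Submodule.finrank_sup_add_finrank_inf_eq W (LinearMap.ker ℓ)
    have h2 := Submodule.finrank_le (W ⊔ LinearMap.ker ℓ)
    omega
  obtain ⟨u₂, hu₂, hu₂n⟩ : ∃ u ∈ W ⊓ LinearMap.ker ℓ, u ∉ Submodule.span F {v₁} := by
    by_contra h
    push Not at h
    have hle : W ⊓ LinearMap.ker ℓ ≤ Submodule.span F {v₁} := h
    have := Submodule.finrank_mono hle
    have h1 := finrank_span_singleton (K := F) hv₁0
    omega
  have hu₂0 : u₂ ≠ 0 := by
    rintro rfl
    exact hu₂n (Submodule.zero_mem _)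
  obtain ⟨v₂, hv₂W, hv₂0, hQv₂, t, ht0, rfl⟩ := hsc u₂ hu₂.1 hu₂0
  have hort : QuadraticMap.polarBilin Q v₁ (t • u₂) = 0 := by
    have h1 : ℓ u₂ = 0 := hu₂.2
    rw [map_smul, smul_eq_mul, show QuadraticMap.polarBilin Q v₁ u₂ = ℓ u₂ from rfl, h1, mul_zero]
  apply hcon (v₁ + t • u₂) (W.add_mem hv₁W hv₂W)
  · intro h
    apply hu₂n
    have h1 : t • u₂ = -v₁ := eq_neg_of_add_eq_zero_right h
    have h2 : u₂ = t⁻¹ • (-v₁) := by rw [← h1, smul_smul, inv_mul_cancel₀ ht0, one_smul]
    rw [h2]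
    exact Submodule.smul_mem _ _ (Submodule.neg_mem _ (Submodule.mem_span_singleton_self _))
  · rw [QuadraticMap.map_add Q, hQv₁, hQv₂, ← QuadraticMap.polarBilin_apply_apply, hort, add_zero]
    exact CharTwo.add_self_eq_zero 1

/-- Hyperbolic frames of every size below half the dimension exist. -/
theorem exists_frame [Finite F] [CharP F 2] [FiniteDimensional F V]
    (hQ : (QuadraticMap.polarBilin Q).Nondegenerate) (d : ℕ) (hV : finrank F V = 2 * d) :
    ∀ s, s + 1 ≤ d → ∃ e f : Fin s → V, IsHFrame Q e f := by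
  intro s
  induction s with
  | zero =>
    intro _
    exact ⟨fun i => i.elim0, fun i => i.elim0, ⟨fun i => i.elim0, fun i => i.elim0,
      fun i => i.elim0, fun i => i.elim0, fun i => i.elim0⟩⟩
  | succ s ih =>
    intro hs
    obtain ⟨e, f, hfr⟩ := ih (by omega)
    have hfin := finrank_frPerp_ge Q e f hQ
    rw [Fintype.card_fin, hV] at hfin
    obtain ⟨w, hwW, hw0, hQw⟩ := exists_sing_of_finrank Q (frPerp Q e f) (by omega)
    obtain ⟨y, hyW, hQy, hwy⟩ := exists_hyp_pair hQ hfr w hwW hw0 hQw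
    have hfr' := frame_extend hfr w y hwW hyW hQw hQy hwy
    exact ⟨_, _, frame_reindex hfr' (finSuccEquiv s)⟩

variable {Q}

/-- Value of the form on a combination of a frame. -/
theorem frame_quad {I : Type*} [Fintype I] [DecidableEq I] {e f : I → V} (hfr : IsHFrame Q e f)
    (x y : I → F) : Q (∑ i, x i • e i + ∑ i, y i • f i) = ∑ i, x i * y i := by
  rw [QuadraticMap.map_add Q, quad_sum_smul_orth Q e x (fun a u _ => hfr.ee a u),
    quad_sum_smul_orth Q f y (fun a u _ => hfr.ff a u)]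
  simp only [hfr.Qe, hfr.Qf, mul_zero, Finset.sum_const_zero, zero_add]
  rw [← QuadraticMap.polarBilin_apply_apply]
  simp only [map_sum, map_smul, LinearMap.sum_apply, LinearMap.smul_apply, smul_eq_mul, hfr.ef,
    mul_ite, mul_one, mul_zero, Finset.sum_ite_eq', Finset.mem_univ, if_true]
  exact Finset.sum_congr rfl (fun i _ => mul_comm _ _)

/-- A linear map that is an isometry onto a form from a nondegenerate form is injective. -/
theorem inj_of_isom {W : Type*} [AddCommGroup W] [Module F W] (Q' : QuadraticForm F W)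
    (hQ' : (QuadraticMap.polarBilin Q').Nondegenerate) (Φ : W →ₗ[F] V)
    (h : ∀ u, Q (Φ u) = Q' u) : Function.Injective Φ := by
  rw [injective_iff_map_eq_zero]
  intro u hu
  apply hQ'.1
  intro u'
  rw [QuadraticMap.polarBilin_apply_apply, QuadraticMap.polar, ← h, ← h, ← h, map_add, hu,
    zero_add, map_zero]
  simp

/-- A frame of full size gives an isometry with the standard plus-type form. -/
theorem plus_iso_of_frame [FiniteDimensional F V] {d : ℕ} {e f : Fin d → V}
    (hfr : IsHFrame Q e f) (hV : finrank F V = 2 * d) :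
    ∃ Φ : (Fin d ⊕ Fin d → F) ≃ₗ[F] V, ∀ u, Q (Φ u) = Cfsg.quadFormPlus d F u := by
  let Φ₀ : (Fin d ⊕ Fin d → F) →ₗ[F] V := Fintype.linearCombination F (Sum.elim e f)
  have hΦ : ∀ u, Q (Φ₀ u) = QP d F u := by
    intro u
    have h1 : Φ₀ u = ∑ i, u (Sum.inl i) • e i + ∑ i, u (Sum.inr i) • f i := by
      show Fintype.linearCombination F (Sum.elim e f) u = _
      rw [Fintype.linearCombination_apply, Fintype.sum_sum_type]
      rfl
    rw [h1, frame_quad hfr]
    rfl
  have hinj := inj_of_isom (QP d F) (QP_nondeg d F) Φ₀ hΦ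
  exact ⟨Φ₀.linearEquivOfInjective hinj (by rw [finrank_plus, hV]), hΦ⟩

/-- A frame of size `k` together with an anisotropic pair in its complement gives an isometry
with the standard minus-type form. -/
theorem minus_iso_of_frame [Finite F] [CharP F 2] [FiniteDimensional F V] {k : ℕ}
    {e f : Fin k → V} (hfr : IsHFrame Q e f) (hV : finrank F V = 2 * (k + 1)) (a b : F)
    (hab : ∀ z₁ z₂ : F, z₁ ^ 2 + a * z₁ * z₂ + b * z₂ ^ 2 = 0 → z₁ = 0 ∧ z₂ = 0)
    (g₁ g₂ : V) (hg₁ : g₁ ∈ frPerp Q e f) (hg₂ : g₂ ∈ frPerp Q e f) (hQ₁ : Q g₁ = 1)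
    (hQ₂ : Q g₂ = b) (h12 : QuadraticMap.polarBilin Q g₁ g₂ = a) :
    ∃ Φ : ((Fin k ⊕ Fin k) ⊕ Fin 2 → F) ≃ₗ[F] V,
      ∀ u, Q (Φ u) = Cfsg.quadFormMinus k F a b u := by
  let Φ₀ : ((Fin k ⊕ Fin k) ⊕ Fin 2 → F) →ₗ[F] V :=
    Fintype.linearCombination F (Sum.elim (Sum.elim e f) ![g₁, g₂])
  have hΦ : ∀ u, Q (Φ₀ u) = QMin k F a b u := by
    intro u
    have h1 : Φ₀ u = (∑ i, u (Sum.inl (Sum.inl i)) • e i + ∑ i, u (Sum.inl (Sum.inr i)) • f i) +
        (u (Sum.inr 0) • g₁ + u (Sum.inr 1) • g₂) := by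
      show Fintype.linearCombination F _ u = _
      rw [Fintype.linearCombination_apply, Fintype.sum_sum_type, Fintype.sum_sum_type,
        Fin.sum_univ_two]
      rfl
    rw [mem_frPerp] at hg₁ hg₂
    have hXC : QuadraticMap.polar Q (∑ i, u (Sum.inl (Sum.inl i)) • e i +
        ∑ i, u (Sum.inl (Sum.inr i)) • f i) (u (Sum.inr 0) • g₁ + u (Sum.inr 1) • g₂) = 0 := by
      rw [← QuadraticMap.polarBilin_apply_apply]
      simp only [map_add, map_sum, map_smul, LinearMap.add_apply, LinearMap.sum_apply,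
        LinearMap.smul_apply, hg₁.1, hg₁.2, hg₂.1, hg₂.2, smul_zero, Finset.sum_const_zero,
        add_zero]
    rw [h1, QuadraticMap.map_add Q, frame_quad hfr, hXC, add_zero, QuadraticMap.map_add Q,
      QuadraticMap.map_smul, QuadraticMap.map_smul, hQ₁, hQ₂, QuadraticMap.polar_smul_left,
      QuadraticMap.polar_smul_right, ← QuadraticMap.polarBilin_apply_apply, h12]
    show _ = Cfsg.quadFormMinus k F a b u
    simp only [Cfsg.quadFormMinus, smul_eq_mul]
    ring
  have hinj := inj_of_isom (QMin k F a b) (QMin_nondeg' a b hab) Φ₀ hΦ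
  exact ⟨Φ₀.linearEquivOfInjective hinj (by rw [finrank_minus, hV]), hΦ⟩

/-- The Artin–Schreier-type map `t ↦ t² + a t` in characteristic two. -/
def asHom [CharP F 2] (a : F) : F →+ F :=
  AddMonoidHom.mk' (fun t => t * t + a * t) (by
    intro x y
    have h2 : (2 : F) = 0 := CharTwo.two_eq_zero
    show (x + y) * (x + y) + a * (x + y) = x * x + a * x + (y * y + a * y)
    linear_combination (x * y) * h2)

theorem asHom_apply [CharP F 2] (a t : F) : asHom a t = t * t + a * t := rfl

theorem asHom_index [Finite F] [CharP F 2] (a : F) (ha : a ≠ 0) :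
    (asHom a).range.index = 2 := by
  have h2 : (2 : F) = 0 := CharTwo.two_eq_zero
  have h1 := AddSubgroup.card_mul_index (asHom a).ker
  rw [AddSubgroup.index_ker] at h1
  have h3 := AddSubgroup.card_mul_index (asHom a).range
  have hker : Nat.card (asHom a).ker = 2 := by
    rw [Nat.card_eq_two_iff]
    refine ⟨⟨0, by rw [AddMonoidHom.mem_ker, map_zero]⟩, ⟨a, by
      rw [AddMonoidHom.mem_ker, asHom_apply]
      linear_combination (a * a) * h2⟩, ?_, ?_⟩
    · intro h
      exact ha (congrArg Subtype.val h).symm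
    · rw [Set.eq_univ_iff_forall]
      rintro ⟨t, ht⟩
      rw [AddMonoidHom.mem_ker, asHom_apply] at ht
      have h4 : t * (t - a) = 0 := by linear_combination ht - (a * t) * h2
      rcases mul_eq_zero.1 h4 with h5 | h5
      · left
        exact Subtype.ext h5
      · right
        exact Subtype.ext (sub_eq_zero.1 h5)
  rw [hker] at h1
  have hpos : 0 < Nat.card (asHom a).range := Nat.card_pos
  have h6 : Nat.card (asHom a).range * (asHom a).range.index = Nat.card (asHom a).range * 2 := by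
    rw [h3, ← h1]
    ring
  exact Nat.eq_of_mul_eq_mul_left hpos h6

/-- An anisotropic complement of a frame contains a standard pair for any anisotropic binary
form `z₁² + a z₁ z₂ + b z₂²`. -/
theorem exists_binary [Finite F] [CharP F 2] {I : Type*} [Fintype I] [DecidableEq I]
    {e f : I → V} (hQ : (QuadraticMap.polarBilin Q).Nondegenerate) (hfr : IsHFrame Q e f)
    (hW : frPerp Q e f ≠ ⊥) (haniso : ∀ w ∈ frPerp Q e f, Q w = 0 → w = 0) (a b : F)
    (hab : ∀ z₁ z₂ : F, z₁ ^ 2 + a * z₁ * z₂ + b * z₂ ^ 2 = 0 → z₁ = 0 ∧ z₂ = 0) :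
    ∃ g₁ ∈ frPerp Q e f, ∃ g₂ ∈ frPerp Q e f, Q g₁ = 1 ∧ Q g₂ = b ∧
      QuadraticMap.polarBilin Q g₁ g₂ = a := by
  have h2 : (2 : F) = 0 := CharTwo.two_eq_zero
  have ha := aniso_a_ne_zero a b hab
  obtain ⟨u, huW, hu0⟩ := Submodule.exists_mem_ne_zero_of_ne_bot hW
  obtain ⟨t, ht⟩ := sq_surj_of_finite (F := F) (Q u)
  have ht0 : t ≠ 0 := by
    rintro rfl
    exact hu0 (haniso u huW (by rw [← ht]; ring))
  obtain ⟨g₁, hg₁def⟩ : ∃ g₁, g₁ = t⁻¹ • u := ⟨_, rfl⟩
  have hg₁W : g₁ ∈ frPerp Q e f := by rw [hg₁def]; exact Submodule.smul_mem _ _ huW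
  have hQ₁ : Q g₁ = 1 := by
    rw [hg₁def, QuadraticMap.map_smul, smul_eq_mul, ← ht]
    field_simp
  have hg₁0 : g₁ ≠ 0 := by rw [hg₁def]; exact smul_ne_zero (inv_ne_zero ht0) hu0
  have h11 : QuadraticMap.polarBilin Q g₁ g₁ = 0 := by
    rw [QuadraticMap.polarBilin_apply_apply, QuadraticMap.polar_self, hQ₁, nsmul_eq_mul, mul_one]
    exact_mod_cast h2
  obtain ⟨y₀, hy₀⟩ : ∃ y₀, QuadraticMap.polarBilin Q g₁ y₀ ≠ 0 := by
    by_contra h
    push Not at h
    exact hg₁0 (hQ.1 g₁ h)
  obtain ⟨y₁, hy₁W, hy₁⟩ := frProj hfr y₀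
  have hc := hy₁ g₁ hg₁W
  obtain ⟨g₂', hg₂'def⟩ : ∃ g₂', g₂' = (a * (QuadraticMap.polarBilin Q g₁ y₀)⁻¹) • y₁ := ⟨_, rfl⟩
  have hg₂'W : g₂' ∈ frPerp Q e f := by rw [hg₂'def]; exact Submodule.smul_mem _ _ hy₁W
  have h12' : QuadraticMap.polarBilin Q g₁ g₂' = a := by
    rw [hg₂'def, map_smul, smul_eq_mul, hc]
    field_simp
  have hQadd : ∀ s : F, Q (g₂' + s • g₁) = Q g₂' + s * s + s * a := by
    intro s
    rw [QuadraticMap.map_add Q, QuadraticMap.map_smul, hQ₁, QuadraticMap.polar_smul_right,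
      ← QuadraticMap.polarBilin_apply_apply, pbq_symm, h12', smul_eq_mul, smul_eq_mul, mul_one]
  have hBadd : ∀ s : F, QuadraticMap.polarBilin Q g₁ (g₂' + s • g₁) = a := by
    intro s
    rw [map_add, map_smul, h12', h11, smul_zero, add_zero]
  have hb : b ∉ (asHom a).range := by
    rintro ⟨s, hs⟩
    rw [asHom_apply] at hs
    have := hab s 1 (by linear_combination hs + b * h2)
    exact one_ne_zero this.2
  have hq : Q g₂' ∉ (asHom a).range := by
    rintro ⟨s, hs⟩
    rw [asHom_apply] at hs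
    have h0 : Q (g₂' + s • g₁) = 0 := by
      rw [hQadd, ← hs]
      linear_combination (s * s + a * s) * h2
    have h1 := haniso _ (Submodule.add_mem _ hg₂'W (Submodule.smul_mem _ _ hg₁W)) h0
    have h3 := hBadd s
    rw [h1, map_zero] at h3
    exact ha h3.symm
  have hmem : b + Q g₂' ∈ (asHom a).range :=
    (AddSubgroup.add_mem_iff_of_index_two (asHom_index a ha)).2 (iff_of_false hb hq)
  obtain ⟨s, hs⟩ := hmem
  rw [asHom_apply] at hs
  refine ⟨g₁, hg₁W, g₂' + s • g₁, Submodule.add_mem _ hg₂'W (Submodule.smul_mem _ _ hg₁W), hQ₁,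
    ?_, hBadd s⟩
  rw [hQadd]
  linear_combination hs + Q g₂' * h2

variable (Q)

/-- Classification: a nondegenerate quadratic form of dimension `2(k+1)` over a finite field of
characteristic two is isometric to the standard plus-type form or to the standard minus-type form
(with any prescribed anisotropic binary part). -/
theorem quad_classify [Finite F] [CharP F 2] [FiniteDimensional F V]
    (hQ : (QuadraticMap.polarBilin Q).Nondegenerate) (k : ℕ) (hV : finrank F V = 2 * (k + 1))
    (a b : F) (hab : ∀ z₁ z₂ : F, z₁ ^ 2 + a * z₁ * z₂ + b * z₂ ^ 2 = 0 → z₁ = 0 ∧ z₂ = 0) :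
    (∃ Φ : (Fin (k + 1) ⊕ Fin (k + 1) → F) ≃ₗ[F] V,
      ∀ u, Q (Φ u) = Cfsg.quadFormPlus (k + 1) F u) ∨
    (∃ Φ : ((Fin k ⊕ Fin k) ⊕ Fin 2 → F) ≃ₗ[F] V,
      ∀ u, Q (Φ u) = Cfsg.quadFormMinus k F a b u) := by
  obtain ⟨e, f, hfr⟩ := exists_frame Q hQ (k + 1) hV k le_rfl
  have hfin := finrank_frPerp_ge Q e f hQ
  rw [Fintype.card_fin, hV] at hfin
  have hWne : frPerp Q e f ≠ ⊥ := by
    intro h
    rw [h, finrank_bot] at hfin
    omega
  by_cases hsing : ∃ w ∈ frPerp Q e f, w ≠ 0 ∧ Q w = 0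
  · left
    obtain ⟨w, hwW, hw0, hQw⟩ := hsing
    obtain ⟨y, hyW, hQy, hwy⟩ := exists_hyp_pair hQ hfr w hwW hw0 hQw
    have hfr' := frame_reindex (frame_extend hfr w y hwW hyW hQw hQy hwy) (finSuccEquiv k)
    exact plus_iso_of_frame hfr' hV
  · right
    push Not at hsing
    have haniso : ∀ w ∈ frPerp Q e f, Q w = 0 → w = 0 := fun w hw hq => by
      by_contra h
      exact hsing w hw h hq
    obtain ⟨g₁, hg₁, g₂, hg₂, hQ₁, hQ₂, h12⟩ := exists_binary hQ hfr hWne haniso a b hab
    exact minus_iso_of_frame hfr hV a b hab g₁ g₂ hg₁ hg₂ hQ₁ hQ₂ h12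

end QClass

end Cfsg.Agent.H42
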