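import Mathlib
import Cfsg.Prelude.Def_Classical
import Cfsg.Agent.H42.QClass
import Cfsg.Agent.H42.OCFrame
import Cfsg.Agent.H49.Count

set_option autoImplicit false

/-! The trace–norm quadratic form on a quadratic extension tower and fixed-point-free isometries
of the minus-type form (helper42). -/

namespace Cfsg.Agent.H42

open Module Matrix Cfsg.Agent.H49

section NormForm

variable {F K : Type*} [Field F] [Field K] [Algebra F K]

/-- The bilinear map `(x, y) ↦ tr(θ x σ(y))`. -/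
noncomputable def nfBil (σ : K ≃ₐ[F] K) (θ : K) : LinearMap.BilinMap F K F :=
  LinearMap.mk₂ F (fun x y => Algebra.trace F K (θ * x * σ y))
    (by
      intro x x' y
      rw [← map_add]
      congr 1
      ring)
    (by
      intro c x y
      rw [← map_smul]
      congr 1
      rw [mul_smul_comm, smul_mul_assoc])
    (by
      intro x y y'
      rw [← map_add, map_add σ]
      congr 1
      ring)
    (by
      intro c x y
      rw [← map_smul, map_smul σ]
      congr 1
      rw [mul_smul_comm])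

/-- The quadratic form `x ↦ tr(θ x σ(x))`. -/
noncomputable def nfQ (σ : K ≃ₐ[F] K) (θ : K) : QuadraticForm F K :=
  (nfBil σ θ).toQuadraticMap

theorem nfQ_apply (σ : K ≃ₐ[F] K) (θ : K) (x : K) :
    nfQ σ θ x = Algebra.trace F K (θ * x * σ x) := rfl

theorem nfQ_polar (σ : K ≃ₐ[F] K) (θ : K) (hσ : ∀ x, σ (σ x) = x) (hθ : θ + σ θ = 1) (x y : K) :
    QuadraticMap.polar (nfQ σ θ) x y = Algebra.trace F K (x * σ y) := by
  have h1 : QuadraticMap.polar (nfQ σ θ) x y = nfBil σ θ x y + nfBil σ θ y x :=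
    LinearMap.BilinMap.polar_toQuadraticMap (B := nfBil σ θ) x y
  rw [h1]
  show Algebra.trace F K (θ * x * σ y) + Algebra.trace F K (θ * y * σ x) = _
  have h2 : Algebra.trace F K (θ * y * σ x) = Algebra.trace F K (σ θ * x * σ y) := by
    rw [← Algebra.trace_eq_of_algEquiv σ (θ * y * σ x)]
    congr 1
    rw [map_mul σ, map_mul σ, hσ]
    ring
  rw [h2, ← map_add]
  congr 1
  rw [← add_mul, ← add_mul, hθ, one_mul]

theorem nfQ_nondeg [FiniteDimensional F K] [Algebra.IsSeparable F K] (σ : K ≃ₐ[F] K) (θ : K)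
    (hσ : ∀ x, σ (σ x) = x) (hθ : θ + σ θ = 1) :
    (QuadraticMap.polarBilin (nfQ σ θ)).Nondegenerate := by
  have key : ∀ x : K, (∀ y, QuadraticMap.polarBilin (nfQ σ θ) x y = 0) → x = 0 := by
    intro x hx
    apply (traceForm_nondegenerate F K).1 x
    intro z
    have := hx (σ z)
    rw [QuadraticMap.polarBilin_apply_apply, nfQ_polar σ θ hσ hθ, hσ] at this
    rw [Algebra.traceForm_apply]
    exact this
  refine ⟨key, ?_⟩
  intro y hy
  apply key
  intro x
  rw [pbq_symm]
  exact hy x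

theorem nfQ_isom (σ : K ≃ₐ[F] K) (θ : K) (ζ : K) (hζ : ζ * σ ζ = 1) (x : K) :
    nfQ σ θ (ζ * x) = nfQ σ θ x := by
  rw [nfQ_apply, nfQ_apply, map_mul σ]
  congr 1
  calc θ * (ζ * x) * (σ ζ * σ x) = (ζ * σ ζ) * (θ * x * σ x) := by ring
    _ = θ * x * σ x := by rw [hζ, one_mul]

end NormForm

section Ext

/-- Multiplication by a unit as a linear equivalence. -/
noncomputable def mulLE {F K : Type*} [Field F] [Field K] [Algebra F K] (z : Kˣ) : K ≃ₗ[F] K where
  toFun x := (z : K) * x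
  invFun x := ((z⁻¹ : Kˣ) : K) * x
  map_add' := mul_add _
  map_smul' c x := by simp
  left_inv x := by simp
  right_inv x := by simp

theorem mulLE_apply {F K : Type*} [Field F] [Field K] [Algebra F K] (z : Kˣ) (x : K) :
    mulLE (F := F) z x = (z : K) * x := rfl

variable {F : Type*} [Field F] [Fintype F] [CharP F 2]

/-- Arithmetic: the plus-type zero count is not `1` modulo an odd prime divisor of `q^(k+1)+1`. -/
theorem plus_count_ne_one_mod {q k r : ℕ} (hq : 1 ≤ q) (hr : r.Prime) (hr2 : r ≠ 2)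
    (hdiv : r ∣ q ^ (k + 1) + 1)
    (hmod : (q ^ (k + 1) - 1) * q ^ k + q ^ (k + 1) ≡ 1 [MOD r]) : False := by
  haveI : Fact r.Prime := ⟨hr⟩
  have h2 : (2 : ZMod r) ≠ 0 := by
    intro h
    have h' : ((2 : ℕ) : ZMod r) = 0 := by exact_mod_cast h
    rw [ZMod.natCast_eq_zero_iff] at h'
    exact hr2 ((Nat.prime_dvd_prime_iff_eq hr Nat.prime_two).1 h')
  have hB : ((q ^ (k + 1) : ℕ) : ZMod r) = -1 := by
    have h := (ZMod.natCast_eq_zero_iff (q ^ (k + 1) + 1) r).2 hdiv
    push_cast at h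
    push_cast
    linear_combination h
  have hB1 : 1 ≤ q ^ (k + 1) := Nat.one_le_pow _ _ hq
  have hZ := (ZMod.natCast_eq_natCast_iff _ _ _).2 hmod
  rw [Nat.cast_add, Nat.cast_mul, Nat.cast_sub hB1, hB] at hZ
  push_cast at hZ
  have hA : (q : ZMod r) ^ k = -1 := by
    have h3 : (2 : ZMod r) * ((q : ZMod r) ^ k + 1) = 0 := by linear_combination -hZ
    rcases mul_eq_zero.1 h3 with h4 | h4
    · exact absurd h4 h2
    · linear_combination h4
  have hq1 : (q : ZMod r) = 1 := by
    have h5 : (q : ZMod r) ^ (k + 1) = -1 := by exact_mod_cast hB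
    rw [pow_succ, hA] at h5
    linear_combination -h5
  rw [hq1, one_pow] at hA
  apply h2
  linear_combination hA

/-- For an odd prime `r` dividing `q^(k+1) + 1` there is an isometry of the standard minus-type
form of dimension `2(k+1)`, of order dividing `r`, without nonzero fixed vectors. -/
theorem exists_fpf_minus {q : ℕ} (hq : Fintype.card F = q) (k : ℕ) (a b : F)
    (hab : ∀ z₁ z₂ : F, z₁ ^ 2 + a * z₁ * z₂ + b * z₂ ^ 2 = 0 → z₁ = 0 ∧ z₂ = 0)
    (r : ℕ) (hr : r.Prime) (hr2 : r ≠ 2) (hdiv : r ∣ q ^ (k + 1) + 1) :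
    ∃ g : ↥(Cfsg.isometryGroup F (Cfsg.quadFormMinus k F a b)),
      g ^ r = 1 ∧ ∀ v, oMat g *ᵥ v = v → v = 0 := by
  classical
  have : Fact (Nat.Prime 2) := ⟨Nat.prime_two⟩
  have : NeZero (2 * (k + 1)) := ⟨by omega⟩
  have : Fact r.Prime := ⟨hr⟩
  let K := FiniteField.Extension F 2 (2 * (k + 1))
  letI : Fintype K := Fintype.ofFinite K
  have hq2 : 2 ≤ q := by rw [← hq]; exact Fintype.one_lt_card
  have hcardK : Fintype.card K = q ^ (2 * (k + 1)) := by
    rw [Fintype.card_eq_nat_card, FiniteField.natCard_extension, Nat.card_eq_fintype_card, hq]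
  have hfin : finrank F K = 2 * (k + 1) := FiniteField.finrank_extension F 2 (2 * (k + 1))
  let σ : K ≃ₐ[F] K := FiniteField.Extension.frob F 2 (2 * (k + 1)) ^ (k + 1)
  have hσpow : ∀ x : K, σ x = x ^ (q ^ (k + 1)) := by
    intro x
    have h := FiniteField.Extension.frob_iterate_apply F 2 (2 * (k + 1)) (k + 1) (x := x)
    rw [Nat.card_eq_fintype_card, hq] at h
    exact h
  have hσσ : ∀ x : K, σ (σ x) = x := by
    intro x
    rw [hσpow, hσpow, ← pow_mul, ← pow_add, ← two_mul, ← hcardK, FiniteField.pow_card]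
  -- an element of order `r`
  have hA1 : 1 ≤ q ^ (k + 1) := Nat.one_le_pow _ _ (by omega)
  have hdvd : r ∣ Fintype.card Kˣ := by
    rw [Fintype.card_units, hcardK]
    have e : q ^ (2 * (k + 1)) - 1 = (q ^ (k + 1) + 1) * (q ^ (k + 1) - 1) := by
      rw [two_mul, pow_add]
      obtain ⟨A, hA⟩ : ∃ A, q ^ (k + 1) = A + 1 := ⟨q ^ (k + 1) - 1, by omega⟩
      rw [hA, Nat.add_sub_cancel]
      apply Nat.sub_eq_of_eq_add
      ring
    rw [e]
    exact Dvd.dvd.mul_right hdiv _
  obtain ⟨ζ, hζ⟩ := exists_prime_orderOf_dvd_card (G := Kˣ) r hdvd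
  have hζr : (ζ : K) ^ r = 1 := by
    rw [← Units.val_pow_eq_pow_val, ← hζ, pow_orderOf_eq_one, Units.val_one]
  have hζ1 : (ζ : K) ≠ 1 := by
    intro h
    have h1 : ζ = 1 := Units.ext h
    rw [h1, orderOf_one] at hζ
    exact hr.one_lt.ne hζ
  have hζσ : (ζ : K) * σ ζ = 1 := by
    rw [hσpow, ← pow_succ', ← Units.val_pow_eq_pow_val,
      orderOf_dvd_iff_pow_eq_one.1 (hζ ▸ hdiv), Units.val_one]
  have hσζ : σ (ζ : K) ≠ ζ := by
    intro h
    rw [h] at hζσ
    have h1 : ζ ^ 2 = 1 := by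
      apply Units.ext
      rw [Units.val_pow_eq_pow_val, sq, hζσ, Units.val_one]
    have h2 := orderOf_dvd_of_pow_eq_one h1
    rw [hζ] at h2
    exact hr2 ((Nat.prime_dvd_prime_iff_eq hr Nat.prime_two).1 h2)
  have h2K : (2 : K) = 0 := by
    have h : (2 : K) = algebraMap F K (2 : F) := (map_ofNat _ 2).symm
    have h0 : (2 : F) = 0 := CharTwo.two_eq_zero
    rw [h, h0, map_zero]
  obtain ⟨c, hcdef⟩ : ∃ c : K, c = ζ + σ ζ := ⟨_, rfl⟩
  have hc0 : c ≠ 0 := by
    intro h
    apply hσζ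
    rw [hcdef] at h
    linear_combination h - (ζ : K) * h2K
  have hσc : σ c = c := by
    rw [hcdef, map_add, hσσ, add_comm]
  obtain ⟨θ, hθdef⟩ : ∃ θ : K, θ = ζ * c⁻¹ := ⟨_, rfl⟩
  have hθ : θ + σ θ = 1 := by
    rw [hθdef, map_mul, map_inv₀, hσc, ← add_mul, ← hcdef, mul_inv_cancel₀ hc0]
  have hQ := nfQ_nondeg σ θ hσσ hθ
  rcases quad_classify (nfQ σ θ) hQ k hfin a b hab with ⟨Φ, hΦ⟩ | ⟨Φ, hΦ⟩
  · exfalso
    -- the zeros of the form are permuted by `ζ` with the single fixed point `0`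
    let f : Function.End {x : K // nfQ σ θ x = 0} := fun x =>
      ⟨(ζ : K) * x.1, by rw [nfQ_isom σ θ ζ hζσ]; exact x.2⟩
    have hfpow : ∀ (n : ℕ) (x : {x : K // nfQ σ θ x = 0}), ((f ^ n) x).1 = (ζ : K) ^ n * x.1 := by
      intro n
      induction n with
      | zero =>
        intro x
        rw [pow_zero, pow_zero, one_mul]
        rfl
      | succ n ih =>
        intro x
        rw [pow_succ]
        show ((f ^ n) (f x)).1 = _
        rw [ih]
        show (ζ : K) ^ n * ((ζ : K) * x.1) = _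
        rw [pow_succ, mul_assoc]
    have hfr : f ^ r ^ 1 = 1 := by
      rw [pow_one]
      funext x
      apply Subtype.ext
      rw [hfpow, hζr, one_mul]
      rfl
    have hmod := Equiv.Perm.card_fixedPoints_modEq (f := f) (p := r) (n := 1) hfr
    have hfix : Fintype.card (Function.fixedPoints f) = 1 := by
      rw [Fintype.card_eq_one_iff]
      refine ⟨⟨⟨0, map_zero _⟩, ?_⟩, ?_⟩
      · show f ⟨0, _⟩ = ⟨0, _⟩
        apply Subtype.ext
        show (ζ : K) * 0 = 0
        rw [mul_zero]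
      · rintro ⟨⟨x, hx⟩, hfx⟩
        apply Subtype.ext
        apply Subtype.ext
        show x = 0
        have h1 : (ζ : K) * x = x := congrArg Subtype.val hfx
        have h3 : ((ζ : K) - 1) * x = 0 := by rw [sub_mul, h1, one_mul, sub_self]
        rcases mul_eq_zero.1 h3 with h4 | h4
        · exact absurd (sub_eq_zero.1 h4) hζ1
        · exact h4
    have hcard : Fintype.card {x : K // nfQ σ θ x = 0} =
        (q ^ (k + 1) - 1) * q ^ k + q ^ (k + 1) := by
      have h1 := card_zeros_plus (F := F) (k + 1)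
      rw [hq, Nat.add_sub_cancel] at h1
      rw [← h1, Nat.card_eq_fintype_card]
      refine Fintype.card_congr (Φ.symm.toEquiv.subtypeEquiv ?_)
      intro x
      show nfQ σ θ x = 0 ↔ Cfsg.quadFormPlus (k + 1) F (Φ.symm x) = 0
      rw [← hΦ, LinearEquiv.apply_symm_apply]
    rw [hfix, hcard] at hmod
    exact plus_count_ne_one_mod (by omega) hr hr2 hdiv hmod
  · let g : ((Fin k ⊕ Fin k) ⊕ Fin 2 → F) ≃ₗ[F] ((Fin k ⊕ Fin k) ⊕ Fin 2 → F) :=
      (Φ.trans (mulLE ζ)).trans Φ.symm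
    have hgdef : ∀ v, g v = Φ.symm ((ζ : K) * Φ v) := fun v => rfl
    have hg : ∀ v, QMin k F a b (g v) = QMin k F a b v := by
      intro v
      show Cfsg.quadFormMinus k F a b (g v) = Cfsg.quadFormMinus k F a b v
      rw [hgdef, ← hΦ, ← hΦ, LinearEquiv.apply_symm_apply]
      exact nfQ_isom σ θ ζ hζσ (Φ v)
    obtain ⟨U, hU⟩ : ∃ U : ↥(Cfsg.isometryGroup F (Cfsg.quadFormMinus k F a b)),
        ∀ x, oMat U *ᵥ x = g x := isom_of_equiv (QMin k F a b) g hg
    have hpow : ∀ (n : ℕ) (x : (Fin k ⊕ Fin k) ⊕ Fin 2 → F),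
        oMat (U ^ n) *ᵥ x = Φ.symm ((ζ : K) ^ n * Φ x) := by
      intro n
      induction n with
      | zero =>
        intro x
        rw [pow_zero, pow_zero, one_mul, LinearEquiv.symm_apply_apply, oMat_one,
          Matrix.one_mulVec]
      | succ n ih =>
        intro x
        rw [pow_succ, oMat_mul, ← Matrix.mulVec_mulVec, hU, ih, hgdef,
          LinearEquiv.apply_symm_apply, ← mul_assoc, ← pow_succ]
    refine ⟨U, ?_, ?_⟩
    · apply oMat_injective
      apply mat_ext_mulVecG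
      intro x
      rw [hpow, hζr, one_mul, LinearEquiv.symm_apply_apply, oMat_one, Matrix.one_mulVec]
    · intro v hv
      rw [hU, hgdef] at hv
      have h1 : (ζ : K) * Φ v = Φ v := by
        have := congrArg Φ hv
        rwa [LinearEquiv.apply_symm_apply] at this
      have h3 : ((ζ : K) - 1) * Φ v = 0 := by rw [sub_mul, h1, one_mul, sub_self]
      rcases mul_eq_zero.1 h3 with h4 | h4
      · exact absurd (sub_eq_zero.1 h4) hζ1
      · exact Φ.map_eq_zero_iff.1 h4

end Ext

end Cfsg.Agent.H42
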