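import Mathlib
import Cfsg.Prelude.Def_Classical
import Cfsg.Prelude.Def_GeometricClasses
import Cfsg.Agent.H42.Elus
import Cfsg.Agent.H42.NormForm

set_option autoImplicit false

/-! Elements of prime order of `Ω⁻_{2d}(q)`, `q` even, and fixed nonsingular 1-spaces
(helper42). -/

namespace Cfsg.Agent.H42

open Module Matrix Cfsg.Agent.H49

section Minus

variable {F : Type*} [Field F] [Fintype F] [CharP F 2]

omit [Fintype F] [CharP F 2] in
theorem minus_ns_vec (k : ℕ) (a b : F) :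
    ∃ v : (Fin k ⊕ Fin k) ⊕ Fin 2 → F, Cfsg.quadFormMinus k F a b v = 1 :=
  ⟨Pi.single (Sum.inr 0) 1, by simp [Cfsg.quadFormMinus]⟩

/-- An involution of `O⁻_{2(k+1)}(q)`, `q` even, fixes a nonsingular vector. -/
theorem minus_inv_fix {k : ℕ} (a b : F)
    (hab : ∀ z₁ z₂ : F, z₁ ^ 2 + a * z₁ * z₂ + b * z₂ ^ 2 = 0 → z₁ = 0 ∧ z₂ = 0)
    (x : ↥(Cfsg.isometryGroup F (Cfsg.quadFormMinus k F a b))) (z : F)
    (hz : oMat x * oMat x = z • (1 : Matrix ((Fin k ⊕ Fin k) ⊕ Fin 2) ((Fin k ⊕ Fin k) ⊕ Fin 2) F)) :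
    ∃ (v : (Fin k ⊕ Fin k) ⊕ Fin 2 → F) (c : F), Cfsg.quadFormMinus k F a b v ≠ 0 ∧
      oMat x *ᵥ v = c • v := by
  have hQ : (QuadraticMap.polarBilin (QMin k F a b)).Nondegenerate := QMin_nondeg' a b hab
  have hV : finrank F ((Fin k ⊕ Fin k) ⊕ Fin 2 → F) = 2 * (k + 1) := finrank_minus k
  have hz1 : z = 1 := by
    obtain ⟨v, hv⟩ := minus_ns_vec (F := F) k a b
    apply sq_eq_one_char2
    have h1 : Cfsg.quadFormMinus k F a b (oMat x *ᵥ (oMat x *ᵥ v)) = 1 := by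
      rw [oMat_isom (Qf := Cfsg.quadFormMinus k F a b) x,
        oMat_isom (Qf := Cfsg.quadFormMinus k F a b) x, hv]
    rw [Matrix.mulVec_mulVec, hz, Matrix.smul_mulVec, Matrix.one_mulVec] at h1
    have h2 : QMin k F a b (z • v) = (z * z) • QMin k F a b v := QuadraticMap.map_smul _ _ _
    have h3 : QMin k F a b v = 1 := hv
    have h4 : QMin k F a b (z • v) = 1 := h1
    rw [h3, h4, smul_eq_mul, mul_one] at h2
    rw [sq, ← h2]
  rw [hz1, one_smul] at hz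
  have htv : ∀ y, oMat x *ᵥ y = y + nOpG (oMat x) y := by
    intro y
    rw [nOpG_apply]
    abel
  have hfix : ∃ w, QMin k F a b w ≠ 0 ∧ oMat x *ᵥ w = w := by
    by_cases halt : ∀ v, QMin k F a b (nOpG (oMat x) v) = 0
    · have h2 := qmin_ts_finrank_le a b hQ hab (LinearMap.range (nOpG (oMat x))) (by
        rintro _ ⟨v, rfl⟩
        exact halt v)
      obtain ⟨x₀, hx₀, hxW⟩ := exists_anisotropic_orthogonal (QMin k F a b) hQ
        (LinearMap.range (nOpG (oMat x))) (by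
          rw [hV]
          omega)
      refine ⟨x₀, hx₀, ?_⟩
      have hN0 : nOpG (oMat x) x₀ = 0 := by
        apply hQ.1
        intro y
        rw [nOpG_selfadj (QMin k F a b) (oMat x) (oMat_isom x) hz x₀ y]
        exact hxW _ (LinearMap.mem_range_self _ y)
      rw [htv, hN0, add_zero]
    · push Not at halt
      obtain ⟨x₀, hx₀⟩ := halt
      refine ⟨nOpG (oMat x) x₀, hx₀, ?_⟩
      rw [htv, nOpG_sq _ hz, add_zero]
  obtain ⟨w, hw, hfw⟩ := hfix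
  exact ⟨w, 1, hw, by rw [hfw, one_smul]⟩

/-- The number of nonsingular vectors of the minus-type form. -/
theorem card_nonsing_minus {q : ℕ} (hq : Fintype.card F = q) (k : ℕ) (hk : 1 ≤ k) (a b : F)
    (hab : ∀ z₁ z₂ : F, z₁ ^ 2 + a * z₁ * z₂ + b * z₂ ^ 2 = 0 → z₁ = 0 ∧ z₂ = 0) :
    Nat.card {v : (Fin k ⊕ Fin k) ⊕ Fin 2 → F // Cfsg.quadFormMinus k F a b v ≠ 0} =
      q ^ k * (q ^ (k + 1) + 1) * (q - 1) := by
  classical
  have hq2 : 2 ≤ q := by rw [← hq]; exact Fintype.one_lt_card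
  have h0 := card_zeros_minus (F := F) k a b hab
  rw [hq] at h0
  have htot : Fintype.card ((Fin k ⊕ Fin k) ⊕ Fin 2 → F) = q ^ (k + k + 2) := by
    rw [Fintype.card_fun, Fintype.card_sum, Fintype.card_sum, Fintype.card_fin, Fintype.card_fin,
      hq]
  have h1 : Nat.card {v : (Fin k ⊕ Fin k) ⊕ Fin 2 → F // Cfsg.quadFormMinus k F a b v ≠ 0} =
      q ^ (k + k + 2) - ((q ^ k - 1) * q ^ 2 * q ^ (k - 1) + q ^ k) := by
    rw [Nat.card_eq_fintype_card, Fintype.card_subtype_compl, htot, ← Nat.card_eq_fintype_card, h0]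
  rw [h1]
  obtain ⟨k', rfl⟩ : ∃ k', k = k' + 1 := ⟨k - 1, by omega⟩
  obtain ⟨q', rfl⟩ : ∃ q', q = q' + 1 := ⟨q - 1, by omega⟩
  rw [Nat.add_sub_cancel, Nat.add_sub_cancel]
  obtain ⟨A', hA⟩ : ∃ A', (q' + 1) ^ (k' + 1) = A' + 1 :=
    ⟨(q' + 1) ^ (k' + 1) - 1, by have := Nat.one_le_pow (k' + 1) (q' + 1) (by omega); omega⟩
  have e1 : (q' + 1) ^ (k' + 1 + (k' + 1) + 2) =
      ((q' + 1) * (A' + 1)) * ((q' + 1) * (A' + 1)) := by
    rw [← hA]
    ring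
  have e2 : (q' + 1) ^ 2 * (q' + 1) ^ k' = (q' + 1) * (A' + 1) := by
    rw [← hA]
    ring
  have e3 : (q' + 1) ^ (k' + 1 + 1) = (q' + 1) * (A' + 1) := by
    rw [← hA]
    ring
  have e2' : ((q' + 1) ^ (k' + 1) - 1) * (q' + 1) ^ 2 * (q' + 1) ^ k' =
      A' * ((q' + 1) * (A' + 1)) := by
    rw [hA, Nat.add_sub_cancel, mul_assoc, e2]
  rw [e1, e2', e3, hA]
  apply Nat.sub_eq_of_eq_add
  ring

/-- Main theorem: elements of prime order `r` of `Ω⁻_{2(k+1)}(q)`, `q` even, all fix a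
nonsingular 1-space iff `r = 2`. -/
theorem elus_minus {q : ℕ} (hq : Fintype.card F = q) (k : ℕ) (hk : 3 ≤ k) (a b : F)
    (hab : ∀ x y : F, x ^ 2 + a * x * y + b * y ^ 2 = 0 → x = 0 ∧ y = 0) (r : ℕ) [Fact r.Prime]
    (hrΩ : r ∣ Nat.card {W : Submodule F ((Fin k ⊕ Fin k) ⊕ Fin 2 → F) // Module.finrank F ↥W = 1 ∧ ∃ v ∈ W, Cfsg.quadFormMinus k F a b v ≠ 0}) :
    (∀ x : GL ((Fin k ⊕ Fin k) ⊕ Fin 2) F, x ∈ Cfsg.Geo.omegaGL (Cfsg.quadFormMinus k F a b) →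
      (∃ z : F, ((x ^ r : GL ((Fin k ⊕ Fin k) ⊕ Fin 2) F) : Matrix ((Fin k ⊕ Fin k) ⊕ Fin 2) ((Fin k ⊕ Fin k) ⊕ Fin 2) F) = z • (1 : Matrix ((Fin k ⊕ Fin k) ⊕ Fin 2) ((Fin k ⊕ Fin k) ⊕ Fin 2) F)) →
      (∀ z : F, (x : Matrix ((Fin k ⊕ Fin k) ⊕ Fin 2) ((Fin k ⊕ Fin k) ⊕ Fin 2) F) ≠ z • (1 : Matrix ((Fin k ⊕ Fin k) ⊕ Fin 2) ((Fin k ⊕ Fin k) ⊕ Fin 2) F)) →
      ∃ W : Submodule F ((Fin k ⊕ Fin k) ⊕ Fin 2 → F), (Module.finrank F ↥W = 1 ∧ ∃ v ∈ W, Cfsg.quadFormMinus k F a b v ≠ 0) ∧ W.map (Matrix.toLin' (x : Matrix ((Fin k ⊕ Fin k) ⊕ Fin 2) ((Fin k ⊕ Fin k) ⊕ Fin 2) F)) ≤ W) ↔ r = 2 := by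
  classical
  have hQ0 : Cfsg.quadFormMinus k F a b 0 = 0 := by simp [Cfsg.quadFormMinus]
  have hr := (Fact.out : r.Prime)
  have hq2 : 2 ≤ q := by rw [← hq]; exact Fintype.one_lt_card
  have h2 : (2 : F) = 0 := CharTwo.two_eq_zero
  have hQ : (QuadraticMap.polarBilin (QMin k F a b)).Nondegenerate := QMin_nondeg' a b hab
  have hV : finrank F ((Fin k ⊕ Fin k) ⊕ Fin 2 → F) = 2 * (k + 1) := finrank_minus k
  have hsm : ∀ (c : F) (v : (Fin k ⊕ Fin k) ⊕ Fin 2 → F),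
      Cfsg.quadFormMinus k F a b (c • v) = c ^ 2 * Cfsg.quadFormMinus k F a b v := by
    intro c v
    have : QMin k F a b (c • v) = (c * c) • QMin k F a b v := QuadraticMap.map_smul _ _ _
    rw [sq]
    exact this
  constructor
  · intro H
    by_contra hr2
    have hlines := card_nonsing_lines (Cfsg.quadFormMinus k F a b) hsm
    rw [card_nonsing_minus hq k (by omega) a b hab, hq] at hlines
    have hN := Nat.eq_of_mul_eq_mul_right (by omega : 0 < q - 1) hlines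
    rw [hN] at hrΩ
    have hnq : ¬ r ∣ q := by
      intro h
      obtain ⟨n, -, hn⟩ := FiniteField.card F 2
      rw [hq] at hn
      rw [hn] at h
      exact hr2 ((Nat.prime_dvd_prime_iff_eq hr Nat.prime_two).1 (hr.dvd_of_dvd_pow h))
    have hdiv : r ∣ q ^ (k + 1) + 1 := by
      rcases (Nat.Prime.dvd_mul hr).1 hrΩ with h | h
      · exact absurd (hr.dvd_of_dvd_pow h) hnq
      · exact h
    obtain ⟨g, hgr, hfpf⟩ := exists_fpf_minus hq k a b hab r hr hr2 hdiv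
    have hgΩ : g ∈ Cfsg.Omega F (Cfsg.quadFormMinus k F a b) := by
      obtain ⟨v0, hv0⟩ := minus_ns_vec (F := F) k a b
      have hidx := index_commutator_char_twox (QMin k F a b) h2 hQ hV
        (Or.inr (Or.inl (by omega))) v0
        (by rw [show QMin k F a b v0 = 1 from hv0]; exact one_ne_zero)
      have hodd : r % 2 = 1 := by
        rcases hr.eq_two_or_odd with h | h
        · exact absurd h hr2
        · exact h
      have h1 : g = (g ^ ((r + 1) / 2)) ^ 2 := by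
        rw [← pow_mul, show (r + 1) / 2 * 2 = r + 1 by omega, pow_succ, hgr, one_mul]
      rw [h1]
      exact Subgroup.sq_mem_of_index_two hidx _
    have hnf : ¬ ∃ (v : (Fin k ⊕ Fin k) ⊕ Fin 2 → F) (c : F),
        Cfsg.quadFormMinus k F a b v ≠ 0 ∧ oMat g *ᵥ v = c • v := by
      rintro ⟨v, c, hv, hc⟩
      have h1 : Cfsg.quadFormMinus k F a b (oMat g *ᵥ v) = Cfsg.quadFormMinus k F a b v :=
        oMat_isom (Qf := Cfsg.quadFormMinus k F a b) g v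
      rw [hc, hsm] at h1
      have hc1 : c = 1 := by
        apply sq_eq_one_char2
        have h3 : (c ^ 2 - 1) * Cfsg.quadFormMinus k F a b v = 0 := by
          rw [sub_mul, h1, one_mul, sub_self]
        rcases mul_eq_zero.1 h3 with h4 | h4
        · exact sub_eq_zero.1 h4
        · exact absurd h4 hv
      rw [hc1, one_smul] at hc
      rw [hfpf v hc] at hv
      exact hv hQ0
    have hnf' := (ns_line_iff (Cfsg.quadFormMinus k F a b) hQ0 (oMat g)).not.2 hnf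
    apply hnf'
    apply H (g : GL ((Fin k ⊕ Fin k) ⊕ Fin 2) F)
    · exact (mem_omegaGL_iff _ _).2 ⟨g, hgΩ, rfl⟩
    · refine ⟨1, ?_⟩
      rw [one_smul]
      have h1 : ((g : GL ((Fin k ⊕ Fin k) ⊕ Fin 2) F)) ^ r = 1 := by
        rw [← Subgroup.coe_pow, hgr]
        rfl
      rw [h1]
      rfl
    · intro z hz
      apply hnf
      obtain ⟨v0, hv0⟩ := minus_ns_vec (F := F) k a b
      refine ⟨v0, z, by rw [hv0]; exact one_ne_zero, ?_⟩
      show ((g : GL ((Fin k ⊕ Fin k) ⊕ Fin 2) F) :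
        Matrix ((Fin k ⊕ Fin k) ⊕ Fin 2) ((Fin k ⊕ Fin k) ⊕ Fin 2) F) *ᵥ v0 = z • v0
      rw [hz, Matrix.smul_mulVec, Matrix.one_mulVec]
  · rintro rfl x hxΩ ⟨z, hz⟩ hns
    obtain ⟨g, hgΩ, rfl⟩ := (mem_omegaGL_iff _ x).1 hxΩ
    rw [ns_line_iff (Cfsg.quadFormMinus k F a b) hQ0]
    apply minus_inv_fix a b hab g z
    rw [← hz, sq]
    rfl

end Minus

end Cfsg.Agent.H42
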