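import Mathlib
import Cfsg.Prelude.Def_Classical
import Cfsg.Prelude.Def_ClassicalGeometry
import Cfsg.Prelude.Def_GeometricClasses
import Cfsg.Agent.H42.ElusSpA
import Cfsg.Agent.H42.ElusM
import Cfsg.Agent.H42.QClass
import Cfsg.Agent.H42.OMinus
import Cfsg.Agent.H42.OPlus
import Cfsg.Agent.H49.GeoGlue
import Cfsg.Agent.S0287
import Cfsg.Agent.S0288

set_option autoImplicit false

/-! Orthogonal subgroups of `Sp_{2d}(q)`, `q` even: the two types, their indices (helper42). -/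

namespace Cfsg.Agent.H42

open Module Matrix Cfsg.Agent.H49

section Classify

variable {F : Type*} [Field F] [Fintype F] [CharP F 2]

/-- An anisotropic binary form `z₁² + z₁ z₂ + β z₂²`. -/
theorem exists_aniso_beta : ∃ β : F, ∀ z₁ z₂ : F,
    z₁ ^ 2 + 1 * z₁ * z₂ + β * z₂ ^ 2 = 0 → z₁ = 0 ∧ z₂ = 0 := by
  have h2 : (2 : F) = 0 := CharTwo.two_eq_zero
  have hidx := asHom_index (1 : F) one_ne_zero
  obtain ⟨β, hβ⟩ : ∃ β : F, β ∉ (asHom (1 : F)).range := by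
    by_contra hcon
    push Not at hcon
    have htop : (asHom (1 : F)).range = ⊤ := by
      rw [eq_top_iff]
      intro x _
      exact hcon x
    rw [htop, AddSubgroup.index_top] at hidx
    omega
  refine ⟨β, fun z₁ z₂ h => ?_⟩
  by_cases hz : z₂ = 0
  · rw [hz] at h
    simp only [mul_zero, add_zero, ne_eq, OfNat.ofNat_ne_zero, not_false_eq_true, zero_pow] at h
    exact ⟨pow_eq_zero_iff (two_ne_zero) |>.1 h, hz⟩
  · exfalso
    apply hβ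
    refine ⟨z₁ / z₂, ?_⟩
    rw [asHom_apply]
    field_simp
    linear_combination h - β * z₂ ^ 2 * h2

variable {k : ℕ} (Q : (Fin (k + 1) ⊕ Fin (k + 1) → F) → F)

omit [Fintype F] [CharP F 2] in
theorem finrank_top_plus :
    finrank F (⊤ : Submodule F (Fin (k + 1) ⊕ Fin (k + 1) → F)) = 2 * (k + 1) := by
  rw [finrank_top]
  exact finrank_plus (k + 1) F

omit [Fintype F] [CharP F 2] in
/-- Plus case: the form is of plus type. -/
theorem plus_of_iso (Φ : (Fin (k + 1) ⊕ Fin (k + 1) → F) ≃ₗ[F] (Fin (k + 1) ⊕ Fin (k + 1) → F))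
    (hΦ : ∀ u, Q (Φ u) = Cfsg.quadFormPlus (k + 1) F u) :
    Cfsg.Geo.IsPlusTypeOn Q ⊤ := by
  refine ⟨(U0 (k + 1) F).map (Φ : (Fin (k + 1) ⊕ Fin (k + 1) → F) →ₗ[F] _), le_top, ?_, ?_⟩
  · rintro _ ⟨u, hu, rfl⟩
    show Q (Φ u) = 0
    rw [hΦ]
    exact U0_ts (k + 1) F u hu
  · rw [finrank_top_plus, LinearEquiv.finrank_map_eq, finrank_U0]

omit [Fintype F] in
/-- Minus case: totally singular subspaces have dimension at most `k`. -/
theorem minus_ts_le (β : F)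
    (hab : ∀ z₁ z₂ : F, z₁ ^ 2 + 1 * z₁ * z₂ + β * z₂ ^ 2 = 0 → z₁ = 0 ∧ z₂ = 0)
    [Finite F]
    (Φ : ((Fin k ⊕ Fin k) ⊕ Fin 2 → F) ≃ₗ[F] (Fin (k + 1) ⊕ Fin (k + 1) → F))
    (hΦ : ∀ u, Q (Φ u) = Cfsg.quadFormMinus k F 1 β u)
    (U : Submodule F (Fin (k + 1) ⊕ Fin (k + 1) → F)) (hU : ∀ u ∈ U, Q u = 0) :
    finrank F U ≤ k := by
  have hnd : (QuadraticMap.polarBilin (QMin k F 1 β)).Nondegenerate := QMin_nondeg' 1 β hab
  have h1 := qmin_ts_finrank_le 1 β hnd hab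
    (U.map (Φ.symm : (Fin (k + 1) ⊕ Fin (k + 1) → F) →ₗ[F] _)) (by
      rintro _ ⟨u, hu, rfl⟩
      show Cfsg.quadFormMinus k F 1 β (Φ.symm u) = 0
      rw [← hΦ, LinearEquiv.apply_symm_apply]
      exact hU u hu)
  rw [LinearEquiv.finrank_map_eq] at h1
  exact h1

omit [Fintype F] in
theorem not_plus_of_iso (β : F)
    (hab : ∀ z₁ z₂ : F, z₁ ^ 2 + 1 * z₁ * z₂ + β * z₂ ^ 2 = 0 → z₁ = 0 ∧ z₂ = 0)
    [Finite F]
    (Φ : ((Fin k ⊕ Fin k) ⊕ Fin 2 → F) ≃ₗ[F] (Fin (k + 1) ⊕ Fin (k + 1) → F))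
    (hΦ : ∀ u, Q (Φ u) = Cfsg.quadFormMinus k F 1 β u) :
    ¬ Cfsg.Geo.IsPlusTypeOn Q ⊤ := by
  rintro ⟨U, -, hU, hfin⟩
  have h1 := minus_ts_le Q β hab Φ hΦ U hU
  rw [finrank_top_plus] at hfin
  omega

theorem pow_two_mul_sub_one (A : ℕ) (hA : 1 ≤ A) : A ^ 2 - 1 = (A - 1) * (A + 1) := by
  obtain ⟨A', rfl⟩ : ∃ A', A = A' + 1 := ⟨A - 1, by omega⟩
  rw [Nat.add_sub_cancel]
  apply Nat.sub_eq_of_eq_add
  ring

theorem prod_pos_aux {q : ℕ} (hq2 : 2 ≤ q) (k : ℕ) :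
    0 < ∏ i ∈ Finset.range k, (q ^ (2 * (i + 1)) - 1) := by
  apply Finset.prod_pos
  intro i _
  have : 2 ^ (2 * (i + 1)) ≤ q ^ (2 * (i + 1)) := Nat.pow_le_pow_left hq2 _
  have h2 : 2 ≤ 2 ^ (2 * (i + 1)) := by
    calc 2 = 2 ^ 1 := (pow_one 2).symm
      _ ≤ 2 ^ (2 * (i + 1)) := Nat.pow_le_pow_right (by omega) (by omega)
  omega

/-- Plus case: the index. -/
theorem index_plus {q : ℕ} (hq : Fintype.card F = q)
    (hQf : ∀ u v, QuadraticMap.polar Q u v = Cfsg.sympForm (k + 1) F u v)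
    (Φ : (Fin (k + 1) ⊕ Fin (k + 1) → F) ≃ₗ[F] (Fin (k + 1) ⊕ Fin (k + 1) → F))
    (hΦ : ∀ u, Q (Φ u) = Cfsg.quadFormPlus (k + 1) F u) :
    (Cfsg.Geo.quadSimilarityGroup Q).relIndex (Cfsg.spGL (k + 1) F) * 2 =
      q ^ (k + 1) * (q ^ (k + 1) + 1) := by
  have hq2 : 2 ≤ q := by rw [← hq]; exact Fintype.one_lt_card
  have h1 := relIndex_mul_card Q (by omega) hQf
  rw [card_spGL hq, ← card_isometry_congr (Cfsg.quadFormPlus (k + 1) F) Q Φ hΦ,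
    Cfsg.Agent.S0287.result hq (k + 1) (by omega), Nat.add_sub_cancel,
    Finset.prod_range_succ] at h1
  have hP := prod_pos_aux hq2 k
  have hA1 : 1 ≤ q ^ (k + 1) := Nat.one_le_pow _ _ (by omega)
  have hA2 : 2 ≤ q ^ (k + 1) := by
    calc 2 ≤ q := hq2
      _ = q ^ 1 := (pow_one q).symm
      _ ≤ q ^ (k + 1) := Nat.pow_le_pow_right (by omega) (by omega)
  have hB : 0 < q ^ ((k + 1) * k) := pos_of_ne_zero (pow_ne_zero _ (by omega))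
  have e1 : q ^ (2 * (k + 1)) - 1 = (q ^ (k + 1) - 1) * (q ^ (k + 1) + 1) := by
    rw [← pow_two_mul_sub_one _ hA1, ← pow_mul, mul_comm]
  have e2 : q ^ ((k + 1) ^ 2) = q ^ ((k + 1) * k) * q ^ (k + 1) := by
    rw [← pow_add]
    congr 1
    ring
  rw [e1, e2] at h1
  have hpos : 0 < q ^ ((k + 1) * k) * (q ^ (k + 1) - 1) *
      ∏ i ∈ Finset.range k, (q ^ (2 * (i + 1)) - 1) := by
    apply Nat.mul_pos (Nat.mul_pos hB (by omega)) hP
  apply Nat.eq_of_mul_eq_mul_right hpos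
  calc (Cfsg.Geo.quadSimilarityGroup Q).relIndex (Cfsg.spGL (k + 1) F) * 2 *
        (q ^ ((k + 1) * k) * (q ^ (k + 1) - 1) * ∏ i ∈ Finset.range k, (q ^ (2 * (i + 1)) - 1))
      = (Cfsg.Geo.quadSimilarityGroup Q).relIndex (Cfsg.spGL (k + 1) F) *
        (2 * q ^ ((k + 1) * k) * (q ^ (k + 1) - 1) *
          ∏ i ∈ Finset.range k, (q ^ (2 * (i + 1)) - 1)) := by ring
    _ = _ := h1
    _ = _ := by ring

/-- Minus case: the index. -/
theorem index_minus {q : ℕ} (hq : Fintype.card F = q)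
    (hQf : ∀ u v, QuadraticMap.polar Q u v = Cfsg.sympForm (k + 1) F u v) (β : F)
    (hab : ∀ z₁ z₂ : F, z₁ ^ 2 + 1 * z₁ * z₂ + β * z₂ ^ 2 = 0 → z₁ = 0 ∧ z₂ = 0)
    (Φ : ((Fin k ⊕ Fin k) ⊕ Fin 2 → F) ≃ₗ[F] (Fin (k + 1) ⊕ Fin (k + 1) → F))
    (hΦ : ∀ u, Q (Φ u) = Cfsg.quadFormMinus k F 1 β u) :
    (Cfsg.Geo.quadSimilarityGroup Q).relIndex (Cfsg.spGL (k + 1) F) * 2 =
      q ^ (k + 1) * (q ^ (k + 1) - 1) := by
  have hq2 : 2 ≤ q := by rw [← hq]; exact Fintype.one_lt_card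
  have h1 := relIndex_mul_card Q (by omega) hQf
  have h288 := Cfsg.Agent.S0288.result hq (k + 1) (by omega) 1 β hab
  rw [Nat.add_sub_cancel] at h288
  rw [card_spGL hq, ← card_isometry_congr (Cfsg.quadFormMinus k F 1 β) Q Φ hΦ,
    h288, Finset.prod_range_succ] at h1
  have hP := prod_pos_aux hq2 k
  have hA1 : 1 ≤ q ^ (k + 1) := Nat.one_le_pow _ _ (by omega)
  have hB : 0 < q ^ ((k + 1) * k) := pos_of_ne_zero (pow_ne_zero _ (by omega))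
  have e1 : q ^ (2 * (k + 1)) - 1 = (q ^ (k + 1) - 1) * (q ^ (k + 1) + 1) := by
    rw [← pow_two_mul_sub_one _ hA1, ← pow_mul, mul_comm]
  have e2 : q ^ ((k + 1) ^ 2) = q ^ ((k + 1) * k) * q ^ (k + 1) := by
    rw [← pow_add]
    congr 1
    ring
  rw [e1, e2] at h1
  have hpos : 0 < q ^ ((k + 1) * k) * (q ^ (k + 1) + 1) *
      ∏ i ∈ Finset.range k, (q ^ (2 * (i + 1)) - 1) := by
    apply Nat.mul_pos (Nat.mul_pos hB (by omega)) hP
  apply Nat.eq_of_mul_eq_mul_right hpos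
  calc (Cfsg.Geo.quadSimilarityGroup Q).relIndex (Cfsg.spGL (k + 1) F) * 2 *
        (q ^ ((k + 1) * k) * (q ^ (k + 1) + 1) * ∏ i ∈ Finset.range k, (q ^ (2 * (i + 1)) - 1))
      = (Cfsg.Geo.quadSimilarityGroup Q).relIndex (Cfsg.spGL (k + 1) F) *
        (2 * q ^ ((k + 1) * k) * (q ^ (k + 1) + 1) *
          ∏ i ∈ Finset.range k, (q ^ (2 * (i + 1)) - 1)) := by ring
    _ = _ := h1
    _ = _ := by ring

/-- Plus case: the number of singular vectors. -/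
theorem zeros_plus_of_iso {q : ℕ} (hq : Fintype.card F = q)
    (Φ : (Fin (k + 1) ⊕ Fin (k + 1) → F) ≃ₗ[F] (Fin (k + 1) ⊕ Fin (k + 1) → F))
    (hΦ : ∀ u, Q (Φ u) = Cfsg.quadFormPlus (k + 1) F u) :
    Nat.card {v : Fin (k + 1) ⊕ Fin (k + 1) → F // Q v = 0} =
      (q ^ (k + 1) - 1) * q ^ k + q ^ (k + 1) := by
  have h1 := card_zeros_plus (F := F) (k + 1)
  rw [hq, Nat.add_sub_cancel] at h1
  rw [← h1]
  refine Nat.card_congr (Φ.symm.toEquiv.subtypeEquiv ?_)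
  intro x
  show Q x = 0 ↔ Cfsg.quadFormPlus (k + 1) F (Φ.symm x) = 0
  rw [← hΦ, LinearEquiv.apply_symm_apply]

end Classify

end Cfsg.Agent.H42
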