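import Mathlib
import Cfsg.Prelude.Def_ClassicalGeometry
import Cfsg.Agent.H42.SpInvMain

set_option autoImplicit false

namespace Cfsg.Agent.H42

open Matrix Cfsg.Agent.H17

/-- Existence of symplectic involutions with a prescribed presentation shape. -/
theorem sp_inv_exists {F : Type*} [Field F] [CharP F 2] {m : ℕ} {I : Type} [Fintype I]
    [DecidableEq I] (σ : I → I) (hσ : Function.Involutive σ) (j : I → Fin m)
    (hj : Function.Injective j) :
    ∃ A : Matrix (Fin m ⊕ Fin m) (Fin m ⊕ Fin m) F, A ∈ Matrix.symplecticGroup (Fin m) F ∧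
      A * A = 1 ∧ (A - 1).rank = Fintype.card I ∧
      ∀ x, sympBilin m F (nOp A x) x =
        ∑ s, sympBilin m F (Pi.single (Sum.inl (j (σ s))) 1) x *
          sympBilin m F (Pi.single (Sum.inl (j s)) 1) x := by
  classical
  set w : I → (Fin m ⊕ Fin m → F) := fun s => Pi.single (Sum.inl (j s)) 1 with hw
  set t : I → (Fin m ⊕ Fin m → F) := fun s => Pi.single (Sum.inr (j s)) 1 with ht
  have h11 : (1 : F) + 1 = 0 := CharTwo.add_self_eq_zero 1
  have hsym : ∀ x y : Fin m ⊕ Fin m → F, sympBilin m F x y = sympBilin m F y x := by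
    intro x y
    rw [sympBilin_apply, sympBilin_apply, sympForm_swap, CharTwo.neg_eq]
  have hww : ∀ a u, sympBilin m F (w a) (w u) = 0 := by
    intro a u
    rw [sympBilin_apply, sympForm_eq_sum]
    simp [hw]
  have hwt : ∀ a u, sympBilin m F (w a) (t u) = if a = u then 1 else 0 := by
    intro a u
    rw [sympBilin_apply, sympForm_eq_sum]
    simp only [hw, ht, Pi.single_apply, Sum.inl.injEq, Sum.inr.injEq, reduceCtorEq, if_false,
      zero_mul, zero_sub]
    by_cases hau : a = u
    · subst hau
      simp only [if_true]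
      rw [Finset.sum_eq_single (j a)]
      · simp
        exact CharTwo.neg_eq 1
      · intro b _ hb
        simp [hb]
      · intro h
        exact absurd (Finset.mem_univ _) h
    · rw [if_neg hau]
      apply Finset.sum_eq_zero
      intro b _
      by_cases h1 : b = j a
      · have h2 : b ≠ j u := by
          intro h3
          exact hau (hj (h1.symm.trans h3))
        simp [h2]
      · simp [h1]
  let N : (Fin m ⊕ Fin m → F) →ₗ[F] (Fin m ⊕ Fin m → F) :=
    ∑ s, (sympBilin m F (w (σ s))).smulRight (w s)
  have hNa : ∀ x, N x = ∑ s, sympBilin m F (w (σ s)) x • w s := by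
    intro x
    simp [N, LinearMap.sum_apply]
  have hNt : ∀ u, N (t u) = w (σ u) := by
    intro u
    rw [hNa]
    simp only [hwt]
    rw [Finset.sum_eq_single (σ u)]
    · rw [hσ u]
      simp
    · intro s _ hs
      rw [if_neg, zero_smul]
      intro h
      apply hs
      rw [← h, hσ s]
    · intro h
      exact absurd (Finset.mem_univ _) h
  have hself : ∀ x y, sympBilin m F (N x) y = sympBilin m F x (N y) := by
    intro x y
    rw [hNa, hNa]
    simp only [map_sum, map_smul, LinearMap.sum_apply, LinearMap.smul_apply, smul_eq_mul]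
    rw [← Equiv.sum_comp hσ.toPerm]
    apply Finset.sum_congr rfl
    intro s _
    simp only [Function.Involutive.coe_toPerm, hσ s]
    rw [hsym x (w s)]
    ring
  have hsq : ∀ x, N (N x) = 0 := by
    intro x
    rw [hNa (N x)]
    apply Finset.sum_eq_zero
    intro s _
    rw [hNa x]
    simp only [map_sum, map_smul, smul_eq_mul, hww, mul_zero, Finset.sum_const_zero, zero_smul]
  set A : Matrix (Fin m ⊕ Fin m) (Fin m ⊕ Fin m) F := 1 + LinearMap.toMatrix' N with hA
  have hAv : ∀ x, A *ᵥ x = x + N x := by
    intro x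
    rw [hA, Matrix.add_mulVec, Matrix.one_mulVec, ← Matrix.toLin'_apply, Matrix.toLin'_toMatrix']
  have hnOp : nOp A = N := by
    apply LinearMap.ext
    intro x
    rw [nOp_apply, hAv, add_sub_cancel_left]
  have h2x : ∀ x : Fin m ⊕ Fin m → F, x + x = 0 := by
    intro x
    rw [← two_smul F x, CharTwo.two_eq_zero, zero_smul]
  refine ⟨A, ?_, ?_, ?_, ?_⟩
  · rw [mem_symplecticGroup_iff_form]
    intro u v
    rw [hAv, hAv, ← sympBilin_apply, ← sympBilin_apply]
    simp only [map_add, LinearMap.add_apply]
    rw [hself u (N v), hsq, map_zero, add_zero, hself u v]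
    have : sympBilin m F u (N v) + sympBilin m F u (N v) = 0 := by
      rw [← two_mul, CharTwo.two_eq_zero, zero_mul]
    rw [add_assoc, this, add_zero]
  · apply matrix_ext_mulVec
    intro x
    rw [← Matrix.mulVec_mulVec, hAv, hAv, Matrix.one_mulVec, map_add, hsq, add_zero, add_assoc,
      h2x, add_zero]
  · have h1 : (A - 1).rank = Module.finrank F (LinearMap.range (nOp A)) := rfl
    rw [h1, hnOp]
    apply pres_finrank (sympBilin m F) N σ hσ (fun s => t (σ s))
    refine ⟨?_, ?_⟩
    · intro s s'
      rw [hNt, hσ s, hwt]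
      by_cases h : σ s = s'
      · rw [if_pos h, if_pos]
        rw [← h, hσ s]
      · rw [if_neg h, if_neg]
        intro h'
        apply h
        rw [h', hσ s']
    · intro x
      rw [hNa]
      apply Finset.sum_congr rfl
      intro s _
      rw [hNt, hNt, hσ s]
  · intro x
    rw [hnOp, hNa]
    simp only [map_sum, map_smul, LinearMap.sum_apply, LinearMap.smul_apply, smul_eq_mul]
    rfl

end Cfsg.Agent.H42
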