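import Mathlib
import Cfsg.Prelude.Def_ClassicalGeometry
import Cfsg.Agent.H42.SpInvExist

set_option autoImplicit false

namespace Cfsg.Agent.H42

open Matrix Cfsg.Agent.H17

section

variable {F : Type*} [Field F] {m : ℕ}

/-- `B(e_{inl a}, e_{inr b}) = δ_{ab}` in characteristic two. -/
theorem symp_single_inl_inr [CharP F 2] (a b : Fin m) :
    sympBilin m F (Pi.single (Sum.inl a) 1) (Pi.single (Sum.inr b) 1) = if a = b then 1 else 0 := by
  rw [sympBilin_apply, sympForm_eq_sum]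
  simp only [Pi.single_apply, Sum.inl.injEq, Sum.inr.injEq, reduceCtorEq, if_false,
    zero_mul, zero_sub]
  by_cases hab : a = b
  · subst hab
    simp only [if_true]
    rw [Finset.sum_eq_single a]
    · simp
      exact CharTwo.neg_eq 1
    · intro c _ hc
      simp [hc]
    · intro h
      exact absurd (Finset.mem_univ _) h
  · rw [if_neg hab]
    apply Finset.sum_eq_zero
    intro c _
    by_cases h1 : c = a
    · have h2 : c ≠ b := by
        intro h3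
        exact hab (h1.symm.trans h3)
      simp [h2]
    · simp [h1]

/-- Conjugate elements have equal `rank (a - 1)`. -/
theorem sp_rank_conj (a b : ↥(Matrix.symplecticGroup (Fin m) F)) (h : IsConj a b) :
    ((a : Matrix (Fin m ⊕ Fin m) (Fin m ⊕ Fin m) F) - 1).rank =
      ((b : Matrix (Fin m ⊕ Fin m) (Fin m ⊕ Fin m) F) - 1).rank := by
  obtain ⟨c, hc⟩ := isConj_iff.1 h
  have hcc : (c : Matrix (Fin m ⊕ Fin m) (Fin m ⊕ Fin m) F) *
      ((c⁻¹ : ↥(Matrix.symplecticGroup (Fin m) F)) : Matrix (Fin m ⊕ Fin m) (Fin m ⊕ Fin m) F) = 1 :=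
    congrArg Subtype.val (mul_inv_cancel c)
  have hbM' : (b : Matrix (Fin m ⊕ Fin m) (Fin m ⊕ Fin m) F) =
      (c : Matrix (Fin m ⊕ Fin m) (Fin m ⊕ Fin m) F) * (a : Matrix (Fin m ⊕ Fin m) (Fin m ⊕ Fin m) F) *
        ((c⁻¹ : ↥(Matrix.symplecticGroup (Fin m) F)) : Matrix (Fin m ⊕ Fin m) (Fin m ⊕ Fin m) F) :=
    (congrArg Subtype.val hc).symm
  have h1 : (b : Matrix (Fin m ⊕ Fin m) (Fin m ⊕ Fin m) F) - 1 =
      (c : Matrix (Fin m ⊕ Fin m) (Fin m ⊕ Fin m) F) * ((a : Matrix (Fin m ⊕ Fin m) (Fin m ⊕ Fin m) F) - 1) *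
        ((c⁻¹ : ↥(Matrix.symplecticGroup (Fin m) F)) : Matrix (Fin m ⊕ Fin m) (Fin m ⊕ Fin m) F) := by
    rw [Matrix.mul_sub, Matrix.sub_mul, Matrix.mul_one, hcc, ← hbM']
  rw [h1, Matrix.rank_mul_eq_left_of_isUnit_det _ _ (Matrix.isUnit_det_of_left_inverse hcc),
    Matrix.rank_mul_eq_right_of_isUnit_det _ _ (Matrix.isUnit_det_of_right_inverse hcc)]

/-- The type is a conjugacy invariant (one direction). -/
theorem sp_type_conj (a b : ↥(Matrix.symplecticGroup (Fin m) F)) (h : IsConj a b)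
    (hb : ∀ v, Cfsg.sympForm m F v ((b : Matrix (Fin m ⊕ Fin m) (Fin m ⊕ Fin m) F) *ᵥ v) = 0) :
    ∀ v, Cfsg.sympForm m F v ((a : Matrix (Fin m ⊕ Fin m) (Fin m ⊕ Fin m) F) *ᵥ v) = 0 := by
  obtain ⟨c, hc⟩ := isConj_iff.1 h
  have hcc' : ((c⁻¹ : ↥(Matrix.symplecticGroup (Fin m) F)) : Matrix (Fin m ⊕ Fin m) (Fin m ⊕ Fin m) F) *
      (c : Matrix (Fin m ⊕ Fin m) (Fin m ⊕ Fin m) F) = 1 :=
    congrArg Subtype.val (inv_mul_cancel c)
  have hbM' : (b : Matrix (Fin m ⊕ Fin m) (Fin m ⊕ Fin m) F) =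
      (c : Matrix (Fin m ⊕ Fin m) (Fin m ⊕ Fin m) F) * (a : Matrix (Fin m ⊕ Fin m) (Fin m ⊕ Fin m) F) *
        ((c⁻¹ : ↥(Matrix.symplecticGroup (Fin m) F)) : Matrix (Fin m ⊕ Fin m) (Fin m ⊕ Fin m) F) :=
    (congrArg Subtype.val hc).symm
  have hbc : (b : Matrix (Fin m ⊕ Fin m) (Fin m ⊕ Fin m) F) * (c : Matrix (Fin m ⊕ Fin m) (Fin m ⊕ Fin m) F) =
      (c : Matrix (Fin m ⊕ Fin m) (Fin m ⊕ Fin m) F) * (a : Matrix (Fin m ⊕ Fin m) (Fin m ⊕ Fin m) F) := by
    rw [hbM', Matrix.mul_assoc, hcc', Matrix.mul_one]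
  intro v
  have h1 := hb ((c : Matrix (Fin m ⊕ Fin m) (Fin m ⊕ Fin m) F) *ᵥ v)
  rw [Matrix.mulVec_mulVec, hbc, ← Matrix.mulVec_mulVec,
    (mem_symplecticGroup_iff_form m _).1 c.2] at h1
  exact h1

/-- Rank bounds for an involution. -/
theorem sp_rank_bounds [CharP F 2] (a : ↥(Matrix.symplecticGroup (Fin m) F))
    (ha : (a : Matrix (Fin m ⊕ Fin m) (Fin m ⊕ Fin m) F) * (a : Matrix (Fin m ⊕ Fin m) (Fin m ⊕ Fin m) F) = 1)
    (ha1 : a ≠ 1) :
    1 ≤ ((a : Matrix (Fin m ⊕ Fin m) (Fin m ⊕ Fin m) F) - 1).rank ∧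
      ((a : Matrix (Fin m ⊕ Fin m) (Fin m ⊕ Fin m) F) - 1).rank ≤ m := by
  have hr : ((a : Matrix (Fin m ⊕ Fin m) (Fin m ⊕ Fin m) F) - 1).rank =
      Module.finrank F (LinearMap.range (nOp (a : Matrix (Fin m ⊕ Fin m) (Fin m ⊕ Fin m) F))) := rfl
  constructor
  · by_contra hcon
    have h0 : Module.finrank F (LinearMap.range (nOp (a : Matrix (Fin m ⊕ Fin m) (Fin m ⊕ Fin m) F))) = 0 := by
      omega
    rw [Submodule.finrank_eq_zero] at h0
    apply ha1
    apply Subtype.ext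
    apply matrix_ext_mulVec
    intro x
    have h1 : nOp (a : Matrix (Fin m ⊕ Fin m) (Fin m ⊕ Fin m) F) x ∈
        LinearMap.range (nOp (a : Matrix (Fin m ⊕ Fin m) (Fin m ⊕ Fin m) F)) :=
      LinearMap.mem_range_self _ x
    rw [h0, Submodule.mem_bot, nOp_apply, sub_eq_zero] at h1
    rw [h1]
    change x = (1 : Matrix (Fin m ⊕ Fin m) (Fin m ⊕ Fin m) F) *ᵥ x
    rw [Matrix.one_mulVec]
  · have h1 := LinearMap.finrank_range_add_finrank_ker (nOp (a : Matrix (Fin m ⊕ Fin m) (Fin m ⊕ Fin m) F))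
    have h2 : LinearMap.range (nOp (a : Matrix (Fin m ⊕ Fin m) (Fin m ⊕ Fin m) F)) ≤
        LinearMap.ker (nOp (a : Matrix (Fin m ⊕ Fin m) (Fin m ⊕ Fin m) F)) := by
      rintro _ ⟨x, rfl⟩
      rw [LinearMap.mem_ker]
      exact nOp_sq _ ha x
    have h3 := Submodule.finrank_mono h2
    have h4 : Module.finrank F (Fin m ⊕ Fin m → F) = m + m := by
      rw [Module.finrank_fintype_fun_eq_card, Fintype.card_sum, Fintype.card_fin]
    rw [hr]
    omega

/-- Existence of involutions of non-alternating type of each rank `1 ≤ r ≤ m`. -/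
theorem sp_exists_nonalt [CharP F 2] (r : ℕ) (hr1 : 1 ≤ r) (hrm : r ≤ m) :
    ∃ a : ↥(Matrix.symplecticGroup (Fin m) F), orderOf a = 2 ∧
      ((a : Matrix (Fin m ⊕ Fin m) (Fin m ⊕ Fin m) F) - 1).rank = r ∧
      ¬ ∀ v, Cfsg.sympForm m F v ((a : Matrix (Fin m ⊕ Fin m) (Fin m ⊕ Fin m) F) *ᵥ v) = 0 := by
  obtain ⟨A, hA, hAA, hrank, htype⟩ := sp_inv_exists (F := F) (m := m) (I := Fin r)
    (id : Fin r → Fin r) (fun _ => rfl) (Fin.castLE hrm) (Fin.castLE_injective hrm)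
  rw [Fintype.card_fin] at hrank
  have hne : (⟨A, hA⟩ : ↥(Matrix.symplecticGroup (Fin m) F)) ≠ 1 := by
    intro h1
    have h2 : A = 1 := congrArg Subtype.val h1
    rw [h2, sub_self, Matrix.rank_zero] at hrank
    omega
  refine ⟨⟨A, hA⟩, ?_, hrank, ?_⟩
  · have : Fact (Nat.Prime 2) := ⟨Nat.prime_two⟩
    apply orderOf_eq_prime _ hne
    rw [sq]
    exact Subtype.ext hAA
  · intro halt
    have h1 := (nOp_alt_iff A).2 halt (Pi.single (Sum.inr (Fin.castLE hrm ⟨0, hr1⟩)) 1)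
    rw [htype] at h1
    simp only [id, symp_single_inl_inr] at h1
    rw [Finset.sum_eq_single (⟨0, hr1⟩ : Fin r)] at h1
    · simp at h1
    · intro s _ hs
      have : Fin.castLE hrm s ≠ Fin.castLE hrm ⟨0, hr1⟩ := fun h => hs (Fin.castLE_injective hrm h)
      rw [if_neg this, zero_mul]
    · intro h
      exact absurd (Finset.mem_univ _) h

/-- Existence of involutions of alternating type of each even rank `2 ≤ 2k ≤ m`. -/
theorem sp_exists_alt [CharP F 2] (k : ℕ) (hk1 : 1 ≤ k) (hkm : 2 * k ≤ m) :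
    ∃ a : ↥(Matrix.symplecticGroup (Fin m) F), orderOf a = 2 ∧
      ((a : Matrix (Fin m ⊕ Fin m) (Fin m ⊕ Fin m) F) - 1).rank = 2 * k ∧
      ∀ v, Cfsg.sympForm m F v ((a : Matrix (Fin m ⊕ Fin m) (Fin m ⊕ Fin m) F) *ᵥ v) = 0 := by
  let j : Fin k ⊕ Fin k → Fin m :=
    Sum.elim (fun i => ⟨(i : ℕ), by have := i.2; omega⟩) (fun i => ⟨k + (i : ℕ), by have := i.2; omega⟩)
  have hj : Function.Injective j := by
    rintro (a | a) (b | b) h
    · have := congrArg Fin.val h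
      simp only [j, Sum.elim_inl] at this
      exact congrArg Sum.inl (Fin.ext this)
    · have := congrArg Fin.val h
      simp only [j, Sum.elim_inl, Sum.elim_inr] at this
      have := a.2
      omega
    · have := congrArg Fin.val h
      simp only [j, Sum.elim_inl, Sum.elim_inr] at this
      have := b.2
      omega
    · have := congrArg Fin.val h
      simp only [j, Sum.elim_inr] at this
      exact congrArg Sum.inr (Fin.ext (by omega))
  obtain ⟨A, hA, hAA, hrank, htype⟩ := sp_inv_exists (F := F) (m := m) (I := Fin k ⊕ Fin k)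
    Sum.swap Sum.swap_swap j hj
  rw [Fintype.card_sum, Fintype.card_fin] at hrank
  have hne : (⟨A, hA⟩ : ↥(Matrix.symplecticGroup (Fin m) F)) ≠ 1 := by
    intro h1
    have h2 : A = 1 := congrArg Subtype.val h1
    rw [h2, sub_self, Matrix.rank_zero] at hrank
    omega
  refine ⟨⟨A, hA⟩, ?_, by rw [hrank]; ring, ?_⟩
  · have : Fact (Nat.Prime 2) := ⟨Nat.prime_two⟩
    apply orderOf_eq_prime _ hne
    rw [sq]
    exact Subtype.ext hAA
  · apply (nOp_alt_iff A).1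
    intro x
    rw [htype, Fintype.sum_sum_type]
    simp only [Sum.swap_inl, Sum.swap_inr]
    have h1 : ∑ i : Fin k, sympBilin m F (Pi.single (Sum.inl (j (Sum.inl i))) 1) x *
        sympBilin m F (Pi.single (Sum.inl (j (Sum.inr i))) 1) x =
        ∑ i : Fin k, sympBilin m F (Pi.single (Sum.inl (j (Sum.inr i))) 1) x *
          sympBilin m F (Pi.single (Sum.inl (j (Sum.inl i))) 1) x := by
      apply Finset.sum_congr rfl
      intro i _
      ring
    rw [h1]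
    exact CharTwo.add_self_eq_zero _

/-- The number of conjugacy classes of involutions of `Sp_{2m}(q)`, `q` even. -/
theorem sp_inv_class_count [Fintype F] [CharP F 2] (hm : 1 ≤ m) :
    Nat.card {C : ConjClasses ↥(Matrix.symplecticGroup (Fin m) F) //
      ∃ g : Matrix.symplecticGroup (Fin m) F, ConjClasses.mk g = C ∧ orderOf g = 2} = m + m / 2 := by
  have E1 : ∀ i : Fin m, ∃ a : ↥(Matrix.symplecticGroup (Fin m) F), orderOf a = 2 ∧
      ((a : Matrix (Fin m ⊕ Fin m) (Fin m ⊕ Fin m) F) - 1).rank = (i : ℕ) + 1 ∧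
      ¬ ∀ v, Cfsg.sympForm m F v ((a : Matrix (Fin m ⊕ Fin m) (Fin m ⊕ Fin m) F) *ᵥ v) = 0 :=
    fun i => sp_exists_nonalt ((i : ℕ) + 1) (by omega) (by have := i.2; omega)
  have E2 : ∀ i : Fin (m / 2), ∃ a : ↥(Matrix.symplecticGroup (Fin m) F), orderOf a = 2 ∧
      ((a : Matrix (Fin m ⊕ Fin m) (Fin m ⊕ Fin m) F) - 1).rank = 2 * ((i : ℕ) + 1) ∧
      ∀ v, Cfsg.sympForm m F v ((a : Matrix (Fin m ⊕ Fin m) (Fin m ⊕ Fin m) F) *ᵥ v) = 0 :=
    fun i => sp_exists_alt ((i : ℕ) + 1) (by omega) (by have := i.2; omega)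
  choose A1 hA1 using E1
  choose A2 hA2 using E2
  have hsq : ∀ g : ↥(Matrix.symplecticGroup (Fin m) F), orderOf g = 2 →
      (g : Matrix (Fin m ⊕ Fin m) (Fin m ⊕ Fin m) F) * (g : Matrix (Fin m ⊕ Fin m) (Fin m ⊕ Fin m) F) = 1 := by
    intro g hg
    have := pow_orderOf_eq_one g
    rw [hg, sq] at this
    exact congrArg Subtype.val this
  have hne : ∀ g : ↥(Matrix.symplecticGroup (Fin m) F), orderOf g = 2 → g ≠ 1 := by
    intro g hg h1
    rw [h1, orderOf_one] at hg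
    omega
  let f : Fin m ⊕ Fin (m / 2) → {C : ConjClasses ↥(Matrix.symplecticGroup (Fin m) F) //
      ∃ g : Matrix.symplecticGroup (Fin m) F, ConjClasses.mk g = C ∧ orderOf g = 2} :=
    Sum.elim (fun i => ⟨ConjClasses.mk (A1 i), A1 i, rfl, (hA1 i).1⟩)
      (fun i => ⟨ConjClasses.mk (A2 i), A2 i, rfl, (hA2 i).1⟩)
  have hinj : Function.Injective f := by
    rintro (a | a) (b | b) h
    · have h1 : IsConj (A1 a) (A1 b) := ConjClasses.mk_eq_mk_iff_isConj.1 (congrArg Subtype.val h)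
      have h2 := sp_rank_conj _ _ h1
      rw [(hA1 a).2.1, (hA1 b).2.1] at h2
      exact congrArg Sum.inl (Fin.ext (by omega))
    · exfalso
      have h1 : IsConj (A1 a) (A2 b) := ConjClasses.mk_eq_mk_iff_isConj.1 (congrArg Subtype.val h)
      exact (hA1 a).2.2 (sp_type_conj _ _ h1 (hA2 b).2.2)
    · exfalso
      have h1 : IsConj (A2 a) (A1 b) := ConjClasses.mk_eq_mk_iff_isConj.1 (congrArg Subtype.val h)
      exact (hA1 b).2.2 (sp_type_conj _ _ h1.symm (hA2 a).2.2)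
    · have h1 : IsConj (A2 a) (A2 b) := ConjClasses.mk_eq_mk_iff_isConj.1 (congrArg Subtype.val h)
      have h2 := sp_rank_conj _ _ h1
      rw [(hA2 a).2.1, (hA2 b).2.1] at h2
      exact congrArg Sum.inr (Fin.ext (by omega))
  have hsurj : Function.Surjective f := by
    rintro ⟨C, g, rfl, hg⟩
    obtain ⟨hb1, hb2⟩ := sp_rank_bounds g (hsq g hg) (hne g hg)
    by_cases halt : ∀ v, Cfsg.sympForm m F v ((g : Matrix (Fin m ⊕ Fin m) (Fin m ⊕ Fin m) F) *ᵥ v) = 0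
    · obtain ⟨k, hk⟩ := sp_even_rank_of_alt g (hsq g hg) halt
      have hk2 : k - 1 < m / 2 := by omega
      refine ⟨Sum.inr ⟨k - 1, hk2⟩, ?_⟩
      apply Subtype.ext
      apply ConjClasses.mk_eq_mk_iff_isConj.2
      apply sp_conj_of_type _ _ (hsq _ (hA2 _).1) (hsq g hg)
      · rw [(hA2 _).2.1, hk]
        simp only
        omega
      · exact ⟨fun _ => halt, fun _ => (hA2 _).2.2⟩
    · have hr2 : ((g : Matrix (Fin m ⊕ Fin m) (Fin m ⊕ Fin m) F) - 1).rank - 1 < m := by omega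
      refine ⟨Sum.inl ⟨((g : Matrix (Fin m ⊕ Fin m) (Fin m ⊕ Fin m) F) - 1).rank - 1, hr2⟩, ?_⟩
      apply Subtype.ext
      apply ConjClasses.mk_eq_mk_iff_isConj.2
      apply sp_conj_of_type _ _ (hsq _ (hA1 _).1) (hsq g hg)
      · rw [(hA1 _).2.1]
        simp only
        omega
      · exact ⟨fun h => absurd h (hA1 _).2.2, fun h => absurd h halt⟩
  rw [← Nat.card_congr (Equiv.ofBijective f ⟨hinj, hsurj⟩), Nat.card_sum, Nat.card_fin, Nat.card_fin]

end

end Cfsg.Agent.H42
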