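import Mathlib
import Cfsg.Prelude.Def_Classical
import Cfsg.Prelude.Def_ClassicalGeometry
import Cfsg.Prelude.Def_GeometricClasses
import Cfsg.Agent.H42.ElusSpA
import Cfsg.Agent.H42.ElusSpB
import Cfsg.Agent.H42.SpInvMain
import Cfsg.Agent.H42.SpInvCount

set_option autoImplicit false

/-! Involutions of `Sp_{2d}(q)`, `q` even, and the orthogonal subgroups (helper42). -/

namespace Cfsg.Agent.H42

open Module Matrix Cfsg.Agent.H49 Cfsg.Agent.H17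

section InvTransport

variable {F : Type*} [Field F] {ι₁ ι : Type} [Fintype ι₁] [DecidableEq ι₁] [Fintype ι]
  [DecidableEq ι]

/-- Transport of an involution, with rank and type. -/
theorem inv_transport (Q₁ : (ι₁ → F) → F) (Q : (ι → F) → F)
    (Φ : (ι₁ → F) ≃ₗ[F] (ι → F)) (hΦ : ∀ u, Q (Φ u) = Q₁ u)
    (a : ↥(Cfsg.isometryGroup F Q₁)) (ha : orderOf a = 2) :
    ∃ b : ↥(Cfsg.isometryGroup F Q), oMat b * oMat b = 1 ∧
      (oMat b - 1).rank = (oMat a - 1).rank ∧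
      ((∀ v, Q (nOpG (oMat b) v) = 0) ↔ (∀ v, Q₁ (nOpG (oMat a) v) = 0)) := by
  obtain ⟨b, hb⟩ := isom_transport Q₁ Q Φ hΦ a
  have haa : oMat a * oMat a = 1 := by
    have h1 : a ^ 2 = 1 := by rw [← ha]; exact pow_orderOf_eq_one a
    rw [sq] at h1
    rw [← oMat_mul, h1, oMat_one]
  have hN : ∀ v, nOpG (oMat b) v = Φ (nOpG (oMat a) (Φ.symm v)) := by
    intro v
    rw [nOpG_apply, nOpG_apply, hb, map_sub, LinearEquiv.apply_symm_apply]
  refine ⟨b, ?_, ?_, ?_⟩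
  · apply mat_ext_mulVecG
    intro x
    rw [← Matrix.mulVec_mulVec, hb, hb, LinearEquiv.symm_apply_apply, Matrix.mulVec_mulVec, haa,
      Matrix.one_mulVec, LinearEquiv.apply_symm_apply, Matrix.one_mulVec]
  · show finrank F (LinearMap.range (nOpG (oMat b))) =
      finrank F (LinearMap.range (nOpG (oMat a)))
    have hr : LinearMap.range (nOpG (oMat b)) =
        (LinearMap.range (nOpG (oMat a))).map (Φ : (ι₁ → F) →ₗ[F] (ι → F)) := by
      ext w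
      constructor
      · rintro ⟨v, rfl⟩
        exact ⟨_, ⟨Φ.symm v, rfl⟩, (hN v).symm⟩
      · rintro ⟨_, ⟨u, rfl⟩, rfl⟩
        refine ⟨Φ u, ?_⟩
        rw [hN, LinearEquiv.symm_apply_apply]
        rfl
    rw [hr, LinearEquiv.finrank_map_eq]
  · constructor
    · intro h u
      have := h (Φ u)
      rw [hN, hΦ, LinearEquiv.symm_apply_apply] at this
      exact this
    · intro h v
      rw [hN, hΦ]
      exact h _

end InvTransport

section Inv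

variable {F : Type*} [Field F] [CharP F 2]

/-- The two cases in which all classes of involutions of `Sp` meet `O(Q)`. -/
def GoodCase {k : ℕ} (Q : (Fin (k + 1) ⊕ Fin (k + 1) → F) → F) : Prop :=
  (∃ Φ : (Fin (k + 1) ⊕ Fin (k + 1) → F) ≃ₗ[F] (Fin (k + 1) ⊕ Fin (k + 1) → F),
    ∀ u, Q (Φ u) = Cfsg.quadFormPlus (k + 1) F u) ∨
  (Odd (k + 1) ∧ ∃ (β : F) (Φ : ((Fin k ⊕ Fin k) ⊕ Fin 2 → F) ≃ₗ[F]
    (Fin (k + 1) ⊕ Fin (k + 1) → F)), ∀ u, Q (Φ u) = Cfsg.quadFormMinus k F 1 β u)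

/-- Existence of an involution of `O(Q)` with prescribed rank and type. -/
theorem exists_inv_of_type {k : ℕ} (Q : (Fin (k + 1) ⊕ Fin (k + 1) → F) → F)
    (hcase : GoodCase Q) (s : ℕ) (hs1 : 1 ≤ s) (hsd : s ≤ k + 1) (alt : Prop)
    (halt : alt → Even s) :
    ∃ b : ↥(Cfsg.isometryGroup F Q), oMat b * oMat b = 1 ∧ (oMat b - 1).rank = s ∧
      ((∀ v, Q (nOpG (oMat b) v) = 0) ↔ alt) := by
  by_cases h : alt
  · obtain ⟨k', hk'⟩ := halt h
    rcases hcase with ⟨Φ, hΦ⟩ | ⟨hodd, β, Φ, hΦ⟩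
    · obtain ⟨a, ha2, harank, hatype⟩ := oplus_exists_alt (F := F) (m := k + 1) k' (by omega)
        (by omega)
      obtain ⟨b, hbb, hbrank, hbtype⟩ := inv_transport _ Q Φ hΦ a ha2
      refine ⟨b, hbb, ?_, ?_⟩
      · rw [hbrank, harank]
        omega
      · rw [hbtype]
        exact ⟨fun _ => h, fun _ => hatype⟩
    · have hk2 : 2 * k' ≤ k := by
        obtain ⟨j, hj⟩ := hodd
        omega
      obtain ⟨a, ha2, harank, hatype⟩ := ominus_exists_alt (F := F) (k := k) 1 β k' (by omega) hk2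
      obtain ⟨b, hbb, hbrank, hbtype⟩ := inv_transport _ Q Φ hΦ a ha2
      refine ⟨b, hbb, ?_, ?_⟩
      · rw [hbrank, harank]
        omega
      · rw [hbtype]
        exact ⟨fun _ => h, fun _ => hatype⟩
  · rcases hcase with ⟨Φ, hΦ⟩ | ⟨hodd, β, Φ, hΦ⟩
    · obtain ⟨a, ha2, harank, hatype⟩ := oplus_exists_nonalt (F := F) (m := k + 1) s hs1 hsd
      obtain ⟨b, hbb, hbrank, hbtype⟩ := inv_transport _ Q Φ hΦ a ha2
      refine ⟨b, hbb, ?_, ?_⟩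
      · rw [hbrank, harank]
      · rw [hbtype]
        exact ⟨fun h' => absurd h' hatype, fun h' => absurd h' h⟩
    · obtain ⟨a, ha2, harank, hatype⟩ := ominus_exists_nonalt (F := F) (k := k) 1 β one_ne_zero
        s hs1 hsd
      obtain ⟨b, hbb, hbrank, hbtype⟩ := inv_transport _ Q Φ hΦ a ha2
      refine ⟨b, hbb, ?_, ?_⟩
      · rw [hbrank, harank]
      · rw [hbtype]
        exact ⟨fun h' => absurd h' hatype, fun h' => absurd h' h⟩

omit [CharP F 2] in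
/-- `Q((B - 1) v) = ω(v, B v)` for an isometry `B` of `Q`. -/
theorem quad_nOpG {d : ℕ} (Q : (Fin d ⊕ Fin d → F) → F)
    (hQf : ∀ u v, QuadraticMap.polar Q u v = Cfsg.sympForm d F u v)
    (B : Matrix (Fin d ⊕ Fin d) (Fin d ⊕ Fin d) F) (hB : ∀ v, Q (B *ᵥ v) = Q v)
    (v : Fin d ⊕ Fin d → F) : Q (nOpG B v) = Cfsg.sympForm d F v (B *ᵥ v) := by
  have h := hQf (B *ᵥ v - v) v
  unfold QuadraticMap.polar at h
  rw [sub_add_cancel, hB, sympForm_sub_left, sympForm_self, sympForm_swap d (B *ᵥ v) v] at h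
  rw [nOpG_apply]
  linear_combination -h

omit [CharP F 2] in
theorem spGLEquiv_symm_coe {d : ℕ} (a : ↥(Matrix.symplecticGroup (Fin d) F)) :
    (((spGLEquiv.symm a : ↥(Cfsg.spGL d F)) : Matrix.GeneralLinearGroup (Fin d ⊕ Fin d) F) :
      Matrix (Fin d ⊕ Fin d) (Fin d ⊕ Fin d) F) =
    (a : Matrix (Fin d ⊕ Fin d) (Fin d ⊕ Fin d) F) := rfl

/-- A scalar matrix in `Sp` is the identity (characteristic two). -/
theorem sp_scalar_one {d : ℕ} (hd : 1 ≤ d) (x : Matrix.GeneralLinearGroup (Fin d ⊕ Fin d) F)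
    (hx : x ∈ Cfsg.spGL d F) (z : F)
    (hz : (x : Matrix (Fin d ⊕ Fin d) (Fin d ⊕ Fin d) F) = z • 1) : z = 1 := by
  apply sq_eq_one_char2
  have h := (mem_spGL_iff' x).1 hx (Pi.single (Sum.inr ⟨0, hd⟩) 1) (Pi.single (Sum.inl ⟨0, hd⟩) 1)
  rw [hz, Matrix.smul_mulVec, Matrix.one_mulVec, Matrix.smul_mulVec, Matrix.one_mulVec,
    sympForm_smul_left, sympForm_smul_right, symp_e0_f0 hd] at h
  rw [sq]
  linear_combination h

/-- Every involution of `Sp_{2d}(q)` is conjugate into `O(Q)` in the good cases. -/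
theorem sp_inv_conj_into_O [Finite F] {k : ℕ} (Q : (Fin (k + 1) ⊕ Fin (k + 1) → F) → F)
    (hQf : ∀ u v, QuadraticMap.polar Q u v = Cfsg.sympForm (k + 1) F u v)
    (hcase : GoodCase Q) (x : Matrix.GeneralLinearGroup (Fin (k + 1) ⊕ Fin (k + 1)) F)
    (hx : x ∈ Cfsg.spGL (k + 1) F) (z : F)
    (hz : ((x ^ 2 : Matrix.GeneralLinearGroup (Fin (k + 1) ⊕ Fin (k + 1)) F) :
      Matrix (Fin (k + 1) ⊕ Fin (k + 1)) (Fin (k + 1) ⊕ Fin (k + 1)) F) = z • 1)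
    (hns : ∀ z : F, (x : Matrix (Fin (k + 1) ⊕ Fin (k + 1)) (Fin (k + 1) ⊕ Fin (k + 1)) F) ≠
      z • 1) :
    ∃ g ∈ Cfsg.spGL (k + 1) F, g⁻¹ * x * g ∈ Cfsg.Geo.quadSimilarityGroup Q := by
  have hx2 : x ^ 2 ∈ Cfsg.spGL (k + 1) F := pow_mem hx 2
  have hz1 := sp_scalar_one (by omega) (x ^ 2) hx2 z hz
  rw [hz1, one_smul] at hz
  obtain ⟨a, hadef⟩ : ∃ a : ↥(Matrix.symplecticGroup (Fin (k + 1)) F), a = spGLEquiv ⟨x, hx⟩ :=
    ⟨_, rfl⟩
  have haX : (a : Matrix (Fin (k + 1) ⊕ Fin (k + 1)) (Fin (k + 1) ⊕ Fin (k + 1)) F) =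
      (x : Matrix (Fin (k + 1) ⊕ Fin (k + 1)) (Fin (k + 1) ⊕ Fin (k + 1)) F) := by
    rw [hadef]
    rfl
  have ha : (a : Matrix (Fin (k + 1) ⊕ Fin (k + 1)) (Fin (k + 1) ⊕ Fin (k + 1)) F) *
      (a : Matrix (Fin (k + 1) ⊕ Fin (k + 1)) (Fin (k + 1) ⊕ Fin (k + 1)) F) = 1 := by
    rw [haX, ← hz, sq]
    rfl
  have ha1 : a ≠ 1 := by
    intro h1
    apply hns 1
    rw [← haX, h1, one_smul]
    rfl
  obtain ⟨hs1, hsd⟩ := sp_rank_bounds a ha ha1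
  obtain ⟨b, hbb, hbrank, hbtype⟩ := exists_inv_of_type Q hcase _ hs1 hsd
    (∀ v, Cfsg.sympForm (k + 1) F v
      ((a : Matrix (Fin (k + 1) ⊕ Fin (k + 1)) (Fin (k + 1) ⊕ Fin (k + 1)) F) *ᵥ v) = 0)
    (fun h => sp_even_rank_of_alt a ha h)
  have hbsp : (b : Matrix.GeneralLinearGroup (Fin (k + 1) ⊕ Fin (k + 1)) F) ∈
      Cfsg.spGL (k + 1) F := isom_mem_spGL Q hQf _ (fun v => oMat_isom b v)
  obtain ⟨b', hb'def⟩ : ∃ b' : ↥(Matrix.symplecticGroup (Fin (k + 1)) F),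
      b' = spGLEquiv ⟨(b : Matrix.GeneralLinearGroup (Fin (k + 1) ⊕ Fin (k + 1)) F), hbsp⟩ :=
    ⟨_, rfl⟩
  have hb'X : (b' : Matrix (Fin (k + 1) ⊕ Fin (k + 1)) (Fin (k + 1) ⊕ Fin (k + 1)) F) =
      oMat b := by
    rw [hb'def]
    rfl
  have hconj : IsConj a b' := by
    apply sp_conj_of_type a b' ha (by rw [hb'X]; exact hbb) (by rw [hb'X, hbrank])
    rw [hb'X, ← hbtype]
    constructor
    · intro h v
      rw [← quad_nOpG Q hQf _ (fun v => oMat_isom b v)]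
      exact h v
    · intro h v
      rw [quad_nOpG Q hQf _ (fun v => oMat_isom b v)]
      exact h v
  obtain ⟨c, hc⟩ := isConj_iff.1 hconj
  have hc' : c * a = b' * c := mul_inv_eq_iff_eq_mul.1 hc
  have hcmat : (c : Matrix (Fin (k + 1) ⊕ Fin (k + 1)) (Fin (k + 1) ⊕ Fin (k + 1)) F) *
      (x : Matrix (Fin (k + 1) ⊕ Fin (k + 1)) (Fin (k + 1) ⊕ Fin (k + 1)) F) =
      oMat b * (c : Matrix (Fin (k + 1) ⊕ Fin (k + 1)) (Fin (k + 1) ⊕ Fin (k + 1)) F) := by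
    have := congrArg Subtype.val hc'
    rw [← haX, ← hb'X]
    exact this
  refine ⟨((spGLEquiv.symm c : ↥(Cfsg.spGL (k + 1) F)) :
    Matrix.GeneralLinearGroup (Fin (k + 1) ⊕ Fin (k + 1)) F)⁻¹,
    inv_mem (spGLEquiv.symm c).2, ?_⟩
  have heq : (((spGLEquiv.symm c : ↥(Cfsg.spGL (k + 1) F)) :
      Matrix.GeneralLinearGroup (Fin (k + 1) ⊕ Fin (k + 1)) F)⁻¹)⁻¹ * x *
      ((spGLEquiv.symm c : ↥(Cfsg.spGL (k + 1) F)) :
      Matrix.GeneralLinearGroup (Fin (k + 1) ⊕ Fin (k + 1)) F)⁻¹ =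
      (b : Matrix.GeneralLinearGroup (Fin (k + 1) ⊕ Fin (k + 1)) F) := by
    rw [inv_inv, mul_inv_eq_iff_eq_mul]
    apply Units.ext
    rw [Units.val_mul, Units.val_mul, spGLEquiv_symm_coe]
    exact hcmat
  rw [heq]
  exact ⟨1, fun v => by rw [Units.val_one, one_mul]; exact oMat_isom b v⟩

end Inv

end Cfsg.Agent.H42
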