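import Mathlib
import Cfsg.Prelude.Def_Classical
import Cfsg.Prelude.Def_ClassicalGeometry
import Cfsg.Prelude.Def_GeometricClasses
import Cfsg.Agent.H42.ElusSpA
import Cfsg.Agent.H42.ElusSpB
import Cfsg.Agent.H42.ElusSpC
import Cfsg.Agent.H42.Elus
import Cfsg.Agent.H42.NormForm

set_option autoImplicit false

/-! Elements of prime order of `Sp_{2d}(q)`, `q` even, not conjugate into an orthogonal
subgroup (helper42). -/

namespace Cfsg.Agent.H42

open Module Matrix Cfsg.Agent.H49 Cfsg.Agent.H17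

section GenLin

variable {F : Type*} [Field F] {ι : Type} [Fintype ι] [DecidableEq ι]

theorem gl_inv_mulVec (g : Matrix.GeneralLinearGroup ι F) (v : ι → F) :
    ((g⁻¹ : Matrix.GeneralLinearGroup ι F) : Matrix ι ι F) *ᵥ ((g : Matrix ι ι F) *ᵥ v) = v := by
  rw [Matrix.mulVec_mulVec, ← Units.val_mul, inv_mul_cancel, Units.val_one, Matrix.one_mulVec]

theorem gl_mulVec_inv (g : Matrix.GeneralLinearGroup ι F) (v : ι → F) :
    (g : Matrix ι ι F) *ᵥ (((g⁻¹ : Matrix.GeneralLinearGroup ι F) : Matrix ι ι F) *ᵥ v) = v := by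
  rw [Matrix.mulVec_mulVec, ← Units.val_mul, mul_inv_cancel, Units.val_one, Matrix.one_mulVec]

theorem conj_mulVec (g x : Matrix.GeneralLinearGroup ι F) (v : ι → F) :
    ((g⁻¹ * x * g : Matrix.GeneralLinearGroup ι F) : Matrix ι ι F) *ᵥ v =
      ((g⁻¹ : Matrix.GeneralLinearGroup ι F) : Matrix ι ι F) *ᵥ
        ((x : Matrix ι ι F) *ᵥ ((g : Matrix ι ι F) *ᵥ v)) := by
  rw [Units.val_mul, Units.val_mul, ← Matrix.mulVec_mulVec, ← Matrix.mulVec_mulVec]

theorem conj_pow' {G : Type*} [Group G] (g x : G) (n : ℕ) :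
    (g⁻¹ * x * g) ^ n = g⁻¹ * x ^ n * g := by
  induction n with
  | zero => simp
  | succ n ih =>
    rw [pow_succ, ih, pow_succ]
    group

/-- An isometry of prime-power order without nonzero fixed vectors: the number of zeros of
the form is `1` modulo the prime. -/
theorem card_zeros_modEq_one [Fintype F] (Q : (ι → F) → F) (hQ0 : Q 0 = 0)
    (y : Matrix.GeneralLinearGroup ι F) (hy : ∀ v, Q ((y : Matrix ι ι F) *ᵥ v) = Q v)
    (r : ℕ) [Fact r.Prime] (hyr : y ^ r = 1)
    (hfpf : ∀ v, (y : Matrix ι ι F) *ᵥ v = v → v = 0) :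
    Nat.card {v : ι → F // Q v = 0} ≡ 1 [MOD r] := by
  classical
  let f : Function.End {v : ι → F // Q v = 0} := fun v =>
    ⟨(y : Matrix ι ι F) *ᵥ v.1, by rw [hy]; exact v.2⟩
  have hfpow : ∀ (n : ℕ) (v : {v : ι → F // Q v = 0}),
      ((f ^ n) v).1 = ((y ^ n : Matrix.GeneralLinearGroup ι F) : Matrix ι ι F) *ᵥ v.1 := by
    intro n
    induction n with
    | zero =>
      intro v
      rw [pow_zero, pow_zero, Units.val_one, Matrix.one_mulVec]
      rfl
    | succ n ih =>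
      intro v
      rw [pow_succ]
      show ((f ^ n) (f v)).1 = _
      rw [ih, pow_succ, Units.val_mul, ← Matrix.mulVec_mulVec]
  have hfr : f ^ r ^ 1 = 1 := by
    rw [pow_one]
    funext v
    apply Subtype.ext
    rw [hfpow, hyr, Units.val_one, Matrix.one_mulVec]
    rfl
  have hmod := Equiv.Perm.card_fixedPoints_modEq (f := f) (p := r) (n := 1) hfr
  have hfix : Fintype.card (Function.fixedPoints f) = 1 := by
    rw [Fintype.card_eq_one_iff]
    refine ⟨⟨⟨0, hQ0⟩, ?_⟩, ?_⟩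
    · show f ⟨0, _⟩ = ⟨0, _⟩
      apply Subtype.ext
      show (y : Matrix ι ι F) *ᵥ 0 = 0
      rw [Matrix.mulVec_zero]
    · rintro ⟨⟨v, hv⟩, hfv⟩
      apply Subtype.ext
      apply Subtype.ext
      show v = 0
      exact hfpf v (congrArg Subtype.val hfv)
  rw [hfix] at hmod
  rw [Nat.card_eq_fintype_card]
  exact hmod

end GenLin

section Coord

variable {F : Type*} [Field F] (k : ℕ)

/-- The coordinate bijection. -/
def coordE : Fin (k + 1) ⊕ Fin (k + 1) ≃ (Fin k ⊕ Fin k) ⊕ Fin 2 where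
  toFun := Sum.elim (Fin.lastCases (Sum.inr 0) (fun i => Sum.inl (Sum.inl i)))
    (Fin.lastCases (Sum.inr 1) (fun i => Sum.inl (Sum.inr i)))
  invFun := Sum.elim (Sum.elim (fun i => Sum.inl i.castSucc) (fun i => Sum.inr i.castSucc))
    ![Sum.inl (Fin.last k), Sum.inr (Fin.last k)]
  left_inv := by
    rintro (j | j) <;> refine Fin.lastCases ?_ (fun i => ?_) j <;> simp
  right_inv := by
    rintro ((i | i) | j)
    · simp
    · simp
    · fin_cases j <;> simp

/-- The coordinate isomorphism. -/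
noncomputable def coordL (F : Type*) [Field F] (k : ℕ) :
    ((Fin k ⊕ Fin k) ⊕ Fin 2 → F) ≃ₗ[F] (Fin (k + 1) ⊕ Fin (k + 1) → F) :=
  LinearEquiv.funCongrLeft F F (coordE k)

theorem coordL_apply (w : (Fin k ⊕ Fin k) ⊕ Fin 2 → F) (j : Fin (k + 1) ⊕ Fin (k + 1)) :
    coordL F k w j = w (coordE k j) := rfl

theorem coordL_inl_cast (w : (Fin k ⊕ Fin k) ⊕ Fin 2 → F) (i : Fin k) :
    coordL F k w (Sum.inl i.castSucc) = w (Sum.inl (Sum.inl i)) := by
  rw [coordL_apply]
  simp [coordE]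

theorem coordL_inr_cast (w : (Fin k ⊕ Fin k) ⊕ Fin 2 → F) (i : Fin k) :
    coordL F k w (Sum.inr i.castSucc) = w (Sum.inl (Sum.inr i)) := by
  rw [coordL_apply]
  simp [coordE]

theorem coordL_inl_last (w : (Fin k ⊕ Fin k) ⊕ Fin 2 → F) :
    coordL F k w (Sum.inl (Fin.last k)) = w (Sum.inr 0) := by
  rw [coordL_apply]
  simp [coordE]

theorem coordL_inr_last (w : (Fin k ⊕ Fin k) ⊕ Fin 2 → F) :
    coordL F k w (Sum.inr (Fin.last k)) = w (Sum.inr 1) := by
  rw [coordL_apply]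
  simp [coordE]

omit [Field F] in
theorem polar_minus_formula {F : Type*} [Field F] (a b : F)
    (x y : (Fin k ⊕ Fin k) ⊕ Fin 2 → F) :
    QuadraticMap.polar (Cfsg.quadFormMinus k F a b) x y =
      ∑ i : Fin k, (x (Sum.inl (Sum.inl i)) * y (Sum.inl (Sum.inr i)) +
        y (Sum.inl (Sum.inl i)) * x (Sum.inl (Sum.inr i))) +
      ((2 * x (Sum.inr 0) + a * x (Sum.inr 1)) * y (Sum.inr 0) +
        (a * x (Sum.inr 0) + 2 * b * x (Sum.inr 1)) * y (Sum.inr 1)) := by
  simp only [QuadraticMap.polar, Cfsg.quadFormMinus, Pi.add_apply]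
  have e : ∑ i : Fin k, (x (Sum.inl (Sum.inl i)) + y (Sum.inl (Sum.inl i))) *
        (x (Sum.inl (Sum.inr i)) + y (Sum.inl (Sum.inr i))) -
      ∑ i : Fin k, x (Sum.inl (Sum.inl i)) * x (Sum.inl (Sum.inr i)) -
      ∑ i : Fin k, y (Sum.inl (Sum.inl i)) * y (Sum.inl (Sum.inr i)) =
      ∑ i : Fin k, (x (Sum.inl (Sum.inl i)) * y (Sum.inl (Sum.inr i)) +
        y (Sum.inl (Sum.inl i)) * x (Sum.inl (Sum.inr i))) := by
    rw [← Finset.sum_sub_distrib, ← Finset.sum_sub_distrib]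
    exact Finset.sum_congr rfl (fun i _ => by ring)
  linear_combination e

/-- The coordinate isomorphism carries the polar form of the minus-type form with `a = 1` to
the standard alternating form (characteristic two). -/
theorem coordL_symp [CharP F 2] (β : F) (u v : (Fin k ⊕ Fin k) ⊕ Fin 2 → F) :
    Cfsg.sympForm (k + 1) F (coordL F k u) (coordL F k v) =
      QuadraticMap.polar (Cfsg.quadFormMinus k F 1 β) u v := by
  have h2 : (2 : F) = 0 := CharTwo.two_eq_zero
  rw [polar_minus_formula k (1 : F) β u v, sympForm_eq_sum, Fin.sum_univ_castSucc]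
  simp only [coordL_inl_cast, coordL_inr_cast, coordL_inl_last, coordL_inr_last]
  have e : ∑ i : Fin k, (u (Sum.inl (Sum.inr i)) * v (Sum.inl (Sum.inl i)) -
      u (Sum.inl (Sum.inl i)) * v (Sum.inl (Sum.inr i))) =
      ∑ i : Fin k, (u (Sum.inl (Sum.inl i)) * v (Sum.inl (Sum.inr i)) +
        v (Sum.inl (Sum.inl i)) * u (Sum.inl (Sum.inr i))) := by
    apply Finset.sum_congr rfl
    intro i _
    linear_combination (-(u (Sum.inl (Sum.inl i)) * v (Sum.inl (Sum.inr i)))) * h2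
  rw [e]
  linear_combination (-(u (Sum.inr 0) * v (Sum.inr 0)) - u (Sum.inr 0) * v (Sum.inr 1)
    - β * u (Sum.inr 1) * v (Sum.inr 1)) * h2

end Coord

end Cfsg.Agent.H42
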