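import Mathlib
import Cfsg.Prelude.Def_Classical
import Cfsg.Prelude.Def_ClassicalGeometry
import Cfsg.Prelude.Def_GeometricClasses
import Cfsg.Agent.H42.ElusSpA
import Cfsg.Agent.H42.ElusSpB
import Cfsg.Agent.H42.ElusSpC
import Cfsg.Agent.H42.ElusSpD
import Cfsg.Agent.H42.Elus
import Cfsg.Agent.H42.NormForm

set_option autoImplicit false

/-! Elements of prime order of `Sp_{2d}(q)`, `q` even, and the orthogonal subgroups: the
negative results (helper42). -/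

namespace Cfsg.Agent.H42

open Module Matrix Cfsg.Agent.H49 Cfsg.Agent.H17

section Neg

variable {F : Type*} [Field F] [CharP F 2]

/-- If the alternating involutions of rank `d` (`d` even) are conjugate into `GO(Q)`, then `Q`
is of plus type. -/
theorem plus_of_alt_inv_conj {d : ℕ} (Q : (Fin d ⊕ Fin d → F) → F) (hd : 1 ≤ d)
    (hQf : ∀ u v, QuadraticMap.polar Q u v = Cfsg.sympForm d F u v) (hdeven : Even d)
    (H : ∀ x ∈ Cfsg.spGL d F,
      (∃ z : F, ((x ^ 2 : Matrix.GeneralLinearGroup (Fin d ⊕ Fin d) F) :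
        Matrix (Fin d ⊕ Fin d) (Fin d ⊕ Fin d) F) = z • 1) →
      (∀ z : F, (x : Matrix (Fin d ⊕ Fin d) (Fin d ⊕ Fin d) F) ≠ z • 1) →
      ∃ g ∈ Cfsg.spGL d F, g⁻¹ * x * g ∈ Cfsg.Geo.quadSimilarityGroup Q) :
    Cfsg.Geo.IsPlusTypeOn Q ⊤ := by
  obtain ⟨k', hk'⟩ := hdeven
  obtain ⟨a, ha2, harank, haalt⟩ := sp_exists_alt (F := F) (m := d) k' (by omega) (by omega)
  have haa : (a : Matrix (Fin d ⊕ Fin d) (Fin d ⊕ Fin d) F) *
      (a : Matrix (Fin d ⊕ Fin d) (Fin d ⊕ Fin d) F) = 1 := by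
    have h1 : a ^ 2 = 1 := by rw [← ha2]; exact pow_orderOf_eq_one a
    rw [sq] at h1
    exact congrArg Subtype.val h1
  obtain ⟨x, hxdef⟩ : ∃ x : ↥(Cfsg.spGL d F), x = spGLEquiv.symm a := ⟨_, rfl⟩
  have hxa : ((x : Matrix.GeneralLinearGroup (Fin d ⊕ Fin d) F) :
      Matrix (Fin d ⊕ Fin d) (Fin d ⊕ Fin d) F) =
      (a : Matrix (Fin d ⊕ Fin d) (Fin d ⊕ Fin d) F) := by
    rw [hxdef]
    rfl
  have hxx : (((x : Matrix.GeneralLinearGroup (Fin d ⊕ Fin d) F) ^ 2 :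
      Matrix.GeneralLinearGroup (Fin d ⊕ Fin d) F) :
      Matrix (Fin d ⊕ Fin d) (Fin d ⊕ Fin d) F) = 1 := by
    rw [sq, Units.val_mul, hxa, haa]
  obtain ⟨g, hg, hy⟩ := H x x.2 ⟨1, by rw [hxx, one_smul]⟩ (by
    intro z hz
    have hz1 := sp_scalar_one hd _ x.2 z hz
    rw [hz1, one_smul, hxa] at hz
    rw [hz, sub_self, Matrix.rank_zero] at harank
    omega)
  have hymem : g⁻¹ * (x : Matrix.GeneralLinearGroup (Fin d ⊕ Fin d) F) * g ∈ Cfsg.spGL d F :=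
    mul_mem (mul_mem (inv_mem hg) x.2) hg
  have hYisom := sim_isom Q hd hQf _ hymem hy
  obtain ⟨Y, hYdef⟩ : ∃ Y : Matrix (Fin d ⊕ Fin d) (Fin d ⊕ Fin d) F,
      Y = ((g⁻¹ * (x : Matrix.GeneralLinearGroup (Fin d ⊕ Fin d) F) * g :
        Matrix.GeneralLinearGroup (Fin d ⊕ Fin d) F) :
        Matrix (Fin d ⊕ Fin d) (Fin d ⊕ Fin d) F) := ⟨_, rfl⟩
  rw [← hYdef] at hYisom
  have hYv : ∀ v, (g : Matrix (Fin d ⊕ Fin d) (Fin d ⊕ Fin d) F) *ᵥ (Y *ᵥ v) =
      (a : Matrix (Fin d ⊕ Fin d) (Fin d ⊕ Fin d) F) *ᵥ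
        ((g : Matrix (Fin d ⊕ Fin d) (Fin d ⊕ Fin d) F) *ᵥ v) := by
    intro v
    rw [hYdef, conj_mulVec, gl_mulVec_inv, hxa]
  refine ⟨LinearMap.range (nOpG Y), le_top, ?_, ?_⟩
  · rintro _ ⟨v, rfl⟩
    rw [quad_nOpG Q hQf Y hYisom, ← (mem_spGL_iff' g).1 hg, hYv]
    exact haalt _
  · have h1 : finrank F (LinearMap.range (nOpG Y)) = (Y - 1).rank := rfl
    have h2 : Y - 1 = ((g⁻¹ : Matrix.GeneralLinearGroup (Fin d ⊕ Fin d) F) :
        Matrix (Fin d ⊕ Fin d) (Fin d ⊕ Fin d) F) *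
        ((a : Matrix (Fin d ⊕ Fin d) (Fin d ⊕ Fin d) F) - 1) *
        (g : Matrix (Fin d ⊕ Fin d) (Fin d ⊕ Fin d) F) := by
      rw [hYdef, Units.val_mul, Units.val_mul, hxa, Matrix.mul_sub, Matrix.sub_mul, Matrix.mul_one,
        ← Units.val_mul g⁻¹ g, inv_mul_cancel, Units.val_one]
    have hdet : ∀ γ : Matrix.GeneralLinearGroup (Fin d ⊕ Fin d) F,
        IsUnit (γ : Matrix (Fin d ⊕ Fin d) (Fin d ⊕ Fin d) F).det := fun γ =>
      (Matrix.isUnit_iff_isUnit_det _).1 γ.isUnit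
    rw [h1, h2, Matrix.rank_mul_eq_left_of_isUnit_det _ _ (hdet g),
      Matrix.rank_mul_eq_right_of_isUnit_det _ _ (hdet g⁻¹), harank, finrank_top,
      Module.finrank_fintype_fun_eq_card, Fintype.card_sum, Fintype.card_fin]
    omega

end Neg

section NoConj

variable {F : Type*} [Field F] [Fintype F] [CharP F 2]

omit [Fintype F] in
theorem polar_plus_symp (d : ℕ) (u v : Fin d ⊕ Fin d → F) :
    QuadraticMap.polar (Cfsg.quadFormPlus d F) u v = Cfsg.sympForm d F u v := by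
  have h2 : (2 : F) = 0 := CharTwo.two_eq_zero
  have h := polar_QP (m := d) (F := F) u v
  rw [QP_coe] at h
  rw [h, sympForm_eq_sum]
  apply Finset.sum_congr rfl
  intro i _
  linear_combination (u (Sum.inl i) * v (Sum.inr i)) * h2

/-- Minus case: an element of order `r` (`r ∣ q^d - 1`) not conjugate into `GO(Q)`. -/
theorem no_conj_minus {q : ℕ} (hq : Fintype.card F = q) {k : ℕ}
    (Q : (Fin (k + 1) ⊕ Fin (k + 1) → F) → F)
    (hQf : ∀ u v, QuadraticMap.polar Q u v = Cfsg.sympForm (k + 1) F u v)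
    (hts : ∀ U : Submodule F (Fin (k + 1) ⊕ Fin (k + 1) → F), (∀ u ∈ U, Q u = 0) →
      finrank F U ≤ k)
    (r : ℕ) (hr : r.Prime) (hdiv : r ∣ q ^ (k + 1) - 1) :
    ∃ x ∈ Cfsg.spGL (k + 1) F, x ^ r = 1 ∧
      (∀ z : F, (x : Matrix (Fin (k + 1) ⊕ Fin (k + 1)) (Fin (k + 1) ⊕ Fin (k + 1)) F) ≠
        z • 1) ∧
      ¬ ∃ g ∈ Cfsg.spGL (k + 1) F, g⁻¹ * x * g ∈ Cfsg.Geo.quadSimilarityGroup Q := by
  classical
  obtain ⟨g, hgr, -, hfix⟩ := exists_fpf_matrix hq (k + 1) (by omega) r hr hdiv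
  have hr1 : r - 1 + 1 = r := Nat.sub_add_cancel hr.pos
  let G : Matrix.GeneralLinearGroup (Fin (k + 1)) F :=
    ⟨g, g ^ (r - 1), by rw [← pow_succ', hr1, hgr], by rw [← pow_succ, hr1, hgr]⟩
  have hGr : G ^ r = 1 := by
    apply Units.ext
    rw [Units.val_pow_eq_pow_val]
    exact hgr
  obtain ⟨a, hadef⟩ : ∃ a : ↥(Cfsg.isometryGroup F (⇑(QP (k + 1) F))),
      a = leviO (k + 1) F G := ⟨_, rfl⟩
  have har : a ^ r = 1 := by rw [hadef, ← map_pow, hGr, map_one]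
  have hinl : ∀ (v : Fin (k + 1) ⊕ Fin (k + 1) → F) (j : Fin (k + 1)),
      (oMat a *ᵥ v) (Sum.inl j) = (g *ᵥ (v ∘ Sum.inl)) j := by
    intro v j
    rw [hadef]
    exact leviO_mulVec_inl (k + 1) F G v j
  have hinr : ∀ (v : Fin (k + 1) ⊕ Fin (k + 1) → F) (j : Fin (k + 1)),
      (∀ i, v (Sum.inr i) = 0) → (oMat a *ᵥ v) (Sum.inr j) = 0 := by
    intro v j hv
    rw [hadef]
    have h1 := leviO_mulVec_inr (k + 1) F G v j
    have h0 : v ∘ Sum.inr = 0 := funext hv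
    rw [h0, Matrix.mulVec_zero] at h1
    exact h1
  have hxsp : (a : Matrix.GeneralLinearGroup (Fin (k + 1) ⊕ Fin (k + 1)) F) ∈
      Cfsg.spGL (k + 1) F :=
    isom_mem_spGL _ (polar_plus_symp (k + 1)) _ (fun v => oMat_isom a v)
  refine ⟨(a : Matrix.GeneralLinearGroup (Fin (k + 1) ⊕ Fin (k + 1)) F), hxsp, ?_, ?_, ?_⟩
  · rw [← Subgroup.coe_pow, har]
    rfl
  · intro z hz
    have hz1 := sp_scalar_one (by omega) _ hxsp z hz
    rw [hz1, one_smul] at hz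
    have h3 : g *ᵥ ((Pi.single (Sum.inl 0) 1 : Fin (k + 1) ⊕ Fin (k + 1) → F) ∘ Sum.inl) =
        (Pi.single (Sum.inl 0) 1 : Fin (k + 1) ⊕ Fin (k + 1) → F) ∘ Sum.inl := by
      funext j
      rw [← hinl, show oMat a = 1 from hz, Matrix.one_mulVec]
      rfl
    have h4 := congrFun (hfix _ h3) 0
    simp at h4
  · rintro ⟨γ, hγ, hy⟩
    have hymem : γ⁻¹ * (a : Matrix.GeneralLinearGroup (Fin (k + 1) ⊕ Fin (k + 1)) F) * γ ∈
        Cfsg.spGL (k + 1) F := mul_mem (mul_mem (inv_mem hγ) hxsp) hγ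
    have hYisom := sim_isom Q (by omega) hQf _ hymem hy
    have hsurj : Function.Surjective (nOpG g) := by
      apply LinearMap.surjective_of_injective
      rw [← LinearMap.ker_eq_bot, LinearMap.ker_eq_bot']
      intro w hw
      rw [nOpG_apply, sub_eq_zero] at hw
      exact hfix w hw
    have hinj : Function.Injective
        (((γ⁻¹ : Matrix.GeneralLinearGroup (Fin (k + 1) ⊕ Fin (k + 1)) F) :
          Matrix (Fin (k + 1) ⊕ Fin (k + 1)) (Fin (k + 1) ⊕ Fin (k + 1)) F).mulVecLin) := by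
      intro u v huv
      simp only [Matrix.mulVecLin_apply] at huv
      have h1 := congrArg
        (fun w => (γ : Matrix (Fin (k + 1) ⊕ Fin (k + 1)) (Fin (k + 1) ⊕ Fin (k + 1)) F) *ᵥ w) huv
      simp only [gl_mulVec_inv] at h1
      exact h1
    have hle := hts ((U0 (k + 1) F).map
      (((γ⁻¹ : Matrix.GeneralLinearGroup (Fin (k + 1) ⊕ Fin (k + 1)) F) :
        Matrix (Fin (k + 1) ⊕ Fin (k + 1)) (Fin (k + 1) ⊕ Fin (k + 1)) F).mulVecLin)) (by
      rintro _ ⟨u, hu, rfl⟩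
      rw [Matrix.mulVecLin_apply]
      obtain ⟨c, hc⟩ := hsurj (u ∘ Sum.inl)
      rw [nOpG_apply] at hc
      have hu'0 : ∀ i, (Sum.elim c (0 : Fin (k + 1) → F) : Fin (k + 1) ⊕ Fin (k + 1) → F)
          (Sum.inr i) = 0 := fun i => rfl
      have hXu' : oMat a *ᵥ (Sum.elim c (0 : Fin (k + 1) → F)) - Sum.elim c 0 = u := by
        funext j
        rcases j with j | j
        · rw [Pi.sub_apply, hinl]
          exact congrFun hc j
        · rw [Pi.sub_apply, hinr _ j hu'0, mem_U0.1 hu j]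
          simp
      have hw : ((γ⁻¹ : Matrix.GeneralLinearGroup (Fin (k + 1) ⊕ Fin (k + 1)) F) :
          Matrix (Fin (k + 1) ⊕ Fin (k + 1)) (Fin (k + 1) ⊕ Fin (k + 1)) F) *ᵥ u =
          nOpG ((γ⁻¹ * (a : Matrix.GeneralLinearGroup (Fin (k + 1) ⊕ Fin (k + 1)) F) * γ :
            Matrix.GeneralLinearGroup (Fin (k + 1) ⊕ Fin (k + 1)) F) :
            Matrix (Fin (k + 1) ⊕ Fin (k + 1)) (Fin (k + 1) ⊕ Fin (k + 1)) F)
          (((γ⁻¹ : Matrix.GeneralLinearGroup (Fin (k + 1) ⊕ Fin (k + 1)) F) :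
            Matrix (Fin (k + 1) ⊕ Fin (k + 1)) (Fin (k + 1) ⊕ Fin (k + 1)) F) *ᵥ
            Sum.elim c 0) := by
        rw [nOpG_apply, conj_mulVec, gl_mulVec_inv, ← Matrix.mulVec_sub, hXu']
      rw [hw, quad_nOpG Q hQf _ hYisom, conj_mulVec, gl_mulVec_inv,
        (mem_spGL_iff' γ⁻¹).1 (inv_mem hγ), sympForm_eq_sum]
      apply Finset.sum_eq_zero
      intro i _
      rw [hinr _ i hu'0]
      simp)
    have h5 := (Submodule.equivMapOfInjective _ hinj (U0 (k + 1) F)).finrank_eq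
    rw [finrank_U0] at h5
    omega

/-- Plus case: an element of order `r` (`r` odd, `r ∣ q^d + 1`) not conjugate into `GO(Q)`. -/
theorem no_conj_plus {q : ℕ} (hq : Fintype.card F = q) {k : ℕ}
    (Q : (Fin (k + 1) ⊕ Fin (k + 1) → F) → F) (hQ0 : Q 0 = 0)
    (hQf : ∀ u v, QuadraticMap.polar Q u v = Cfsg.sympForm (k + 1) F u v)
    (hzeros : Nat.card {v : Fin (k + 1) ⊕ Fin (k + 1) → F // Q v = 0} =
      (q ^ (k + 1) - 1) * q ^ k + q ^ (k + 1))
    (r : ℕ) (hr : r.Prime) (hr2 : r ≠ 2) (hdiv : r ∣ q ^ (k + 1) + 1) :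
    ∃ x ∈ Cfsg.spGL (k + 1) F, x ^ r = 1 ∧
      (∀ z : F, (x : Matrix (Fin (k + 1) ⊕ Fin (k + 1)) (Fin (k + 1) ⊕ Fin (k + 1)) F) ≠
        z • 1) ∧
      ¬ ∃ g ∈ Cfsg.spGL (k + 1) F, g⁻¹ * x * g ∈ Cfsg.Geo.quadSimilarityGroup Q := by
  classical
  have hq2 : 2 ≤ q := by rw [← hq]; exact Fintype.one_lt_card
  have : Fact r.Prime := ⟨hr⟩
  obtain ⟨β, hab⟩ := exists_aniso_beta (F := F)
  obtain ⟨g₀, hg₀r, hg₀fix⟩ := exists_fpf_minus hq k 1 β hab r hr hr2 hdiv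
  obtain ⟨Qm, hQmdef⟩ : ∃ Qm : (Fin (k + 1) ⊕ Fin (k + 1) → F) → F,
      Qm = fun v => Cfsg.quadFormMinus k F 1 β ((coordL F k).symm v) := ⟨_, rfl⟩
  have hQmΨ : ∀ u, Qm (coordL F k u) = Cfsg.quadFormMinus k F 1 β u := by
    intro u
    rw [hQmdef]
    simp only [LinearEquiv.symm_apply_apply]
  have hQmf : ∀ u v, QuadraticMap.polar Qm u v = Cfsg.sympForm (k + 1) F u v := by
    intro u v
    have h := coordL_symp k β ((coordL F k).symm u) ((coordL F k).symm v)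
    rw [LinearEquiv.apply_symm_apply, LinearEquiv.apply_symm_apply] at h
    rw [h, hQmdef]
    simp only [QuadraticMap.polar, map_add]
  obtain ⟨b, hb⟩ := isom_transport (Cfsg.quadFormMinus k F 1 β) Qm (coordL F k) hQmΨ g₀
  have hpow : ∀ (n : ℕ) (v : Fin (k + 1) ⊕ Fin (k + 1) → F),
      oMat (b ^ n) *ᵥ v = coordL F k (oMat (g₀ ^ n) *ᵥ (coordL F k).symm v) := by
    intro n
    induction n with
    | zero =>
      intro v
      rw [pow_zero, pow_zero, oMat_one, oMat_one, Matrix.one_mulVec, Matrix.one_mulVec,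
        LinearEquiv.apply_symm_apply]
    | succ n ih =>
      intro v
      rw [pow_succ, pow_succ, oMat_mul, oMat_mul, ← Matrix.mulVec_mulVec, ← Matrix.mulVec_mulVec,
        hb, ih, LinearEquiv.symm_apply_apply]
  have hbr : b ^ r = 1 := by
    apply oMat_injective
    apply mat_ext_mulVecG
    intro v
    rw [hpow, hg₀r, oMat_one, oMat_one, Matrix.one_mulVec, Matrix.one_mulVec,
      LinearEquiv.apply_symm_apply]
  have hbfix : ∀ v, oMat b *ᵥ v = v → v = 0 := by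
    intro v hv
    rw [hb] at hv
    have h1 : oMat g₀ *ᵥ (coordL F k).symm v = (coordL F k).symm v := by
      have := congrArg (coordL F k).symm hv
      rwa [LinearEquiv.symm_apply_apply] at this
    have h2 := hg₀fix _ h1
    exact (coordL F k).symm.map_eq_zero_iff.1 h2
  have hxsp : (b : Matrix.GeneralLinearGroup (Fin (k + 1) ⊕ Fin (k + 1)) F) ∈
      Cfsg.spGL (k + 1) F := isom_mem_spGL Qm hQmf _ (fun v => oMat_isom b v)
  refine ⟨(b : Matrix.GeneralLinearGroup (Fin (k + 1) ⊕ Fin (k + 1)) F), hxsp, ?_, ?_, ?_⟩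
  · rw [← Subgroup.coe_pow, hbr]
    rfl
  · intro z hz
    have hz1 := sp_scalar_one (by omega) _ hxsp z hz
    rw [hz1, one_smul] at hz
    have h1 := hbfix (Pi.single (Sum.inl 0) 1) (by
      rw [show oMat b = 1 from hz, Matrix.one_mulVec])
    have h2 := congrFun h1 (Sum.inl 0)
    simp at h2
  · rintro ⟨γ, hγ, hy⟩
    have hymem : γ⁻¹ * (b : Matrix.GeneralLinearGroup (Fin (k + 1) ⊕ Fin (k + 1)) F) * γ ∈
        Cfsg.spGL (k + 1) F := mul_mem (mul_mem (inv_mem hγ) hxsp) hγ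
    have hYisom := sim_isom Q (by omega) hQf _ hymem hy
    have hyr : (γ⁻¹ * (b : Matrix.GeneralLinearGroup (Fin (k + 1) ⊕ Fin (k + 1)) F) * γ) ^ r
        = 1 := by
      rw [conj_pow', ← Subgroup.coe_pow, hbr]
      simp
    have hyfix : ∀ v, ((γ⁻¹ * (b : Matrix.GeneralLinearGroup (Fin (k + 1) ⊕ Fin (k + 1)) F) * γ :
        Matrix.GeneralLinearGroup (Fin (k + 1) ⊕ Fin (k + 1)) F) :
        Matrix (Fin (k + 1) ⊕ Fin (k + 1)) (Fin (k + 1) ⊕ Fin (k + 1)) F) *ᵥ v = v → v = 0 := by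
      intro v hv
      rw [conj_mulVec] at hv
      have h1 : oMat b *ᵥ ((γ : Matrix (Fin (k + 1) ⊕ Fin (k + 1)) (Fin (k + 1) ⊕ Fin (k + 1)) F)
          *ᵥ v) = (γ : Matrix (Fin (k + 1) ⊕ Fin (k + 1)) (Fin (k + 1) ⊕ Fin (k + 1)) F) *ᵥ v := by
        have h0 := congrArg
          (fun w => (γ : Matrix (Fin (k + 1) ⊕ Fin (k + 1)) (Fin (k + 1) ⊕ Fin (k + 1)) F) *ᵥ w) hv
        simp only [gl_mulVec_inv] at h0
        exact h0
      have h2 := hbfix _ h1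
      have h3 := congrArg
        (fun w => ((γ⁻¹ : Matrix.GeneralLinearGroup (Fin (k + 1) ⊕ Fin (k + 1)) F) :
          Matrix (Fin (k + 1) ⊕ Fin (k + 1)) (Fin (k + 1) ⊕ Fin (k + 1)) F) *ᵥ w) h2
      simp only [gl_inv_mulVec, Matrix.mulVec_zero] at h3
      exact h3
    have hmod := card_zeros_modEq_one Q hQ0 _ hYisom r hyr hyfix
    rw [hzeros] at hmod
    exact plus_count_ne_one_mod (by omega) hr hr2 hdiv hmod

/-- Elements of prime order `r` of `Sp_{2d}(q)`, `q` even, all have conjugates in the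
orthogonal subgroup `GO(Q) ∩ Sp` iff `r = 2` and (`Q` is of plus type or `d` is odd). -/
theorem elus_sp {q : ℕ} (hq : Fintype.card F = q) (d : ℕ) (hd : 2 ≤ d)
    (Q : (Fin d ⊕ Fin d → F) → F) (hQ : Cfsg.Geo.IsNondegenerateQuadraticForm Q)
    (hQf : ∀ u v, QuadraticMap.polar Q u v = Cfsg.sympForm d F u v)
    (r : ℕ) [Fact r.Prime]
    (hΩ : r ∣ (Cfsg.Geo.quadSimilarityGroup Q).relIndex (Cfsg.spGL d F)) :
    (∀ x ∈ Cfsg.spGL d F,
      (∃ z : F, ((x ^ r : Matrix.GeneralLinearGroup (Fin d ⊕ Fin d) F) :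
        Matrix (Fin d ⊕ Fin d) (Fin d ⊕ Fin d) F) =
          z • (1 : Matrix (Fin d ⊕ Fin d) (Fin d ⊕ Fin d) F)) →
      (∀ z : F, (x : Matrix (Fin d ⊕ Fin d) (Fin d ⊕ Fin d) F) ≠
        z • (1 : Matrix (Fin d ⊕ Fin d) (Fin d ⊕ Fin d) F)) →
      ∃ g ∈ Cfsg.spGL d F, g⁻¹ * x * g ∈ Cfsg.Geo.quadSimilarityGroup Q) ↔
    (r = 2 ∧ (Cfsg.Geo.IsPlusTypeOn Q ⊤ ∨ Odd d)) := by
  classical
  have hr := (Fact.out : r.Prime)
  have hq2 : 2 ≤ q := by rw [← hq]; exact Fintype.one_lt_card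
  obtain ⟨k, rfl⟩ : ∃ k, d = k + 1 := ⟨d - 1, by omega⟩
  have hQ0 : Q 0 = 0 := by
    have := hQ.smul 0 0
    simpa using this
  obtain ⟨β, hab⟩ := exists_aniso_beta (F := F)
  have hnd := geoQF_nondeg Q hQ
  have hcl := quad_classify (geoQF Q hQ) hnd k (finrank_plus (k + 1) F) 1 β hab
  constructor
  · intro H
    have hr2 : r = 2 := by
      by_contra hr2
      have hnq : ¬ r ∣ q := by
        intro h
        obtain ⟨n, -, hn⟩ := FiniteField.card F 2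
        rw [hq] at hn
        rw [hn] at h
        exact hr2 ((Nat.prime_dvd_prime_iff_eq hr Nat.prime_two).1 (hr.dvd_of_dvd_pow h))
      rcases hcl with ⟨Φ, hΦ⟩ | ⟨Φ, hΦ⟩
      · have hidx := index_plus Q hq hQf Φ hΦ
        have hdiv : r ∣ q ^ (k + 1) + 1 := by
          have h1 : r ∣ q ^ (k + 1) * (q ^ (k + 1) + 1) := by
            rw [← hidx]
            exact Dvd.dvd.mul_right hΩ 2
          rcases (Nat.Prime.dvd_mul hr).1 h1 with h | h
          · exact absurd (hr.dvd_of_dvd_pow h) hnq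
          · exact h
        obtain ⟨x, hx, hxr, hns, hno⟩ := no_conj_plus hq Q hQ0 hQf
          (zeros_plus_of_iso Q hq Φ hΦ) r hr hr2 hdiv
        exact hno (H x hx ⟨1, by rw [hxr, one_smul]; rfl⟩ hns)
      · have hidx := index_minus Q hq hQf β hab Φ hΦ
        have hdiv : r ∣ q ^ (k + 1) - 1 := by
          have h1 : r ∣ q ^ (k + 1) * (q ^ (k + 1) - 1) := by
            rw [← hidx]
            exact Dvd.dvd.mul_right hΩ 2
          rcases (Nat.Prime.dvd_mul hr).1 h1 with h | h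
          · exact absurd (hr.dvd_of_dvd_pow h) hnq
          · exact h
        obtain ⟨x, hx, hxr, hns, hno⟩ := no_conj_minus hq Q hQf
          (minus_ts_le Q β hab Φ hΦ) r hr hdiv
        exact hno (H x hx ⟨1, by rw [hxr, one_smul]; rfl⟩ hns)
    refine ⟨hr2, ?_⟩
    subst hr2
    by_contra hcon
    push Not at hcon
    obtain ⟨hnp, hnodd⟩ := hcon
    exact hnp (plus_of_alt_inv_conj Q (by omega) hQf (Nat.not_odd_iff_even.1 hnodd) H)
  · rintro ⟨rfl, hcase⟩ x hx ⟨z, hz⟩ hns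
    apply sp_inv_conj_into_O Q hQf ?_ x hx z hz hns
    rcases hcl with ⟨Φ, hΦ⟩ | ⟨Φ, hΦ⟩
    · exact Or.inl ⟨Φ, hΦ⟩
    · rcases hcase with hplus | hodd
      · exact absurd hplus (not_plus_of_iso Q β hab Φ hΦ)
      · exact Or.inr ⟨hodd, β, Φ, hΦ⟩

end NoConj

end Cfsg.Agent.H42
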