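import Mathlib
import Cfsg.Prelude.Def_GeometricClasses
import Cfsg.Prelude.Def_Classical

/-!
# S5988 team project (helper42): definitions and piece statements, part 1

`PΩ⁺_{2d}(q)`, all `q`, elements of prime order `r` and nondegenerate `m`-spaces of minus
(elliptic) type, `m` even, `2 ≤ m < d`.  This file only depends on Mathlib and the Prelude: it
contains the row-level statements for `r = p` and `r = 2` in the shape of the frozen statement,
and the arithmetic for odd `r ≠ p`.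
-/

set_option autoImplicit false

namespace Cfsg.Agent.H42.Eq

universe u

/-- The subspaces of the frozen statement S5988: nondegenerate `m`-spaces of minus type of the
standard plus space of dimension `2 d`. -/
def IsEll (F : Type u) [Field F] (d m : ℕ) (W : Submodule F (Fin d ⊕ Fin d → F)) : Prop :=
  Module.finrank F ↥W = m ∧
    Cfsg.Geo.IsNondegenerateOn (QuadraticMap.polar (Cfsg.quadFormPlus d F)) W ∧
    ¬ Cfsg.Geo.IsPlusTypeOn (Cfsg.quadFormPlus d F) W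

/-- The right-hand side of S5988 for odd `r ≠ p` (`n = 2 d`). -/
def RhsOdd (n m i c : ℕ) : Prop :=
  (Odd i ∧ c ≤ m ∧ 0 < m % c ∧ m % c < n % c) ∨
  (Even i ∧
    ((n % c = 0 ∧ (Odd (n / i) ∨ (m % c = 0 ∧ Odd (m / i)))) ∨
     (i ≤ m ∧ ((0 < m % c ∧ m % c < n % c) ∨
               (0 < m % c ∧ m % c = n % c ∧ Odd ((n + m - 2 * (n % c)) / i)) ∨
               (m % c = 0 ∧ 0 < n % c ∧ Odd (m / i))))))

/-! ## `r = p` (any `p`, including `p = 2`) -/

/-- EQ-UNIP: an element of order `p` of `Ω⁺_{2d}(q)` all of whose invariant nondegenerate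
subspaces of even dimension are of plus type. -/
def StUnip : Prop :=
  ∀ (F : Type u) [Field F] [Fintype F] (p : ℕ) [Fact p.Prime] [CharP F p] (d : ℕ), 3 ≤ d →
    ∃ x : Matrix.GeneralLinearGroup (Fin d ⊕ Fin d) F,
      x ∈ Cfsg.Geo.omegaGL (Cfsg.quadFormPlus d F) ∧ x ^ p = 1 ∧
      (∀ z : F, (x : Matrix (Fin d ⊕ Fin d) (Fin d ⊕ Fin d) F) ≠
        z • (1 : Matrix (Fin d ⊕ Fin d) (Fin d ⊕ Fin d) F)) ∧
      ∀ W : Submodule F (Fin d ⊕ Fin d → F), Even (Module.finrank F ↥W) →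
        Cfsg.Geo.IsNondegenerateOn (QuadraticMap.polar (Cfsg.quadFormPlus d F)) W →
        W.map (Matrix.toLin' (x : Matrix (Fin d ⊕ Fin d) (Fin d ⊕ Fin d) F)) ≤ W →
        Cfsg.Geo.IsPlusTypeOn (Cfsg.quadFormPlus d F) W

/-! ## `r = 2`, `q` odd -/

/-- EQ-R2: the `r = 2` line of S5988. -/
def StR2 : Prop :=
  ∀ (F : Type u) [Field F] [Fintype F] (d m : ℕ), Odd (Fintype.card F) → 4 ≤ d → Even m →
    2 ≤ m → m < d →
    ((∀ x : Matrix.GeneralLinearGroup (Fin d ⊕ Fin d) F,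
        x ∈ Cfsg.Geo.omegaGL (Cfsg.quadFormPlus d F) →
        (∃ z : F, ((x ^ 2 : Matrix.GeneralLinearGroup (Fin d ⊕ Fin d) F) :
          Matrix (Fin d ⊕ Fin d) (Fin d ⊕ Fin d) F) =
            z • (1 : Matrix (Fin d ⊕ Fin d) (Fin d ⊕ Fin d) F)) →
        (∀ z : F, (x : Matrix (Fin d ⊕ Fin d) (Fin d ⊕ Fin d) F) ≠
          z • (1 : Matrix (Fin d ⊕ Fin d) (Fin d ⊕ Fin d) F)) →
        ∃ W : Submodule F (Fin d ⊕ Fin d → F),
          (Module.finrank F ↥W = m ∧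
            Cfsg.Geo.IsNondegenerateOn (QuadraticMap.polar (Cfsg.quadFormPlus d F)) W ∧
            ¬ Cfsg.Geo.IsPlusTypeOn (Cfsg.quadFormPlus d F) W) ∧
          W.map (Matrix.toLin' (x : Matrix (Fin d ⊕ Fin d) (Fin d ⊕ Fin d) F)) ≤ W) ↔
      ((Even d ∧ Fintype.card F % 4 = 3 ∧ m % 4 = 2) ∨ (Odd d ∧ Fintype.card F % 8 ≠ 1)))

/-! ## Arithmetic for odd `r ≠ p` (pure `ℕ`; the shape of helper48's EP-ARBACK / EP-ARFWD)

`2 d = k₀ + c A`: `k₀ = dim C_V(x)`, `A ≥ 1` the number of `c`-blocks of `x` (admissible: if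
`c A = 2 d` then `i` odd or `A` even); an invariant nondegenerate `W` of dimension `m` has
`m = c j + e` with `e = dim C_W(x) ≤ k₀`, `j ≤ A`; it is of MINUS type only if: `e = 0` forces
`¬ (Odd i ∨ Even j)`; `e = k₀ ≠ 0` forces `¬ (Odd i ∨ Even (A - j))`. -/

/-- EQ-ARBACK: the right-hand side gives, for every admissible number `A` of blocks, a shape
`(j, e)` of a fixed minus-type space. -/
def StArBack : Prop :=
  ∀ d m i c A : ℕ, 0 < i → c = (if Even i then i else 2 * i) → Even m → 2 ≤ m → m < d →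
    RhsOdd (2 * d) m i c → 1 ≤ A → c * A ≤ 2 * d → (c * A = 2 * d → (Odd i ∨ Even A)) →
    ∃ j e : ℕ, j ≤ A ∧ e ≤ 2 * d - c * A ∧ Even e ∧ c * j + e = m ∧
      (e = 0 → ¬ (Odd i ∨ Even j)) ∧ (e = 2 * d - c * A → e ≠ 0 → ¬ (Odd i ∨ Even (A - j)))

/-- EQ-ARFWD: if the right-hand side fails, either some admissible `A` admits no shape, or
`m < c` and (`2 d < c`, or some admissible fixed-space dimension `k₀ = 2 d - c A < c` has
`m < k₀`, or `m = k₀` with the fixed space of minus type). -/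
def StArFwd : Prop :=
  ∀ d m i c : ℕ, 0 < i → c = (if Even i then i else 2 * i) → Even m → 2 ≤ m → m < d → 4 ≤ d →
    ¬ RhsOdd (2 * d) m i c →
    (∃ A : ℕ, 1 ≤ A ∧ c * A ≤ 2 * d ∧ (c * A = 2 * d → (Odd i ∨ Even A)) ∧
      ∀ j e : ℕ, j ≤ A → e ≤ 2 * d - c * A → c * j + e = m → (e = 0 → ¬ (Odd i ∨ Even j)) →
        (e = 2 * d - c * A → e ≠ 0 → ¬ (Odd i ∨ Even (A - j))) → False) ∨
    (m < c ∧ (2 * d < c ∨
      ∃ A : ℕ, 1 ≤ A ∧ c * A ≤ 2 * d ∧ (c * A = 2 * d → (Odd i ∨ Even A)) ∧ 2 * d - c * A < c ∧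
        (m < 2 * d - c * A ∨ (m = 2 * d - c * A ∧ ¬ (Odd i ∨ Even A)))))

end Cfsg.Agent.H42.Eq
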