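import Mathlib
import Cfsg.Agent.H42.EqDefs
import Cfsg.Agent.H48.EpDefs

/-!
# S5988 team project (helper42): piece statements, part 2

The count pieces for the divisibility hypothesis of S5988 (minus-type `m`-spaces of the standard
plus space), mirroring helper48's EP-CNTA / EP-CNTB.
-/

set_option autoImplicit false

namespace Cfsg.Agent.H42.Eq

open Cfsg.Agent.H45 Cfsg.Agent.H42.Spd Cfsg.Agent.H42.Ti Cfsg.Agent.H48.Ep Module

universe u

/-- EQ-CNTA: if the fixed space `K` of an isometry `x` with `x ^ r = 1` has dimension `< c` and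
`m < dim K`, `m < c`, the number of nondegenerate minus-type `m`-spaces is prime to `r`. -/
def StCntA : Prop :=
  ∀ (F : Type u) [Field F] [Fintype F] (p : ℕ) [Fact p.Prime] [CharP F p] (r : ℕ), r.Prime →
    r ≠ 2 → r ≠ p → ∀ (d m : ℕ), 4 ≤ d → Even m → 2 ≤ m → m < cc F r →
    ∀ x : Matrix.GeneralLinearGroup (Fin d ⊕ Fin d) F,
    x ∈ Cfsg.isometryGroup F (Cfsg.quadFormPlus d F) → x ^ r = 1 →
    m < Module.finrank F ↥(LinearMap.ker (Matrix.toLin'
      (x : Matrix (Fin d ⊕ Fin d) (Fin d ⊕ Fin d) F) - 1)) →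
    Module.finrank F ↥(LinearMap.ker (Matrix.toLin'
      (x : Matrix (Fin d ⊕ Fin d) (Fin d ⊕ Fin d) F) - 1)) < cc F r →
    ¬ r ∣ Nat.card {W : Submodule F (Fin d ⊕ Fin d → F) // IsEll F d m W}

/-- EQ-CNTB: if the fixed space `K` of an isometry `x` with `x ^ r = 1` is of minus type of
dimension `m < c`, the number of nondegenerate minus-type `m`-spaces is `≡ 1 (mod r)`. -/
def StCntB : Prop :=
  ∀ (F : Type u) [Field F] [Fintype F] (p : ℕ) [Fact p.Prime] [CharP F p] (r : ℕ), r.Prime →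
    r ≠ 2 → r ≠ p → ∀ (d m : ℕ), Even m → 2 ≤ m → m < cc F r →
    ∀ x : Matrix.GeneralLinearGroup (Fin d ⊕ Fin d) F,
    x ∈ Cfsg.isometryGroup F (Cfsg.quadFormPlus d F) → x ^ r = 1 →
    Module.finrank F ↥(LinearMap.ker (Matrix.toLin'
      (x : Matrix (Fin d ⊕ Fin d) (Fin d ⊕ Fin d) F) - 1)) = m →
    ¬ QPlus (Cfsg.Agent.H49.QP d F) (LinearMap.ker (Matrix.toLin'
      (x : Matrix (Fin d ⊕ Fin d) (Fin d ⊕ Fin d) F) - 1)) →
    ¬ r ∣ Nat.card {W : Submodule F (Fin d ⊕ Fin d → F) // IsEll F d m W}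

end Cfsg.Agent.H42.Eq
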