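import Mathlib
import Cfsg.Agent.H42.EqDefs2
import Cfsg.Agent.H48.EpDefs2
import Cfsg.Agent.H98.EpBridge

/-!
# S5988: assembly from the piece statements (`EqDefs`, `EqDefs2`, helper48's `EpDefs`)
-/

set_option autoImplicit false

namespace Cfsg.Agent.H42.Eq

open Cfsg.Agent.H45 Cfsg.Agent.H42.Spd Cfsg.Agent.H42.Ti Cfsg.Agent.H48.Ep Module

universe u

section Main

variable {F : Type u} [Field F] [Fintype F]

/-- The frozen predicate in terms of helper48's `QNd` / `QPlus`. -/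
theorem eq_ell_iff (d m : ℕ) (W : Submodule F (Fin d ⊕ Fin d → F)) :
    IsEll F d m W ↔ (Module.finrank F ↥W = m ∧ QNd (Cfsg.Agent.H49.QP d F) W ∧
      ¬ QPlus (Cfsg.Agent.H49.QP d F) W) := by
  unfold IsEll
  have h1 : Cfsg.Geo.IsNondegenerateOn (QuadraticMap.polar (Cfsg.quadFormPlus d F)) W ↔
      QNd (Cfsg.Agent.H49.QP d F) W := by
    rw [← Cfsg.Agent.H98.Ep.nd_iff]
    unfold Cfsg.Geo.IsNondegenerateOn
    constructor
    · intro h u hu hne
      exact (h u hu hne).2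
    · intro h w hw hne
      obtain ⟨v, hv, hv2⟩ := h w hw hne
      exact ⟨⟨v, hv, by rw [QuadraticMap.polar_comm]; exact hv2⟩, ⟨v, hv, hv2⟩⟩
  have h2 : Cfsg.Geo.IsPlusTypeOn (Cfsg.quadFormPlus d F) W ↔
      QPlus (Cfsg.Agent.H49.QP d F) W := Iff.rfl
  rw [h1, h2]

theorem eq_toLin_pow {d : ℕ} (x : Matrix.GeneralLinearGroup (Fin d ⊕ Fin d) F) (r : ℕ)
    (h : x ^ r = 1) :
    (Matrix.toLin' (x : Matrix (Fin d ⊕ Fin d) (Fin d ⊕ Fin d) F)) ^ r = 1 := by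
  rw [← Matrix.toLin'_pow, ← Units.val_pow_eq_pow_val, h]
  simp [Matrix.toLin'_one]
  rfl

theorem eq_omega_le {d : ℕ} {x : Matrix.GeneralLinearGroup (Fin d ⊕ Fin d) F}
    (hx : x ∈ Cfsg.Geo.omegaGL (Cfsg.quadFormPlus d F)) :
    x ∈ Cfsg.isometryGroup F (Cfsg.quadFormPlus d F) := by
  obtain ⟨y, _, rfl⟩ := hx
  exact y.2

theorem eq_cast_ne {p : ℕ} [Fact p.Prime] [CharP F p] {r : ℕ} (hr : r.Prime) (hrp : r ≠ p) :
    (r : F) ≠ 0 := by
  rw [Ne, CharP.cast_eq_zero_iff F p]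
  intro h
  exact hrp ((Nat.prime_dvd_prime_iff_eq Fact.out hr).mp h).symm

theorem eq_ii_pos {p : ℕ} [Fact p.Prime] [CharP F p] {r : ℕ} (hr : r.Prime) (hrp : r ≠ p) :
    0 < ii F r := by
  unfold ii
  obtain ⟨n, hp, hcard⟩ := FiniteField.card F p
  have hcop : (Fintype.card F).Coprime r := by
    rw [hcard]
    exact Nat.Coprime.pow_left _ ((Nat.coprime_primes hp hr).mpr (Ne.symm hrp))
  have h1 : ((ZMod.unitOfCoprime _ hcop : (ZMod r)ˣ) : ZMod r) = (Fintype.card F : ZMod r) :=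
    ZMod.coe_unitOfCoprime _ hcop
  rw [← h1, orderOf_units]
  haveI : Fact r.Prime := ⟨hr⟩
  exact orderOf_pos _

theorem eq_cc_eq (r : ℕ) : cc F r = if Even (ii F r) then ii F r else 2 * ii F r := rfl

theorem eq_cc_pos {p : ℕ} [Fact p.Prime] [CharP F p] {r : ℕ} (hr : r.Prime) (hrp : r ≠ p) :
    0 < cc F r := by
  have := eq_ii_pos (F := F) hr hrp
  rw [eq_cc_eq]
  split_ifs <;> omega

theorem eq_cc_even (r : ℕ) : Even (cc F r) := by
  rw [eq_cc_eq]
  split_ifs with h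
  · exact h
  · exact even_two_mul _

/-- The structure theorem specialised to the standard plus space and minus-type subspaces. -/
theorem eq_struct (hS : StStruct.{u, u}) (hBr : StBridge.{u}) {p : ℕ} [Fact p.Prime] [CharP F p]
    (d r : ℕ) (hr : r.Prime) (hr2 : r ≠ 2) (hrp : r ≠ p)
    (x : Matrix.GeneralLinearGroup (Fin d ⊕ Fin d) F)
    (hx : x ∈ Cfsg.isometryGroup F (Cfsg.quadFormPlus d F)) (hxr : x ^ r = 1) :
    ∃ A : ℕ,
      2 * d = Module.finrank F ↥(LinearMap.ker (Matrix.toLin'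
        (x : Matrix (Fin d ⊕ Fin d) (Fin d ⊕ Fin d) F) - 1)) + cc F r * A ∧
      (Module.finrank F ↥(LinearMap.ker (Matrix.toLin'
        (x : Matrix (Fin d ⊕ Fin d) (Fin d ⊕ Fin d) F) - 1)) = 0 → (Odd (ii F r) ∨ Even A)) ∧
      (∀ m j e : ℕ, j ≤ A →
        e ≤ Module.finrank F ↥(LinearMap.ker (Matrix.toLin'
          (x : Matrix (Fin d ⊕ Fin d) (Fin d ⊕ Fin d) F) - 1)) → Even e → cc F r * j + e = m →
        (e = 0 → ¬ (Odd (ii F r) ∨ Even j)) →
        (e = Module.finrank F ↥(LinearMap.ker (Matrix.toLin'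
          (x : Matrix (Fin d ⊕ Fin d) (Fin d ⊕ Fin d) F) - 1)) → e ≠ 0 →
            ¬ (Odd (ii F r) ∨ Even (A - j))) →
        ∃ W : Submodule F (Fin d ⊕ Fin d → F), IsEll F d m W ∧
          W.map (Matrix.toLin' (x : Matrix (Fin d ⊕ Fin d) (Fin d ⊕ Fin d) F)) ≤ W) ∧
      (∀ (m : ℕ) (W : Submodule F (Fin d ⊕ Fin d → F)), Even m → IsEll F d m W →
        W.map (Matrix.toLin' (x : Matrix (Fin d ⊕ Fin d) (Fin d ⊕ Fin d) F)) ≤ W →
        ∃ j e : ℕ, j ≤ A ∧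
          e ≤ Module.finrank F ↥(LinearMap.ker (Matrix.toLin'
            (x : Matrix (Fin d ⊕ Fin d) (Fin d ⊕ Fin d) F) - 1)) ∧ cc F r * j + e = m ∧
          (e = 0 → ¬ (Odd (ii F r) ∨ Even j)) ∧
          (e = Module.finrank F ↥(LinearMap.ker (Matrix.toLin'
            (x : Matrix (Fin d ⊕ Fin d) (Fin d ⊕ Fin d) F) - 1)) → e ≠ 0 →
              ¬ (Odd (ii F r) ∨ Even (A - j)))) ∧
      (Module.finrank F ↥(LinearMap.ker (Matrix.toLin'
          (x : Matrix (Fin d ⊕ Fin d) (Fin d ⊕ Fin d) F) - 1)) ≠ 0 →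
        (QPlus (Cfsg.Agent.H49.QP d F) (LinearMap.ker (Matrix.toLin'
          (x : Matrix (Fin d ⊕ Fin d) (Fin d ⊕ Fin d) F) - 1)) ↔ (Odd (ii F r) ∨ Even A))) := by
  obtain ⟨hnd, hpl, hfin, -, hiso⟩ := hBr F d 0
  set T := Matrix.toLin' (x : Matrix (Fin d ⊕ Fin d) (Fin d ⊕ Fin d) F) with hT
  have hkk : kk T ⊤ = Module.finrank F ↥(LinearMap.ker (T - 1)) := by
    unfold kk
    rw [top_inf_eq]
  obtain ⟨hKnd, A, hA, hA0, hex, hfw⟩ := hS F (Fin d ⊕ Fin d → F) (Cfsg.Agent.H49.QP d F) T r True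
    hr hr2 (eq_cast_ne hr hrp) hnd ((hiso x).mp hx) (eq_toLin_pow x r hxr)
    (by rw [hfin]; exact even_two_mul d) (iff_true_intro hpl)
  rw [hfin, hkk] at hA
  rw [hkk] at hA0
  have hceven := eq_cc_even (F := F) r
  refine ⟨A, hA, fun h0 => (hA0 h0).mp trivial, ?_, ?_, ?_⟩
  · intro m j e hj he hee hm h1 h2
    obtain ⟨W, hWinv, hWnd, hWfin, hWpl⟩ := hex j e False hj (by rw [hkk]; exact he) hee
      (fun h => iff_of_false id (h1 h))
      (fun h h' => iff_of_false id (fun hh => h2 (by rw [← hkk]; exact h) h' (hh.mp trivial)))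
    refine ⟨W, (eq_ell_iff d m W).mpr ⟨by rw [hWfin, hm], hWnd, fun h => hWpl.mp h⟩, ?_⟩
    rw [Submodule.map_le_iff_le_comap]
    exact (Module.End.mem_invtSubmodule _).mp hWinv
  · intro m W hme hW hinv
    obtain ⟨hWfin, hWnd, hWpl⟩ := (eq_ell_iff d m W).mp hW
    have hWinv : W ∈ Module.End.invtSubmodule T := by
      rw [Module.End.mem_invtSubmodule, ← Submodule.map_le_iff_le_comap]
      exact hinv
    obtain ⟨j, hj, h1, h2, h3, h4⟩ := hfw W False hWinv hWnd (by rw [hWfin]; exact hme)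
      (iff_false_intro hWpl)
    refine ⟨j, kk T W, hj, by rw [← hkk]; exact h2, by rw [← hWfin, h1], ?_, ?_⟩
    · intro h hh
      exact (h3 h).mpr hh
    · intro h h' hh
      exact (h4 (by rw [hkk]; exact h) h').mpr (iff_of_true trivial hh)
  · intro hne
    have hKinv : LinearMap.ker (T - 1) ∈ Module.End.invtSubmodule T := by
      rw [Module.End.mem_invtSubmodule]
      intro v hv
      rw [Submodule.mem_comap, LinearMap.mem_ker] at *
      have h1 : T v = v := by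
        have := hv
        rw [LinearMap.sub_apply, Module.End.one_apply, sub_eq_zero] at this
        exact this
      rw [h1]
      exact hv
    have hKeven : Even (Module.finrank F ↥(LinearMap.ker (T - 1))) := by
      have h2d : Even (2 * d) := even_two_mul d
      rw [hA] at h2d
      have hcA : Even (cc F r * A) := hceven.mul_right A
      exact (Nat.even_add.mp h2d).mpr hcA
    obtain ⟨j, hj, h1, h2, h3, h4⟩ := hfw (LinearMap.ker (T - 1))
      (QPlus (Cfsg.Agent.H49.QP d F) (LinearMap.ker (T - 1))) hKinv hKnd hKeven Iff.rfl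
    have hkK : kk T (LinearMap.ker (T - 1)) = Module.finrank F ↥(LinearMap.ker (T - 1)) := by
      unfold kk
      rw [inf_idem]
    rw [hkK] at h1 h4
    have hcpos := eq_cc_pos (F := F) hr hrp
    have hj0 : j = 0 := by
      have : cc F r * j = 0 := by omega
      rcases Nat.mul_eq_zero.mp this with h | h
      · omega
      · exact h
    subst hj0
    have h5 := h4 hkk.symm hne
    rw [Nat.sub_zero] at h5
    exact h5.trans ⟨fun h => h.mp trivial, fun h => iff_of_true trivial h⟩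


theorem eq_finrank_std (d : ℕ) : Module.finrank F (Fin d ⊕ Fin d → F) = 2 * d := by
  rw [Module.finrank_fintype_fun_eq_card]
  simp
  omega

/-- `RhsOdd` gives a fixed minus-type `m`-space for every element of odd prime order `r ≠ p`. -/
theorem eq_back (hS : StStruct.{u, u}) (hBr : StBridge.{u}) (hSign : StSign.{u}) (hAB : StArBack)
    {p : ℕ} [Fact p.Prime] [CharP F p] (d m r : ℕ) (hd : 4 ≤ d) (hm : 2 ≤ m) (hme : Even m)
    (hmd : m < d) (hr : r.Prime) (hr2 : r ≠ 2) (hrp : r ≠ p)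
    (hR : RhsOdd (2 * d) m (ii F r) (cc F r))
    (x : Matrix.GeneralLinearGroup (Fin d ⊕ Fin d) F)
    (hx : x ∈ Cfsg.Geo.omegaGL (Cfsg.quadFormPlus d F))
    (hsc : ∃ z : F, ((x ^ r : Matrix.GeneralLinearGroup (Fin d ⊕ Fin d) F) :
      Matrix (Fin d ⊕ Fin d) (Fin d ⊕ Fin d) F) =
        z • (1 : Matrix (Fin d ⊕ Fin d) (Fin d ⊕ Fin d) F))
    (hns : ∀ z : F, (x : Matrix (Fin d ⊕ Fin d) (Fin d ⊕ Fin d) F) ≠
      z • (1 : Matrix (Fin d ⊕ Fin d) (Fin d ⊕ Fin d) F)) :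
    ∃ W : Submodule F (Fin d ⊕ Fin d → F), IsEll F d m W ∧
      W.map (Matrix.toLin' (x : Matrix (Fin d ⊕ Fin d) (Fin d ⊕ Fin d) F)) ≤ W := by
  obtain ⟨z, hz⟩ := hsc
  have hodd : Odd r := hr.odd_of_ne_two hr2
  obtain ⟨y, hy, hyr, hyinv, hy1⟩ := hSign F d x r z (by omega) hodd (eq_omega_le hx) hz
  obtain ⟨A, hA, hA0, hex, -, -⟩ := eq_struct hS hBr d r hr hr2 hrp y hy hyr
  have hcpos := eq_cc_pos (F := F) hr hrp
  have hA1 : 1 ≤ A := by
    by_contra hcon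
    have hA0' : A = 0 := by omega
    subst hA0'
    rw [Nat.mul_zero, Nat.add_zero] at hA
    apply hy1 hns
    have hker : LinearMap.ker (Matrix.toLin'
        (y : Matrix (Fin d ⊕ Fin d) (Fin d ⊕ Fin d) F) - 1) = ⊤ := by
      apply Submodule.eq_top_of_finrank_eq
      rw [← hA, eq_finrank_std]
    have hT : Matrix.toLin' (y : Matrix (Fin d ⊕ Fin d) (Fin d ⊕ Fin d) F) = 1 :=
      sub_eq_zero.mp (LinearMap.ker_eq_top.mp hker)
    apply Units.ext
    apply Matrix.toLin'.injective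
    rw [hT, Units.val_one, Matrix.toLin'_one]
    rfl
  obtain ⟨j, e, hj, he, hee, hm', h1, h2⟩ := hAB d m (ii F r) (cc F r) A (eq_ii_pos hr hrp)
    (eq_cc_eq r) hme hm hmd hR hA1 (by omega) (fun h => hA0 (by omega))
  have hk : 2 * d - cc F r * A = Module.finrank F ↥(LinearMap.ker (Matrix.toLin'
      (y : Matrix (Fin d ⊕ Fin d) (Fin d ⊕ Fin d) F) - 1)) := by omega
  rw [hk] at he h2
  obtain ⟨W, hW, hWinv⟩ := hex m j e hj he hee hm' h1 h2
  exact ⟨W, hW, hyinv W hWinv⟩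

/-- If every element of odd prime order `r ≠ p` fixes a minus-type `m`-space and `r` divides
the number of such spaces, then `RhsOdd` holds. -/
theorem eq_fwd (hS : StStruct.{u, u}) (hBr : StBridge.{u}) (hEx : StExist4.{u}) (hAF : StArFwd)
    (hCA : StCntA.{u}) (hCB : StCntB.{u})
    {p : ℕ} [Fact p.Prime] [CharP F p] (d m r : ℕ) (hd : 4 ≤ d) (hm : 2 ≤ m) (hme : Even m)
    (hmd : m < d) (hr : r.Prime) (hr2 : r ≠ 2) (hrp : r ≠ p)
    (hrΩ : r ∣ Nat.card {W : Submodule F (Fin d ⊕ Fin d → F) // IsEll F d m W})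
    (hL : ∀ x : Matrix.GeneralLinearGroup (Fin d ⊕ Fin d) F,
      x ∈ Cfsg.Geo.omegaGL (Cfsg.quadFormPlus d F) →
      (∃ z : F, ((x ^ r : Matrix.GeneralLinearGroup (Fin d ⊕ Fin d) F) :
        Matrix (Fin d ⊕ Fin d) (Fin d ⊕ Fin d) F) =
          z • (1 : Matrix (Fin d ⊕ Fin d) (Fin d ⊕ Fin d) F)) →
      (∀ z : F, (x : Matrix (Fin d ⊕ Fin d) (Fin d ⊕ Fin d) F) ≠
        z • (1 : Matrix (Fin d ⊕ Fin d) (Fin d ⊕ Fin d) F)) →
      ∃ W : Submodule F (Fin d ⊕ Fin d → F), IsEll F d m W ∧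
        W.map (Matrix.toLin' (x : Matrix (Fin d ⊕ Fin d) (Fin d ⊕ Fin d) F)) ≤ W) :
    RhsOdd (2 * d) m (ii F r) (cc F r) := by
  by_contra hR
  have hcpos := eq_cc_pos (F := F) hr hrp
  rcases hAF d m (ii F r) (cc F r) (eq_ii_pos hr hrp) (eq_cc_eq r) hme hm hmd hd hR with
    ⟨A, hA1, hAle, hAadm, hno⟩ | ⟨hmc, h2dc | ⟨A, hA1, hAle, hAadm, hklt, hcase⟩⟩
  · obtain ⟨x, hxΩ, hxr, hxk, hxns⟩ := hEx F p r hr hr2 hrp d A hd hA1 hAle hAadm
    obtain ⟨W, hW, hWinv⟩ := hL x hxΩ ⟨1, by rw [hxr]; simp⟩ hxns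
    obtain ⟨A', hA', -, -, hfw, -⟩ := eq_struct hS hBr d r hr hr2 hrp x (eq_omega_le hxΩ) hxr
    have hAA : A' = A := by
      have : cc F r * A' = cc F r * A := by omega
      exact Nat.eq_of_mul_eq_mul_left hcpos this
    subst hAA
    obtain ⟨j, e, hj, he, hm', h1, h2⟩ := hfw m W hme hW hWinv
    exact hno j e hj (by omega) hm' h1 (fun h h' => h2 (by omega) h')
  · have hker : LinearMap.ker (Matrix.toLin'
        ((1 : Matrix.GeneralLinearGroup (Fin d ⊕ Fin d) F) :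
          Matrix (Fin d ⊕ Fin d) (Fin d ⊕ Fin d) F) - 1) = ⊤ := by
      rw [Units.val_one, Matrix.toLin'_one]
      exact LinearMap.ker_eq_top.mpr (sub_self _)
    have hfin : Module.finrank F ↥(LinearMap.ker (Matrix.toLin'
        ((1 : Matrix.GeneralLinearGroup (Fin d ⊕ Fin d) F) :
          Matrix (Fin d ⊕ Fin d) (Fin d ⊕ Fin d) F) - 1)) = 2 * d := by
      rw [hker, finrank_top, eq_finrank_std]
    exact hCA F p r hr hr2 hrp d m hd hme hm hmc 1 (one_mem _) (one_pow r)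
      (by rw [hfin]; omega) (by rw [hfin]; omega) hrΩ
  · obtain ⟨x, hxΩ, hxr, hxk, hxns⟩ := hEx F p r hr hr2 hrp d A hd hA1 hAle hAadm
    rcases hcase with hlt | ⟨heq, htype⟩
    · exact hCA F p r hr hr2 hrp d m hd hme hm hmc x (eq_omega_le hxΩ) hxr (by omega)
        (by omega) hrΩ
    · obtain ⟨A', hA', -, -, -, hK⟩ := eq_struct hS hBr d r hr hr2 hrp x (eq_omega_le hxΩ) hxr
      have hAA : A' = A := by
        have : cc F r * A' = cc F r * A := by omega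
        exact Nat.eq_of_mul_eq_mul_left hcpos this
      subst hAA
      exact hCB F p r hr hr2 hrp d m hme hm hmc x (eq_omega_le hxΩ) hxr (by omega)
        (fun h => htype ((hK (by omega)).mp h)) hrΩ

/-- **S5988** from the piece statements. -/
theorem eq_main (hUnip : StUnip.{u}) (hR2 : StR2.{u}) (hAB : StArBack) (hAF : StArFwd)
    (hS : StStruct.{u, u}) (hBr : StBridge.{u}) (hSign : StSign.{u}) (hEx : StExist4.{u})
    (hCA : StCntA.{u}) (hCB : StCntB.{u})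
    {p : ℕ} [Fact p.Prime] [CharP F p] {q : ℕ} (hq : Fintype.card F = q)
    (d m : ℕ) (hd : 4 ≤ d) (hm : 2 ≤ m) (hme : Even m) (hmd : m < d)
    (r : ℕ) [Fact r.Prime]
    (hrΩ : r ∣ Nat.card {W : Submodule F (Fin d ⊕ Fin d → F) // Module.finrank F ↥W = m ∧ Cfsg.Geo.IsNondegenerateOn (QuadraticMap.polar (Cfsg.quadFormPlus d F)) W ∧ ¬ Cfsg.Geo.IsPlusTypeOn (Cfsg.quadFormPlus d F) W})
    (i c : ℕ) (hi : i = orderOf (q : ZMod r)) (hc : c = if Even i then i else 2 * i) :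
    (∀ x : Matrix.GeneralLinearGroup (Fin d ⊕ Fin d) F, x ∈ Cfsg.Geo.omegaGL (Cfsg.quadFormPlus d F) →
      (∃ z : F, ((x ^ r : Matrix.GeneralLinearGroup (Fin d ⊕ Fin d) F) : Matrix (Fin d ⊕ Fin d) (Fin d ⊕ Fin d) F) = z • (1 : Matrix (Fin d ⊕ Fin d) (Fin d ⊕ Fin d) F)) →
      (∀ z : F, (x : Matrix (Fin d ⊕ Fin d) (Fin d ⊕ Fin d) F) ≠ z • (1 : Matrix (Fin d ⊕ Fin d) (Fin d ⊕ Fin d) F)) →
      ∃ W : Submodule F (Fin d ⊕ Fin d → F), (Module.finrank F ↥W = m ∧ Cfsg.Geo.IsNondegenerateOn (QuadraticMap.polar (Cfsg.quadFormPlus d F)) W ∧ ¬ Cfsg.Geo.IsPlusTypeOn (Cfsg.quadFormPlus d F) W) ∧ W.map (Matrix.toLin' (x : Matrix (Fin d ⊕ Fin d) (Fin d ⊕ Fin d) F)) ≤ W) ↔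
    ((r = 2 ∧ p ≠ 2 ∧ ((Even d ∧ q % 4 = 3 ∧ m % 4 = 2) ∨ (Odd d ∧ q % 8 ≠ 1))) ∨
     (r ≠ p ∧ 2 < r ∧ Odd i ∧ c ≤ m ∧ 0 < m % c ∧ m % c < (2 * d) % c) ∨
     (r ≠ p ∧ 2 < r ∧ Even i ∧
       (((2 * d) % c = 0 ∧ (Odd ((2 * d) / i) ∨ (m % c = 0 ∧ Odd (m / i)))) ∨
        (i ≤ m ∧ ((0 < m % c ∧ m % c < (2 * d) % c) ∨
                  (0 < m % c ∧ m % c = (2 * d) % c ∧ Odd ((2 * d + m - 2 * ((2 * d) % c)) / i)) ∨
                  (m % c = 0 ∧ 0 < (2 * d) % c ∧ Odd (m / i))))))) := by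
  have hr : r.Prime := Fact.out
  have hii : i = ii F r := by
    rw [hi, ← hq]
    rfl
  subst hii
  have hcc : c = cc F r := by
    rw [hc]
    rfl
  subst hcc
  by_cases hrp : r = p
  · subst hrp
    obtain ⟨x, hxΩ, hxr, hxns, hall⟩ := hUnip F r d (by omega)
    constructor
    · intro hL
      obtain ⟨W, ⟨hWfin, hWnd, hWpl⟩, hWinv⟩ := hL x hxΩ ⟨1, by rw [hxr]; simp⟩ hxns
      exact absurd (hall W (by rw [hWfin]; exact hme) hWnd hWinv) hWpl
    · rintro (⟨h2, hp2, -⟩ | ⟨h, -⟩ | ⟨h, -⟩)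
      · exact absurd h2 hp2
      · exact absurd rfl h
      · exact absurd rfl h
  by_cases hr2 : r = 2
  · subst hr2
    have hp2 : p ≠ 2 := fun h => hrp h.symm
    have hodd : Odd (Fintype.card F) := by
      obtain ⟨n, hp, hcard⟩ := FiniteField.card F p
      rw [hcard]
      exact Odd.pow (hp.odd_of_ne_two hp2)
    have h := hR2 F d m hodd hd hme hm hmd
    rw [hq] at h
    constructor
    · intro hL
      exact Or.inl ⟨rfl, hp2, h.mp hL⟩
    · rintro (⟨-, -, h'⟩ | ⟨-, h', -⟩ | ⟨-, h', -⟩)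
      · exact h.mpr h'
      · omega
      · omega
  · have h2r : 2 < r := by
      have := hr.two_le
      omega
    constructor
    · intro hL
      have hR := eq_fwd hS hBr hEx hAF hCA hCB d m r hd hm hme hmd hr hr2 hrp hrΩ hL
      unfold RhsOdd at hR
      rcases hR with h | ⟨h1, h⟩
      · exact Or.inr (Or.inl ⟨hrp, h2r, h⟩)
      · exact Or.inr (Or.inr ⟨hrp, h2r, h1, h⟩)
    · intro hR x hxΩ hsc hns
      have hR' : RhsOdd (2 * d) m (ii F r) (cc F r) := by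
        unfold RhsOdd
        rcases hR with ⟨h2, -⟩ | ⟨-, -, h⟩ | ⟨-, -, h1, h⟩
        · exact absurd h2 hr2
        · exact Or.inl h
        · exact Or.inr ⟨h1, h⟩
      exact eq_back hS hBr hSign hAB d m r hd hm hme hmd hr hr2 hrp hR' x hxΩ hsc hns

end Main

end Cfsg.Agent.H42.Eq
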