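import Mathlib

set_option autoImplicit false

/-! Linear algebra for eigenspace bounds of elements normalising an extraspecial group
(helper42): conjugation shifts eigenspaces, intersections of conjugate eigenspaces, decomposition
along an element of finite order, quadratic-phase counting. -/

namespace Cfsg.Agent.H42

open Module

section ExtraLA

variable {F : Type*} [Field F] {V : Type*} [AddCommGroup V] [Module F V] [FiniteDimensional F V]

/-- Eigenspaces (cut by a subspace) for distinct eigenvalues have total dimension at most that of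
the subspace. -/
theorem sum_finrank_eigen_inf_le (f : Module.End F V) (U : Submodule F V) (s : Finset F) :
    ∑ μ ∈ s, finrank F ↥(f.eigenspace μ ⊓ U) ≤ finrank F ↥U := by
  classical
  have key : ∑ μ ∈ s, finrank F ↥(f.eigenspace μ ⊓ U) =
      finrank F ↥(⨆ μ ∈ s, f.eigenspace μ ⊓ U) := by
    induction s using Finset.induction_on with
    | empty =>
      rw [Finset.sum_empty]
      have h0 : (⨆ μ ∈ (∅ : Finset F), f.eigenspace μ ⊓ U) = ⊥ := by
        rw [eq_bot_iff]
        exact iSup₂_le (fun μ hμ => absurd hμ (Finset.notMem_empty μ))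
      rw [h0, finrank_bot]
    | insert a s ha ih =>
      rw [Finset.sum_insert ha, Finset.iSup_insert, ih]
      have hdisj : Disjoint (f.eigenspace a ⊓ U) (⨆ μ ∈ s, f.eigenspace μ ⊓ U) := by
        have h1 : Disjoint (f.eigenspace a) (⨆ μ ∈ (s : Set F), f.eigenspace μ) :=
          (Module.End.eigenspaces_iSupIndep f).disjoint_biSup (by simpa using ha)
        refine h1.mono inf_le_left ?_
        exact iSup₂_mono (fun μ hμ => inf_le_left)
      have h2 := Submodule.finrank_sup_add_finrank_inf_eq (f.eigenspace a ⊓ U)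
        (⨆ μ ∈ s, f.eigenspace μ ⊓ U)
      rw [hdisj.eq_bot, finrank_bot, add_zero] at h2
      exact h2.symm
  rw [key]
  apply Submodule.finrank_mono
  exact iSup₂_le (fun μ _ => inf_le_right)

/-- The dimension of a finite supremum is at most the sum of the dimensions. -/
theorem finrank_biSup_le {ι : Type*} (s : Finset ι) (S : ι → Submodule F V) :
    finrank F ↥(⨆ i ∈ s, S i) ≤ ∑ i ∈ s, finrank F ↥(S i) := by
  classical
  induction s using Finset.induction_on with
  | empty =>
    rw [Finset.sum_empty]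
    have h0 : (⨆ i ∈ (∅ : Finset ι), S i) = ⊥ := by
      rw [eq_bot_iff]
      exact iSup₂_le (fun i hi => absurd hi (Finset.notMem_empty i))
    rw [h0, finrank_bot]
  | insert a s ha ih =>
    rw [Finset.sum_insert ha, Finset.iSup_insert]
    exact (Submodule.finrank_add_le_finrank_add_finrank _ _).trans (Nat.add_le_add_left ih _)

/-- An injective endomorphism does not decrease dimensions of subspaces it maps into others. -/
theorem finrank_le_of_map_le (u : Module.End F V) (hu : Function.Injective u)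
    (S T : Submodule F V) (h : S.map u ≤ T) : finrank F ↥S ≤ finrank F ↥T := by
  rw [(Submodule.equivMapOfInjective u hu S).finrank_eq]
  exact Submodule.finrank_mono h

/-- If `h w = ζ w h` then `w` carries the `μ`-eigenspace of `h` into the `ζ μ`-eigenspace. -/
theorem eigen_conj_le (h w : Module.End F V) (hw : Function.Injective w) (ζ μ : F)
    (hrel : h * w = ζ • (w * h)) :
    finrank F ↥(h.eigenspace μ) ≤ finrank F ↥(h.eigenspace (ζ * μ)) := by
  apply finrank_le_of_map_le w hw
  rintro _ ⟨v, hv, rfl⟩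
  rw [SetLike.mem_coe, Module.End.mem_eigenspace_iff] at hv
  rw [Module.End.mem_eigenspace_iff]
  have h1 := LinearMap.congr_fun hrel v
  simp only [Module.End.mul_apply, LinearMap.smul_apply] at h1
  rw [h1, hv, map_smul, smul_smul]

/-- If `h w = ζ w h` with `ζ` a primitive `r`-th root of unity, every eigenspace of `h` for a
non-zero eigenvalue has dimension at most `dim V / r`. -/
theorem eigen_conj_bound (h w : Module.End F V) (hw : Function.Injective w) {r : ℕ} (ζ : F)
    (hζ : IsPrimitiveRoot ζ r) (μ : F) (hμ : μ ≠ 0) (hrel : h * w = ζ • (w * h)) :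
    r * finrank F ↥(h.eigenspace μ) ≤ finrank F V := by
  classical
  have h1 : ∀ i : ℕ, finrank F ↥(h.eigenspace μ) ≤ finrank F ↥(h.eigenspace (ζ ^ i * μ)) := by
    intro i
    induction i with
    | zero => rw [pow_zero, one_mul]
    | succ i ih =>
      refine ih.trans ?_
      have h2 := eigen_conj_le h w hw ζ (ζ ^ i * μ) hrel
      rwa [← mul_assoc, ← pow_succ'] at h2
  have hinj : Set.InjOn (fun i : ℕ => ζ ^ i * μ) (Finset.range r) := by
    intro i hi j hj hij
    have h3 : ζ ^ i = ζ ^ j := mul_right_cancel₀ hμ hij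
    exact hζ.pow_inj (Finset.mem_range.1 hi) (Finset.mem_range.1 hj) h3
  have h2 := sum_finrank_eigen_inf_le h ⊤ ((Finset.range r).image (fun i => ζ ^ i * μ))
  rw [Finset.sum_image hinj, finrank_top] at h2
  calc r * finrank F ↥(h.eigenspace μ)
      = ∑ _i ∈ Finset.range r, finrank F ↥(h.eigenspace μ) := by
        rw [Finset.sum_const, Finset.card_range, smul_eq_mul]
    _ ≤ ∑ i ∈ Finset.range r, finrank F ↥(h.eigenspace (ζ ^ i * μ) ⊓ ⊤) :=
        Finset.sum_le_sum (fun i _ => by rw [inf_top_eq]; exact h1 i)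
    _ ≤ finrank F V := h2

omit [FiniteDimensional F V] in
/-- On the intersection of a `G`-eigenspace with its image under `x`, the map `d = G⁻¹ x G x⁻¹`
is the identity. -/
theorem inter_conj_le_fixed (G x d : Module.End F V) (hG : Function.Injective G)
    (E : Submodule F V) (γ : F) (hE : ∀ u ∈ E, G u = γ • u) (hrel : G * d * x = x * G) :
    E ⊓ E.map x ≤ d.eigenspace 1 := by
  rintro v ⟨hv, u, hu, rfl⟩
  rw [Module.End.mem_eigenspace_iff, one_smul]
  apply hG
  have h1 := LinearMap.congr_fun hrel u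
  simp only [Module.End.mul_apply] at h1
  rw [h1, hE u hu, map_smul, hE _ hv]

theorem two_conj_bound (x : Module.End F V) (hx : Function.Injective x) (E : Submodule F V) :
    2 * finrank F ↥E ≤ finrank F V + finrank F ↥(E ⊓ E.map x) := by
  have h1 := Submodule.finrank_sup_add_finrank_inf_eq E (E.map x)
  have h2 : finrank F ↥(E.map x) = finrank F ↥E :=
    ((Submodule.equivMapOfInjective x hx E).finrank_eq).symm
  have h3 : finrank F ↥(E ⊔ E.map x) ≤ finrank F V := Submodule.finrank_le _
  omega

omit [FiniteDimensional F V] in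
/-- Two maps commuting up to a non-trivial scalar have no common fixed vector. -/
theorem fixed_inf_fixed_eq_bot (d₁ d₂ : Module.End F V) (κ : F) (hκ : κ ≠ 1)
    (hrel : d₁ * d₂ = κ • (d₂ * d₁)) : d₁.eigenspace 1 ⊓ d₂.eigenspace 1 = ⊥ := by
  rw [eq_bot_iff]
  rintro v ⟨h1, h2⟩
  rw [SetLike.mem_coe, Module.End.mem_eigenspace_iff, one_smul] at h1 h2
  have h3 := LinearMap.congr_fun hrel v
  simp only [Module.End.mul_apply, LinearMap.smul_apply] at h3
  rw [h2, h1, h2] at h3
  have h4 : (1 - κ) • v = 0 := by rw [sub_smul, one_smul, ← h3, sub_self]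
  rcases smul_eq_zero.mp h4 with h5 | h5
  · exact absurd (sub_eq_zero.mp h5).symm hκ
  · exact h5

/-- Decomposition of an invariant subspace along the eigenspaces of a map of finite order. -/
theorem finrank_le_sum_eigen_inf (w : Module.End F V) {r : ℕ} (hr : 1 < r) (η : F)
    (hη : IsPrimitiveRoot η r) (hw : w ^ r = 1) (U : Submodule F V) (hU : ∀ v ∈ U, w v ∈ U) :
    finrank F ↥U ≤ ∑ t ∈ Finset.range r, finrank F ↥(U ⊓ w.eigenspace (η ^ t)) := by
  classical
  have hle : U ≤ ⨆ t ∈ Finset.range r, U ⊓ w.eigenspace (η ^ t) := by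
    intro v hv
    have hr0 : (r : F) ≠ 0 := by
      have : NeZero r := ⟨by omega⟩
      exact (hη.neZero').ne
    have hη0 : η ≠ 0 := hη.ne_zero (by omega)
    obtain ⟨θ, hθ⟩ : ∃ θ : F, θ = η⁻¹ := ⟨_, rfl⟩
    have hθr : θ ^ r = 1 := by rw [hθ, inv_pow, hη.pow_eq_one, inv_one]
    have hθη : ∀ t : ℕ, η ^ t * θ ^ t = 1 := by
      intro t
      rw [hθ, ← mul_pow, mul_inv_cancel₀ hη0, one_pow]
    have hθ0 : θ ≠ 0 := by rw [hθ]; exact inv_ne_zero hη0
    have hwj : ∀ j : ℕ, (w ^ j) v ∈ U := by
      intro j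
      induction j with
      | zero => simpa using hv
      | succ j ih =>
        rw [pow_succ', Module.End.mul_apply]
        exact hU _ ih
    obtain ⟨S, hS⟩ : ∃ S : ℕ → V,
        ∀ t, S t = ∑ j ∈ Finset.range r, (θ ^ t) ^ j • (w ^ j) v := ⟨_, fun _ => rfl⟩
    have hS_mem : ∀ t, S t ∈ U := by
      intro t
      rw [hS]
      exact Submodule.sum_mem _ (fun j _ => Submodule.smul_mem _ _ (hwj j))
    have hS_eig : ∀ t, w (S t) = η ^ t • S t := by
      intro t
      have ha : (θ ^ t) ^ r = 1 := by rw [← pow_mul, mul_comm, pow_mul, hθr, one_pow]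
      obtain ⟨f, hf⟩ : ∃ f : ℕ → V, ∀ j, f j = (θ ^ t) ^ j • (w ^ j) v := ⟨_, fun _ => rfl⟩
      have h1 : ∀ j, w (f j) = η ^ t • f (j + 1) := by
        intro j
        rw [hf, hf, map_smul, smul_smul, pow_succ (θ ^ t) j, ← mul_assoc, mul_comm (η ^ t),
          mul_assoc, hθη t, mul_one, pow_succ' w j, Module.End.mul_apply]
      have h2 : f r = f 0 := by
        rw [hf, hf, ha, hw, pow_zero, pow_zero]
      have h3 : ∑ j ∈ Finset.range r, f (j + 1) = ∑ j ∈ Finset.range r, f j := by
        have e1 := Finset.sum_range_succ' f r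
        have e2 := Finset.sum_range_succ f r
        rw [e2, h2] at e1
        exact (add_right_cancel e1).symm
      have h4 : S t = ∑ j ∈ Finset.range r, f j := by
        rw [hS]
        exact Finset.sum_congr rfl (fun j _ => (hf j).symm)
      rw [h4, map_sum, Finset.sum_congr rfl (fun j _ => h1 j), ← Finset.smul_sum, h3]
    have hsum : ∑ t ∈ Finset.range r, S t = (r : F) • v := by
      have h2 : ∀ j ∈ Finset.range r, ∑ t ∈ Finset.range r, (θ ^ t) ^ j • (w ^ j) v =
          if j = 0 then (r : F) • v else 0 := by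
        intro j hj
        rw [← Finset.sum_smul]
        by_cases hj0 : j = 0
        · subst hj0
          simp
        · rw [if_neg hj0]
          have hx : θ ^ j ≠ 1 := by
            intro hx
            have h5 : η ^ j = 1 := by
              have h6 := hθη j
              rw [hx, mul_one] at h6
              exact h6
            have h7 := (hη.pow_eq_one_iff_dvd j).1 h5
            exact hj0 (Nat.eq_zero_of_dvd_of_lt h7 (Finset.mem_range.1 hj))
          have hgeom : ∑ t ∈ Finset.range r, (θ ^ t) ^ j = 0 := by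
            have e : ∀ t : ℕ, (θ ^ t) ^ j = (θ ^ j) ^ t := fun t => by
              rw [← pow_mul, ← pow_mul, mul_comm]
            rw [Finset.sum_congr rfl (fun t _ => e t)]
            have h3 := geom_sum_mul (θ ^ j) r
            rw [← pow_mul, mul_comm j r, pow_mul, hθr, one_pow, sub_self] at h3
            exact (mul_eq_zero.mp h3).resolve_right (sub_ne_zero.mpr hx)
          rw [hgeom, zero_smul]
      rw [Finset.sum_congr rfl (fun t _ => hS t), Finset.sum_comm, Finset.sum_congr rfl h2,
        Finset.sum_ite_eq' (Finset.range r) 0 (fun _ => (r : F) • v),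
        if_pos (Finset.mem_range.2 (by omega))]
    have hv_eq : v = ∑ t ∈ Finset.range r, (r : F)⁻¹ • S t := by
      rw [← Finset.smul_sum, hsum, smul_smul, inv_mul_cancel₀ hr0, one_smul]
    rw [hv_eq]
    apply Submodule.sum_mem
    intro t ht
    apply Submodule.mem_iSup_of_mem t
    apply Submodule.mem_iSup_of_mem ht
    refine ⟨Submodule.smul_mem _ _ (hS_mem t), ?_⟩
    rw [SetLike.mem_coe, Module.End.mem_eigenspace_iff, map_smul, hS_eig t, smul_comm]
  exact (Submodule.finrank_mono hle).trans (finrank_biSup_le _ _)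

/-- One step of the shift: `u⁻¹` carries a joint eigenspace of `(g, w)` into another one. -/
theorem shift_step (g w u u' : Module.End F V) (hu1 : u * u' = 1) (hu2 : u' * u = 1)
    (hR1 : u * g = g * w * u) (ζ' : F) (hR2 : u * w = ζ' • (w * u)) (c' μ : F) :
    finrank F ↥(g.eigenspace c' ⊓ w.eigenspace μ) ≤
      finrank F ↥(g.eigenspace (c' * μ) ⊓ w.eigenspace (ζ' * μ)) := by
  have hu'inj : Function.Injective u' := by
    intro a b hab
    have h1 := LinearMap.congr_fun hu1 a
    have h2 := LinearMap.congr_fun hu1 b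
    simp only [Module.End.mul_apply, Module.End.one_apply] at h1 h2
    rw [← h1, ← h2, hab]
  have huinj : Function.Injective u := by
    intro a b hab
    have h1 := LinearMap.congr_fun hu2 a
    have h2 := LinearMap.congr_fun hu2 b
    simp only [Module.End.mul_apply, Module.End.one_apply] at h1 h2
    rw [← h1, ← h2, hab]
  apply finrank_le_of_map_le u' hu'inj
  rintro _ ⟨v, ⟨hv1, hv2⟩, rfl⟩
  rw [SetLike.mem_coe, Module.End.mem_eigenspace_iff] at hv1 hv2
  have huv : u (u' v) = v := by
    have h1 := LinearMap.congr_fun hu1 v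
    simpa only [Module.End.mul_apply, Module.End.one_apply] using h1
  have hw' : w (u' v) = (ζ' * μ) • u' v := by
    apply huinj
    have h1 := LinearMap.congr_fun hR2 (u' v)
    simp only [Module.End.mul_apply, LinearMap.smul_apply] at h1
    rw [h1, huv, hv2, map_smul, huv, smul_smul]
  refine ⟨?_, ?_⟩
  · rw [SetLike.mem_coe, Module.End.mem_eigenspace_iff]
    apply huinj
    have h1 := LinearMap.congr_fun hR1 (u' v)
    simp only [Module.End.mul_apply] at h1
    rw [h1, huv, hv2, map_smul, hv1, map_smul, huv, smul_smul, mul_comm]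
  · rw [SetLike.mem_coe, Module.End.mem_eigenspace_iff]
    exact hw'

omit [FiniteDimensional F V] in
/-- Exponent comparison for a primitive root. -/
theorem prim_pow_eq_modEq {r : ℕ} {η : F} (hη : IsPrimitiveRoot η r) (hη0 : η ≠ 0) {x y : ℕ}
    (h : η ^ x = η ^ y) : x ≡ y [MOD r] := by
  wlog hxy : x ≤ y generalizing x y
  · exact (this h.symm (by omega)).symm
  obtain ⟨k, rfl⟩ := Nat.exists_eq_add_of_le hxy
  rw [pow_add] at h
  have h1 : η ^ k = 1 := by
    have h0 : η ^ x * 1 = η ^ x * η ^ k := by rw [mul_one]; exact h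
    exact (mul_left_cancel₀ (pow_ne_zero x hη0) h0).symm
  have h2 := (hη.pow_eq_one_iff_dvd k).1 h1
  exact (Nat.modEq_iff_dvd' (by omega)).2 (by rwa [Nat.add_sub_cancel_left])

/-- Triangular numbers. -/
def tri : ℕ → ℕ
  | 0 => 0
  | (t + 1) => tri t + (t + 1)

theorem two_mul_tri (t : ℕ) : 2 * tri t = t * (t + 1) := by
  induction t with
  | zero => rfl
  | succ t ih =>
    show 2 * (tri t + (t + 1)) = (t + 1) * (t + 1 + 1)
    rw [mul_add, ih]
    ring

theorem tri_fiber {r : ℕ} (hr : r.Prime) {a b : ℕ} (ha : a < r) (hb : b < r)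
    (h : tri a ≡ tri b [MOD r]) : a = b ∨ a + b + 1 = r := by
  have h1 : 2 * tri a ≡ 2 * tri b [MOD r] := Nat.ModEq.mul_left 2 h
  rw [two_mul_tri, two_mul_tri] at h1
  have h2 : (r : ℤ) ∣ ((b : ℤ) - a) * ((a : ℤ) + b + 1) := by
    have h3 := (Nat.modEq_iff_dvd.1 h1)
    have e : ((b : ℤ) - a) * ((a : ℤ) + b + 1) = ((b * (b + 1) : ℕ) : ℤ) - ((a * (a + 1) : ℕ) : ℤ) := by
      push_cast
      ring
    rw [e]
    exact h3
  have hp : Prime (r : ℤ) := Nat.prime_iff_prime_int.1 hr
  rcases hp.dvd_or_dvd h2 with h3 | h3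
  · left
    have h4 : ((b : ℤ) - a) = 0 := by
      apply Int.eq_zero_of_abs_lt_dvd h3
      rw [abs_lt]
      constructor <;> omega
    omega
  · right
    obtain ⟨k, hk⟩ := h3
    have hk1 : 0 < k := by
      by_contra hk0
      have : (r : ℤ) * k ≤ 0 := mul_nonpos_of_nonneg_of_nonpos (by positivity) (by omega)
      omega
    have hk2 : k < 2 := by
      by_contra hk0
      have : (r : ℤ) * 2 ≤ r * k := mul_le_mul_of_nonneg_left (by omega) (by positivity)
      omega
    have hk3 : k = 1 := by omega
    rw [hk3, mul_one] at hk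
    omega

/-- The "anisotropic" configuration: `g` commutes with `w`, `g⁻¹ u g = w u` and `u` moves the
eigenspaces of `w`: every eigenspace of `g` has dimension at most twice that of the fixed space
of `w`. -/
theorem c3_bound (g w u u' : Module.End F V) (hg : Function.Injective g) (hu1 : u * u' = 1)
    (hu2 : u' * u = 1) (hgw : g * w = w * g) (hR1 : u * g = g * w * u) {r : ℕ} (hr : r.Prime)
    (η : F) (hη : IsPrimitiveRoot η r) (hR2 : u * w = η⁻¹ • (w * u)) (hw : w ^ r = 1) (c : F) :
    finrank F ↥(g.eigenspace c) ≤ 2 * finrank F ↥(w.eigenspace 1) := by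
  classical
  by_cases hc : c = 0
  · subst hc
    have h0 : g.eigenspace 0 = ⊥ := by
      rw [Module.End.eigenspace_zero]
      exact LinearMap.ker_eq_bot.2 hg
    rw [h0, finrank_bot]
    exact Nat.zero_le _
  have hη0 : η ≠ 0 := hη.ne_zero hr.ne_zero
  have hstep : ∀ (t : ℕ) (c' : F), finrank F ↥(g.eigenspace c' ⊓ w.eigenspace (η ^ t)) ≤
      finrank F ↥(g.eigenspace (c' * η ^ tri t) ⊓ w.eigenspace 1) := by
    intro t
    induction t with
    | zero =>
      intro c'
      show finrank F ↥(g.eigenspace c' ⊓ w.eigenspace (η ^ 0)) ≤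
        finrank F ↥(g.eigenspace (c' * η ^ 0) ⊓ w.eigenspace 1)
      rw [pow_zero, mul_one]
    | succ t ih =>
      intro c'
      have h1 := shift_step g w u u' hu1 hu2 hR1 η⁻¹ hR2 c' (η ^ (t + 1))
      have e1 : η⁻¹ * η ^ (t + 1) = η ^ t := by
        rw [pow_succ, mul_comm (η ^ t), ← mul_assoc, inv_mul_cancel₀ hη0, one_mul]
      rw [e1] at h1
      refine h1.trans ?_
      have h2 := ih (c' * η ^ (t + 1))
      have e2 : c' * η ^ (t + 1) * η ^ tri t = c' * η ^ tri (t + 1) := by
        show c' * η ^ (t + 1) * η ^ tri t = c' * η ^ (tri t + (t + 1))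
        rw [mul_assoc, ← pow_add, add_comm]
      rwa [e2] at h2
  have hUinv : ∀ v ∈ g.eigenspace c, w v ∈ g.eigenspace c := by
    intro v hv
    rw [Module.End.mem_eigenspace_iff] at hv ⊢
    have h1 := LinearMap.congr_fun hgw v
    simp only [Module.End.mul_apply] at h1
    rw [h1, hv, map_smul]
  have h1 := finrank_le_sum_eigen_inf w hr.one_lt η hη hw (g.eigenspace c) hUinv
  refine h1.trans ?_
  obtain ⟨φ, hφ⟩ : ∃ φ : ℕ → F, ∀ t, φ t = c * η ^ tri t := ⟨_, fun _ => rfl⟩
  obtain ⟨f, hf⟩ : ∃ f : F → ℕ,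
      ∀ b, f b = finrank F ↥(g.eigenspace b ⊓ w.eigenspace 1) := ⟨_, fun _ => rfl⟩
  have h2 : ∑ t ∈ Finset.range r, finrank F ↥(g.eigenspace c ⊓ w.eigenspace (η ^ t)) ≤
      ∑ t ∈ Finset.range r, f (φ t) :=
    Finset.sum_le_sum (fun t _ => by rw [hf, hφ]; exact hstep t c)
  refine h2.trans ?_
  rw [Finset.sum_comp f φ]
  have h3 : ∀ b ∈ (Finset.range r).image φ,
      (Finset.filter (fun a => φ a = b) (Finset.range r)).card • f b ≤ 2 * f b := by
    intro b hb
    obtain ⟨t₀, ht₀, rfl⟩ := Finset.mem_image.1 hb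
    have hsub : Finset.filter (fun a => φ a = φ t₀) (Finset.range r) ⊆ {t₀, r - 1 - t₀} := by
      intro a ha
      rw [Finset.mem_filter, Finset.mem_range] at ha
      obtain ⟨ha1, ha2⟩ := ha
      rw [hφ, hφ] at ha2
      have h4 : η ^ tri a = η ^ tri t₀ := mul_left_cancel₀ hc ha2
      rcases tri_fiber hr ha1 (Finset.mem_range.1 ht₀) (prim_pow_eq_modEq hη hη0 h4) with h5 | h5
      · rw [h5]
        simp
      · have h6 : a = r - 1 - t₀ := by omega
        rw [h6]
        simp
    have hcard : (Finset.filter (fun a => φ a = φ t₀) (Finset.range r)).card ≤ 2 :=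
      (Finset.card_le_card hsub).trans Finset.card_le_two
    rw [smul_eq_mul]
    exact Nat.mul_le_mul_right _ hcard
  refine (Finset.sum_le_sum h3).trans ?_
  rw [← Finset.mul_sum]
  apply Nat.mul_le_mul_left
  have h4 := sum_finrank_eigen_inf_le g (w.eigenspace 1) ((Finset.range r).image φ)
  simpa only [hf] using h4

/-- The "isotropic" configuration: `g` commutes with `w`, `g⁻¹ u g = w u` and `u` commutes with
`w`. -/
theorem c2_bound (g w u u' : Module.End F V) (hg : Function.Injective g) (hu1 : u * u' = 1)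
    (hu2 : u' * u = 1) (hgw : g * w = w * g) (hR1 : u * g = g * w * u) (hR2 : u * w = w * u)
    {r : ℕ} (hr : r.Prime) (η : F) (hη : IsPrimitiveRoot η r) (hw : w ^ r = 1) (c : F) :
    r * finrank F ↥(g.eigenspace c) ≤
      (r - 1) * finrank F ↥(w.eigenspace 1) + finrank F V := by
  classical
  by_cases hc : c = 0
  · subst hc
    have h0 : g.eigenspace 0 = ⊥ := by
      rw [Module.End.eigenspace_zero]
      exact LinearMap.ker_eq_bot.2 hg
    rw [h0, finrank_bot, mul_zero]
    exact Nat.zero_le _
  have hR2' : u * w = (1 : F) • (w * u) := by rw [one_smul]; exact hR2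
  have hiter : ∀ (μ : F) (i : ℕ), finrank F ↥(g.eigenspace c ⊓ w.eigenspace μ) ≤
      finrank F ↥(g.eigenspace (c * μ ^ i) ⊓ w.eigenspace μ) := by
    intro μ i
    induction i with
    | zero => rw [pow_zero, mul_one]
    | succ i ih =>
      refine ih.trans ?_
      have h1 := shift_step g w u u' hu1 hu2 hR1 1 hR2' (c * μ ^ i) μ
      rwa [one_mul, mul_assoc, ← pow_succ] at h1
  have hne : ∀ t, t ∈ Finset.range r → t ≠ 0 →
      r * finrank F ↥(g.eigenspace c ⊓ w.eigenspace (η ^ t)) ≤
        finrank F ↥(w.eigenspace (η ^ t)) := by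
    intro t ht ht0
    have hprim : IsPrimitiveRoot (η ^ t) r := hη.pow_of_coprime t (by
      have h5 : ¬ r ∣ t := fun hd => ht0 (Nat.eq_zero_of_dvd_of_lt hd (Finset.mem_range.1 ht))
      exact ((Nat.Prime.coprime_iff_not_dvd hr).2 h5).symm)
    have hinj : Set.InjOn (fun i : ℕ => c * (η ^ t) ^ i) (Finset.range r) := by
      intro i hi j hj hij
      exact hprim.pow_inj (Finset.mem_range.1 hi) (Finset.mem_range.1 hj) (mul_left_cancel₀ hc hij)
    have h2 := sum_finrank_eigen_inf_le g (w.eigenspace (η ^ t))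
      ((Finset.range r).image (fun i => c * (η ^ t) ^ i))
    rw [Finset.sum_image hinj] at h2
    calc r * finrank F ↥(g.eigenspace c ⊓ w.eigenspace (η ^ t))
        = ∑ _i ∈ Finset.range r, finrank F ↥(g.eigenspace c ⊓ w.eigenspace (η ^ t)) := by
          rw [Finset.sum_const, Finset.card_range, smul_eq_mul]
      _ ≤ ∑ i ∈ Finset.range r,
            finrank F ↥(g.eigenspace (c * (η ^ t) ^ i) ⊓ w.eigenspace (η ^ t)) :=
          Finset.sum_le_sum (fun i _ => hiter (η ^ t) i)
      _ ≤ finrank F ↥(w.eigenspace (η ^ t)) := h2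
  have hUinv : ∀ v ∈ g.eigenspace c, w v ∈ g.eigenspace c := by
    intro v hv
    rw [Module.End.mem_eigenspace_iff] at hv ⊢
    have h1 := LinearMap.congr_fun hgw v
    simp only [Module.End.mul_apply] at h1
    rw [h1, hv, map_smul]
  have h1 := finrank_le_sum_eigen_inf w hr.one_lt η hη hw (g.eigenspace c) hUinv
  have hd : ∑ t ∈ Finset.range r, finrank F ↥(w.eigenspace (η ^ t)) ≤ finrank F V := by
    have hinj : Set.InjOn (fun t : ℕ => η ^ t) (Finset.range r) := fun i hi j hj hij =>
      hη.pow_inj (Finset.mem_range.1 hi) (Finset.mem_range.1 hj) hij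
    have h2 := sum_finrank_eigen_inf_le w ⊤ ((Finset.range r).image (fun t => η ^ t))
    rw [Finset.sum_image hinj, finrank_top] at h2
    exact le_trans (le_of_eq (Finset.sum_congr rfl (fun t _ => by rw [inf_top_eq]))) h2
  calc r * finrank F ↥(g.eigenspace c)
      ≤ r * ∑ t ∈ Finset.range r, finrank F ↥(g.eigenspace c ⊓ w.eigenspace (η ^ t)) :=
        Nat.mul_le_mul_left _ h1
    _ = ∑ t ∈ Finset.range r, r * finrank F ↥(g.eigenspace c ⊓ w.eigenspace (η ^ t)) :=
        Finset.mul_sum _ _ _
    _ ≤ ∑ t ∈ Finset.range r, (finrank F ↥(w.eigenspace (η ^ t)) +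
          if t = 0 then (r - 1) * finrank F ↥(w.eigenspace 1) else 0) := by
        apply Finset.sum_le_sum
        intro t ht
        by_cases ht0 : t = 0
        · subst ht0
          rw [if_pos rfl, pow_zero]
          have h5 : finrank F ↥(g.eigenspace c ⊓ w.eigenspace 1) ≤ finrank F ↥(w.eigenspace 1) :=
            Submodule.finrank_mono inf_le_right
          have hr1 : 1 ≤ r := hr.one_lt.le
          calc r * finrank F ↥(g.eigenspace c ⊓ w.eigenspace 1)
              ≤ r * finrank F ↥(w.eigenspace 1) := Nat.mul_le_mul_left _ h5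
            _ = finrank F ↥(w.eigenspace 1) + (r - 1) * finrank F ↥(w.eigenspace 1) := by
                obtain ⟨k, rfl⟩ : ∃ k, r = k + 1 := ⟨r - 1, by omega⟩
                rw [Nat.add_sub_cancel]
                ring
        · rw [if_neg ht0, add_zero]
          exact hne t ht ht0
    _ = ∑ t ∈ Finset.range r, finrank F ↥(w.eigenspace (η ^ t)) +
          (r - 1) * finrank F ↥(w.eigenspace 1) := by
        rw [Finset.sum_add_distrib, Finset.sum_ite_eq' (Finset.range r) 0
          (fun _ => (r - 1) * finrank F ↥(w.eigenspace 1)), if_pos (Finset.mem_range.2 hr.pos)]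
    _ ≤ finrank F V + (r - 1) * finrank F ↥(w.eigenspace 1) := Nat.add_le_add_right hd _
    _ = (r - 1) * finrank F ↥(w.eigenspace 1) + finrank F V := add_comm _ _

/-- If `w` has order dividing `r` and is conjugate to `η w` for a primitive `r`-th root `η`, then
`r` divides the dimension. -/
theorem dvd_finrank_of_conj (w x : Module.End F V) (hx : Function.Injective x) {r : ℕ}
    (hr : 1 < r) (η : F) (hη : IsPrimitiveRoot η r) (hw : w ^ r = 1)
    (hrel : w * x = η • (x * w)) : r ∣ finrank F V := by
  have hup : ∀ (μ : F) (i : ℕ), finrank F ↥(w.eigenspace μ) ≤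
      finrank F ↥(w.eigenspace (η ^ i * μ)) := by
    intro μ i
    induction i with
    | zero => rw [pow_zero, one_mul]
    | succ i ih =>
      refine ih.trans ?_
      have h2 := eigen_conj_le w x hx η (η ^ i * μ) hrel
      rwa [← mul_assoc, ← pow_succ'] at h2
  have heq : ∀ t, t ≤ r → finrank F ↥(w.eigenspace (η ^ t)) = finrank F ↥(w.eigenspace 1) := by
    intro t ht
    apply le_antisymm
    · have h1 := hup (η ^ t) (r - t)
      rwa [← pow_add, Nat.sub_add_cancel ht, hη.pow_eq_one] at h1
    · have h1 := hup 1 t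
      rwa [mul_one] at h1
  have h1 := finrank_le_sum_eigen_inf w hr η hη hw ⊤ (fun v _ => Submodule.mem_top)
  rw [finrank_top] at h1
  have h2 : ∑ t ∈ Finset.range r, finrank F ↥(⊤ ⊓ w.eigenspace (η ^ t)) =
      r * finrank F ↥(w.eigenspace 1) := by
    rw [Finset.sum_congr rfl (fun t ht => by
      rw [top_inf_eq, heq t (Finset.mem_range.1 ht).le]), Finset.sum_const, Finset.card_range,
      smul_eq_mul]
  have h3 := eigen_conj_bound w x hx η hη 1 one_ne_zero hrel
  rw [h2] at h1
  exact ⟨finrank F ↥(w.eigenspace 1), le_antisymm h1 h3⟩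

end ExtraLA

end Cfsg.Agent.H42
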