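import Mathlib
import Cfsg.Prelude.Def_GeometricClasses
import Cfsg.Agent.H42.ExtraLA

set_option autoImplicit false

/-! Group-theoretic facts on absolutely irreducible extraspecial-type matrix groups and elements
normalising them modulo scalars (helper42). -/

namespace Cfsg.Agent.H42

open Module

open scoped commutatorElement

section SCRel

variable {F : Type*} [Field F] {n : ℕ}

/-- Scalar-commutation of two invertible matrices: `a b = κ b a`. -/
def SC (κ : F) (a b : Matrix.GeneralLinearGroup (Fin n) F) : Prop :=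
  (a : Matrix (Fin n) (Fin n) F) * (b : Matrix (Fin n) (Fin n) F) =
    κ • ((b : Matrix (Fin n) (Fin n) F) * (a : Matrix (Fin n) (Fin n) F))

theorem SC.mul_left {κ₁ κ₂ : F} {a b d : Matrix.GeneralLinearGroup (Fin n) F} (h1 : SC κ₁ a d)
    (h2 : SC κ₂ b d) : SC (κ₁ * κ₂) (a * b) d := by
  unfold SC at *
  rw [Units.val_mul, mul_assoc, h2, Matrix.mul_smul, ← mul_assoc, h1, Matrix.smul_mul, smul_smul,
    mul_assoc, mul_comm κ₂ κ₁]

theorem SC.mul_right {κ₁ κ₂ : F} {a b d : Matrix.GeneralLinearGroup (Fin n) F} (h1 : SC κ₁ a b)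
    (h2 : SC κ₂ a d) : SC (κ₁ * κ₂) a (b * d) := by
  unfold SC at *
  rw [Units.val_mul, ← mul_assoc, h1, Matrix.smul_mul, mul_assoc, h2, Matrix.mul_smul, smul_smul,
    mul_assoc]

theorem SC.symm {κ : F} {a b : Matrix.GeneralLinearGroup (Fin n) F} (h : SC κ a b) (hκ : κ ≠ 0) :
    SC κ⁻¹ b a := by
  unfold SC at *
  rw [h, smul_smul, inv_mul_cancel₀ hκ, one_smul]

theorem SC.refl (a : Matrix.GeneralLinearGroup (Fin n) F) : SC 1 a a := by
  unfold SC
  rw [one_smul]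

theorem SC.inv_left {κ : F} {a b : Matrix.GeneralLinearGroup (Fin n) F} (h : SC κ a b)
    (hκ : κ ≠ 0) : SC κ⁻¹ a⁻¹ b := by
  unfold SC at *
  have h1 : ((a⁻¹ : Matrix.GeneralLinearGroup (Fin n) F) : Matrix (Fin n) (Fin n) F) *
      (a : Matrix (Fin n) (Fin n) F) = 1 := by
    rw [← Units.val_mul, inv_mul_cancel, Units.val_one]
  have h2 : (a : Matrix (Fin n) (Fin n) F) *
      ((a⁻¹ : Matrix.GeneralLinearGroup (Fin n) F) : Matrix (Fin n) (Fin n) F) = 1 := by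
    rw [← Units.val_mul, mul_inv_cancel, Units.val_one]
  have h3 : (b : Matrix (Fin n) (Fin n) F) * (a : Matrix (Fin n) (Fin n) F) =
      κ⁻¹ • ((a : Matrix (Fin n) (Fin n) F) * (b : Matrix (Fin n) (Fin n) F)) := by
    rw [h, smul_smul, inv_mul_cancel₀ hκ, one_smul]
  calc ((a⁻¹ : Matrix.GeneralLinearGroup (Fin n) F) : Matrix (Fin n) (Fin n) F) *
        (b : Matrix (Fin n) (Fin n) F)
      = ((a⁻¹ : Matrix.GeneralLinearGroup (Fin n) F) : Matrix (Fin n) (Fin n) F) *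
        ((b : Matrix (Fin n) (Fin n) F) * (a : Matrix (Fin n) (Fin n) F)) *
        ((a⁻¹ : Matrix.GeneralLinearGroup (Fin n) F) : Matrix (Fin n) (Fin n) F) := by
        rw [mul_assoc, mul_assoc, h2, mul_one]
    _ = κ⁻¹ • ((b : Matrix (Fin n) (Fin n) F) *
        ((a⁻¹ : Matrix.GeneralLinearGroup (Fin n) F) : Matrix (Fin n) (Fin n) F)) := by
        rw [h3, Matrix.mul_smul, Matrix.smul_mul, ← mul_assoc, h1, one_mul]

theorem SC.inv_right {κ : F} {a b : Matrix.GeneralLinearGroup (Fin n) F} (h : SC κ a b)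
    (hκ : κ ≠ 0) : SC κ⁻¹ a b⁻¹ := by
  have h1 := ((h.symm hκ).inv_left (inv_ne_zero hκ)).symm (inv_ne_zero (inv_ne_zero hκ))
  rwa [inv_inv] at h1

theorem SC.conj {κ : F} {a b : Matrix.GeneralLinearGroup (Fin n) F} (h : SC κ a b)
    (k : Matrix.GeneralLinearGroup (Fin n) F) : SC κ (k * a * k⁻¹) (k * b * k⁻¹) := by
  unfold SC at *
  have h1 : ((k⁻¹ : Matrix.GeneralLinearGroup (Fin n) F) : Matrix (Fin n) (Fin n) F) *
      (k : Matrix (Fin n) (Fin n) F) = 1 := by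
    rw [← Units.val_mul, inv_mul_cancel, Units.val_one]
  have e : ∀ A B : Matrix (Fin n) (Fin n) F,
      (k : Matrix (Fin n) (Fin n) F) * A *
        ((k⁻¹ : Matrix.GeneralLinearGroup (Fin n) F) : Matrix (Fin n) (Fin n) F) *
      ((k : Matrix (Fin n) (Fin n) F) * B *
        ((k⁻¹ : Matrix.GeneralLinearGroup (Fin n) F) : Matrix (Fin n) (Fin n) F)) =
      (k : Matrix (Fin n) (Fin n) F) * (A * B) *
        ((k⁻¹ : Matrix.GeneralLinearGroup (Fin n) F) : Matrix (Fin n) (Fin n) F) := by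
    intro A B
    calc (k : Matrix (Fin n) (Fin n) F) * A *
          ((k⁻¹ : Matrix.GeneralLinearGroup (Fin n) F) : Matrix (Fin n) (Fin n) F) *
          ((k : Matrix (Fin n) (Fin n) F) * B *
          ((k⁻¹ : Matrix.GeneralLinearGroup (Fin n) F) : Matrix (Fin n) (Fin n) F))
        = (k : Matrix (Fin n) (Fin n) F) * A *
          (((k⁻¹ : Matrix.GeneralLinearGroup (Fin n) F) : Matrix (Fin n) (Fin n) F) *
          (k : Matrix (Fin n) (Fin n) F)) * B *
          ((k⁻¹ : Matrix.GeneralLinearGroup (Fin n) F) : Matrix (Fin n) (Fin n) F) := by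
          simp only [mul_assoc]
      _ = _ := by rw [h1, mul_one]; simp only [mul_assoc]
  rw [Units.val_mul, Units.val_mul, Units.val_mul, Units.val_mul, e, e, h, Matrix.mul_smul,
    Matrix.smul_mul]

theorem SC.unique (hn : 0 < n) {κ κ' : F} {a b : Matrix.GeneralLinearGroup (Fin n) F}
    (h : SC κ a b) (h' : SC κ' a b) : κ = κ' := by
  unfold SC at *
  have h1 : κ • ((b : Matrix (Fin n) (Fin n) F) * (a : Matrix (Fin n) (Fin n) F)) =
      κ' • ((b : Matrix (Fin n) (Fin n) F) * (a : Matrix (Fin n) (Fin n) F)) := by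
    rw [← h, ← h']
  have h2 : ((b : Matrix (Fin n) (Fin n) F) * (a : Matrix (Fin n) (Fin n) F)) *
      (((b * a)⁻¹ : Matrix.GeneralLinearGroup (Fin n) F) : Matrix (Fin n) (Fin n) F) = 1 := by
    rw [← Units.val_mul, ← Units.val_mul, mul_inv_cancel, Units.val_one]
  have h3 := congrArg (fun M : Matrix (Fin n) (Fin n) F =>
    M * (((b * a)⁻¹ : Matrix.GeneralLinearGroup (Fin n) F) : Matrix (Fin n) (Fin n) F)) h1
  simp only [Matrix.smul_mul, h2] at h3
  have h4 := congrFun (congrFun h3 ⟨0, hn⟩) ⟨0, hn⟩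
  simpa using h4

theorem SC.commute_iff {a b : Matrix.GeneralLinearGroup (Fin n) F} :
    SC 1 a b ↔ a * b = b * a := by
  unfold SC
  rw [one_smul]
  constructor
  · intro h
    apply Units.ext
    rw [Units.val_mul, Units.val_mul]
    exact h
  · intro h
    rw [← Units.val_mul, ← Units.val_mul, h]

theorem SC.pow_left {κ : F} {a d : Matrix.GeneralLinearGroup (Fin n) F} (h : SC κ a d) (k : ℕ) :
    SC (κ ^ k) (a ^ k) d := by
  induction k with
  | zero =>
    rw [pow_zero, pow_zero]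
    exact SC.commute_iff.2 (by rw [one_mul, mul_one])
  | succ k ih =>
    rw [pow_succ, pow_succ]
    exact ih.mul_left h

/-- From a group identity `a b = z (b a)` with `z` the scalar matrix `κ`. -/
theorem SC.of_mul_eq {κ : F} {a b z : Matrix.GeneralLinearGroup (Fin n) F}
    (hz : (z : Matrix (Fin n) (Fin n) F) = κ • (1 : Matrix (Fin n) (Fin n) F))
    (h : a * b = z * (b * a)) : SC κ a b := by
  unfold SC
  have h1 := congrArg (fun u : Matrix.GeneralLinearGroup (Fin n) F =>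
    (u : Matrix (Fin n) (Fin n) F)) h
  simp only [Units.val_mul] at h1
  rw [h1, hz, Matrix.smul_mul, one_mul]

end SCRel

section Setup

variable {F : Type*} [Field F] {n : ℕ}

theorem scalar_comm {s : Matrix.GeneralLinearGroup (Fin n) F}
    (hs : s ∈ Cfsg.Geo.scalars (Fin n) F) (a : Matrix.GeneralLinearGroup (Fin n) F) :
    s * a = a * s := by
  obtain ⟨c, hc⟩ := (Cfsg.Geo.mem_scalars_iff s).1 hs
  apply Units.ext
  rw [Units.val_mul, Units.val_mul, hc, Matrix.smul_mul, Matrix.mul_smul, one_mul, mul_one]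

theorem SC_scalar_left {s : Matrix.GeneralLinearGroup (Fin n) F}
    (hs : s ∈ Cfsg.Geo.scalars (Fin n) F) (a : Matrix.GeneralLinearGroup (Fin n) F) :
    SC 1 s a := SC.commute_iff.2 (scalar_comm hs a)

theorem SC_scalar_right {s : Matrix.GeneralLinearGroup (Fin n) F}
    (hs : s ∈ Cfsg.Geo.scalars (Fin n) F) (a : Matrix.GeneralLinearGroup (Fin n) F) :
    SC 1 a s := SC.commute_iff.2 (scalar_comm hs a).symm

/-- The facts used about an absolutely irreducible group `R` with `R' = Z(R)` of prime order. -/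
structure ExSetup (R : Subgroup (Matrix.GeneralLinearGroup (Fin n) F)) (r : ℕ) : Prop where
  rprime : r.Prime
  npos : 0 < n
  schur : ∀ a : Matrix.GeneralLinearGroup (Fin n) F, (∀ x ∈ R, a * x = x * a) →
    a ∈ Cfsg.Geo.scalars (Fin n) F
  kap : ∀ a ∈ R ⊔ Cfsg.Geo.scalars (Fin n) F, ∀ b ∈ R ⊔ Cfsg.Geo.scalars (Fin n) F,
    ∃ κ : F, κ ^ r = 1 ∧ SC κ a b
  zeta : ∃ ζ : F, IsPrimitiveRoot ζ r ∧ ∃ z₀ ∈ R,
    (z₀ : Matrix (Fin n) (Fin n) F) = ζ • (1 : Matrix (Fin n) (Fin n) F)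

theorem prim_of_ne_one {r : ℕ} (hr : r.Prime) {κ : F} (h1 : κ ≠ 1) (h2 : κ ^ r = 1) :
    IsPrimitiveRoot κ r := by
  have : Fact r.Prime := ⟨hr⟩
  exact IsPrimitiveRoot.iff_orderOf.2 (orderOf_eq_prime h2 h1)

theorem exSetup (R : Subgroup (Matrix.GeneralLinearGroup (Fin n) F)) {r : ℕ} (hr : r.Prime)
    (hZ : Nat.card (Subgroup.center R) = r) (hext : commutator R = Subgroup.center R)
    (hirr : Cfsg.Geo.ActsAbsolutelyIrreducibly (Cfsg.Geo.matrixSet R)) (hn : 0 < n) :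
    ExSetup R r := by
  have hone : (1 : Matrix (Fin n) (Fin n) F) ⟨0, hn⟩ ⟨0, hn⟩ = 1 := Matrix.one_apply_eq _
  have schur : ∀ a : Matrix.GeneralLinearGroup (Fin n) F, (∀ x ∈ R, a * x = x * a) →
      a ∈ Cfsg.Geo.scalars (Fin n) F := by
    intro a ha
    obtain ⟨c, hc⟩ := hirr.2 (a : Matrix (Fin n) (Fin n) F) (by
      rintro s ⟨x, hx, rfl⟩
      have h1 := congrArg (fun u : Matrix.GeneralLinearGroup (Fin n) F =>
        (u : Matrix (Fin n) (Fin n) F)) (ha x hx)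
      simpa only [Units.val_mul] using h1)
    have hc0 : c ≠ 0 := by
      rintro rfl
      rw [zero_smul] at hc
      have h1 : (a : Matrix (Fin n) (Fin n) F) *
          ((a⁻¹ : Matrix.GeneralLinearGroup (Fin n) F) : Matrix (Fin n) (Fin n) F) = 1 := by
        rw [← Units.val_mul, mul_inv_cancel, Units.val_one]
      rw [hc, zero_mul] at h1
      have h2 := congrFun (congrFun h1 ⟨0, hn⟩) ⟨0, hn⟩
      rw [hone] at h2
      simp at h2
    exact (Cfsg.Geo.mem_scalars_iff a).2 ⟨Units.mk0 c hc0, hc⟩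
  have center_scalar : ∀ z' : ↥R, z' ∈ Subgroup.center ↥R → ∃ κ : F, κ ^ r = 1 ∧
      ((z' : Matrix.GeneralLinearGroup (Fin n) F) : Matrix (Fin n) (Fin n) F) =
        κ • (1 : Matrix (Fin n) (Fin n) F) := by
    intro z' hz'
    have h1 : (z' : Matrix.GeneralLinearGroup (Fin n) F) ∈ Cfsg.Geo.scalars (Fin n) F := by
      apply schur
      intro x hx
      have h2 := Subgroup.mem_center_iff.1 hz' ⟨x, hx⟩
      have h3 := congrArg (fun u : ↥R => (u : Matrix.GeneralLinearGroup (Fin n) F)) h2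
      simp only [Subgroup.coe_mul] at h3
      exact h3.symm
    obtain ⟨κ, hκ⟩ := (Cfsg.Geo.mem_scalars_iff _).1 h1
    refine ⟨(κ : F), ?_, hκ⟩
    have h4 : (⟨z', hz'⟩ : ↥(Subgroup.center ↥R)) ^ r = 1 := by
      rw [← hZ]
      exact pow_card_eq_one'
    have h5 : ((z' : Matrix.GeneralLinearGroup (Fin n) F) : Matrix (Fin n) (Fin n) F) ^ r = 1 := by
      have h6 : z' ^ r = 1 := congrArg (fun u : ↥(Subgroup.center ↥R) => (u : ↥R)) h4
      have h7 : (z' : Matrix.GeneralLinearGroup (Fin n) F) ^ r = 1 := by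
        rw [← Subgroup.coe_pow, h6, Subgroup.coe_one]
      rw [← Units.val_pow_eq_pow_val, h7, Units.val_one]
    rw [hκ, smul_pow, one_pow] at h5
    have h7 := congrFun (congrFun h5 ⟨0, hn⟩) ⟨0, hn⟩
    rw [Matrix.smul_apply, hone, smul_eq_mul, mul_one] at h7
    exact h7
  have kapR : ∀ x ∈ R, ∀ y ∈ R, ∃ κ : F, κ ^ r = 1 ∧ SC κ x y := by
    intro x hx y hy
    obtain ⟨x', hx'⟩ : ∃ x' : ↥R, (x' : Matrix.GeneralLinearGroup (Fin n) F) = x := ⟨⟨x, hx⟩, rfl⟩
    obtain ⟨y', hy'⟩ : ∃ y' : ↥R, (y' : Matrix.GeneralLinearGroup (Fin n) F) = y := ⟨⟨y, hy⟩, rfl⟩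
    have hmem : ⁅x', y'⁆ ∈ Subgroup.center ↥R := by
      rw [← hext, commutator_def]
      exact Subgroup.commutator_mem_commutator (Subgroup.mem_top _) (Subgroup.mem_top _)
    obtain ⟨κ, hκ1, hκ2⟩ := center_scalar _ hmem
    refine ⟨κ, hκ1, SC.of_mul_eq hκ2 ?_⟩
    rw [commutatorElement_def, Subgroup.coe_mul, Subgroup.coe_mul, Subgroup.coe_mul,
      Subgroup.coe_inv, Subgroup.coe_inv, hx', hy']
    group
  refine ⟨hr, hn, schur, ?_, ?_⟩
  · intro a ha b hb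
    obtain ⟨x, hx, s, hs, rfl⟩ := Subgroup.mem_sup_of_normal_right.1 ha
    obtain ⟨y, hy, s', hs', rfl⟩ := Subgroup.mem_sup_of_normal_right.1 hb
    obtain ⟨κ, hκ1, hκ2⟩ := kapR x hx y hy
    refine ⟨κ, hκ1, ?_⟩
    have h1 : SC (κ * 1) x (y * s') := hκ2.mul_right (SC_scalar_right hs' x)
    have h2 : SC (κ * 1 * 1) (x * s) (y * s') := h1.mul_left (SC_scalar_left hs _)
    rwa [mul_one, mul_one] at h2
  · have hfin : Finite ↥(Subgroup.center ↥R) :=
      Nat.finite_of_card_ne_zero (by rw [hZ]; exact hr.ne_zero)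
    have hnt : Nontrivial ↥(Subgroup.center ↥R) :=
      Finite.one_lt_card_iff_nontrivial.1 (by rw [hZ]; exact hr.one_lt)
    obtain ⟨z, hz⟩ := exists_ne (1 : ↥(Subgroup.center ↥R))
    obtain ⟨κ, hκ1, hκ2⟩ := center_scalar (z : ↥R) z.2
    have hκne : κ ≠ 1 := by
      rintro rfl
      apply hz
      apply Subtype.ext
      apply Subtype.ext
      apply Units.ext
      rw [hκ2, one_smul]
      rfl
    exact ⟨κ, prim_of_ne_one hr hκne hκ1, ((z : ↥R) : Matrix.GeneralLinearGroup (Fin n) F),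
      (z : ↥R).2, hκ2⟩

end Setup

section L4

variable {F : Type*} [Field F] {n : ℕ}

theorem pow_scalar_conj (R : Subgroup (Matrix.GeneralLinearGroup (Fin n) F))
    (k : Matrix.GeneralLinearGroup (Fin n) F)
    (hk : ∀ x ∈ R, k⁻¹ * x * k * x⁻¹ ∈ Cfsg.Geo.scalars (Fin n) F) (m : ℕ) :
    ∀ x ∈ R, (k ^ m)⁻¹ * x * k ^ m * x⁻¹ ∈ Cfsg.Geo.scalars (Fin n) F := by
  induction m with
  | zero =>
    intro x hx
    have e : (k ^ 0)⁻¹ * x * k ^ 0 * x⁻¹ = 1 := by group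
    rw [e]
    exact one_mem _
  | succ m ih =>
    intro x hx
    have h1 := ih x hx
    have h2 := hk x hx
    have hc := scalar_comm h1 k⁻¹
    have e : (k ^ (m + 1))⁻¹ * x * k ^ (m + 1) * x⁻¹ =
        ((k ^ m)⁻¹ * x * k ^ m * x⁻¹) * (k⁻¹ * x * k * x⁻¹) := by
      calc (k ^ (m + 1))⁻¹ * x * k ^ (m + 1) * x⁻¹
          = k⁻¹ * ((k ^ m)⁻¹ * x * k ^ m * x⁻¹) * (x * k * x⁻¹) := by
            rw [pow_succ]
            group
        _ = ((k ^ m)⁻¹ * x * k ^ m * x⁻¹) * k⁻¹ * (x * k * x⁻¹) := by rw [← hc]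
        _ = _ := by simp only [mul_assoc]
    rw [e]
    exact mul_mem h1 h2

/-- If `g` has odd order prime to `r` and does not centralise `R` modulo scalars, then for some
`x ∈ R` two of the elements `g⁻ʲ x gʲ x⁻¹` do not commute. -/
theorem exists_noncomm {R : Subgroup (Matrix.GeneralLinearGroup (Fin n) F)} {r : ℕ}
    (S : ExSetup R r) (g : Matrix.GeneralLinearGroup (Fin n) F)
    (hg : g ∈ Subgroup.normalizer
      ((R ⊔ Cfsg.Geo.scalars (Fin n) F : Subgroup (Matrix.GeneralLinearGroup (Fin n) F)) :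
        Set (Matrix.GeneralLinearGroup (Fin n) F)))
    {ϖ : ℕ} (hodd : Odd ϖ) (hcop : Nat.Coprime ϖ r) (hgϖ : g ^ ϖ = 1)
    (hB : ∃ x ∈ R, g⁻¹ * x * g * x⁻¹ ∉ Cfsg.Geo.scalars (Fin n) F) :
    ∃ x ∈ R, ∃ j : ℕ, (g ^ (j + 1))⁻¹ * x * g ^ (j + 1) * x⁻¹ * (g⁻¹ * x * g * x⁻¹) ≠
      g⁻¹ * x * g * x⁻¹ * ((g ^ (j + 1))⁻¹ * x * g ^ (j + 1) * x⁻¹) := by
  by_contra hcon
  push Not at hcon
  have hRN : R ≤ R ⊔ Cfsg.Geo.scalars (Fin n) F := le_sup_left
  have hconj : ∀ k : Matrix.GeneralLinearGroup (Fin n) F,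
      k ∈ Subgroup.normalizer
        ((R ⊔ Cfsg.Geo.scalars (Fin n) F : Subgroup (Matrix.GeneralLinearGroup (Fin n) F)) :
          Set (Matrix.GeneralLinearGroup (Fin n) F)) →
      ∀ a ∈ R ⊔ Cfsg.Geo.scalars (Fin n) F, k * a * k⁻¹ ∈ R ⊔ Cfsg.Geo.scalars (Fin n) F :=
    fun k hk a ha => (Subgroup.mem_normalizer_iff.1 hk a).1 ha
  have hginv := Subgroup.inv_mem _ hg
  -- step (a): every `x ∈ R` commutes with `g⁻¹ x g`
  have stepa : ∀ x ∈ R, SC 1 (g⁻¹ * x * g) x := by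
    intro x hx
    obtain ⟨X, hX⟩ : ∃ X : ℕ → Matrix.GeneralLinearGroup (Fin n) F,
        ∀ j, X j = (g ^ j)⁻¹ * x * g ^ j := ⟨_, fun _ => rfl⟩
    have hXN : ∀ j, X j ∈ R ⊔ Cfsg.Geo.scalars (Fin n) F := by
      intro j
      have h1 := hconj _ (Subgroup.inv_mem _ (Subgroup.pow_mem _ hg j)) x (hRN hx)
      rw [inv_inv] at h1
      rw [hX]
      exact h1
    choose κ hκ using fun j => S.kap (X j) (hXN j) x (hRN hx)
    have hκ0 : ∀ j, κ j ≠ 0 := by
      intro j h0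
      have h1 := (hκ j).1
      rw [h0, zero_pow S.rprime.ne_zero] at h1
      exact zero_ne_one h1
    have hX0 : X 0 = x := by rw [hX]; group
    have hXϖ : X ϖ = x := by rw [hX, hgϖ]; group
    have hX1' : X 1 = g⁻¹ * x * g := by rw [hX, pow_one]
    have hXs : ∀ j, X (j + 1) = g⁻¹ * X j * g⁻¹⁻¹ := by
      intro j
      rw [hX, hX, inv_inv, pow_succ, mul_inv_rev]
      simp only [mul_assoc]
    have hX1 : X 1 = g⁻¹ * x * g⁻¹⁻¹ := by rw [hX1', inv_inv]
    have k0 : κ 0 = 1 := by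
      have h1 := (hκ 0).2
      rw [hX0] at h1
      exact SC.unique S.npos h1 (SC.refl x)
    have kϖ : κ ϖ = 1 := by
      have h1 := (hκ ϖ).2
      rw [hXϖ] at h1
      exact SC.unique S.npos h1 (SC.refl x)
    have hrec : ∀ j, κ (j + 1) = κ j * κ 1 := by
      intro j
      have A : SC (κ j) (X (j + 1)) (X 1) := by
        rw [hXs j, hX1]
        exact (hκ j).2.conj g⁻¹
      have B : SC (κ (j + 1))⁻¹ (X (j + 1)) x⁻¹ := (hκ (j + 1)).2.inv_right (hκ0 _)
      have C : SC (κ j * (κ (j + 1))⁻¹) (X (j + 1)) (X 1 * x⁻¹) := A.mul_right B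
      have D : SC (κ 1) x⁻¹ (X 1) := by
        have h1 := ((hκ 1).2.symm (hκ0 1)).inv_left (inv_ne_zero (hκ0 1))
        rwa [inv_inv] at h1
      have Fh : SC (κ 1 * 1) x⁻¹ (X 1 * x⁻¹) := D.mul_right (SC.refl _)
      have Gh : SC (κ j * (κ (j + 1))⁻¹ * (κ 1 * 1)) (X (j + 1) * x⁻¹) (X 1 * x⁻¹) :=
        C.mul_left Fh
      have Hh : SC 1 (X (j + 1) * x⁻¹) (X 1 * x⁻¹) := by
        rw [hX1', hX]
        exact SC.commute_iff.2 (hcon x hx j)
      have heq : κ j * (κ (j + 1))⁻¹ * (κ 1 * 1) = 1 := SC.unique S.npos Gh Hh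
      rw [mul_one] at heq
      calc κ (j + 1) = κ (j + 1) * (κ j * (κ (j + 1))⁻¹ * κ 1) := by rw [heq, mul_one]
        _ = κ j * κ 1 := by
          field_simp [hκ0 (j + 1)]
    have hpow : ∀ j, κ j = κ 1 ^ j := by
      intro j
      induction j with
      | zero => rw [k0, pow_zero]
      | succ j ih => rw [hrec, ih, pow_succ]
    have h1 : κ 1 ^ ϖ = 1 := by rw [← hpow, kϖ]
    have h2 : κ 1 ^ r = 1 := (hκ 1).1
    have h3 : κ 1 ^ (Nat.gcd ϖ r) = 1 := pow_gcd_eq_one.2 ⟨h1, h2⟩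
    rw [hcop, pow_one] at h3
    have h4 := (hκ 1).2
    rwa [h3, hX1'] at h4
  -- step (b): `g²` centralises `R` modulo scalars
  have stepb : ∀ x ∈ R, (g ^ 2)⁻¹ * x * g ^ 2 * x⁻¹ ∈ Cfsg.Geo.scalars (Fin n) F := by
    intro x hx
    have hPx : g⁻¹ * x * g ∈ R ⊔ Cfsg.Geo.scalars (Fin n) F := by
      have h1 := hconj _ hginv x (hRN hx)
      rwa [inv_inv] at h1
    have hQx : g * x * g⁻¹ ∈ R ⊔ Cfsg.Geo.scalars (Fin n) F := hconj _ hg x (hRN hx)
    obtain ⟨t, ht⟩ : ∃ t : Matrix.GeneralLinearGroup (Fin n) F,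
        t = (g⁻¹ * x * g) * (g * x * g⁻¹)⁻¹ := ⟨_, rfl⟩
    have hcomm : ∀ y ∈ R, t * y = y * t := by
      intro y hy
      have hPy : g⁻¹ * y * g ∈ R ⊔ Cfsg.Geo.scalars (Fin n) F := by
        have h1 := hconj _ hginv y (hRN hy)
        rwa [inv_inv] at h1
      obtain ⟨α, hα1, hα⟩ := S.kap _ hPx y (hRN hy)
      obtain ⟨β, hβ1, hβ⟩ := S.kap _ hPy x (hRN hx)
      have hα0 : α ≠ 0 := by
        intro h0
        rw [h0, zero_pow S.rprime.ne_zero] at hα1
        exact zero_ne_one hα1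
      have hβ0 : β ≠ 0 := by
        intro h0
        rw [h0, zero_pow S.rprime.ne_zero] at hβ1
        exact zero_ne_one hβ1
      have h1 := stepa x hx
      have h2 := stepa y hy
      have h3 := stepa (x * y) (R.mul_mem hx hy)
      have e3 : g⁻¹ * (x * y) * g = (g⁻¹ * x * g) * (g⁻¹ * y * g) := by group
      have h4 : SC (1 * α) (g⁻¹ * x * g) (x * y) := h1.mul_right hα
      have h5 : SC (β * 1) (g⁻¹ * y * g) (x * y) := hβ.mul_right h2
      have h6 : SC (1 * α * (β * 1)) ((g⁻¹ * x * g) * (g⁻¹ * y * g)) (x * y) := h4.mul_left h5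
      rw [← e3] at h6
      have hαβ : 1 * α * (β * 1) = 1 := SC.unique S.npos h6 h3
      rw [one_mul, mul_one] at hαβ
      have h7 := hβ.conj g
      have e7 : g * (g⁻¹ * y * g) * g⁻¹ = y := by group
      rw [e7] at h7
      have h8 : SC β⁻¹ (g * x * g⁻¹) y := h7.symm hβ0
      have hβα : β⁻¹ = α := (eq_inv_of_mul_eq_one_left hαβ).symm
      rw [hβα] at h8
      have h9 : SC α⁻¹ (g * x * g⁻¹)⁻¹ y := h8.inv_left hα0
      have h10 : SC (α * α⁻¹) ((g⁻¹ * x * g) * (g * x * g⁻¹)⁻¹) y := hα.mul_left h9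
      rw [mul_inv_cancel₀ hα0, ← ht] at h10
      exact SC.commute_iff.1 h10
    have hts : t ∈ Cfsg.Geo.scalars (Fin n) F := S.schur t hcomm
    have e : (g ^ 2)⁻¹ * x * g ^ 2 * x⁻¹ = g⁻¹ * t * g⁻¹⁻¹ := by
      rw [ht]
      simp only [mul_inv_rev, inv_inv, mul_assoc, inv_mul_cancel, mul_one, pow_two]
    rw [e]
    exact (Cfsg.Geo.scalars_normal).conj_mem t hts g⁻¹
  -- step (c): so does `g`
  obtain ⟨k, hk⟩ := hodd
  have hgpow : (g ^ 2) ^ (k + 1) = g := by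
    rw [← pow_mul]
    have e : 2 * (k + 1) = ϖ + 1 := by omega
    rw [e, pow_succ, hgϖ, one_mul]
  obtain ⟨x, hx, hxs⟩ := hB
  have h1 := pow_scalar_conj R (g ^ 2) stepb (k + 1) x hx
  rw [hgpow] at h1
  exact hxs h1

end L4

section Chain

variable {F : Type*} [Field F] [Fintype F] {n : ℕ}

/-- For `g` of order `r` normalising the `r`-group `R` and not centralising it modulo scalars,
the iterated commutators with `g` end in a pair `(u, w)` with `w = [g⁻¹, u]` non-scalar and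
`[g⁻¹, w]` scalar. -/
theorem b1_chain {R : Subgroup (Matrix.GeneralLinearGroup (Fin n) F)} {r : ℕ} (hr : r.Prime)
    (hR : IsPGroup r R) (g : Matrix.GeneralLinearGroup (Fin n) F)
    (hgR : ∀ x ∈ R, g⁻¹ * x * g ∈ R) (hgR' : ∀ x ∈ R, g * x * g⁻¹ ∈ R) (hgr : g ^ r = 1)
    (x : Matrix.GeneralLinearGroup (Fin n) F) (hx : x ∈ R)
    (hxs : g⁻¹ * x * g * x⁻¹ ∉ Cfsg.Geo.scalars (Fin n) F) :
    ∃ u ∈ R, ∃ w ∈ R, w = g⁻¹ * u * g * u⁻¹ ∧ w ∉ Cfsg.Geo.scalars (Fin n) F ∧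
      g⁻¹ * w * g * w⁻¹ ∈ Cfsg.Geo.scalars (Fin n) F := by
  classical
  have hfact : Fact r.Prime := ⟨hr⟩
  obtain ⟨δ, hδ⟩ : ∃ δ : Matrix.GeneralLinearGroup (Fin n) F → Matrix.GeneralLinearGroup (Fin n) F,
      ∀ h, δ h = g⁻¹ * h * g * h⁻¹ := ⟨_, fun _ => rfl⟩
  have hδR : ∀ h ∈ R, δ h ∈ R := fun h hh => by
    rw [hδ]
    exact R.mul_mem (hgR h hh) (R.inv_mem hh)
  have hitR : ∀ i, δ^[i] x ∈ R := by
    intro i
    induction i with
    | zero => exact hx
    | succ i ih =>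
      rw [Function.iterate_succ_apply']
      exact hδR _ ih
  obtain ⟨P, hP⟩ : ∃ P : Subgroup (Matrix.GeneralLinearGroup (Fin n) F),
      P = R ⊔ Subgroup.zpowers g := ⟨_, rfl⟩
  have hgnorm : Subgroup.zpowers g ≤
      Subgroup.normalizer (R : Set (Matrix.GeneralLinearGroup (Fin n) F)) := by
    rw [Subgroup.zpowers_le, Subgroup.mem_normalizer_iff]
    intro h
    constructor
    · exact hgR' h
    · intro hh
      have h1 := hgR _ hh
      have e : g⁻¹ * (g * h * g⁻¹) * g = h := by group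
      rwa [e] at h1
  have hzp : IsPGroup r ↥(Subgroup.zpowers g) := by
    rintro ⟨h, hh⟩
    refine ⟨1, ?_⟩
    obtain ⟨i, rfl⟩ := Subgroup.mem_zpowers_iff.1 hh
    apply Subtype.ext
    rw [Subgroup.coe_pow, Subgroup.coe_one]
    show (g ^ i) ^ r ^ 1 = 1
    rw [pow_one, ← zpow_natCast, ← zpow_mul, mul_comm, zpow_mul, zpow_natCast, hgr, one_zpow]
  have hPp : IsPGroup r ↥P := by
    rw [hP]
    exact IsPGroup.to_sup_of_normal_left' hR hzp hgnorm
  have hnil : Group.IsNilpotent ↥P := hPp.isNilpotent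
  obtain ⟨m, hm⟩ := (Subgroup.isNilpotent_iff_lowerCentralSeries P).1 hnil
  have hRP : R ≤ P := by
    rw [hP]
    exact le_sup_left
  have hgP : g⁻¹ ∈ P := by
    rw [hP]
    exact Subgroup.inv_mem _ (Subgroup.mem_sup_right (Subgroup.mem_zpowers g))
  have hlcs : ∀ i, δ^[i] x ∈ P.lowerCentralSeries i := by
    intro i
    induction i with
    | zero => exact hRP hx
    | succ i ih =>
      rw [Function.iterate_succ_apply', Subgroup.lowerCentralSeries_succ, hδ]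
      have h1 : ⁅δ^[i] x, g⁻¹⁆ ∈ ⁅P.lowerCentralSeries i, P⁆ :=
        Subgroup.commutator_mem_commutator ih hgP
      have h2 := Subgroup.inv_mem _ h1
      rw [commutatorElement_inv, commutatorElement_def, inv_inv] at h2
      exact h2
  have hone : δ^[m] x = 1 := by
    have h1 := hlcs m
    rw [hm] at h1
    exact Subgroup.mem_bot.1 h1
  have hex : ∃ k, δ^[k] x ∈ Cfsg.Geo.scalars (Fin n) F := ⟨m, by rw [hone]; exact one_mem _⟩
  have hk0 : Nat.find hex ≠ 0 := by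
    intro h0
    have h1 := Nat.find_spec hex
    rw [h0] at h1
    have hx' : x ∈ Cfsg.Geo.scalars (Fin n) F := h1
    apply hxs
    have h2 := scalar_comm hx' g
    have e : g⁻¹ * x * g * x⁻¹ = 1 := by
      calc g⁻¹ * x * g * x⁻¹ = g⁻¹ * (x * g) * x⁻¹ := by simp only [mul_assoc]
        _ = g⁻¹ * (g * x) * x⁻¹ := by rw [h2]
        _ = 1 := by group
    rw [e]
    exact one_mem _
  have hk1 : Nat.find hex ≠ 1 := by
    intro h1
    have h2 := Nat.find_spec hex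
    rw [h1] at h2
    apply hxs
    rw [← hδ]
    exact h2
  obtain ⟨k, hk⟩ : ∃ k, Nat.find hex = k + 2 := ⟨Nat.find hex - 2, by omega⟩
  refine ⟨δ^[k] x, hitR k, δ^[k + 1] x, hitR (k + 1), ?_, ?_, ?_⟩
  · rw [Function.iterate_succ_apply', hδ]
  · exact Nat.find_min hex (by omega)
  · have h1 := Nat.find_spec hex
    rw [hk, Function.iterate_succ_apply', hδ] at h1
    exact h1

end Chain

end Cfsg.Agent.H42
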