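import Cfsg.Agent.H42.ExtraGrp

set_option autoImplicit false

/-! Eigenspace bounds for elements of prime order normalising an absolutely irreducible
extraspecial group modulo scalars: assembly (helper42). -/

namespace Cfsg.Agent.H42

open Module

section Lm

variable {F : Type*} [Field F] {n : ℕ}

/-- The endomorphism of `F^n` given by an invertible matrix. -/
noncomputable def Lm (a : Matrix.GeneralLinearGroup (Fin n) F) : Module.End F (Fin n → F) :=
  Matrix.toLin' (a : Matrix (Fin n) (Fin n) F)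

theorem Lm_mul (a b : Matrix.GeneralLinearGroup (Fin n) F) : Lm (a * b) = Lm a * Lm b := by
  unfold Lm
  rw [Units.val_mul, Matrix.toLin'_mul]
  rfl

theorem Lm_one : Lm (1 : Matrix.GeneralLinearGroup (Fin n) F) = 1 := by
  unfold Lm
  rw [Units.val_one, Matrix.toLin'_one]
  rfl

theorem Lm_pow (a : Matrix.GeneralLinearGroup (Fin n) F) (k : ℕ) : Lm (a ^ k) = Lm a ^ k := by
  induction k with
  | zero => rw [pow_zero, pow_zero, Lm_one]
  | succ k ih => rw [pow_succ, pow_succ, Lm_mul, ih]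

theorem Lm_mul_inv (a : Matrix.GeneralLinearGroup (Fin n) F) : Lm a * Lm a⁻¹ = 1 := by
  rw [← Lm_mul, mul_inv_cancel, Lm_one]

theorem Lm_inv_mul (a : Matrix.GeneralLinearGroup (Fin n) F) : Lm a⁻¹ * Lm a = 1 := by
  rw [← Lm_mul, inv_mul_cancel, Lm_one]

theorem Lm_injective (a : Matrix.GeneralLinearGroup (Fin n) F) : Function.Injective (Lm a) := by
  intro u v huv
  have h1 := LinearMap.congr_fun (Lm_inv_mul a) u
  have h2 := LinearMap.congr_fun (Lm_inv_mul a) v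
  simp only [Module.End.mul_apply, Module.End.one_apply] at h1 h2
  rw [← h1, ← h2, huv]

theorem Lm_SC {κ : F} {a b : Matrix.GeneralLinearGroup (Fin n) F} (h : SC κ a b) :
    Lm a * Lm b = κ • (Lm b * Lm a) := by
  rw [← Lm_mul, ← Lm_mul]
  unfold Lm
  rw [Units.val_mul, Units.val_mul, h, map_smul]

theorem Lm_eig_pow (a : Matrix.GeneralLinearGroup (Fin n) F) (c : F) (k : ℕ) :
    ∀ u ∈ (Lm a).eigenspace c, Lm (a ^ k) u = c ^ k • u := by
  intro u hu
  rw [Module.End.mem_eigenspace_iff] at hu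
  induction k with
  | zero => rw [pow_zero, pow_zero, Lm_one, Module.End.one_apply, one_smul]
  | succ k ih =>
    rw [pow_succ, Lm_mul, Module.End.mul_apply, hu, map_smul, ih, smul_smul, pow_succ, mul_comm]

end Lm

section Bounds

variable {F : Type*} [Field F] {n : ℕ}

/-- A non-scalar element of `R · scalars` has all eigenspaces of dimension at most `n / r`. -/
theorem nonscalar_eigen_bound {R : Subgroup (Matrix.GeneralLinearGroup (Fin n) F)} {r : ℕ}
    (S : ExSetup R r) (d : Matrix.GeneralLinearGroup (Fin n) F)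
    (hdN : d ∈ R ⊔ Cfsg.Geo.scalars (Fin n) F) (hd : d ∉ Cfsg.Geo.scalars (Fin n) F)
    (μ : F) (hμ : μ ≠ 0) : r * finrank F ↥((Lm d).eigenspace μ) ≤ n := by
  have hex : ∃ w ∈ R, d * w ≠ w * d := by
    by_contra hcon
    push Not at hcon
    exact hd (S.schur d hcon)
  obtain ⟨w, hw, hdw⟩ := hex
  obtain ⟨κ, hκ1, hκ⟩ := S.kap d hdN w (le_sup_left (a := R) hw)
  have hκne : κ ≠ 1 := by
    rintro rfl
    exact hdw (SC.commute_iff.1 hκ)
  have h1 := eigen_conj_bound (Lm d) (Lm w) (Lm_injective w) κ (prim_of_ne_one S.rprime hκne hκ1)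
    μ hμ (Lm_SC hκ)
  rwa [Module.finrank_fin_fun] at h1

/-- Case A: `g` centralises `R` modulo scalars. -/
theorem caseA_bound {R : Subgroup (Matrix.GeneralLinearGroup (Fin n) F)} {r : ℕ}
    (S : ExSetup R r) (g : Matrix.GeneralLinearGroup (Fin n) F)
    (hns : g ∉ Cfsg.Geo.scalars (Fin n) F)
    (hA : ∀ x ∈ R, g⁻¹ * x * g * x⁻¹ ∈ Cfsg.Geo.scalars (Fin n) F) (c : F) (hc : c ≠ 0) :
    r * finrank F ↥((Lm g).eigenspace c) ≤ n := by
  have hRN : R ≤ R ⊔ Cfsg.Geo.scalars (Fin n) F := le_sup_left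
  have hex : ∃ x ∈ R, g * x ≠ x * g := by
    by_contra hcon
    push Not at hcon
    exact hns (S.schur g hcon)
  obtain ⟨x, hx, hgx⟩ := hex
  obtain ⟨κu, hκu⟩ := (Cfsg.Geo.mem_scalars_iff _).1 (hA x hx)
  have hc1 := scalar_comm (hA x hx) g
  have hSC : SC (κu : F) x g := by
    apply SC.of_mul_eq hκu
    calc x * g = g * (g⁻¹ * x * g * x⁻¹) * x := by group
      _ = (g⁻¹ * x * g * x⁻¹) * g * x := by rw [← hc1]
      _ = (g⁻¹ * x * g * x⁻¹) * (g * x) := by simp only [mul_assoc]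
  have hκne : (κu : F) ≠ 1 := by
    intro h1
    rw [h1] at hSC
    exact hgx (SC.commute_iff.1 hSC).symm
  have hxr : x ^ r ∈ Cfsg.Geo.scalars (Fin n) F := by
    apply S.schur
    intro y hy
    obtain ⟨α, hα1, hα⟩ := S.kap x (hRN hx) y (hRN hy)
    have h1 := hα.pow_left r
    rw [hα1] at h1
    exact SC.commute_iff.1 h1
  have hκr : (κu : F) ^ r = 1 := SC.unique S.npos (hSC.pow_left r) (SC_scalar_left hxr g)
  have hprim := (prim_of_ne_one S.rprime hκne hκr).inv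
  have h1 := eigen_conj_bound (Lm g) (Lm x) (Lm_injective x) (κu : F)⁻¹ hprim c hc
    (Lm_SC (hSC.symm (Units.ne_zero κu)))
  rwa [Module.finrank_fin_fun] at h1

/-- Case B, two conjugates. -/
theorem caseB_bound {R : Subgroup (Matrix.GeneralLinearGroup (Fin n) F)} {r : ℕ}
    (S : ExSetup R r) (g : Matrix.GeneralLinearGroup (Fin n) F)
    (hg : g ∈ Subgroup.normalizer
      ((R ⊔ Cfsg.Geo.scalars (Fin n) F : Subgroup (Matrix.GeneralLinearGroup (Fin n) F)) :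
        Set (Matrix.GeneralLinearGroup (Fin n) F)))
    (x : Matrix.GeneralLinearGroup (Fin n) F) (hx : x ∈ R)
    (hxs : g⁻¹ * x * g * x⁻¹ ∉ Cfsg.Geo.scalars (Fin n) F) (c : F) :
    2 * r * finrank F ↥((Lm g).eigenspace c) ≤ (r + 1) * n := by
  have hRN : R ≤ R ⊔ Cfsg.Geo.scalars (Fin n) F := le_sup_left
  have hdN : g⁻¹ * x * g * x⁻¹ ∈ R ⊔ Cfsg.Geo.scalars (Fin n) F := by
    have h1 := (Subgroup.mem_normalizer_iff.1 (Subgroup.inv_mem _ hg) x).1 (hRN hx)
    rw [inv_inv] at h1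
    exact Subgroup.mul_mem _ h1 (Subgroup.inv_mem _ (hRN hx))
  have h1 := nonscalar_eigen_bound S _ hdN hxs 1 one_ne_zero
  have hrel : Lm g * Lm (g⁻¹ * x * g * x⁻¹) * Lm x = Lm x * Lm g := by
    rw [← Lm_mul, ← Lm_mul, ← Lm_mul]
    congr 1
    group
  have h2 := inter_conj_le_fixed (Lm g) (Lm x) (Lm (g⁻¹ * x * g * x⁻¹)) (Lm_injective g)
    ((Lm g).eigenspace c) c (fun u hu => Module.End.mem_eigenspace_iff.1 hu) hrel
  have h3 := two_conj_bound (Lm x) (Lm_injective x) ((Lm g).eigenspace c)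
  rw [Module.finrank_fin_fun] at h3
  have h4 := Submodule.finrank_mono h2
  have h5 : r * (2 * finrank F ↥((Lm g).eigenspace c)) ≤
      r * (n + finrank F ↥((Lm (g⁻¹ * x * g * x⁻¹)).eigenspace 1)) :=
    Nat.mul_le_mul_left _ (h3.trans (Nat.add_le_add_left h4 _))
  calc 2 * r * finrank F ↥((Lm g).eigenspace c)
      = r * (2 * finrank F ↥((Lm g).eigenspace c)) := by ring
    _ ≤ r * (n + finrank F ↥((Lm (g⁻¹ * x * g * x⁻¹)).eigenspace 1)) := h5
    _ = r * n + r * finrank F ↥((Lm (g⁻¹ * x * g * x⁻¹)).eigenspace 1) := by ring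
    _ ≤ r * n + n := Nat.add_le_add_left h1 _
    _ = (r + 1) * n := by ring

/-- Case B with a non-commuting pair: the eigenspace meets its `x`-translate trivially. -/
theorem noncomm_bound {R : Subgroup (Matrix.GeneralLinearGroup (Fin n) F)} {r : ℕ}
    (S : ExSetup R r) (g : Matrix.GeneralLinearGroup (Fin n) F)
    (hg : g ∈ Subgroup.normalizer
      ((R ⊔ Cfsg.Geo.scalars (Fin n) F : Subgroup (Matrix.GeneralLinearGroup (Fin n) F)) :
        Set (Matrix.GeneralLinearGroup (Fin n) F)))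
    (x : Matrix.GeneralLinearGroup (Fin n) F) (hx : x ∈ R) (j : ℕ)
    (hne : (g ^ (j + 1))⁻¹ * x * g ^ (j + 1) * x⁻¹ * (g⁻¹ * x * g * x⁻¹) ≠
      g⁻¹ * x * g * x⁻¹ * ((g ^ (j + 1))⁻¹ * x * g ^ (j + 1) * x⁻¹)) (c : F) :
    2 * finrank F ↥((Lm g).eigenspace c) ≤ n := by
  have hRN : R ≤ R ⊔ Cfsg.Geo.scalars (Fin n) F := le_sup_left
  have hconj : ∀ k : Matrix.GeneralLinearGroup (Fin n) F,
      k ∈ Subgroup.normalizer
        ((R ⊔ Cfsg.Geo.scalars (Fin n) F : Subgroup (Matrix.GeneralLinearGroup (Fin n) F)) :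
          Set (Matrix.GeneralLinearGroup (Fin n) F)) →
      k⁻¹ * x * k * x⁻¹ ∈ R ⊔ Cfsg.Geo.scalars (Fin n) F := by
    intro k hk
    have h1 := (Subgroup.mem_normalizer_iff.1 (Subgroup.inv_mem _ hk) x).1 (hRN hx)
    rw [inv_inv] at h1
    exact Subgroup.mul_mem _ h1 (Subgroup.inv_mem _ (hRN hx))
  have hD'N := hconj _ (Subgroup.pow_mem _ hg (j + 1))
  have hD1N := hconj _ hg
  obtain ⟨κ, -, hκ⟩ := S.kap _ hD'N _ hD1N
  have hκne : κ ≠ 1 := by
    rintro rfl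
    exact hne (SC.commute_iff.1 hκ)
  have h0 := fixed_inf_fixed_eq_bot _ _ κ hκne (Lm_SC hκ)
  have hrel' : Lm (g ^ (j + 1)) * Lm ((g ^ (j + 1))⁻¹ * x * g ^ (j + 1) * x⁻¹) * Lm x =
      Lm x * Lm (g ^ (j + 1)) := by
    rw [← Lm_mul, ← Lm_mul, ← Lm_mul]
    congr 1
    simp only [mul_assoc, inv_mul_cancel, mul_one, mul_inv_cancel_left]
  have hrel1 : Lm g * Lm (g⁻¹ * x * g * x⁻¹) * Lm x = Lm x * Lm g := by
    rw [← Lm_mul, ← Lm_mul, ← Lm_mul]
    congr 1
    group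
  have h1 := inter_conj_le_fixed (Lm (g ^ (j + 1))) (Lm x)
    (Lm ((g ^ (j + 1))⁻¹ * x * g ^ (j + 1) * x⁻¹)) (Lm_injective _)
    ((Lm g).eigenspace c) (c ^ (j + 1)) (Lm_eig_pow g c (j + 1)) hrel'
  have h2 := inter_conj_le_fixed (Lm g) (Lm x) (Lm (g⁻¹ * x * g * x⁻¹)) (Lm_injective g)
    ((Lm g).eigenspace c) c (fun u hu => Module.End.mem_eigenspace_iff.1 hu) hrel1
  have h3 : (Lm g).eigenspace c ⊓ ((Lm g).eigenspace c).map (Lm x) = ⊥ := by
    rw [eq_bot_iff, ← h0]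
    exact le_inf h1 h2
  have h4 := two_conj_bound (Lm x) (Lm_injective x) ((Lm g).eigenspace c)
  rw [h3, finrank_bot, add_zero, Module.finrank_fin_fun] at h4
  exact h4

end Bounds

section Assembly

variable {F : Type*} [Field F] {n : ℕ}

/-- In an `r`-group with `r` odd whose exponent is `r` or `4`, every element has `r`-th power 1. -/
theorem exp_lemma {R : Subgroup (Matrix.GeneralLinearGroup (Fin n) F)} {r : ℕ} (hr : r.Prime)
    (hR : IsPGroup r R) (hexp : Monoid.exponent R = r ∨ Monoid.exponent R = 4) (hr2 : r ≠ 2) :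
    ∀ y ∈ R, y ^ r = 1 := by
  intro y hy
  obtain ⟨y', hy'⟩ : ∃ y' : ↥R, (y' : Matrix.GeneralLinearGroup (Fin n) F) = y := ⟨⟨y, hy⟩, rfl⟩
  have key : y' ^ r = 1 := by
    rcases hexp with h | h
    · rw [← h]
      exact Monoid.pow_exponent_eq_one y'
    · have h4 : y' ^ (2 ^ 2) = 1 := by
        have h5 := Monoid.pow_exponent_eq_one y'
        rw [h] at h5
        exact h5
      obtain ⟨k, hk⟩ := hR y'
      have h2 : Nat.Coprime 2 r := (Nat.coprime_primes Nat.prime_two hr).2 (Ne.symm hr2)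
      have hcop : Nat.Coprime (2 ^ 2) (r ^ k) := Nat.Coprime.pow 2 k h2
      have h1 : y' ^ Nat.gcd (2 ^ 2) (r ^ k) = 1 := pow_gcd_eq_one.2 ⟨h4, hk⟩
      rw [hcop.gcd_eq_one, pow_one] at h1
      rw [h1, one_pow]
  rw [← hy', ← Subgroup.coe_pow, key, Subgroup.coe_one]

/-- An element of `R · scalars` with trivial `r`-th power lies in `R` (when `R` has exponent `r`). -/
theorem mem_R_of_pow {R : Subgroup (Matrix.GeneralLinearGroup (Fin n) F)} {r : ℕ}
    (S : ExSetup R r) (hexp' : ∀ y ∈ R, y ^ r = 1)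
    (a : Matrix.GeneralLinearGroup (Fin n) F) (ha : a ∈ R ⊔ Cfsg.Geo.scalars (Fin n) F)
    (har : a ^ r = 1) : a ∈ R := by
  obtain ⟨y, hy, s, hs, rfl⟩ := Subgroup.mem_sup_of_normal_right.1 ha
  have hcomm : Commute y s := (scalar_comm hs y).symm
  have hsr : s ^ r = 1 := by
    have h1 := hcomm.mul_pow r
    rw [har, hexp' y hy, one_mul] at h1
    exact h1.symm
  obtain ⟨κ, hκ⟩ := (Cfsg.Geo.mem_scalars_iff s).1 hs
  have hone : (1 : Matrix (Fin n) (Fin n) F) ⟨0, S.npos⟩ ⟨0, S.npos⟩ = 1 := Matrix.one_apply_eq _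
  have hκr : (κ : F) ^ r = 1 := by
    have h5 : (s : Matrix (Fin n) (Fin n) F) ^ r = 1 := by
      rw [← Units.val_pow_eq_pow_val, hsr, Units.val_one]
    rw [hκ, smul_pow, one_pow] at h5
    have h7 := congrFun (congrFun h5 ⟨0, S.npos⟩) ⟨0, S.npos⟩
    rw [Matrix.smul_apply, hone, smul_eq_mul, mul_one] at h7
    exact h7
  obtain ⟨ζ, hζ, z₀, hz₀, hz₀'⟩ := S.zeta
  have hne : NeZero r := ⟨S.rprime.ne_zero⟩
  obtain ⟨i, -, hi⟩ := hζ.eq_pow_of_pow_eq_one hκr
  have hs' : s = z₀ ^ i := by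
    apply Units.ext
    rw [Units.val_pow_eq_pow_val, hz₀', smul_pow, one_pow, hi, hκ]
  rw [hs']
  exact R.mul_mem hy (R.pow_mem hz₀ i)

/-- A non-scalar element of `R · scalars` forces `r ∣ n` (when `R` has exponent `r`). -/
theorem r_dvd_of_nonscalar {R : Subgroup (Matrix.GeneralLinearGroup (Fin n) F)} {r : ℕ}
    (S : ExSetup R r) (hexp' : ∀ y ∈ R, y ^ r = 1)
    (d : Matrix.GeneralLinearGroup (Fin n) F) (hdN : d ∈ R ⊔ Cfsg.Geo.scalars (Fin n) F)
    (hd : d ∉ Cfsg.Geo.scalars (Fin n) F) : r ∣ n := by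
  have hRN : R ≤ R ⊔ Cfsg.Geo.scalars (Fin n) F := le_sup_left
  obtain ⟨y, hy, s, hs, rfl⟩ := Subgroup.mem_sup_of_normal_right.1 hdN
  have hex : ∃ v ∈ R, y * v ≠ v * y := by
    by_contra hcon
    push Not at hcon
    apply hd
    exact Subgroup.mul_mem _ (S.schur y hcon) hs
  obtain ⟨v, hv, hyv⟩ := hex
  obtain ⟨κ, hκ1, hκ⟩ := S.kap y (hRN hy) v (hRN hv)
  have hκne : κ ≠ 1 := by
    rintro rfl
    exact hyv (SC.commute_iff.1 hκ)
  have h1 := dvd_finrank_of_conj (Lm y) (Lm v) (Lm_injective v) S.rprime.one_lt κ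
    (prim_of_ne_one S.rprime hκne hκ1) (by rw [← Lm_pow, hexp' y hy, Lm_one]) (Lm_SC hκ)
  rwa [Module.finrank_fin_fun] at h1

/-- Case B1: `g` of order `r ≥ 5` acting non-trivially on `R` modulo scalars. -/
theorem b1_bound [Fintype F] {R : Subgroup (Matrix.GeneralLinearGroup (Fin n) F)} {r : ℕ}
    (S : ExSetup R r) (hR : IsPGroup r R) (hexp' : ∀ y ∈ R, y ^ r = 1) (hr4 : 4 ≤ r)
    (g : Matrix.GeneralLinearGroup (Fin n) F)
    (hg : g ∈ Subgroup.normalizer
      ((R ⊔ Cfsg.Geo.scalars (Fin n) F : Subgroup (Matrix.GeneralLinearGroup (Fin n) F)) :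
        Set (Matrix.GeneralLinearGroup (Fin n) F)))
    (hgr : g ^ r = 1)
    (x : Matrix.GeneralLinearGroup (Fin n) F) (hx : x ∈ R)
    (hxs : g⁻¹ * x * g * x⁻¹ ∉ Cfsg.Geo.scalars (Fin n) F) (c : F) (hc : c ≠ 0) :
    2 * finrank F ↥((Lm g).eigenspace c) ≤ n := by
  have hRN : R ≤ R ⊔ Cfsg.Geo.scalars (Fin n) F := le_sup_left
  have hgR' : ∀ y ∈ R, g * y * g⁻¹ ∈ R := by
    intro y hy
    apply mem_R_of_pow S hexp'
    · exact (Subgroup.mem_normalizer_iff.1 hg y).1 (hRN hy)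
    · rw [conj_pow, hexp' y hy, mul_one, mul_inv_cancel]
  have hgR : ∀ y ∈ R, g⁻¹ * y * g ∈ R := by
    intro y hy
    have h1 : g⁻¹ * y * g⁻¹⁻¹ ∈ R := by
      apply mem_R_of_pow S hexp'
      · exact (Subgroup.mem_normalizer_iff.1 (Subgroup.inv_mem _ hg) y).1 (hRN hy)
      · rw [conj_pow, hexp' y hy, mul_one, mul_inv_cancel]
    rwa [inv_inv] at h1
  obtain ⟨u, hu, w, hw, hwdef, hwns, hws⟩ := b1_chain S.rprime hR g hgR hgR' hgr x hx hxs
  obtain ⟨κs, hκs⟩ := (Cfsg.Geo.mem_scalars_iff _).1 hws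
  have hc1 := scalar_comm hws g
  have hSC : SC (κs : F) w g := by
    apply SC.of_mul_eq hκs
    calc w * g = g * (g⁻¹ * w * g * w⁻¹) * w := by group
      _ = (g⁻¹ * w * g * w⁻¹) * g * w := by rw [← hc1]
      _ = (g⁻¹ * w * g * w⁻¹) * (g * w) := by simp only [mul_assoc]
  have hwr : w ^ r = 1 := hexp' w hw
  have hκr : (κs : F) ^ r = 1 := by
    have h1 := hSC.pow_left r
    rw [hwr] at h1
    exact SC.unique S.npos h1 (SC_scalar_left (one_mem _) g)
  have hd := nonscalar_eigen_bound S w (hRN hw) hwns 1 one_ne_zero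
  have hr2 : 2 ≤ r := by omega
  by_cases hκne : (κs : F) = 1
  · -- `g` and `w` commute
    rw [hκne] at hSC
    have hwg : w * g = g * w := SC.commute_iff.1 hSC
    have hgw : Lm g * Lm w = Lm w * Lm g := by rw [← Lm_mul, ← Lm_mul, hwg]
    have hR1 : Lm u * Lm g = Lm g * Lm w * Lm u := by
      rw [← Lm_mul, ← Lm_mul, ← Lm_mul, hwdef]
      congr 1
      group
    have hw' : Lm w ^ r = 1 := by rw [← Lm_pow, hwr, Lm_one]
    obtain ⟨κ, hκ1, hκ⟩ := S.kap u (hRN hu) w (hRN hw)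
    by_cases hκ1' : κ = 1
    · rw [hκ1'] at hκ
      have huw : u * w = w * u := SC.commute_iff.1 hκ
      have hR2 : Lm u * Lm w = Lm w * Lm u := by rw [← Lm_mul, ← Lm_mul, huw]
      obtain ⟨ζ, hζ, -⟩ := S.zeta
      have h1 := c2_bound (Lm g) (Lm w) (Lm u) (Lm u⁻¹) (Lm_injective g) (Lm_mul_inv u)
        (Lm_inv_mul u) hgw hR1 hR2 S.rprime ζ hζ hw' c
      rw [Module.finrank_fin_fun] at h1
      obtain ⟨k, rfl⟩ : ∃ k, r = k + 4 := ⟨r - 4, by omega⟩
      have e1 : k + 4 - 1 = k + 3 := rfl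
      rw [e1] at h1
      obtain ⟨e, he⟩ : ∃ e, e = finrank F ↥((Lm g).eigenspace c) := ⟨_, rfl⟩
      obtain ⟨d, hdd⟩ : ∃ d, d = finrank F ↥((Lm w).eigenspace 1) := ⟨_, rfl⟩
      rw [← he, ← hdd] at h1
      rw [← hdd] at hd
      rw [← he]
      have h2 : (k + 4) * ((k + 4) * e) ≤ (2 * k + 7) * n := by
        have h3 : (k + 4) * ((k + 4) * e) ≤ (k + 4) * ((k + 3) * d + n) :=
          Nat.mul_le_mul_left _ h1
        have h4 : (k + 3) * ((k + 4) * d) ≤ (k + 3) * n := Nat.mul_le_mul_left _ hd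
        nlinarith
      by_contra hcon
      push Not at hcon
      have h5 : (k + 4) * ((k + 4) * (n + 1)) ≤ (k + 4) * ((k + 4) * (2 * e)) :=
        Nat.mul_le_mul_left _ (Nat.mul_le_mul_left _ hcon)
      nlinarith [Nat.zero_le (k * k * n), Nat.zero_le (k * n), Nat.zero_le (k * k)]
    · have hη := (prim_of_ne_one S.rprime hκ1' hκ1).inv
      have h1 := c3_bound (Lm g) (Lm w) (Lm u) (Lm u⁻¹) (Lm_injective g) (Lm_mul_inv u)
        (Lm_inv_mul u) hgw hR1 S.rprime κ⁻¹ hη (by rw [inv_inv]; exact Lm_SC hκ) hw' c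
      have h2 := Nat.mul_le_mul_right (finrank F ↥((Lm w).eigenspace 1)) hr4
      omega
  · have hprim := (prim_of_ne_one S.rprime hκne hκr).inv
    have h1 := eigen_conj_bound (Lm g) (Lm w) (Lm_injective w) (κs : F)⁻¹ hprim c hc
      (Lm_SC (hSC.symm (Units.ne_zero κs)))
    rw [Module.finrank_fin_fun] at h1
    exact (Nat.mul_le_mul_right _ hr2).trans h1

/-- Eigenspace bounds for an element of prime order normalising an absolutely irreducible
extraspecial group modulo scalars. -/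
theorem extra_main {F : Type*} [Field F] [Fintype F] {n r ϖ : ℕ}
    (R : Subgroup (Matrix.GeneralLinearGroup (Fin n) F)) (hr : r.Prime) (hR : IsPGroup r R)
    (hZ : Nat.card (Subgroup.center R) = r) (hext : commutator R = Subgroup.center R)
    (hexp : Monoid.exponent R = r ∨ Monoid.exponent R = 4)
    (hirr : Cfsg.Geo.ActsAbsolutelyIrreducibly (Cfsg.Geo.matrixSet R))
    (g : Matrix.GeneralLinearGroup (Fin n) F)
    (hg : g ∈ Cfsg.Geo.subgroupNormalizer (R ⊔ Cfsg.Geo.scalars (Fin n) F)) (hϖ : ϖ.Prime)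
    (hord : orderOf g = ϖ) (hns : g ∉ Cfsg.Geo.scalars (Fin n) F) (c : F) :
    (ϖ = 2 → 4 * Module.finrank F (Module.End.eigenspace (Matrix.toLin' (g : Matrix (Fin n) (Fin n) F)) c) ≤ 3 * n) ∧
    (ϖ = 3 → 3 * Module.finrank F (Module.End.eigenspace (Matrix.toLin' (g : Matrix (Fin n) (Fin n) F)) c) ≤ 2 * n) ∧
    (3 < ϖ → 2 * Module.finrank F (Module.End.eigenspace (Matrix.toLin' (g : Matrix (Fin n) (Fin n) F)) c) ≤ n) ∧
    (ϖ = 3 → ¬ 3 ∣ n → 2 * Module.finrank F (Module.End.eigenspace (Matrix.toLin' (g : Matrix (Fin n) (Fin n) F)) c) ≤ n) := by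
  show (ϖ = 2 → 4 * finrank F ↥((Lm g).eigenspace c) ≤ 3 * n) ∧
    (ϖ = 3 → 3 * finrank F ↥((Lm g).eigenspace c) ≤ 2 * n) ∧
    (3 < ϖ → 2 * finrank F ↥((Lm g).eigenspace c) ≤ n) ∧
    (ϖ = 3 → ¬ 3 ∣ n → 2 * finrank F ↥((Lm g).eigenspace c) ≤ n)
  have hle : finrank F ↥((Lm g).eigenspace c) ≤ n := by
    have h1 := Submodule.finrank_le ((Lm g).eigenspace c)
    rwa [Module.finrank_fin_fun] at h1
  rcases Nat.eq_zero_or_pos n with hn | hn
  · have h0 : finrank F ↥((Lm g).eigenspace c) = 0 := by omega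
    rw [h0]
    refine ⟨fun _ => ?_, fun _ => ?_, fun _ => ?_, fun _ _ => ?_⟩ <;> omega
  by_cases hc : c = 0
  · have h0 : finrank F ↥((Lm g).eigenspace c) = 0 := by
      rw [hc, Module.End.eigenspace_zero, LinearMap.ker_eq_bot.2 (Lm_injective g), finrank_bot]
    rw [h0]
    refine ⟨fun _ => ?_, fun _ => ?_, fun _ => ?_, fun _ _ => ?_⟩ <;> omega
  have S := exSetup R hr hZ hext hirr hn
  have hRN : R ≤ R ⊔ Cfsg.Geo.scalars (Fin n) F := le_sup_left
  have hg' : g ∈ Subgroup.normalizer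
      ((R ⊔ Cfsg.Geo.scalars (Fin n) F : Subgroup (Matrix.GeneralLinearGroup (Fin n) F)) :
        Set (Matrix.GeneralLinearGroup (Fin n) F)) := hg
  have hgϖ : g ^ ϖ = 1 := by
    rw [← hord]
    exact pow_orderOf_eq_one g
  have hr2 : 2 ≤ r := hr.two_le
  obtain ⟨e, he⟩ : ∃ e, e = finrank F ↥((Lm g).eigenspace c) := ⟨_, rfl⟩
  rw [← he]
  by_cases hA : ∀ x ∈ R, g⁻¹ * x * g * x⁻¹ ∈ Cfsg.Geo.scalars (Fin n) F
  · have hAb := caseA_bound S g hns hA c hc
    rw [← he] at hAb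
    have h2 : 2 * e ≤ n := (Nat.mul_le_mul_right e hr2).trans hAb
    refine ⟨fun _ => ?_, fun _ => ?_, fun _ => ?_, fun _ _ => ?_⟩ <;> omega
  push Not at hA
  obtain ⟨x, hx, hxs⟩ := hA
  have hB := caseB_bound S g hg' x hx hxs c
  rw [← he] at hB
  have hnc : Odd ϖ → Nat.Coprime ϖ r → 2 * e ≤ n := by
    intro hodd hcop
    obtain ⟨x', hx', j, hj⟩ := exists_noncomm S g hg' hodd hcop hgϖ ⟨x, hx, hxs⟩
    have h1 := noncomm_bound S g hg' x' hx' j hj c
    rwa [← he] at h1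
  refine ⟨fun _ => ?_, fun h3 => ?_, fun h3 => ?_, fun h3 hn3 => ?_⟩
  · have h1 : r * (4 * e) ≤ r * (3 * n) := by
      nlinarith [Nat.mul_le_mul_right n hr2]
    exact Nat.le_of_mul_le_mul_left h1 (by omega)
  · by_cases hr3 : r = 2
    · have h1 : 2 * e ≤ n := hnc (by rw [h3]; exact ⟨1, rfl⟩) (by rw [h3, hr3]; decide)
      omega
    · have hr3' : 3 ≤ r := by omega
      have h1 : r * (3 * e) ≤ r * (2 * n) := by
        nlinarith [Nat.mul_le_mul_right n hr3']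
      exact Nat.le_of_mul_le_mul_left h1 (by omega)
  · by_cases hϖr : ϖ = r
    · have hr4 : 4 ≤ r := by omega
      have hexp' := exp_lemma hr hR hexp (by omega)
      rw [hϖr] at hgϖ
      have h1 := b1_bound S hR hexp' hr4 g hg' hgϖ x hx hxs c hc
      rwa [← he] at h1
    · exact hnc (hϖ.odd_of_ne_two (by omega)) ((Nat.coprime_primes hϖ hr).2 hϖr)
  · by_cases hr3 : r = 3
    · exfalso
      apply hn3
      have hexp' := exp_lemma hr hR hexp (by omega)
      have hdN : g⁻¹ * x * g * x⁻¹ ∈ R ⊔ Cfsg.Geo.scalars (Fin n) F := by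
        have h1 := (Subgroup.mem_normalizer_iff.1 (Subgroup.inv_mem _ hg') x).1 (hRN hx)
        rw [inv_inv] at h1
        exact Subgroup.mul_mem _ h1 (Subgroup.inv_mem _ (hRN hx))
      have h1 := r_dvd_of_nonscalar S hexp' _ hdN hxs
      rwa [hr3] at h1
    · exact hnc (by rw [h3]; exact ⟨1, rfl⟩)
        (by rw [h3]; exact (Nat.coprime_primes Nat.prime_three hr).2 (Ne.symm hr3))

end Assembly

end Cfsg.Agent.H42
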