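import Mathlib
import Cfsg.Agent.H42.JtDefs
import Cfsg.Agent.H42.AltRank

set_option autoImplicit false

/-! Odd-power kernels of a unipotent isometry of a nondegenerate symmetric form have dimension
congruent to the dimension of the space modulo 2 (helper42; piece JT-B of S5996/S5995). -/

namespace Cfsg.Agent.H42.Jt

theorem kd_odd_parity {F : Type*} [Field F] {V : Type*} [AddCommGroup V] [Module F V]
    [FiniteDimensional F V] (h2 : (2 : F) ≠ 0) (B : LinearMap.BilinForm F V)
    (hs : ∀ u v, B u v = B v u) (hnd : ∀ u, (∀ v, B u v = 0) → u = 0) (g : Module.End F V)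
    (hg : ∀ u v, B (g u) (g v) = B u v) (hnil : IsNilpotent (g - 1)) (j : ℕ) (hj : Odd j) :
    Even (Module.finrank F V - kd (g - 1) j) := by
  -- `g` is invertible
  have hinj : Function.Injective g := by
    rw [← LinearMap.ker_eq_bot, LinearMap.ker_eq_bot']
    intro u hu
    apply hnd
    intro v
    have h1 := hg u v
    rw [hu, map_zero, LinearMap.zero_apply] at h1
    exact h1.symm
  obtain ⟨G, hG⟩ : ∃ G : V ≃ₗ[F] V, ∀ v, G v = g v :=
    ⟨LinearEquiv.ofInjectiveEndo g hinj, fun v => rfl⟩
  obtain ⟨g', hg'⟩ : ∃ g' : Module.End F V, ∀ v, g' v = G.symm v := ⟨G.symm, fun v => rfl⟩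
  have hgg' : g * g' = 1 := by
    ext v
    rw [Module.End.mul_apply, hg', ← hG, LinearEquiv.apply_symm_apply, Module.End.one_apply]
  have hg'g : g' * g = 1 := by
    ext v
    rw [Module.End.mul_apply, hg', ← hG, LinearEquiv.symm_apply_apply, Module.End.one_apply]
  have hgg'v : ∀ v, g (g' v) = v := fun v => by
    have := LinearMap.congr_fun hgg' v
    simpa using this
  have hg'gv : ∀ v, g' (g v) = v := fun v => by
    have := LinearMap.congr_fun hg'g v
    simpa using this
  -- the skew operator
  obtain ⟨M, hM⟩ : ∃ M : Module.End F V, M = g - g' := ⟨_, rfl⟩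
  have hskew : ∀ u v, B (M u) v = - B u (M v) := by
    intro u v
    have e1 : B (g u) v = B u (g' v) := by
      have := hg u (g' v)
      rw [hgg'v] at this
      exact this
    have e2 : B (g' u) v = B u (g v) := by
      have := hg (g' u) v
      rw [hgg'v] at this
      exact this.symm
    rw [hM, LinearMap.sub_apply, LinearMap.sub_apply, map_sub, LinearMap.sub_apply, map_sub, e1, e2]
    ring
  have hskewpow : ∀ (k : ℕ) u v, B ((M ^ k) u) v = (-1) ^ k * B u ((M ^ k) v) := by
    intro k
    induction k with
    | zero => intro u v; simp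
    | succ k ih =>
      intro u v
      have e1 : (M ^ (k + 1)) u = (M ^ k) (M u) := by rw [pow_succ, Module.End.mul_apply]
      have e2 : (M ^ (k + 1)) v = M ((M ^ k) v) := by rw [pow_succ', Module.End.mul_apply]
      rw [e1, e2, ih, hskew, pow_succ]
      ring
  -- the alternating form
  obtain ⟨ω, hω⟩ : ∃ ω : V →ₗ[F] V →ₗ[F] F, ∀ u v, ω u v = B ((M ^ j) u) v :=
    ⟨B.comp (M ^ j) LinearMap.id, fun u v => rfl⟩
  have halt : ∀ x, ω x x = 0 := by
    intro x
    have h1 := hskewpow j x x
    rw [hj.neg_one_pow, hs x ((M ^ j) x)] at h1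
    rw [hω]
    have h3 : (2 : F) * B ((M ^ j) x) x = 0 := by linear_combination h1
    rcases mul_eq_zero.1 h3 with h | h
    · exact absurd h h2
    · exact h
  have h1 := alt_even_aux (F := F) (Module.finrank F V) V ω halt rfl
  have hker : LinearMap.ker ω = LinearMap.ker (M ^ j) := by
    ext u
    rw [LinearMap.mem_ker, LinearMap.mem_ker]
    constructor
    · intro hu
      apply hnd
      intro v
      rw [← hω, hu, LinearMap.zero_apply]
    · intro hu
      ext v
      rw [hω, hu, map_zero, LinearMap.zero_apply]
  -- `ker M^j = ker (g - 1)^j`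
  have hcomm : Commute g g' := by
    show g * g' = g' * g
    rw [hgg', hg'g]
  obtain ⟨U, hU⟩ : ∃ U : Module.End F V, U = g' * (g + (1 : Module.End F V)) := ⟨_, rfl⟩
  have hMU : M = U * (g - 1) := by
    rw [hM, hU, mul_assoc]
    have e : (g + 1) * (g - 1) = g * g - 1 := by noncomm_ring
    rw [e, mul_sub, ← mul_assoc, hg'g, one_mul, mul_one]
  have hcU : Commute U (g - 1) := by
    rw [hU]
    have c1 : Commute g' (g - 1) := (hcomm.symm.sub_right (Commute.one_right g'))
    have c2 : Commute (g + 1) (g - 1) :=
      ((Commute.refl g).add_left (Commute.one_left g)).sub_right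
        (Commute.one_right (g + 1))
    exact c1.mul_left c2
  have hMj : M ^ j = U ^ j * (g - 1) ^ j := by
    rw [hMU, hcU.mul_pow]
  have hplus : Function.Injective ⇑(g + (1 : Module.End F V)) := by
    rw [← LinearMap.ker_eq_bot, LinearMap.ker_eq_bot']
    intro v hv
    have hv1 : (g - 1) v = (-2 : F) • v := by
      rw [LinearMap.add_apply, Module.End.one_apply] at hv
      rw [LinearMap.sub_apply, Module.End.one_apply]
      have : g v = -v := eq_neg_of_add_eq_zero_left hv
      rw [this]
      module
    obtain ⟨k, hk⟩ := hnil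
    have hvk : ∀ i : ℕ, ((g - 1) ^ i) v = ((-2 : F) ^ i) • v := by
      intro i
      induction i with
      | zero => simp
      | succ i ih =>
        rw [pow_succ, Module.End.mul_apply, hv1, map_smul, ih, smul_smul, pow_succ, mul_comm]
    have h3 := hvk k
    rw [hk, LinearMap.zero_apply] at h3
    have h4 : ((-2 : F) ^ k) ≠ 0 := pow_ne_zero _ (neg_ne_zero.2 h2)
    exact (smul_eq_zero.1 h3.symm).resolve_left h4
  have hUinj : Function.Injective U := by
    rw [hU]
    intro a b hab
    rw [Module.End.mul_apply, Module.End.mul_apply] at hab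
    apply hplus
    have := congrArg g hab
    rwa [hgg'v, hgg'v] at this
  have hUjinj : Function.Injective (U ^ j) := by
    rw [Module.End.coe_pow]
    exact hUinj.iterate j
  have hker2 : LinearMap.ker (M ^ j) = LinearMap.ker ((g - 1) ^ j) := by
    ext v
    rw [LinearMap.mem_ker, LinearMap.mem_ker, hMj, Module.End.mul_apply]
    constructor
    · intro h
      apply hUjinj
      rw [h, map_zero]
    · intro h
      rw [h, map_zero]
  rw [hker, hker2] at h1
  exact h1

end Cfsg.Agent.H42.Jt
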