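import Mathlib
import Cfsg.Prelude.Def_Classical
import Cfsg.Prelude.Def_GeometricClasses
import Cfsg.Agent.H42.JtDefs
import Cfsg.Agent.H42.JtPar
import Cfsg.Agent.H42.JtMain
import Cfsg.Agent.H42.JtFin
import Cfsg.Agent.H64.JtMin1
import Cfsg.Agent.H37.JtMin2
import Cfsg.Agent.H37.JtA
import Cfsg.Agent.H37.JtK
import Cfsg.Agent.H49.SimpleForms

set_option autoImplicit false

/-! Jordan-type obstruction, minus-type orthogonal groups (S5994; helper42). -/

namespace Cfsg.Agent.H42.Jt

open Cfsg.Agent.H37.JtA Cfsg.Agent.H37.JtK Cfsg.Agent.H16.Jt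
  Cfsg.Agent.H64.Jt Cfsg.Agent.H89.Jt

/-- Refined abstract core: as `jt_abstract`, and if the induced type has no part `1` and
`(X - 1) ^ 2 = 0` then `W` contains a totally isotropic subspace of half its dimension. -/
theorem jt_abstract' {F : Type*} [Field F] {V : Type*} [AddCommGroup V] [Module F V]
    [FiniteDimensional F V] (h2 : (2 : F) ≠ 0) (B : LinearMap.BilinForm F V)
    (hs : ∀ u v, B u v = B v u)
    (X : Module.End F V) (hX : ∀ u v, B (X u) (X v) = B u v) (hXinj : Function.Injective X)
    (p : ℕ) (hp1 : 1 ≤ p) (μ : Multiset ℕ)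
    (hkd : ∀ e, kd (X - 1) e = (μ.map (fun s => min e s)).sum) (hp : (X - 1) ^ p = 0)
    (W : Submodule F V) (hWX : ∀ w ∈ W, X w ∈ W)
    (hWnd : ∀ w ∈ W, w ≠ 0 → ∃ x ∈ W, B w x ≠ 0) :
    ∃ ν : Multiset ℕ, ν ≤ μ ∧ ν.sum = Module.finrank F W ∧
      (∀ e : ℕ, Even e → Even (ν.count e)) ∧
      (ν.count 1 = 0 → (X - 1) ^ 2 = 0 → ∃ U : Submodule F V, U ≤ W ∧ (∀ u ∈ U, B u u = 0) ∧
        2 * Module.finrank F U = Module.finrank F W) := by
  classical
  have hmapW : W.map X = W := by
    apply Submodule.eq_of_le_of_finrank_eq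
    · rintro _ ⟨w, hw, rfl⟩
      exact hWX w hw
    · exact (LinearEquiv.finrank_eq (Submodule.equivMapOfInjective X hXinj W)).symm
  have hrefl : B.IsRefl := fun u v h => by rw [hs]; exact h
  have hBW : (B.restrict W).Nondegenerate := by
    constructor
    · intro w hw
      by_contra hne
      obtain ⟨x, hx, hxne⟩ := hWnd w w.2 (fun h => hne (Subtype.ext h))
      exact hxne (hw ⟨x, hx⟩)
    · intro w hw
      by_contra hne
      obtain ⟨x, hx, hxne⟩ := hWnd w w.2 (fun h => hne (Subtype.ext h))
      apply hxne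
      rw [hs]
      exact hw ⟨x, hx⟩
  have hc : IsCompl W (B.orthogonal W) :=
    B.isCompl_orthogonal_of_restrict_nondegenerate hrefl hBW
  have hW'X : ∀ v ∈ B.orthogonal W, X v ∈ B.orthogonal W := by
    intro v hv
    rw [LinearMap.BilinForm.mem_orthogonal_iff] at hv ⊢
    intro w hw
    rw [← hmapW] at hw
    obtain ⟨w₀, hw₀, rfl⟩ := hw
    rw [hX]
    exact hv w₀ hw₀
  have hWN : ∀ w ∈ W, (X - 1) w ∈ W := fun w hw => by
    rw [LinearMap.sub_apply, Module.End.one_apply]
    exact W.sub_mem (hWX w hw) hw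
  have hW'N : ∀ w ∈ B.orthogonal W, (X - 1) w ∈ B.orthogonal W := fun w hw => by
    rw [LinearMap.sub_apply, Module.End.one_apply]
    exact (B.orthogonal W).sub_mem (hW'X w hw) hw
  have hadd := fun e => kd_isCompl (X - 1) W (B.orthogonal W) hc hWN hW'N e
  obtain ⟨NW, hNW⟩ : ∃ NW : Module.End F W, NW = (X - 1).restrict hWN := ⟨_, rfl⟩
  obtain ⟨NW', hNW'⟩ : ∃ NW' : Module.End F (B.orthogonal W), NW' = (X - 1).restrict hW'N :=
    ⟨_, rfl⟩
  rw [← hNW, ← hNW'] at hadd
  have hjbX : ∀ e, 0 < e → jb (X - 1) e = μ.count e := by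
    intro e he
    have h1 := two_kd_eq (X - 1) e he
    have h2' := min_count μ e he
    rw [hkd, hkd, hkd] at h1
    omega
  have hjbadd : ∀ e, 0 < e → jb (X - 1) e = jb NW e + jb NW' e := by
    intro e he
    have h1 := two_kd_eq (X - 1) e he
    have h2' := two_kd_eq NW e he
    have h3 := two_kd_eq NW' e he
    have a1 := hadd e
    have a2 := hadd (e - 1)
    have a3 := hadd (e + 1)
    omega
  have hNWp : NW ^ p = 0 := by
    rw [hNW, Module.End.pow_restrict]
    ext w
    simp [hp]
  have hgW : X.restrict hWX - 1 = NW := by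
    rw [hNW]
    ext w
    simp
  have hpar : ∀ j, Odd j → Even (Module.finrank F W - kd NW j) := by
    intro j hj
    have h1 := kd_odd_parity h2 (B.restrict W) (fun u v => hs _ _) hBW.1 (X.restrict hWX)
      (fun u v => hX _ _) ⟨p, by rw [hgW]; exact hNWp⟩ j hj
    rwa [hgW] at h1
  have hkdle : ∀ j, kd NW j ≤ Module.finrank F W := fun j => Submodule.finrank_le _
  have hjbeven : ∀ e, Even e → 0 < e → Even (jb NW e) := by
    intro e he he0
    have h1 := two_kd_eq NW e he0
    obtain ⟨k, hk⟩ := he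
    have ho1 : Odd (e - 1) := ⟨k - 1, by omega⟩
    have ho2 : Odd (e + 1) := ⟨k, by omega⟩
    obtain ⟨a, ha⟩ := hpar _ ho1
    obtain ⟨b, hb⟩ := hpar _ ho2
    have l1 := hkdle (e - 1)
    have l2 := hkdle (e + 1)
    rw [Nat.even_iff]
    omega
  have hcount : ∀ a, Multiset.count a
      (∑ e ∈ Finset.range p, Multiset.replicate (jb NW (e + 1)) (e + 1)) =
      if 0 < a ∧ a ≤ p then jb NW a else 0 := by
    intro a
    rw [Multiset.count_sum']
    simp only [Multiset.count_replicate]
    by_cases ha : 0 < a ∧ a ≤ p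
    · rw [if_pos ha, Finset.sum_eq_single (a - 1)]
      · have e1 : a - 1 + 1 = a := by omega
        rw [e1, if_pos rfl]
      · intro e _ hne
        rw [if_neg (by omega)]
      · intro hnot
        exfalso
        apply hnot
        rw [Finset.mem_range]
        omega
    · rw [if_neg ha]
      apply Finset.sum_eq_zero
      intro e he
      rw [Finset.mem_range] at he
      rw [if_neg (by omega)]
  refine ⟨∑ e ∈ Finset.range p, Multiset.replicate (jb NW (e + 1)) (e + 1), ?_, ?_, ?_, ?_⟩
  · rw [Multiset.le_iff_count]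
    intro a
    rw [hcount]
    split_ifs with h
    · have h1 := hjbX a h.1
      have h2' := hjbadd a h.1
      omega
    · exact Nat.zero_le _
  · have h1 : (∑ e ∈ Finset.range p, Multiset.replicate (jb NW (e + 1)) (e + 1)).sum =
        ∑ e ∈ Finset.range p, (Multiset.replicate (jb NW (e + 1)) (e + 1)).sum :=
      map_sum Multiset.sumAddMonoidHom _ _
    rw [h1, ← sum_jb NW p hNWp]
    apply Finset.sum_congr rfl
    intro e _
    rw [Multiset.sum_replicate, smul_eq_mul, mul_comm]
  · intro a ha
    rw [hcount]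
    split_ifs with h
    · exact hjbeven a ha h.1
    · exact ⟨0, rfl⟩
  · intro hc1 hsq
    rw [hcount, if_pos ⟨Nat.one_pos, hp1⟩] at hc1
    have hNW2 : NW ^ 2 = 0 := by
      rw [hNW, Module.End.pow_restrict]
      ext w
      simp [hsq]
    have hk2 : kd NW 2 = Module.finrank F W := kd_of_pow_eq_zero NW 2 hNW2
    have hk0 : kd NW 0 = 0 := kd_zero NW
    have h1 := two_kd_eq NW 1 Nat.one_pos
    have hk1 : 2 * kd NW 1 = Module.finrank F W := by
      rw [h1, hc1, hk0, hk2]
      simp
    have hrn := LinearMap.finrank_range_add_finrank_ker NW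
    have hker : Module.finrank F (LinearMap.ker NW) = kd NW 1 := by
      unfold kd
      rw [pow_one]
    refine ⟨(LinearMap.range NW).map W.subtype, Submodule.map_subtype_le W _, ?_, ?_⟩
    · rintro _ ⟨u, ⟨w, rfl⟩, rfl⟩
      have hNw : ((NW w : W) : V) = (X - 1) w := by
        rw [hNW]
        rfl
      show B ((NW w : W) : V) ((NW w : W) : V) = 0
      rw [hNw]
      have hNN : (X - 1) ((X - 1) (w : V)) = 0 := by
        have := congrArg (fun T : Module.End F V => T (w : V)) hsq
        simpa [pow_two] using this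
      have hXN : X ((X - 1) (w : V)) = (X - 1) (w : V) := by
        have h := hNN
        rw [LinearMap.sub_apply, Module.End.one_apply, sub_eq_zero] at h
        exact h
      have e1 : B ((X - 1) (w : V)) (w : V) = B ((X - 1) (w : V)) (X (w : V)) := by
        conv_lhs => rw [← hX, hXN]
      have e2 : X (w : V) = (w : V) + (X - 1) (w : V) := by
        rw [LinearMap.sub_apply, Module.End.one_apply]
        abel
      rw [e2, map_add] at e1
      have := e1
      rw [left_eq_add] at this
      exact this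
    · rw [(Submodule.equivSubtypeMap W (LinearMap.range NW)).finrank_eq.symm]
      omega


/-- Refined matrix-level core: as `jt_core`, with an extra property `T` of the fixed subspace
carried along, and the plus-type conclusion when `μ` has parts `≤ 2` and the induced type has no
part `1`. -/
theorem jt_core' {ι : Type} [Fintype ι] [DecidableEq ι] {F : Type*} [Field F] [Fintype F]
    {p : ℕ} [Fact p.Prime] [CharP F p] (h2 : (2 : F) ≠ 0)
    (Q : QuadraticForm F (ι → F)) (hQ : (QuadraticMap.polarBilin Q).Nondegenerate)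
    (μ : Multiset ℕ) (hμ : ∀ e ∈ μ, 0 < e ∧ e ≤ p) (hsum : μ.sum = Fintype.card ι)
    (hHD : HD (⇑Q) μ) (m : ℕ) (hm : m ≤ Fintype.card ι)
    (T : Submodule F (ι → F) → Prop)
    (H : ∀ x : Matrix.GeneralLinearGroup ι F, x ∈ Cfsg.Geo.omegaGL (⇑Q) → x ^ p = 1 →
      (∀ z : F, (x : Matrix ι ι F) ≠ z • (1 : Matrix ι ι F)) →
      ∃ W : Submodule F (ι → F), Module.finrank F W = m ∧
        Cfsg.Geo.IsNondegenerateOn (QuadraticMap.polar (⇑Q)) W ∧
        W.map (Matrix.toLin' (x : Matrix ι ι F)) ≤ W ∧ T W) :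
    ∃ ν : Multiset ℕ, ν ≤ μ ∧ ν.sum = m ∧ (∀ e : ℕ, Even e → Even (ν.count e)) ∧
      ((∀ e ∈ μ, e ≤ 2) → ν.count 1 = 0 → 0 < m →
        ∃ W : Submodule F (ι → F), T W ∧ Cfsg.Geo.IsPlusTypeOn (⇑Q) W) := by
  classical
  by_cases hall : ∀ e ∈ μ, e = 1
  · have hrep : μ = Multiset.replicate (Multiset.card μ) 1 := Multiset.eq_replicate_card.mpr hall
    have hcard : Multiset.card μ = Fintype.card ι := by
      rw [← hsum]
      conv_rhs => rw [hrep]
      simp
    refine ⟨Multiset.replicate m 1, ?_, ?_, ?_, ?_⟩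
    · rw [hrep, hcard]
      exact (Multiset.replicate_le_replicate 1).mpr hm
    · simp
    · intro e he
      rw [Multiset.count_replicate]
      split_ifs with h
      · subst h
        exact absurd he (by decide)
      · exact ⟨0, rfl⟩
    · intro _ hc hm0
      rw [Multiset.count_replicate_self] at hc
      omega
  · push Not at hall
    obtain ⟨e₀, he₀, hne⟩ := hall
    obtain ⟨N, hNskew, hNkd⟩ := hHD
    have hfr : Module.finrank F (ι → F) = Fintype.card ι := Module.finrank_fintype_fun_eq_card F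
    have hNp : N ^ p = 0 := by
      have h1 : (Matrix.toLin' N) ^ p = 0 := by
        apply pow_eq_zero_of_kd
        rw [hNkd, sum_min_of_le μ p (fun e he => (hμ e he).2), hsum, hfr]
      have h2' : Matrix.toLin' (N ^ p) = 0 := by
        rw [Matrix.toLin'_pow]
        exact h1
      exact Matrix.toLin'.injective (by rw [h2', map_zero])
    obtain ⟨x, hxΩ, hxp, hxkd⟩ := exists_omega_unipotent h2 Q hQ N hNskew hNp
    have hX1 : Matrix.toLin' (x : Matrix ι ι F) - 1 = Matrix.toLin' ((x : Matrix ι ι F) - 1) := by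
      rw [map_sub, Matrix.toLin'_one]
      rfl
    have hkdX : ∀ e, kd (Matrix.toLin' (x : Matrix ι ι F) - 1) e
        = (μ.map (fun s => min e s)).sum := by
      intro e
      rw [hX1, hxkd, hNkd]
    have hcardlt : Multiset.card μ < Fintype.card ι := by
      rw [← hsum]
      exact card_lt_sum μ (fun e he => (hμ e he).1) e₀ he₀ hne
    have hcardpos : 0 < Multiset.card μ := Multiset.card_pos_iff_exists_mem.mpr ⟨e₀, he₀⟩
    have hns : ∀ z : F, (x : Matrix ι ι F) ≠ z • (1 : Matrix ι ι F) := by
      intro z hz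
      have h1 := hkdX 1
      rw [sum_min_one μ (fun e he => (hμ e he).1)] at h1
      rw [hX1, hz] at h1
      have h3 : Matrix.toLin' (z • (1 : Matrix ι ι F) - 1)
          = (z - 1) • (1 : Module.End F (ι → F)) := by
        rw [map_sub, map_smul, Matrix.toLin'_one]
        apply LinearMap.ext
        intro v
        show z • v - v = (z - 1) • v
        rw [sub_smul, one_smul]
      rw [h3] at h1
      unfold kd at h1
      rw [pow_one] at h1
      by_cases hz1 : z = 1
      · subst hz1
        rw [sub_self, zero_smul, LinearMap.ker_zero, finrank_top, hfr] at h1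
        omega
      · have hk : LinearMap.ker ((z - 1) • (1 : Module.End F (ι → F))) = ⊥ := by
          rw [LinearMap.ker_eq_bot']
          intro v hv
          rw [LinearMap.smul_apply, Module.End.one_apply, smul_eq_zero] at hv
          exact hv.resolve_left (sub_ne_zero.mpr hz1)
        rw [hk, finrank_bot] at h1
        omega
    obtain ⟨W, hWm, hWnd, hWx, hWT⟩ := H x hxΩ hxp hns
    have hiso : ∀ u : ι → F, Q ((x : Matrix ι ι F).mulVec u) = Q u := by
      obtain ⟨y, hy, rfl⟩ := hxΩ
      exact Cfsg.Agent.H49.mem_isometryGroup_iff.mp y.2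
    have hpolar : ∀ u v : ι → F,
        QuadraticMap.polarBilin Q (Matrix.toLin' (x : Matrix ι ι F) u)
          (Matrix.toLin' (x : Matrix ι ι F) v) = QuadraticMap.polarBilin Q u v := by
      intro u v
      simp only [QuadraticMap.polarBilin_apply_apply, QuadraticMap.polar, Matrix.toLin'_apply]
      rw [← Matrix.mulVec_add, hiso, hiso, hiso]
    have hinj : Function.Injective (Matrix.toLin' (x : Matrix ι ι F)) := by
      intro u v huv
      rw [Matrix.toLin'_apply, Matrix.toLin'_apply] at huv
      exact (Matrix.mulVec_injective_iff_isUnit.mpr x.isUnit) huv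
    have hpX : (Matrix.toLin' (x : Matrix ι ι F) - 1) ^ p = 0 := by
      apply pow_eq_zero_of_kd
      rw [hkdX, sum_min_of_le μ p (fun e he => (hμ e he).2), hsum, hfr]
    obtain ⟨ν, hν, hνs, hνe, hνp⟩ := jt_abstract' h2 (QuadraticMap.polarBilin Q)
      (fun u v => by
        simp only [QuadraticMap.polarBilin_apply_apply]
        exact QuadraticMap.polar_comm _ _ _)
      (Matrix.toLin' (x : Matrix ι ι F)) hpolar hinj p (Fact.out : p.Prime).one_lt.le μ hkdX hpX W
      (fun w hw => hWx (Submodule.mem_map_of_mem hw))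
      (fun w hw hne => by
        obtain ⟨y, hy, hyne⟩ := (hWnd w hw hne).2
        exact ⟨y, hy, by simpa [QuadraticMap.polarBilin_apply_apply] using hyne⟩)
    refine ⟨ν, hν, hνs.trans hWm, hνe, ?_⟩
    intro hle2 hc1 _
    have hsq : (Matrix.toLin' (x : Matrix ι ι F) - 1) ^ 2 = 0 := by
      apply pow_eq_zero_of_kd
      rw [hkdX, sum_min_of_le μ 2 hle2, hsum, hfr]
    obtain ⟨U, hUW, hU0, hUd⟩ := hνp hc1 hsq
    refine ⟨W, hWT, U, hUW, ?_, hUd⟩
    intro u hu
    have h := hU0 u hu
    rw [QuadraticMap.polarBilin_apply_apply, QuadraticMap.polar_self, two_nsmul, ← two_mul] at h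
    exact (mul_eq_zero.mp h).resolve_left h2

/-- The minus-type statement (S5994). -/
theorem jt_minus {F : Type*} [Field F] [Fintype F] {p : ℕ} [Fact p.Prime] [CharP F p]
    (h2 : (2 : F) ≠ 0) (d m : ℕ) (hd : 2 ≤ d) (hm : 2 ≤ m) (hme : Even m)
    (hmn : m + 2 ≤ 2 * d) (a b : F)
    (hab : ∀ x y : F, x ^ 2 + a * x * y + b * y ^ 2 = 0 → x = 0 ∧ y = 0)
    (H : ∀ x : Matrix.GeneralLinearGroup ((Fin (d - 1) ⊕ Fin (d - 1)) ⊕ Fin 2) F,
      x ∈ Cfsg.Geo.omegaGL (Cfsg.quadFormMinus (d - 1) F a b) → x ^ p = 1 →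
      (∀ z : F, (x : Matrix ((Fin (d - 1) ⊕ Fin (d - 1)) ⊕ Fin 2)
          ((Fin (d - 1) ⊕ Fin (d - 1)) ⊕ Fin 2) F)
        ≠ z • (1 : Matrix ((Fin (d - 1) ⊕ Fin (d - 1)) ⊕ Fin 2)
          ((Fin (d - 1) ⊕ Fin (d - 1)) ⊕ Fin 2) F)) →
      ∃ W : Submodule F ((Fin (d - 1) ⊕ Fin (d - 1)) ⊕ Fin 2 → F), Module.finrank F W = m ∧
        Cfsg.Geo.IsNondegenerateOn (QuadraticMap.polar (Cfsg.quadFormMinus (d - 1) F a b)) W ∧
        W.map (Matrix.toLin' (x : Matrix ((Fin (d - 1) ⊕ Fin (d - 1)) ⊕ Fin 2)
          ((Fin (d - 1) ⊕ Fin (d - 1)) ⊕ Fin 2) F)) ≤ W ∧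
        ¬ Cfsg.Geo.IsPlusTypeOn (Cfsg.quadFormMinus (d - 1) F a b) W) :
    (2 * d) % 4 = m % 4 ∧ ∀ μ : Multiset ℕ, (∀ e ∈ μ, 0 < e ∧ e ≤ p) →
      (∀ e : ℕ, Even e → Even (μ.count e)) → μ.sum = 2 * d →
      ∃ ν : Multiset ℕ, ν ≤ μ ∧ ν.sum = m ∧ ∀ e : ℕ, Even e → Even (ν.count e) := by
  have hprime := (Fact.out : p.Prime)
  have hpne : p ≠ 2 := by
    rintro rfl
    apply h2
    have := CharP.cast_eq_zero F 2
    exact_mod_cast this
  have hp3 : 3 ≤ p := by
    have hp2 := hprime.two_le
    omega
  have hpodd : Odd p := hprime.odd_of_ne_two hpne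
  have hdisc : a ^ 2 - 4 * b ≠ 0 := by
    intro h
    have := hab (-a) 2 (by linear_combination -h)
    exact h2 this.2
  have hcard : Fintype.card ((Fin (d - 1) ⊕ Fin (d - 1)) ⊕ Fin 2) = 2 * d := by
    rw [Fintype.card_sum, Fintype.card_sum, Fintype.card_fin, Fintype.card_fin]
    omega
  have core : ∀ μ : Multiset ℕ, (∀ e ∈ μ, 0 < e ∧ e ≤ p) →
      (∀ e : ℕ, Even e → Even (μ.count e)) → μ.sum = 2 * d → (∃ e ∈ μ, Odd e) →
      ∃ ν : Multiset ℕ, ν ≤ μ ∧ ν.sum = m ∧ (∀ e : ℕ, Even e → Even (ν.count e)) ∧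
        ((∀ e ∈ μ, e ≤ 2) → ν.count 1 = 0 → False) := by
    intro μ hμ hev hsum hodd
    have hHD : HD (Cfsg.quadFormMinus (d - 1) F a b) μ :=
      comb_minus (fun s μ => HD (Cfsg.quadFormPlus s F) μ)
        (fun s μ => HD (Cfsg.quadFormMinus s F a b) μ)
        HD_zero HD_plus_add HD_pair (HD_odd_pair h2) (HD_minus_pair h2 a b hdisc)
        (HD_minus_add a b) μ (d - 1) (fun e he => (hμ e he).1) hev (by rw [hsum]; omega) hodd
    obtain ⟨ν, hν, hνs, hνe, hνp⟩ := jt_core' h2 (Cfsg.Agent.H49.QMin (d - 1) F a b)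
      (Cfsg.Agent.H49.QMin_nondeg (d - 1) a b hdisc) μ hμ
      (by rw [hsum, hcard]) hHD m (by rw [hcard]; omega)
      (fun W => ¬ Cfsg.Geo.IsPlusTypeOn (Cfsg.quadFormMinus (d - 1) F a b) W) H
    refine ⟨ν, hν, hνs, hνe, ?_⟩
    intro hle hc
    obtain ⟨W, hW1, hW2⟩ := hνp hle hc (by omega)
    exact hW1 hW2
  have main : ∀ μ : Multiset ℕ, (∀ e ∈ μ, 0 < e ∧ e ≤ p) →
      (∀ e : ℕ, Even e → Even (μ.count e)) → μ.sum = 2 * d →
      ∃ ν : Multiset ℕ, ν ≤ μ ∧ ν.sum = m ∧ ∀ e : ℕ, Even e → Even (ν.count e) :=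
    sub_of_all_even p m (2 * d) hpodd (by omega) hme
      (fun μ hμ hev hsum hodd => by
        obtain ⟨ν, h1, h3, h4, _⟩ := core μ hμ hev hsum hodd
        exact ⟨ν, h1, h3, h4⟩)
  refine ⟨?_, main⟩
  rcases Nat.even_or_odd d with hde | hdo
  · -- d even: μ = replicate (d - 2) 2 + {3} + {1}
    obtain ⟨k, hk⟩ := hde
    obtain ⟨ν, hν, hνs, hνe⟩ := main (Multiset.replicate (d - 2) 2 + ({3} + {1}))
      (by
        intro e he
        rw [Multiset.mem_add, Multiset.mem_replicate, Multiset.mem_add, Multiset.mem_singleton,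
          Multiset.mem_singleton] at he
        rcases he with ⟨_, rfl⟩ | rfl | rfl <;> omega)
      (by
        intro e he
        rw [Multiset.count_add, Multiset.count_replicate, Multiset.count_add,
          Multiset.count_singleton, Multiset.count_singleton]
        by_cases h : e = 2
        · subst h
          simp only [if_true]
          exact ⟨k - 1, by norm_num; omega⟩
        · have h1 : e ≠ 3 := by
            rintro rfl
            exact absurd he (by decide)
          have h1' : e ≠ 1 := by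
            rintro rfl
            exact absurd he (by decide)
          rw [if_neg (Ne.symm h), if_neg h1, if_neg h1']
          exact ⟨0, rfl⟩)
      (by
        rw [Multiset.sum_add, Multiset.sum_replicate, Multiset.sum_add, Multiset.sum_singleton,
          Multiset.sum_singleton, smul_eq_mul]
        omega)
    have hmem : ∀ e ∈ ν, e = 1 ∨ e = 2 ∨ e = 3 := by
      intro e he
      have := Multiset.mem_of_le hν he
      rw [Multiset.mem_add, Multiset.mem_replicate, Multiset.mem_add, Multiset.mem_singleton,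
        Multiset.mem_singleton] at this
      rcases this with ⟨_, rfl⟩ | rfl | rfl <;> simp
    have hs := sum_123 ν hmem
    have c3 : ν.count 3 ≤ 1 := by
      have := Multiset.count_le_of_le 3 hν
      rw [Multiset.count_add, Multiset.count_replicate, Multiset.count_add,
        Multiset.count_singleton, Multiset.count_singleton] at this
      simpa using this
    have c1 : ν.count 1 ≤ 1 := by
      have := Multiset.count_le_of_le 1 hν
      rw [Multiset.count_add, Multiset.count_replicate, Multiset.count_add,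
        Multiset.count_singleton, Multiset.count_singleton] at this
      simpa using this
    obtain ⟨k', hk'⟩ := hνe 2 (by decide)
    obtain ⟨j, hj⟩ := hme
    have h1 : ν.count 1 = 0 ∨ ν.count 1 = 1 := by omega
    have h3 : ν.count 3 = 0 ∨ ν.count 3 = 1 := by omega
    rcases h1 with h1 | h1 <;> rcases h3 with h3 | h3 <;> omega
  · -- d odd: μ = replicate (d - 1) 2 + {1} + {1}
    obtain ⟨k, hk⟩ := hdo
    obtain ⟨ν, hν, hνs, hνe, hνp⟩ := core (Multiset.replicate (d - 1) 2 + ({1} + {1}))
      (by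
        intro e he
        rw [Multiset.mem_add, Multiset.mem_replicate, Multiset.mem_add, Multiset.mem_singleton] at he
        rcases he with ⟨_, rfl⟩ | rfl | rfl <;> omega)
      (by
        intro e he
        rw [Multiset.count_add, Multiset.count_replicate, Multiset.count_add,
          Multiset.count_singleton]
        by_cases h : e = 2
        · subst h
          simp only [if_true]
          exact ⟨k, by norm_num; omega⟩
        · have h1' : e ≠ 1 := by
            rintro rfl
            exact absurd he (by decide)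
          rw [if_neg (Ne.symm h), if_neg h1']
          exact ⟨0, rfl⟩)
      (by
        rw [Multiset.sum_add, Multiset.sum_replicate, Multiset.sum_add, Multiset.sum_singleton,
          smul_eq_mul]
        omega)
      ⟨1, by simp, by decide⟩
    have hmem : ∀ e ∈ ν, e = 1 ∨ e = 2 ∨ e = 3 := by
      intro e he
      have := Multiset.mem_of_le hν he
      rw [Multiset.mem_add, Multiset.mem_replicate, Multiset.mem_add, Multiset.mem_singleton] at this
      rcases this with ⟨_, rfl⟩ | rfl | rfl <;> simp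
    have hs := sum_123 ν hmem
    have c3 : ν.count 3 = 0 := by
      have := Multiset.count_le_of_le 3 hν
      rw [Multiset.count_add, Multiset.count_replicate, Multiset.count_add,
        Multiset.count_singleton] at this
      simpa using this
    have c1 : ν.count 1 ≤ 2 := by
      have := Multiset.count_le_of_le 1 hν
      rw [Multiset.count_add, Multiset.count_replicate, Multiset.count_add,
        Multiset.count_singleton] at this
      simpa using this
    have c1' : ν.count 1 ≠ 0 := by
      intro hc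
      apply hνp _ hc
      intro e he
      rw [Multiset.mem_add, Multiset.mem_replicate, Multiset.mem_add, Multiset.mem_singleton] at he
      rcases he with ⟨_, rfl⟩ | rfl | rfl <;> omega
    obtain ⟨k', hk'⟩ := hνe 2 (by decide)
    obtain ⟨j, hj⟩ := hme
    have h1 : ν.count 1 = 1 ∨ ν.count 1 = 2 := by omega
    rcases h1 with h1 | h1 <;> omega

end Cfsg.Agent.H42.Jt
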