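import Cfsg.Agent.H64.JzFinal
import Cfsg.Agent.H3.JyPair

/-!
# S2953 (team project JY), KILL2: the `P`-side interface

For any configuration `Base S M T K L`, with `O = O₂(K)` and `D = O₂(K ⊔ T)`: elementary facts on
`P = K ⊔ T` in the element-wise shape needed by the abstract cores of the kill.
-/

set_option autoImplicit false
open Cfsg

namespace Cfsg.Agent.H42.Jy

open Cfsg.Agent.H64.Jz

universe u

variable {G : Type u} [Group G] [Finite G] {S : Sylow 2 G} {M T K L : Subgroup G}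

theorem pTK (hB : Base S M T K L) : T ≤ Subgroup.normalizer (K : Set G) :=
  normFinal S M T K L hB (stMain S M T K L hB)

theorem pJ (hB : Base S M T K L) : IsJComponent T K := hB.2.2.2.2.2.2.1.1.1

theorem pOK (K : Subgroup G) : pCoreOf 2 K ≤ K := Cfsg.Agent.H51.pCoreOf_le 2 K

theorem pSylL (hB : Base S M T K L) : IsSylowTwoIn T L :=
  (Cfsg.Agent.H4.Jk.ka S M T K L hB).1.1

theorem pT2 (hB : Base S M T K L) : IsPGroup 2 ↥T := (pSylL hB).2.1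

theorem pOT (hB : Base S M T K L) : pCoreOf 2 K ≤ T :=
  (Cfsg.Agent.H4.Jk.ka S M T K L hB).2.1.trans
    (Cfsg.Agent.Helper55.J48.pCoreOf_le_of_sylowIn (pSylL hB))

/-- `K` is not a 2-group. -/
theorem pKnot2 (hB : Base S M T K L) : ¬ IsPGroup 2 ↥K := by
  intro h
  have h3 := (pJ hB).2.2.1
  have hle : K ≤ pCoreOf 2 K := Cfsg.Agent.H51.le_pCoreOf 2 le_rfl Subgroup.le_normalizer h
  have : (pCoreOf 2 K).relIndex K = 1 := Subgroup.relIndex_eq_one.mpr hle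
  omega

omit [Finite G] in
/-- An element normalizing `K` normalizes `O₂(K)`. -/
theorem pNormO {K : Subgroup G} {x : G} (hx : x ∈ Subgroup.normalizer (K : Set G)) :
    x ∈ Subgroup.normalizer (pCoreOf 2 K : Set G) := by
  rw [Subgroup.mem_normalizer_iff_map_conj_eq] at hx ⊢
  have h := Cfsg.Agent.H51.pCoreOf_map 2 K (MulAut.conj x)
  have hx' : K.map (MulAut.conj x).toMonoidHom = K := hx
  rw [hx'] at h
  exact h.symm

omit [Finite G] in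
theorem cube_mem {K O : Subgroup G} (hn : K ≤ Subgroup.normalizer (O : Set G))
    (h3 : O.relIndex K = 3) : ∀ g ∈ K, g ^ 3 ∈ O := by
  intro g hg
  haveI : (O.subgroupOf K).Normal := Subgroup.normal_subgroupOf_of_le_normalizer hn
  have hcard : Nat.card (↥K ⧸ O.subgroupOf K) = 3 := by
    rw [← Subgroup.index_eq_card]; exact h3
  have h1 : (QuotientGroup.mk (⟨g, hg⟩ : K) : ↥K ⧸ O.subgroupOf K) ^ 3 = 1 := by
    rw [← hcard]; exact pow_card_eq_one'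
  rw [← QuotientGroup.mk_pow] at h1
  have := (QuotientGroup.eq_one_iff ((⟨g, hg⟩ : K) ^ 3)).mp h1
  exact this

omit [Finite G] in
theorem three_cosets {K O : Subgroup G} (hn : K ≤ Subgroup.normalizer (O : Set G))
    (h3 : O.relIndex K = 3) :
    ∀ g ∈ K, g ∉ O → ∀ h ∈ K, h ∈ O ∨ h * g⁻¹ ∈ O ∨ h * g ∈ O := by
  intro g hg hgO h hh
  haveI : (O.subgroupOf K).Normal := Subgroup.normal_subgroupOf_of_le_normalizer hn
  have hcard : Nat.card (↥K ⧸ O.subgroupOf K) = 3 := by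
    rw [← Subgroup.index_eq_card]; exact h3
  haveI : Fact (Nat.Prime 3) := ⟨Nat.prime_three⟩
  have hmem : ∀ y : K, (QuotientGroup.mk y : ↥K ⧸ O.subgroupOf K) = 1 → (y : G) ∈ O :=
    fun y hy => (QuotientGroup.eq_one_iff y).mp hy
  have hgq1 : (QuotientGroup.mk (⟨g, hg⟩ : K) : ↥K ⧸ O.subgroupOf K) ≠ 1 :=
    fun h1 => hgO (hmem _ h1)
  obtain ⟨n, hn'⟩ := mem_powers_of_prime_card hcard hgq1
    (g' := (QuotientGroup.mk (⟨h, hh⟩ : K) : ↥K ⧸ O.subgroupOf K))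
  have hn'' : (QuotientGroup.mk (⟨g, hg⟩ : K) : ↥K ⧸ O.subgroupOf K) ^ n =
      QuotientGroup.mk (⟨h, hh⟩ : K) := hn'
  have hg3 : (QuotientGroup.mk (⟨g, hg⟩ : K) : ↥K ⧸ O.subgroupOf K) ^ 3 = 1 := by
    rw [← hcard]; exact pow_card_eq_one'
  have key : (QuotientGroup.mk (⟨h, hh⟩ : K) : ↥K ⧸ O.subgroupOf K) =
      (QuotientGroup.mk (⟨g, hg⟩ : K) : ↥K ⧸ O.subgroupOf K) ^ (n % 3) := by
    rw [← hn'']
    conv_lhs => rw [← Nat.div_add_mod n 3, pow_add, pow_mul, hg3, one_pow, one_mul]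
  have h3' : n % 3 < 3 := Nat.mod_lt _ (by norm_num)
  interval_cases hm : n % 3
  · left
    rw [pow_zero] at key
    exact hmem ⟨h, hh⟩ key
  · right; left
    rw [pow_one] at key
    have : (QuotientGroup.mk ((⟨h, hh⟩ : K) * (⟨g, hg⟩ : K)⁻¹) : ↥K ⧸ O.subgroupOf K) = 1 := by
      rw [QuotientGroup.mk_mul, QuotientGroup.mk_inv, key]; exact mul_inv_cancel _
    exact hmem _ this
  · right; right
    have : (QuotientGroup.mk ((⟨h, hh⟩ : K) * (⟨g, hg⟩ : K)) : ↥K ⧸ O.subgroupOf K) = 1 := by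
      rw [QuotientGroup.mk_mul, key, ← pow_succ]; exact hg3
    exact hmem _ this

/-- `K ⊔ T` normalizes `O₂(K)`. -/
theorem pPO (hB : Base S M T K L) : K ⊔ T ≤ Subgroup.normalizer (pCoreOf 2 K : Set G) :=
  sup_le (Cfsg.Agent.H51.le_normalizer_pCoreOf 2 K) (fun _ ht => pNormO (pTK hB ht))

theorem pOconj (hB : Base S M T K L) : ∀ g ∈ K ⊔ T, ∀ o ∈ pCoreOf 2 K, g * o * g⁻¹ ∈ pCoreOf 2 K :=
  fun g hg o ho => (Subgroup.mem_normalizer_iff.mp (pPO hB hg) o).mp ho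

theorem pOD (hB : Base S M T K L) : pCoreOf 2 K ≤ pCoreOf 2 (K ⊔ T) :=
  Cfsg.Agent.H51.le_pCoreOf 2 ((pOK K).trans le_sup_left) (pPO hB)
    (Cfsg.Agent.H51.pCoreOf_isPGroup 2 K)

theorem pKcube (hB : Base S M T K L) : ∀ g ∈ K, g ^ 3 ∈ pCoreOf 2 K :=
  cube_mem (Cfsg.Agent.H51.le_normalizer_pCoreOf 2 K) (pJ hB).2.2.1

theorem pKsq (hB : Base S M T K L) : ∀ g ∈ K, g * g ∈ pCoreOf 2 K → g ∈ pCoreOf 2 K := by
  intro g hg h2
  have h3 := pKcube hB g hg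
  have : g = g ^ 3 * (g * g)⁻¹ := by group
  rw [this]
  exact (pCoreOf 2 K).mul_mem h3 ((pCoreOf 2 K).inv_mem h2)

theorem pKthree (hB : Base S M T K L) : ∀ g ∈ K, g ∉ pCoreOf 2 K → ∀ h ∈ K,
    h ∈ pCoreOf 2 K ∨ h * g⁻¹ ∈ pCoreOf 2 K ∨ h * g ∈ pCoreOf 2 K :=
  three_cosets (Cfsg.Agent.H51.le_normalizer_pCoreOf 2 K) (pJ hB).2.2.1

theorem pKex (hB : Base S M T K L) : ∃ k ∈ K, k ∉ pCoreOf 2 K := by
  by_contra h
  push_neg at h
  have : (pCoreOf 2 K).relIndex K = 1 := Subgroup.relIndex_eq_one.mpr h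
  have h3 := (pJ hB).2.2.1
  omega

theorem pstructD (hB : Base S M T K L) :
    pCoreOf 2 (K ⊔ T) ≤ T ∧ (pCoreOf 2 (K ⊔ T)).relIndex T ≤ 2 := by
  obtain ⟨hgen, -, hO3, -, -, -⟩ := pJ hB
  obtain ⟨Q, hQT, hPQ, hidx, hdich⟩ := Cfsg.Agent.H59.PushKill.pstruct K T (pCoreOf 2 K) (pT2 hB)
    (pTK hB) (pOK K) (pOT hB) hO3 hgen
  have hQD : Q ≤ pCoreOf 2 (K ⊔ T) :=
    Cfsg.Agent.H51.le_pCoreOf 2 (hQT.trans le_sup_right) hPQ ((pT2 hB).to_le hQT)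
  have hDQ : pCoreOf 2 (K ⊔ T) ≤ Q := by
    have hcj : ∀ x ∈ K ⊔ T, Cfsg.Agent.H59.PushKill.cj (pCoreOf 2 (K ⊔ T)) x =
        pCoreOf 2 (K ⊔ T) := by
      intro x hx
      have hxn := Cfsg.Agent.H51.le_normalizer_pCoreOf 2 (K ⊔ T) hx
      exact Subgroup.mem_normalizer_iff_map_conj_eq.mp hxn
    rcases hdich (pCoreOf 2 (K ⊔ T)) (Cfsg.Agent.H51.pCoreOf_le 2 _) hcj with h | h
    · exact h
    · exact absurd ((Cfsg.Agent.H51.pCoreOf_isPGroup 2 (K ⊔ T)).to_le h) (pKnot2 hB)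
  have hDeq : pCoreOf 2 (K ⊔ T) = Q := le_antisymm hDQ hQD
  rw [hDeq]; exact ⟨hQT, hidx⟩

theorem pDT (hB : Base S M T K L) : pCoreOf 2 (K ⊔ T) ≤ T := (pstructD hB).1

theorem pKD (K T : Subgroup G) : K ≤ Subgroup.normalizer (pCoreOf 2 (K ⊔ T) : Set G) :=
  le_sup_left.trans (Cfsg.Agent.H51.le_normalizer_pCoreOf 2 (K ⊔ T))

theorem pTD (K T : Subgroup G) : T ≤ Subgroup.normalizer (pCoreOf 2 (K ⊔ T) : Set G) :=
  le_sup_right.trans (Cfsg.Agent.H51.le_normalizer_pCoreOf 2 (K ⊔ T))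

theorem pDidx (hB : Base S M T K L) : ∀ a ∈ T, ∀ b ∈ T, a ∉ pCoreOf 2 (K ⊔ T) →
    b ∉ pCoreOf 2 (K ⊔ T) → a * b ∈ pCoreOf 2 (K ⊔ T) := by
  intro a ha b hb haD hbD
  obtain ⟨hDT, hidx⟩ := pstructD hB
  have h0 : ((pCoreOf 2 (K ⊔ T)).subgroupOf T).index ≠ 0 := Subgroup.index_ne_zero_of_finite
  have h1 : ((pCoreOf 2 (K ⊔ T)).subgroupOf T).index ≠ 1 := by
    intro h
    rw [Subgroup.index_eq_one] at h
    apply haD
    have : (⟨a, ha⟩ : T) ∈ (pCoreOf 2 (K ⊔ T)).subgroupOf T := by rw [h]; trivial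
    exact this
  have h2 : ((pCoreOf 2 (K ⊔ T)).subgroupOf T).index = 2 := by
    have : ((pCoreOf 2 (K ⊔ T)).subgroupOf T).index ≤ 2 := hidx
    omega
  have := (Subgroup.mul_mem_iff_of_index_two h2 (a := (⟨a, ha⟩ : T)) (b := ⟨b, hb⟩)).mpr
    ⟨fun h => absurd h haD, fun h => absurd h hbD⟩
  exact this

/-- `O₂(K ⊔ T) ∩ K ≤ O₂(K)`. -/
theorem pDK_le (K T : Subgroup G) : pCoreOf 2 (K ⊔ T) ⊓ K ≤ pCoreOf 2 K := by
  apply Cfsg.Agent.H51.le_pCoreOf 2 inf_le_right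
  · intro k hk
    have h1 := pKD K T hk
    rw [Subgroup.mem_normalizer_iff] at h1 ⊢
    intro h
    constructor
    · rintro ⟨hD, hK⟩
      exact ⟨(h1 h).mp hD, K.mul_mem (K.mul_mem hk hK) (K.inv_mem hk)⟩
    · rintro ⟨hD, hK⟩
      refine ⟨(h1 h).mpr hD, ?_⟩
      have : h = k⁻¹ * (k * h * k⁻¹) * k := by group
      rw [this]
      exact K.mul_mem (K.mul_mem (K.inv_mem hk) hK) hk
  · exact (Cfsg.Agent.H51.pCoreOf_isPGroup 2 (K ⊔ T)).to_le inf_le_left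

/-- `O₂(K ⊔ T)` centralizes `K / O₂(K)`. -/
theorem pDcent (hB : Base S M T K L) : ∀ d ∈ pCoreOf 2 (K ⊔ T), ∀ k ∈ K,
    d * k * d⁻¹ * k⁻¹ ∈ pCoreOf 2 K := by
  intro d hd k hk
  apply pDK_le K T
  refine ⟨?_, ?_⟩
  · have hkn := pKD K T hk
    have h1 : k * d⁻¹ * k⁻¹ ∈ pCoreOf 2 (K ⊔ T) :=
      (Subgroup.mem_normalizer_iff.mp hkn d⁻¹).mp ((pCoreOf 2 (K ⊔ T)).inv_mem hd)
    have e : d * k * d⁻¹ * k⁻¹ = d * (k * d⁻¹ * k⁻¹) := by group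
    rw [e]; exact (pCoreOf 2 (K ⊔ T)).mul_mem hd h1
  · have hdT : d ∈ T := pDT hB hd
    have h1 : d * k * d⁻¹ ∈ K := (Subgroup.mem_normalizer_iff.mp (pTK hB hdT) k).mp hk
    exact K.mul_mem h1 (K.inv_mem hk)

/-- `T` does not centralize `K / O₂(K)`. -/
theorem pNotAll (hB : Base S M T K L) :
    ¬ (∀ t ∈ T, ∀ k ∈ K, t * k * t⁻¹ * k⁻¹ ∈ pCoreOf 2 K) := by
  intro h
  obtain ⟨k, hk, hkO⟩ := pKex hB
  have hcomm : ⁅K, thompsonSubgroupOf 2 T⁆ = K := (pJ hB).2.1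
  have hle : ⁅K, thompsonSubgroupOf 2 T⁆ ≤ pCoreOf 2 K := by
    rw [Subgroup.commutator_le]
    intro a ha j hj
    have hjT : j ∈ T := Cfsg.Agent.H14.thompsonSubgroupOf_le 2 T hj
    have h1 := h j hjT a ha
    rw [commutatorElement_def]
    have e : a * j * a⁻¹ * j⁻¹ = (j * a * j⁻¹ * a⁻¹)⁻¹ := by group
    rw [e]; exact (pCoreOf 2 K).inv_mem h1
  exact hkO (hle (by rw [hcomm]; exact hk))

theorem pTneD (hB : Base S M T K L) : ∃ a ∈ T, a ∉ pCoreOf 2 (K ⊔ T) := by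
  by_contra h
  push_neg at h
  exact pNotAll hB (fun t ht k hk => pDcent hB t (h t ht) k hk)

/-- `T ∖ O₂(K ⊔ T)` inverts `K / O₂(K)`. -/
theorem pInv (hB : Base S M T K L) : ∀ x ∈ T, x ∉ pCoreOf 2 (K ⊔ T) → ∀ g ∈ K,
    x * g * x⁻¹ * g ∈ pCoreOf 2 K := by
  intro x hxT hxD g hg
  have hOc : ∀ p ∈ K ⊔ T, ∀ o ∈ pCoreOf 2 K, p * o * p⁻¹ ∈ pCoreOf 2 K := pOconj hB
  have hxP : x ∈ K ⊔ T := (le_sup_right : T ≤ K ⊔ T) hxT
  have hxK : ∀ k ∈ K, x * k * x⁻¹ ∈ K :=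
    fun k hk => (Subgroup.mem_normalizer_iff.mp (pTK hB hxT) k).mp hk
  by_contra hcon
  have hgO : g ∉ pCoreOf 2 K := by
    intro h
    exact hcon ((pCoreOf 2 K).mul_mem (hOc x hxP g h) h)
  have hstar : x * g * x⁻¹ * g⁻¹ ∈ pCoreOf 2 K := by
    rcases pKthree hB g hg hgO (x * g * x⁻¹) (hxK g hg) with h | h | h
    · exfalso; apply hgO
      have := hOc x⁻¹ ((K ⊔ T).inv_mem hxP) _ h
      have e : x⁻¹ * (x * g * x⁻¹) * x⁻¹⁻¹ = g := by group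
      rwa [e] at this
    · exact h
    · exact absurd h hcon
  have hgP : g ∈ K ⊔ T := (le_sup_left : K ≤ K ⊔ T) hg
  have hall : ∀ k ∈ K, x * k * x⁻¹ * k⁻¹ ∈ pCoreOf 2 K := by
    intro k hk
    rcases pKthree hB g hg hgO k hk with h | h | h
    · exact (pCoreOf 2 K).mul_mem (hOc x hxP k h) ((pCoreOf 2 K).inv_mem h)
    · have e : x * k * x⁻¹ * k⁻¹ =
          (x * (k * g⁻¹) * x⁻¹) * (x * g * x⁻¹ * g⁻¹) * (k * g⁻¹)⁻¹ := by group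
      rw [e]
      exact (pCoreOf 2 K).mul_mem ((pCoreOf 2 K).mul_mem (hOc x hxP _ h) hstar)
        ((pCoreOf 2 K).inv_mem h)
    · have h2 : x * g⁻¹ * x⁻¹ * g ∈ pCoreOf 2 K := by
        have := hOc g⁻¹ ((K ⊔ T).inv_mem hgP) _ ((pCoreOf 2 K).inv_mem hstar)
        have e : g⁻¹ * (x * g * x⁻¹ * g⁻¹)⁻¹ * g⁻¹⁻¹ = x * g⁻¹ * x⁻¹ * g := by group
        rwa [e] at this
      have e : x * k * x⁻¹ * k⁻¹ =
          (x * (k * g) * x⁻¹) * (x * g⁻¹ * x⁻¹ * g) * (k * g)⁻¹ := by group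
      rw [e]
      exact (pCoreOf 2 K).mul_mem ((pCoreOf 2 K).mul_mem (hOc x hxP _ h) h2)
        ((pCoreOf 2 K).inv_mem h)
  apply pNotAll hB
  intro t ht k hk
  by_cases htD : t ∈ pCoreOf 2 (K ⊔ T)
  · exact pDcent hB t htD k hk
  · have hx' : x⁻¹ ∉ pCoreOf 2 (K ⊔ T) := fun h => hxD (by simpa using (pCoreOf 2 (K ⊔ T)).inv_mem h)
    have hd : t * x⁻¹ ∈ pCoreOf 2 (K ⊔ T) := pDidx hB t ht x⁻¹ (T.inv_mem hxT) htD hx'
    have hdP : t * x⁻¹ ∈ K ⊔ T := (le_sup_right : T ≤ K ⊔ T) (T.mul_mem ht (T.inv_mem hxT))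
    have e : t * k * t⁻¹ * k⁻¹ = ((t * x⁻¹) * (x * k * x⁻¹ * k⁻¹) * (t * x⁻¹)⁻¹) *
        ((t * x⁻¹) * k * (t * x⁻¹)⁻¹ * k⁻¹) := by group
    rw [e]
    exact (pCoreOf 2 K).mul_mem (hOc _ hdP _ (hall k hk)) (pDcent hB _ hd k hk)

/-- A 2-local over `K ⊔ T` lies in `L`. -/
theorem pNU (hB : Base S M T K L) : ∀ U : Subgroup G, U ≠ ⊥ → U ≤ T →
    K ≤ Subgroup.normalizer (U : Set G) → T ≤ Subgroup.normalizer (U : Set G) →
    Subgroup.normalizer (U : Set G) ≤ L := by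
  intro U hU hUT hKU hTU
  apply Cfsg.Agent.H3.Jy.jyLeOfCore hB
  · exact sup_le hKU ((Cfsg.Agent.H14.thompsonSubgroupOf_le 2 T).trans hTU)
  · intro h
    apply hU
    have : U ≤ pCoreOf 2 (Subgroup.normalizer (U : Set G)) :=
      Cfsg.Agent.H51.le_pCoreOf 2 Subgroup.le_normalizer le_rfl ((pT2 hB).to_le hUT)
    rw [h] at this
    exact eq_bot_iff.mpr this

/-- A 2-subgroup of `L` containing a Sylow 2-subgroup `T` of `L` is `T`. -/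
theorem pSylLe {T L P : Subgroup G}
    (h : IsSylowTwoIn T L) (hP : IsPGroup 2 ↥P) (hTP : T ≤ P) (hPL : P ≤ L) : P ≤ T := by
  rw [← Subgroup.relIndex_eq_one]
  have hmul := Subgroup.relIndex_mul_relIndex T P L hTP hPL
  have hodd : Odd (T.relIndex P) := Odd.of_dvd_nat h.2.2 (Dvd.intro _ hmul)
  obtain ⟨n, hn⟩ := IsPGroup.iff_card.mp hP
  have hdvd : T.relIndex P ∣ 2 ^ n := hn ▸ Subgroup.relIndex_dvd_card T P
  obtain ⟨k, -, hk2⟩ := (Nat.dvd_prime_pow Nat.prime_two).mp hdvd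
  rw [hk2] at hodd ⊢
  rcases Nat.eq_zero_or_pos k with h0 | hpos
  · rw [h0, pow_zero]
  · exfalso
    have hev : Even (2 ^ k) := Nat.even_pow.mpr ⟨even_two, hpos.ne'⟩
    exact (Nat.not_even_iff_odd.mpr hodd) hev

/-- `S ∩ L = T`. -/
theorem pSL (hB : Base S M T K L) : ∀ y ∈ (S : Subgroup G), y ∈ L → y ∈ T := by
  intro y hyS hyL
  have hTS : T ≤ (S : Subgroup G) := hB.2.2.2.2.2.1
  have hsyl := pSylL hB
  exact pSylLe hsyl (S.isPGroup'.to_le inf_le_left) (le_inf hTS hsyl.1) inf_le_right ⟨hyS, hyL⟩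

end Cfsg.Agent.H42.Jy

#print axioms Cfsg.Agent.H42.Jy.pInv
#print axioms Cfsg.Agent.H42.Jy.pDidx
#print axioms Cfsg.Agent.H42.Jy.pNU
#print axioms Cfsg.Agent.H42.Jy.pSL
#print axioms Cfsg.Agent.H42.Jy.pTneD
#print axioms Cfsg.Agent.H42.Jy.pKthree
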