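import Mathlib
import Cfsg.Prelude.Def_Classical
import Cfsg.Prelude.Def_ClassicalGeometry
import Cfsg.Agent.H42.OmegaInv
import Cfsg.Agent.H42.OMinus

set_option autoImplicit false

namespace Cfsg.Agent.H42

open Module Matrix Cfsg.Agent.H49

section

variable {F : Type*} [Field F]

/-- The number of conjugacy classes of involutions of `Ω⁺_{2m}(q)`, `q` even. -/
theorem omega_plus_inv_class_count [Fintype F] [CharP F 2] {m : ℕ} (hm : 1 ≤ m)
    (h : Fintype.card F ≠ 2 ∨ m ≠ 2) :
    Nat.card {C : ConjClasses ↥(Cfsg.Omega F (Cfsg.quadFormPlus m F)) //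
      ∃ g : ↥(Cfsg.Omega F (Cfsg.quadFormPlus m F)), ConjClasses.mk g = C ∧ orderOf g = 2} =
      2 * (m / 2) + (if Even m then 1 else 0) := by
  have hcard : Fintype.card (Fin m ⊕ Fin m) = 2 * m := by
    rw [Fintype.card_sum, Fintype.card_fin]
    ring
  have key := omega_inv_class_count (QP m F) (QP_nondeg m F) m (m / 2) (by omega) hcard
    (h.elim Or.inl (fun h => Or.inr (Or.inl h))) (fun _ => h) (by omega)
    (fun r hr1 hrm => oplus_exists_nonalt r hr1 hrm)
    (fun k hk1 hk2 => oplus_exists_alt k hk1 (by omega))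
    (fun a ha halt => by
      have hsq : oMat a * oMat a = 1 := by
        have := pow_orderOf_eq_one a
        rw [ha, sq] at this
        rw [← oMat_mul, this, oMat_one]
      have hne : a ≠ 1 := by
        intro h1
        rw [h1, orderOf_one] at ha
        omega
      have := (o_rank_bounds m hcard a hsq hne).2
      omega)
  have e : 2 * (m / 2) + (if Even m then 1 else 0) =
      m / 2 + m / 2 + (if 2 * (m / 2) = m then 1 else 0) := by
    by_cases hE : Even m
    · rw [if_pos hE, if_pos (by obtain ⟨k, rfl⟩ := hE; omega)]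
      ring
    · rw [if_neg hE, if_neg (by
        intro h2
        exact hE ⟨m / 2, by omega⟩)]
      ring
  rw [e]
  exact key

/-- The number of conjugacy classes of involutions of `Ω⁻_{2m}(q)`, `q` even. -/
theorem omega_minus_inv_class_count [Fintype F] [CharP F 2] {m : ℕ} (hm : 1 ≤ m) (a b : F)
    (hab : ∀ z₁ z₂ : F, z₁ ^ 2 + a * z₁ * z₂ + b * z₂ ^ 2 = 0 → z₁ = 0 ∧ z₂ = 0) :
    Nat.card {C : ConjClasses ↥(Cfsg.Omega F (Cfsg.quadFormMinus (m - 1) F a b)) //
      ∃ g : ↥(Cfsg.Omega F (Cfsg.quadFormMinus (m - 1) F a b)),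
        ConjClasses.mk g = C ∧ orderOf g = 2} = m / 2 + (m - 1) / 2 := by
  have hcard : Fintype.card ((Fin (m - 1) ⊕ Fin (m - 1)) ⊕ Fin 2) = 2 * m := by
    rw [Fintype.card_sum, Fintype.card_sum, Fintype.card_fin, Fintype.card_fin]
    omega
  have hnd : (QuadraticMap.polarBilin (QMin (m - 1) F a b)).Nondegenerate := QMin_nondeg' a b hab
  have hex : Fintype.card F ≠ 2 ∨ m ≠ 2 ∨
      ¬ ∃ K : Submodule F ((Fin (m - 1) ⊕ Fin (m - 1)) ⊕ Fin 2 → F),
        IsTS (QMin (m - 1) F a b) K ∧ finrank F K = 2 := by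
    by_cases hm2 : m = 2
    · right
      right
      rintro ⟨K, hK, hK2⟩
      have := qmin_ts_finrank_le a b hnd hab K hK
      omega
    · exact Or.inr (Or.inl hm2)
  have key := omega_inv_class_count (QMin (m - 1) F a b) hnd m ((m - 1) / 2) (by omega) hcard hex
    (fun h => absurd h (by omega)) (by omega)
    (fun r hr1 hrm => ominus_exists_nonalt a b (aniso_a_ne_zero a b hab) r hr1 (by omega))
    (fun k' hk1 hk2 => ominus_exists_alt a b k' hk1 (by omega))
    (fun g hg halt => by
      have h1 : (oMat g - 1).rank = finrank F (LinearMap.range (nOpG (oMat g))) := rfl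
      have h2 := qmin_ts_finrank_le a b hnd hab (LinearMap.range (nOpG (oMat g))) (by
        rintro _ ⟨v, rfl⟩
        exact halt v)
      omega)
  rw [if_neg (by omega), add_zero] at key
  exact key

end

end Cfsg.Agent.H42
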