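import Mathlib
import Cfsg.Prelude.Def_ClassicalGeometry
import Cfsg.Agent.H42.Rk1

set_option autoImplicit false

namespace Cfsg.Agent.H42

open Matrix

/-- Subspaces invariant under the parabolic `stab_j`. -/
theorem inv_subspace {F : Type*} [Field F] (n j : ℕ) (U : Submodule F (Fin n → F))
    (hU : ∀ h ∈ Cfsg.stabilizing (Cfsg.glToMat (Fin n) F)
        {v : Fin n → F | ∀ i : Fin n, j ≤ (i : ℕ) → v i = 0},
        ∀ v ∈ U, (h : Matrix (Fin n) (Fin n) F) *ᵥ v ∈ U) :
    U = ⊥ ∨ (U : Set (Fin n → F)) = {v : Fin n → F | ∀ i : Fin n, j ≤ (i : ℕ) → v i = 0} ∨ U = ⊤ := by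
  -- the key move
  have move : ∀ (u : Fin n → F), u ∈ U → ∀ c : Fin n, u c ≠ 0 → ∀ v : Fin n → F,
      (∀ i l : Fin n, j ≤ (i : ℕ) → (l : ℕ) < j →
        (v - (v c / u c) • u) i * (Pi.single c (1 : F) : Fin n → F) l = 0) → v ∈ U := by
    intro u hu c huc v hcond
    set z : Fin n → F := v - (v c / u c) • u with hz
    have hzc : z c = 0 := by
      rw [hz]
      simp only [Pi.sub_apply, Pi.smul_apply, smul_eq_mul]
      field_simp
      ring
    have hdet : (rk1 z (Pi.single c 1)).det ≠ 0 := by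
      rw [det_rk1]
      simp [hzc]
    obtain ⟨T, hT⟩ := exists_GL_of_det_ne_zero _ hdet
    have hTP := rk1_mem_stab n j z (Pi.single c 1) T hT hcond
    have h1 := hU T hTP u hu
    rw [hT, rk1_mulVec] at h1
    simp only [single_dotProduct, one_mul] at h1
    have h2 : u c • z ∈ U := by
      have := U.sub_mem h1 hu
      rwa [add_sub_cancel_left] at this
    have h3 : z ∈ U := by
      have := U.smul_mem (u c)⁻¹ h2
      rwa [smul_smul, inv_mul_cancel₀ huc, one_smul] at this
    have h4 : v = z + (v c / u c) • u := by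
      rw [hz]
      abel
    rw [h4]
    exact U.add_mem h3 (U.smul_mem _ hu)
  by_cases h1 : ∃ u ∈ U, ∃ c : Fin n, j ≤ (c : ℕ) ∧ u c ≠ 0
  · right
    right
    obtain ⟨u, hu, c, hc, huc⟩ := h1
    rw [eq_top_iff]
    intro v _
    apply move u hu c huc v
    intro i l hi hl
    have : l ≠ c := by
      intro h'
      rw [h'] at hl
      omega
    simp [this]
  · push Not at h1
    by_cases h2 : U = ⊥
    · left
      exact h2
    · right
      left
      obtain ⟨u, hu, hu0⟩ := (Submodule.ne_bot_iff U).1 h2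
      obtain ⟨c, huc⟩ : ∃ c, u c ≠ 0 := by
        by_contra hcon
        push Not at hcon
        exact hu0 (funext hcon)
      apply Set.eq_of_subset_of_subset
      · intro v hv i hi
        exact h1 v hv i hi
      · intro v hv
        apply move u hu c huc v
        intro i l hi hl
        have h5 : (v - (v c / u c) • u) i = 0 := by
          simp only [Pi.sub_apply, Pi.smul_apply, smul_eq_mul]
          rw [hv i hi, h1 u hu i hi]
          simp
        rw [h5, zero_mul]

/-- The anti-automorphism `A ↦ (A (rev j) (rev i))`. -/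
def revT {F : Type*} [Field F] {n : ℕ} (A : Matrix (Fin n) (Fin n) F) : Matrix (Fin n) (Fin n) F :=
  fun i j => A (Fin.rev j) (Fin.rev i)

theorem revT_mul {F : Type*} [Field F] {n : ℕ} (A B : Matrix (Fin n) (Fin n) F) :
    revT (A * B) = revT B * revT A := by
  ext i j
  simp only [revT, Matrix.mul_apply]
  rw [← Equiv.sum_comp Fin.revPerm]
  apply Finset.sum_congr rfl
  intro l _
  simp [mul_comm]

theorem revT_one {F : Type*} [Field F] {n : ℕ} : revT (1 : Matrix (Fin n) (Fin n) F) = 1 := by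
  ext i j
  simp only [revT, Matrix.one_apply, Fin.rev_inj]
  by_cases h : i = j <;> simp [h, eq_comm]

theorem revT_revT {F : Type*} [Field F] {n : ℕ} (A : Matrix (Fin n) (Fin n) F) :
    revT (revT A) = A := by
  ext i j
  simp [revT]

/-- The inverse-transpose-reverse automorphism of `GL_n`. -/
def revInv {F : Type*} [Field F] (n : ℕ) : GL (Fin n) F ≃* GL (Fin n) F where
  toFun g := ⟨revT ((g⁻¹ : GL (Fin n) F) : Matrix (Fin n) (Fin n) F), revT (g : Matrix (Fin n) (Fin n) F),
    by rw [← revT_mul, ← Units.val_mul, mul_inv_cancel, Units.val_one, revT_one],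
    by rw [← revT_mul, ← Units.val_mul, inv_mul_cancel, Units.val_one, revT_one]⟩
  invFun g := ⟨revT ((g⁻¹ : GL (Fin n) F) : Matrix (Fin n) (Fin n) F), revT (g : Matrix (Fin n) (Fin n) F),
    by rw [← revT_mul, ← Units.val_mul, mul_inv_cancel, Units.val_one, revT_one],
    by rw [← revT_mul, ← Units.val_mul, inv_mul_cancel, Units.val_one, revT_one]⟩
  left_inv g := by
    apply Units.ext
    exact revT_revT _
  right_inv g := by
    apply Units.ext
    exact revT_revT _
  map_mul' g h := by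
    apply Units.ext
    change revT (((g * h)⁻¹ : GL (Fin n) F) : Matrix (Fin n) (Fin n) F) =
      revT ((g⁻¹ : GL (Fin n) F) : Matrix (Fin n) (Fin n) F) * revT ((h⁻¹ : GL (Fin n) F) : Matrix (Fin n) (Fin n) F)
    rw [← revT_mul, ← Units.val_mul, _root_.mul_inv_rev]

theorem revInv_val {F : Type*} [Field F] (n : ℕ) (g : GL (Fin n) F) :
    ((revInv n g : GL (Fin n) F) : Matrix (Fin n) (Fin n) F) =
      revT ((g⁻¹ : GL (Fin n) F) : Matrix (Fin n) (Fin n) F) := rfl

theorem revInv_revInv {F : Type*} [Field F] (n : ℕ) (g : GL (Fin n) F) :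
    revInv n (revInv n g) = g := (revInv n).left_inv g

theorem revInv_mem {F : Type*} [Field F] (n k : ℕ) (hk : k ≤ n) (g : GL (Fin n) F)
    (hg : g ∈ Cfsg.stabilizing (Cfsg.glToMat (Fin n) F)
        {v : Fin n → F | ∀ i : Fin n, k ≤ (i : ℕ) → v i = 0}) :
    revInv n g ∈ Cfsg.stabilizing (Cfsg.glToMat (Fin n) F)
        {v : Fin n → F | ∀ i : Fin n, n - k ≤ (i : ℕ) → v i = 0} := by
  rw [stab_mem_iff] at hg ⊢
  intro i l hi hl
  rw [revInv_val]
  apply blockCond_inv n k g hg
  · rw [Fin.val_rev]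
    omega
  · rw [Fin.val_rev]
    have := i.2
    omega

/-- The two parabolics are isomorphic. -/
def stabIso {F : Type*} [Field F] (n k : ℕ) (hk : k ≤ n) :
    ↥(Cfsg.stabilizing (Cfsg.glToMat (Fin n) F)
        {v : Fin n → F | ∀ i : Fin n, k ≤ (i : ℕ) → v i = 0}) ≃*
    ↥(Cfsg.stabilizing (Cfsg.glToMat (Fin n) F)
        {v : Fin n → F | ∀ i : Fin n, n - k ≤ (i : ℕ) → v i = 0}) where
  toFun g := ⟨revInv n g.1, revInv_mem n k hk g.1 g.2⟩
  invFun g := ⟨revInv n g.1, by
    have := revInv_mem n (n - k) (Nat.sub_le n k) g.1 g.2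
    rwa [Nat.sub_sub_self hk] at this⟩
  left_inv g := by
    apply Subtype.ext
    exact revInv_revInv n _
  right_inv g := by
    apply Subtype.ext
    exact revInv_revInv n _
  map_mul' a b := by
    apply Subtype.ext
    exact map_mul (revInv n) _ _

end Cfsg.Agent.H42

namespace Cfsg.Agent.H42

open Matrix

/-- The coordinate subspace as a submodule. -/
def coordSub (F : Type*) [Field F] (n k : ℕ) : Submodule F (Fin n → F) where
  carrier := {v : Fin n → F | ∀ i : Fin n, k ≤ (i : ℕ) → v i = 0}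
  add_mem' := by
    intro a b ha hb i hi
    simp [ha i hi, hb i hi]
  zero_mem' := by
    intro i _
    rfl
  smul_mem' := by
    intro c a ha i hi
    simp [ha i hi]

theorem coord_ssubset (F : Type*) [Field F] (n k j : ℕ) (hkj : k < j) (hkn : k < n) :
    {v : Fin n → F | ∀ i : Fin n, k ≤ (i : ℕ) → v i = 0} ⊂
      {v : Fin n → F | ∀ i : Fin n, j ≤ (i : ℕ) → v i = 0} := by
  constructor
  · intro v hv i hi
    exact hv i (by omega)
  · intro hsub
    have h1 : (Pi.single (⟨k, hkn⟩ : Fin n) (1 : F) : Fin n → F) ∈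
        {v : Fin n → F | ∀ i : Fin n, j ≤ (i : ℕ) → v i = 0} := by
      intro i hi
      have : i ≠ ⟨k, hkn⟩ := by
        intro h'
        rw [h'] at hi
        simp at hi
        omega
      simp [this]
    have h2 := hsub h1 ⟨k, hkn⟩ (le_refl _)
    simp at h2

/-- For `0 < k < n`, `2k ≠ n`, the two parabolics are not conjugate. -/
theorem stab_not_conj {F : Type*} [Field F] [Finite F] (n k : ℕ) (hk0 : 0 < k) (hkn : k < n)
    (h2 : 2 * k ≠ n) (g : GL (Fin n) F) :
    (Cfsg.stabilizing (Cfsg.glToMat (Fin n) F)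
        {v : Fin n → F | ∀ i : Fin n, k ≤ (i : ℕ) → v i = 0}).map (MulAut.conj g).toMonoidHom ≠
      Cfsg.stabilizing (Cfsg.glToMat (Fin n) F)
        {v : Fin n → F | ∀ i : Fin n, n - k ≤ (i : ℕ) → v i = 0} := by
  intro heq
  set U : Submodule F (Fin n → F) :=
    Submodule.comap (Matrix.mulVecLin ((g⁻¹ : GL (Fin n) F) : Matrix (Fin n) (Fin n) F)) (coordSub F n k)
    with hUdef
  have hmemU : ∀ v : Fin n → F, v ∈ U ↔
      ∀ i : Fin n, k ≤ (i : ℕ) → (((g⁻¹ : GL (Fin n) F) : Matrix (Fin n) (Fin n) F) *ᵥ v) i = 0 := by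
    intro v
    rfl
  have hginv : ∀ v : Fin n → F, ((g⁻¹ : GL (Fin n) F) : Matrix (Fin n) (Fin n) F) *ᵥ
      ((g : Matrix (Fin n) (Fin n) F) *ᵥ v) = v := by
    intro v
    rw [Matrix.mulVec_mulVec, ← Units.val_mul, inv_mul_cancel, Units.val_one, Matrix.one_mulVec]
  have hU : ∀ h ∈ Cfsg.stabilizing (Cfsg.glToMat (Fin n) F)
        {v : Fin n → F | ∀ i : Fin n, n - k ≤ (i : ℕ) → v i = 0},
        ∀ v ∈ U, (h : Matrix (Fin n) (Fin n) F) *ᵥ v ∈ U := by
    intro h hh v hv
    rw [← heq] at hh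
    obtain ⟨p, hp, rfl⟩ := Subgroup.mem_map.1 hh
    rw [hmemU] at hv ⊢
    have h1 : ((g⁻¹ : GL (Fin n) F) : Matrix (Fin n) (Fin n) F) *ᵥ
        ((((MulAut.conj g).toMonoidHom p : GL (Fin n) F) : Matrix (Fin n) (Fin n) F) *ᵥ v) =
        (p : Matrix (Fin n) (Fin n) F) *ᵥ
          (((g⁻¹ : GL (Fin n) F) : Matrix (Fin n) (Fin n) F) *ᵥ v) := by
      have h2 : (MulAut.conj g).toMonoidHom p = g * p * g⁻¹ := rfl
      rw [h2, Matrix.mulVec_mulVec, Matrix.mulVec_mulVec, ← Units.val_mul, ← Units.val_mul]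
      congr 2
      group
    rw [h1]
    exact (hp _).1 hv
  rcases inv_subspace n (n - k) U hU with h1 | h1 | h1
  · -- U = ⊥
    have h3 : (g : Matrix (Fin n) (Fin n) F) *ᵥ (Pi.single (⟨0, by omega⟩ : Fin n) (1 : F)) ∈ U := by
      rw [hmemU, hginv]
      intro i hi
      have : i ≠ ⟨0, by omega⟩ := by
        intro h'
        rw [h'] at hi
        simp at hi
        omega
      simp [this]
    rw [h1, Submodule.mem_bot] at h3
    have h4 := hginv (Pi.single (⟨0, by omega⟩ : Fin n) (1 : F))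
    rw [h3, Matrix.mulVec_zero] at h4
    have h5 := congrFun h4 ⟨0, by omega⟩
    simp at h5
  · -- U = W_j
    have hinj : Function.Injective (fun v : Fin n → F => (g : Matrix (Fin n) (Fin n) F) *ᵥ v) := by
      intro a b hab
      have := congrArg (fun v => ((g⁻¹ : GL (Fin n) F) : Matrix (Fin n) (Fin n) F) *ᵥ v) hab
      simpa [hginv] using this
    have himg : (fun v : Fin n → F => (g : Matrix (Fin n) (Fin n) F) *ᵥ v) ''
        {v : Fin n → F | ∀ i : Fin n, k ≤ (i : ℕ) → v i = 0} =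
        {v : Fin n → F | ∀ i : Fin n, n - k ≤ (i : ℕ) → v i = 0} := by
      rw [← h1]
      ext v
      constructor
      · rintro ⟨w, hw, rfl⟩
        change _ ∈ U
        rw [hmemU, hginv]
        exact hw
      · intro hv
        refine ⟨((g⁻¹ : GL (Fin n) F) : Matrix (Fin n) (Fin n) F) *ᵥ v, (hmemU v).1 hv, ?_⟩
        change (g : Matrix (Fin n) (Fin n) F) *ᵥ (((g⁻¹ : GL (Fin n) F) : Matrix (Fin n) (Fin n) F) *ᵥ v) = v
        rw [Matrix.mulVec_mulVec, ← Units.val_mul, mul_inv_cancel, Units.val_one, Matrix.one_mulVec]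
    have hcard := Set.ncard_image_of_injective
      {v : Fin n → F | ∀ i : Fin n, k ≤ (i : ℕ) → v i = 0} hinj
    rw [himg] at hcard
    rcases Nat.lt_or_gt_of_ne (show k ≠ n - k by omega) with hlt | hlt
    · have := Set.ncard_lt_ncard (coord_ssubset F n k (n - k) hlt hkn) (Set.toFinite _)
      omega
    · have := Set.ncard_lt_ncard (coord_ssubset F n (n - k) k hlt (by omega)) (Set.toFinite _)
      omega
  · -- U = ⊤
    have h3 : (Pi.single (⟨k, hkn⟩ : Fin n) (1 : F) : Fin n → F) ∈ U := by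
      rw [h1]
      exact Submodule.mem_top
    have h4 : (g : Matrix (Fin n) (Fin n) F) *ᵥ (Pi.single (⟨k, hkn⟩ : Fin n) (1 : F)) ∈ U := by
      rw [h1]
      exact Submodule.mem_top
    rw [hmemU, hginv] at h4
    have h5 := h4 ⟨k, hkn⟩ (le_refl _)
    simp at h5

end Cfsg.Agent.H42
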