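import Mathlib
import Cfsg.Prelude.Def_GeometricClasses
import Cfsg.Agent.H99.SympType

/-!
# Matrices that are not similarities of any symplectic form (helper42)
-/

set_option autoImplicit false

namespace Cfsg.Agent.H42

open Matrix

section SpDerA

variable {F : Type*} [Field F] {n : ℕ}

/-- `X` is a similarity of some symplectic form, given as a bilinear form. -/
def IsSympSim (X : Matrix (Fin n) (Fin n) F) : Prop :=
  ∃ (B : LinearMap.BilinForm F (Fin n → F)) (c : F), B.IsAlt ∧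
    (∀ v : Fin n → F, v ≠ 0 → ∃ w, B v w ≠ 0) ∧ c ≠ 0 ∧
    ∀ u v, B (X *ᵥ u) (X *ᵥ v) = c * B u v

theorem sympSim_of_conj (f : (Fin n → F) → (Fin n → F) → F) (hf : Cfsg.Geo.IsSymplecticForm f)
    (x P : Matrix.SpecialLinearGroup (Fin n) F)
    (h : P⁻¹ * x * P ∈ (Cfsg.Geo.similarityGroup f).comap
      (Matrix.SpecialLinearGroup.toGL : Matrix.SpecialLinearGroup (Fin n) F →* GL (Fin n) F)) :
    IsSympSim (x : Matrix (Fin n) (Fin n) F) := by
  rw [Subgroup.mem_comap] at h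
  obtain ⟨c, hc⟩ := h
  obtain ⟨Pm, hPm⟩ : ∃ Pm : Matrix (Fin n) (Fin n) F, Pm = (P : Matrix (Fin n) (Fin n) F) :=
    ⟨_, rfl⟩
  obtain ⟨Qm, hQm⟩ : ∃ Qm : Matrix (Fin n) (Fin n) F,
      Qm = ((P⁻¹ : Matrix.SpecialLinearGroup (Fin n) F) : Matrix (Fin n) (Fin n) F) := ⟨_, rfl⟩
  have hPQ : Pm * Qm = 1 := by
    rw [hPm, hQm, ← Matrix.SpecialLinearGroup.coe_mul, mul_inv_cancel,
      Matrix.SpecialLinearGroup.coe_one]
  have hQP : Qm * Pm = 1 := by
    rw [hPm, hQm, ← Matrix.SpecialLinearGroup.coe_mul, inv_mul_cancel,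
      Matrix.SpecialLinearGroup.coe_one]
  have hc' : ∀ u v, f ((Qm * (x : Matrix (Fin n) (Fin n) F) * Pm) *ᵥ u)
      ((Qm * (x : Matrix (Fin n) (Fin n) F) * Pm) *ᵥ v) = (c : F) * f u v := by
    intro u v
    have h1 := hc u v
    rw [hQm, hPm, ← Matrix.SpecialLinearGroup.coe_mul, ← Matrix.SpecialLinearGroup.coe_mul]
    exact h1
  obtain ⟨B, hB⟩ : ∃ B : LinearMap.BilinForm F (Fin n → F),
      ∀ u v, B u v = f (Qm *ᵥ u) (Qm *ᵥ v) :=
    ⟨LinearMap.mk₂ F (fun u v => f (Qm *ᵥ u) (Qm *ᵥ v))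
      (fun u u' v => by simp only [Matrix.mulVec_add]; exact hf.bilinear.add_left _ _ _)
      (fun a u v => by simp only [Matrix.mulVec_smul]; exact hf.bilinear.smul_left _ _ _)
      (fun u v v' => by simp only [Matrix.mulVec_add]; exact hf.bilinear.add_right _ _ _)
      (fun a u v => by simp only [Matrix.mulVec_smul]; exact hf.bilinear.smul_right _ _ _),
      fun u v => rfl⟩
  refine ⟨B, c, fun v => ?_, fun v hv => ?_, c.ne_zero, fun u v => ?_⟩
  · rw [hB]; exact hf.alternating _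
  · have hv' : Qm *ᵥ v ≠ 0 := by
      intro h0
      apply hv
      have := congrArg (fun w => Pm *ᵥ w) h0
      simp only [Matrix.mulVec_mulVec, hPQ, Matrix.one_mulVec, Matrix.mulVec_zero] at this
      exact this
    obtain ⟨w, hw⟩ := (hf.nondegenerate _ hv').2
    refine ⟨Pm *ᵥ w, ?_⟩
    rw [hB, Matrix.mulVec_mulVec, hQP, Matrix.one_mulVec]
    exact hw
  · rw [hB, hB]
    have h1 := hc' (Qm *ᵥ u) (Qm *ᵥ v)
    rw [Matrix.mulVec_mulVec, Matrix.mulVec_mulVec, Matrix.mul_assoc _ Pm Qm, hPQ,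
      Matrix.mul_one, ← Matrix.mulVec_mulVec, ← Matrix.mulVec_mulVec] at h1
    exact h1

/-- Expansion of a linear functional along the standard basis. -/
theorem lin_expand (φ : (Fin n → F) →ₗ[F] F) (x : Fin n → F) :
    φ x = ∑ k, x k * φ (Pi.single k 1) := by
  conv_lhs => rw [pi_eq_sum_univ' x]
  rw [map_sum]
  apply Finset.sum_congr rfl
  intro k _
  rw [map_smul, smul_eq_mul]

theorem eq_zero_of_basis (B : LinearMap.BilinForm F (Fin n → F))
    (hnd : ∀ v : Fin n → F, v ≠ 0 → ∃ w, B v w ≠ 0) (w : Fin n → F)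
    (h : ∀ k, B w (Pi.single k 1) = 0) : w = 0 := by
  by_contra hw
  obtain ⟨x, hx⟩ := hnd w hw
  apply hx
  rw [lin_expand (B w) x]
  apply Finset.sum_eq_zero
  intro k _
  rw [h k, mul_zero]

/-- A symplectic form has no totally isotropic coordinate subspace of more than half the
dimension. -/
theorem no_big_isotropic (B : LinearMap.BilinForm F (Fin n → F))
    (hnd : ∀ v : Fin n → F, v ≠ 0 → ∃ w, B v w ≠ 0) (S : Finset (Fin n))
    (hS : ∀ i ∈ S, ∀ j ∈ S, B (Pi.single i 1) (Pi.single j 1) = 0) (hcard : n < 2 * S.card) :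
    False := by
  classical
  let T : (Fin n → F) →ₗ[F] ((↥(Sᶜ) → F) × (↥(Sᶜ) → F)) :=
    LinearMap.prod (LinearMap.pi fun j => LinearMap.proj (j : Fin n))
      (LinearMap.pi fun j => B.flip (Pi.single (j : Fin n) 1))
  have hlt : Module.finrank F ((↥(Sᶜ) → F) × (↥(Sᶜ) → F)) < Module.finrank F (Fin n → F) := by
    rw [Module.finrank_prod, Module.finrank_fintype_fun_eq_card,
      Module.finrank_fintype_fun_eq_card, Fintype.card_coe, Finset.card_compl, Fintype.card_fin]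
    have := Finset.card_le_univ S
    rw [Fintype.card_fin] at this
    omega
  have hker := LinearMap.ker_ne_bot_of_finrank_lt (f := T) hlt
  obtain ⟨u, hu, hu0⟩ := (Submodule.ne_bot_iff _).mp hker
  rw [LinearMap.mem_ker] at hu
  have hu1 : ∀ j, j ∉ S → u j = 0 := by
    intro j hj
    have h1 := congrArg (fun z => z.1 ⟨j, Finset.mem_compl.mpr hj⟩) hu
    simpa [T] using h1
  have hu2 : ∀ j, j ∉ S → B u (Pi.single j 1) = 0 := by
    intro j hj
    have h1 := congrArg (fun z => z.2 ⟨j, Finset.mem_compl.mpr hj⟩) hu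
    simpa [T] using h1
  apply hu0
  apply eq_zero_of_basis B hnd
  intro k
  by_cases hk : k ∈ S
  · have h1 : B u (Pi.single k 1) = ∑ i, u i * B (Pi.single i 1) (Pi.single k 1) :=
      lin_expand (B.flip (Pi.single k 1)) u
    rw [h1]
    apply Finset.sum_eq_zero
    intro i _
    by_cases hi : i ∈ S
    · rw [hS i hi k hk, mul_zero]
    · rw [hu1 i hi, zero_mul]
  · exact hu2 k hk

/-- The unipotent matrix with a single Jordan block of size three. -/
theorem unip_mulVec (i0 i1 i2 : Fin n) (v : Fin n → F) :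
    (1 + Matrix.single i0 i1 (1 : F) + Matrix.single i1 i2 (1 : F)) *ᵥ v =
      v + v i1 • Pi.single i0 1 + v i2 • Pi.single i1 1 := by
  rw [Matrix.add_mulVec, Matrix.add_mulVec, Matrix.one_mulVec]
  congr 1
  · congr 1
    ext k
    simp [Matrix.mulVec, dotProduct, Matrix.single_apply, Pi.single_apply]
    by_cases hk : k = i0
    · subst hk; simp
    · simp [hk, Ne.symm hk]
  · ext k
    simp [Matrix.mulVec, dotProduct, Matrix.single_apply, Pi.single_apply]
    by_cases hk : k = i1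
    · subst hk; simp
    · simp [hk, Ne.symm hk]

theorem not_sympSim_unip (i0 i1 i2 : Fin n) (h01 : i0 ≠ i1) (h02 : i0 ≠ i2) (h12 : i1 ≠ i2) :
    ¬ IsSympSim (1 + Matrix.single i0 i1 (1 : F) + Matrix.single i1 i2 (1 : F)) := by
  rintro ⟨B, c, hB, hnd, hc0, hX⟩
  have hX0 : (1 + Matrix.single i0 i1 (1 : F) + Matrix.single i1 i2 (1 : F)) *ᵥ
      (Pi.single i0 1 : Fin n → F) = Pi.single i0 1 := by
    rw [unip_mulVec]; simp [h01, h02]
  have hX1 : (1 + Matrix.single i0 i1 (1 : F) + Matrix.single i1 i2 (1 : F)) *ᵥ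
      (Pi.single i1 1 : Fin n → F) = Pi.single i1 1 + Pi.single i0 1 := by
    rw [unip_mulVec]; simp [h12]
  have hX2 : (1 + Matrix.single i0 i1 (1 : F) + Matrix.single i1 i2 (1 : F)) *ᵥ
      (Pi.single i2 1 : Fin n → F) = Pi.single i2 1 + Pi.single i1 1 := by
    rw [unip_mulVec]; simp [Pi.single_apply, Ne.symm h12]
  have hXk : ∀ k, k ≠ i1 → k ≠ i2 →
      (1 + Matrix.single i0 i1 (1 : F) + Matrix.single i1 i2 (1 : F)) *ᵥ
      (Pi.single k 1 : Fin n → F) = Pi.single k 1 := by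
    intro k hk1 hk2
    rw [unip_mulVec]; simp [Pi.single_apply, Ne.symm hk1, Ne.symm hk2]
  have he0 : (Pi.single i0 1 : Fin n → F) ≠ 0 := by
    intro h
    have := congrFun h i0
    simp at this
  apply he0
  apply eq_zero_of_basis B hnd
  by_cases hc1 : c = 1
  · subst hc1
    have a01 : B (Pi.single i0 1) (Pi.single i1 1) = 0 := by
      have h1 := hX (Pi.single i0 1) (Pi.single i2 1)
      rw [hX0, hX2, map_add, one_mul] at h1
      linear_combination h1
    have a11 : B (Pi.single i1 1) (Pi.single i1 1) = 0 := hB _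
    have a02 : B (Pi.single i0 1) (Pi.single i2 1) = 0 := by
      have h1 := hX (Pi.single i1 1) (Pi.single i2 1)
      rw [hX1, hX2] at h1
      simp only [map_add, LinearMap.add_apply, one_mul] at h1
      linear_combination h1 - a01 - a11
    intro k
    by_cases hk0 : k = i0
    · rw [hk0]; exact hB _
    by_cases hk1 : k = i1
    · rw [hk1]; exact a01
    by_cases hk2 : k = i2
    · rw [hk2]; exact a02
    have h1 := hX (Pi.single i1 1) (Pi.single k 1)
    rw [hX1, hXk k hk1 hk2] at h1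
    simp only [map_add, LinearMap.add_apply, one_mul] at h1
    linear_combination h1
  · have hc1' : (1 - c) ≠ 0 := sub_ne_zero.mpr (Ne.symm hc1)
    have a00 : B (Pi.single i0 1) (Pi.single i0 1) = 0 := hB _
    have a01 : B (Pi.single i0 1) (Pi.single i1 1) = 0 := by
      have h1 := hX (Pi.single i0 1) (Pi.single i1 1)
      rw [hX0, hX1, map_add] at h1
      have h2 : (1 - c) * B (Pi.single i0 1) (Pi.single i1 1) = 0 := by
        linear_combination h1 - a00
      exact (mul_eq_zero.mp h2).resolve_left hc1'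
    have a02 : B (Pi.single i0 1) (Pi.single i2 1) = 0 := by
      have h1 := hX (Pi.single i0 1) (Pi.single i2 1)
      rw [hX0, hX2, map_add] at h1
      have h2 : (1 - c) * B (Pi.single i0 1) (Pi.single i2 1) = 0 := by
        linear_combination h1 - a01
      exact (mul_eq_zero.mp h2).resolve_left hc1'
    intro k
    by_cases hk1 : k = i1
    · rw [hk1]; exact a01
    by_cases hk2 : k = i2
    · rw [hk2]; exact a02
    have h1 := hX (Pi.single i0 1) (Pi.single k 1)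
    rw [hX0, hXk k hk1 hk2] at h1
    have h2 : (1 - c) * B (Pi.single i0 1) (Pi.single k 1) = 0 := by
      linear_combination h1
    exact (mul_eq_zero.mp h2).resolve_left hc1'

/-- Diagonal entries `lam, lam, nu` at `i0, i1, i2` and `1` elsewhere. -/
def dvec (i0 i1 i2 : Fin n) (lam nu : F) : Fin n → F :=
  fun i => (if i = i0 then lam else 1) * (if i = i1 then lam else 1) * (if i = i2 then nu else 1)

theorem dvec_i0 {i0 i1 i2 : Fin n} (h01 : i0 ≠ i1) (h02 : i0 ≠ i2) (lam nu : F) :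
    dvec i0 i1 i2 lam nu i0 = lam := by
  simp [dvec, h01, h02]

theorem dvec_i1 {i0 i1 i2 : Fin n} (h01 : i0 ≠ i1) (h12 : i1 ≠ i2) (lam nu : F) :
    dvec i0 i1 i2 lam nu i1 = lam := by
  simp [dvec, Ne.symm h01, h12]

theorem dvec_i2 {i0 i1 i2 : Fin n} (h02 : i0 ≠ i2) (h12 : i1 ≠ i2) (lam nu : F) :
    dvec i0 i1 i2 lam nu i2 = nu := by
  simp [dvec, Ne.symm h02, Ne.symm h12]

theorem dvec_other {i0 i1 i2 : Fin n} (lam nu : F) (k : Fin n) (h0 : k ≠ i0) (h1 : k ≠ i1)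
    (h2 : k ≠ i2) : dvec i0 i1 i2 lam nu k = 1 := by
  simp [dvec, h0, h1, h2]

theorem prod_dvec (i0 i1 i2 : Fin n) (lam nu : F) :
    ∏ i, dvec i0 i1 i2 lam nu i = lam * lam * nu := by
  unfold dvec
  rw [Finset.prod_mul_distrib, Finset.prod_mul_distrib, Finset.prod_ite_eq', Finset.prod_ite_eq',
    Finset.prod_ite_eq']
  simp

theorem dvec_cases {i0 i1 i2 : Fin n} (h01 : i0 ≠ i1) (h02 : i0 ≠ i2) (h12 : i1 ≠ i2)
    (lam nu : F) (j : Fin n) :
    (j = i0 ∧ dvec i0 i1 i2 lam nu j = lam) ∨ (j = i1 ∧ dvec i0 i1 i2 lam nu j = lam) ∨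
      (j = i2 ∧ dvec i0 i1 i2 lam nu j = nu) ∨
      (j ≠ i0 ∧ j ≠ i1 ∧ j ≠ i2 ∧ dvec i0 i1 i2 lam nu j = 1) := by
  by_cases h0 : j = i0
  · left; exact ⟨h0, by rw [h0]; exact dvec_i0 h01 h02 lam nu⟩
  by_cases h1 : j = i1
  · right; left; exact ⟨h1, by rw [h1]; exact dvec_i1 h01 h12 lam nu⟩
  by_cases h2 : j = i2
  · right; right; left; exact ⟨h2, by rw [h2]; exact dvec_i2 h02 h12 lam nu⟩
  · right; right; right; exact ⟨h0, h1, h2, dvec_other lam nu j h0 h1 h2⟩

theorem diag_sympSim (d : Fin n → F) (h : IsSympSim (Matrix.diagonal d)) :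
    ∃ (B : LinearMap.BilinForm F (Fin n → F)) (c : F), B.IsAlt ∧
      (∀ v : Fin n → F, v ≠ 0 → ∃ w, B v w ≠ 0) ∧
      (∀ i j, B (Pi.single i 1) (Pi.single j 1) ≠ 0 → d i * d j = c) ∧
      (∀ i, ∃ j, j ≠ i ∧ B (Pi.single i 1) (Pi.single j 1) ≠ 0) := by
  obtain ⟨B, c, hB, hnd, hc0, hX⟩ := h
  refine ⟨B, c, hB, hnd, ?_, ?_⟩
  · intro i j hne
    have e : ∀ k, (Pi.single k (d k) : Fin n → F) = d k • Pi.single k 1 := by
      intro k
      ext l
      simp [Pi.single_apply]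
    have h1 := hX (Pi.single i 1) (Pi.single j 1)
    rw [Matrix.diagonal_mulVec_single, Matrix.diagonal_mulVec_single, mul_one, mul_one, e, e,
      map_smul, map_smul, LinearMap.smul_apply, smul_eq_mul, smul_eq_mul] at h1
    by_contra hne'
    apply hne
    have h2 : (d i * d j - c) * B (Pi.single i 1) (Pi.single j 1) = 0 := by
      linear_combination h1
    exact (mul_eq_zero.mp h2).resolve_left (sub_ne_zero.mpr hne')
  · intro i
    by_contra hno
    push Not at hno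
    have he0 : (Pi.single i 1 : Fin n → F) ≠ 0 := by
      intro h
      have := congrFun h i
      simp at this
    apply he0
    apply eq_zero_of_basis B hnd
    intro k
    by_cases hk : k = i
    · rw [hk]; exact hB _
    · exact hno k hk

theorem not_sympSim_diag5 (i0 i1 i2 i3 : Fin n) (h01 : i0 ≠ i1) (h02 : i0 ≠ i2)
    (h03 : i0 ≠ i3) (h12 : i1 ≠ i2) (h13 : i1 ≠ i3) (h23 : i2 ≠ i3)
    (lam nu : F) (hnu : lam ^ 2 * nu = 1) (h1 : lam ≠ 1) (h2 : lam ^ 2 ≠ 1) (h3 : lam ^ 3 ≠ 1)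
    (h4 : lam ^ 4 ≠ 1) : ¬ IsSympSim (Matrix.diagonal (dvec i0 i1 i2 lam nu)) := by
  intro h
  obtain ⟨B, c, hB, hnd, hd, hp⟩ := diag_sympSim _ h
  obtain ⟨j3, hj3, hb3⟩ := hp i3
  have hc3 := hd i3 j3 hb3
  rw [dvec_other lam nu i3 (Ne.symm h03) (Ne.symm h13) (Ne.symm h23), one_mul] at hc3
  obtain ⟨j0, hj0, hb0⟩ := hp i0
  have hc0 := hd i0 j0 hb0
  rw [dvec_i0 h01 h02, ← hc3] at hc0
  obtain ⟨j2, hj2, hb2⟩ := hp i2
  have hc2 := hd i2 j2 hb2
  rw [dvec_i2 h02 h12, ← hc3] at hc2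
  rcases dvec_cases h01 h02 h12 lam nu j3 with ⟨-, e3⟩ | ⟨-, e3⟩ | ⟨-, e3⟩ | ⟨-, -, -, e3⟩
  · -- c = lam
    rw [e3] at hc2
    rcases dvec_cases h01 h02 h12 lam nu j2 with ⟨-, e2⟩ | ⟨-, e2⟩ | ⟨e2, -⟩ | ⟨-, -, -, e2⟩
    · rw [e2] at hc2; apply h2; linear_combination (-lam) * hc2 + hnu
    · rw [e2] at hc2; apply h2; linear_combination (-lam) * hc2 + hnu
    · exact hj2 e2
    · rw [e2] at hc2; apply h3; linear_combination (-(lam ^ 2)) * hc2 + hnu
  · rw [e3] at hc2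
    rcases dvec_cases h01 h02 h12 lam nu j2 with ⟨-, e2⟩ | ⟨-, e2⟩ | ⟨e2, -⟩ | ⟨-, -, -, e2⟩
    · rw [e2] at hc2; apply h2; linear_combination (-lam) * hc2 + hnu
    · rw [e2] at hc2; apply h2; linear_combination (-lam) * hc2 + hnu
    · exact hj2 e2
    · rw [e2] at hc2; apply h3; linear_combination (-(lam ^ 2)) * hc2 + hnu
  · -- c = nu
    rw [e3] at hc0
    rcases dvec_cases h01 h02 h12 lam nu j0 with ⟨e0, -⟩ | ⟨-, e0⟩ | ⟨-, e0⟩ | ⟨-, -, -, e0⟩
    · exact hj0 e0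
    · rw [e0] at hc0; apply h4; linear_combination (lam ^ 2) * hc0 + hnu
    · rw [e0] at hc0; apply h1; linear_combination (lam ^ 2) * hc0 - (lam - 1) * hnu
    · rw [e0] at hc0; apply h3; linear_combination (lam ^ 2) * hc0 + hnu
  · -- c = 1
    rw [e3] at hc0
    rcases dvec_cases h01 h02 h12 lam nu j0 with ⟨e0, -⟩ | ⟨-, e0⟩ | ⟨-, e0⟩ | ⟨-, -, -, e0⟩
    · exact hj0 e0
    · rw [e0] at hc0; apply h2; linear_combination hc0
    · rw [e0] at hc0; apply h1; linear_combination (-lam) * hc0 + hnu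
    · rw [e0] at hc0; apply h1; linear_combination hc0

theorem not_sympSim_diag3 (i0 i1 i2 i3 : Fin n) (h01 : i0 ≠ i1) (h02 : i0 ≠ i2)
    (h03 : i0 ≠ i3) (h12 : i1 ≠ i2) (h13 : i1 ≠ i3) (h23 : i2 ≠ i3) (hn6 : n ≠ 6)
    (lam : F) (h3 : lam ^ 3 = 1) (h1 : lam ≠ 1) :
    ¬ IsSympSim (Matrix.diagonal (dvec i0 i1 i2 lam lam)) := by
  classical
  intro h
  obtain ⟨B, c, hB, hnd, hd, hp⟩ := diag_sympSim _ h
  have hlam0 : lam ≠ 0 := by
    rintro rfl
    simp at h3
  obtain ⟨j3, hj3, hb3⟩ := hp i3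
  have hc3 := hd i3 j3 hb3
  rw [dvec_other lam lam i3 (Ne.symm h03) (Ne.symm h13) (Ne.symm h23), one_mul] at hc3
  obtain ⟨j0, hj0, hb0⟩ := hp i0
  have hc0 := hd i0 j0 hb0
  rw [dvec_i0 h01 h02, ← hc3] at hc0
  have key : c = lam := by
    rcases dvec_cases h01 h02 h12 lam lam j3 with ⟨-, e3⟩ | ⟨-, e3⟩ | ⟨-, e3⟩ | ⟨-, -, -, e3⟩
    · rw [← hc3, e3]
    · rw [← hc3, e3]
    · rw [← hc3, e3]
    · exfalso
      rw [e3] at hc0
      rcases dvec_cases h01 h02 h12 lam lam j0 with ⟨e0, -⟩ | ⟨-, e0⟩ | ⟨-, e0⟩ | ⟨-, -, -, e0⟩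
      · exact hj0 e0
      · rw [e0] at hc0; apply h1; linear_combination (-lam) * hc0 + h3
      · rw [e0] at hc0; apply h1; linear_combination (-lam) * hc0 + h3
      · rw [e0] at hc0; apply h1; linear_combination hc0
  have hin : ∀ i j, (i = i0 ∨ i = i1 ∨ i = i2) → (j = i0 ∨ j = i1 ∨ j = i2) →
      B (Pi.single i 1) (Pi.single j 1) = 0 := by
    intro i j hi hj
    by_contra hne
    have h5 := hd i j hne
    have di : dvec i0 i1 i2 lam lam i = lam := by
      rcases hi with rfl | rfl | rfl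
      · exact dvec_i0 h01 h02 _ _
      · exact dvec_i1 h01 h12 _ _
      · exact dvec_i2 h02 h12 _ _
    have dj : dvec i0 i1 i2 lam lam j = lam := by
      rcases hj with rfl | rfl | rfl
      · exact dvec_i0 h01 h02 _ _
      · exact dvec_i1 h01 h12 _ _
      · exact dvec_i2 h02 h12 _ _
    rw [di, dj, key] at h5
    apply h1
    have h6 : lam * (lam - 1) = 0 := by linear_combination h5
    exact sub_eq_zero.mp ((mul_eq_zero.mp h6).resolve_left hlam0)
  have hout : ∀ i j, (i ≠ i0 ∧ i ≠ i1 ∧ i ≠ i2) → (j ≠ i0 ∧ j ≠ i1 ∧ j ≠ i2) →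
      B (Pi.single i 1) (Pi.single j 1) = 0 := by
    intro i j hi hj
    by_contra hne
    have h5 := hd i j hne
    rw [dvec_other lam lam i hi.1 hi.2.1 hi.2.2, dvec_other lam lam j hj.1 hj.2.1 hj.2.2, key,
      one_mul] at h5
    exact h1 h5.symm
  have hcard3 : ({i0, i1, i2} : Finset (Fin n)).card = 3 :=
    Finset.card_eq_three.mpr ⟨i0, i1, i2, h01, h02, h12, rfl⟩
  rcases Nat.lt_or_gt_of_ne hn6 with hlt | hgt
  · apply no_big_isotropic B hnd ({i0, i1, i2} : Finset (Fin n))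
    · intro i hi j hj
      simp only [Finset.mem_insert, Finset.mem_singleton] at hi hj
      exact hin i j hi hj
    · rw [hcard3]; omega
  · apply no_big_isotropic B hnd ({i0, i1, i2} : Finset (Fin n))ᶜ
    · intro i hi j hj
      simp only [Finset.mem_compl, Finset.mem_insert, Finset.mem_singleton, not_or] at hi hj
      exact hout i j hi hj
    · rw [Finset.card_compl, hcard3, Fintype.card_fin]; omega

theorem exists_unip_derangement (p : ℕ) [Fact p.Prime] [CharP F p] (hp : p ≠ 2) (hn : 4 ≤ n) :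
    ∃ x : Matrix.SpecialLinearGroup (Fin n) F,
      ((x ^ p : Matrix.SpecialLinearGroup (Fin n) F) : Matrix (Fin n) (Fin n) F) = 1 ∧
      (∀ z : F, (x : Matrix (Fin n) (Fin n) F) ≠ z • (1 : Matrix (Fin n) (Fin n) F)) ∧
      ¬ IsSympSim (x : Matrix (Fin n) (Fin n) F) := by
  obtain ⟨i0, hi0⟩ : ∃ i0 : Fin n, i0 = ⟨0, by omega⟩ := ⟨_, rfl⟩
  obtain ⟨i1, hi1⟩ : ∃ i1 : Fin n, i1 = ⟨1, by omega⟩ := ⟨_, rfl⟩
  obtain ⟨i2, hi2⟩ : ∃ i2 : Fin n, i2 = ⟨2, by omega⟩ := ⟨_, rfl⟩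
  have h01 : i0 ≠ i1 := by rw [hi0, hi1]; intro h; simpa using congrArg Fin.val h
  have h02 : i0 ≠ i2 := by rw [hi0, hi2]; intro h; simpa using congrArg Fin.val h
  have h12 : i1 ≠ i2 := by rw [hi1, hi2]; intro h; simpa using congrArg Fin.val h
  have : Nonempty (Fin n) := ⟨i0⟩
  have hpp : p.Prime := Fact.out
  have hp3 : 3 ≤ p := by
    have := hpp.two_le
    omega
  obtain ⟨N, hN⟩ : ∃ N : Matrix (Fin n) (Fin n) F,
      N = Matrix.single i0 i1 (1 : F) + Matrix.single i1 i2 (1 : F) := ⟨_, rfl⟩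
  have hNN : N * N = Matrix.single i0 i2 (1 : F) := by
    rw [hN, add_mul, mul_add, mul_add, Matrix.single_mul_single_of_ne _ _ _ _ (Ne.symm h01),
      Matrix.single_mul_single_same, Matrix.single_mul_single_of_ne _ _ _ _ (Ne.symm h02),
      Matrix.single_mul_single_of_ne _ _ _ _ (Ne.symm h12)]
    simp
  have hN3 : N ^ 3 = 0 := by
    rw [pow_succ, pow_two, hNN, hN, mul_add,
      Matrix.single_mul_single_of_ne _ _ _ _ (Ne.symm h02),
      Matrix.single_mul_single_of_ne _ _ _ _ (Ne.symm h12), add_zero]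
  have hX : (1 : Matrix (Fin n) (Fin n) F) + Matrix.single i0 i1 (1 : F) +
      Matrix.single i1 i2 (1 : F) = 1 + N := by rw [hN, add_assoc]
  have hdet : ((1 : Matrix (Fin n) (Fin n) F) + Matrix.single i0 i1 (1 : F) +
      Matrix.single i1 i2 (1 : F)).det = 1 := by
    have h1 : (1 : Matrix (Fin n) (Fin n) F) + Matrix.single i0 i1 (1 : F) +
        Matrix.single i1 i2 (1 : F) =
        Matrix.transvection i1 i2 (1 : F) * Matrix.transvection i0 i1 (1 : F) := by
      unfold Matrix.transvection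
      rw [add_mul, mul_add, mul_add, one_mul, mul_one, one_mul,
        Matrix.single_mul_single_of_ne _ _ _ _ (Ne.symm h02)]
      abel
    rw [h1, Matrix.det_mul, Matrix.det_transvection_of_ne _ _ h12,
      Matrix.det_transvection_of_ne _ _ h01, mul_one]
  obtain ⟨x, hx⟩ : ∃ x : Matrix.SpecialLinearGroup (Fin n) F,
      (x : Matrix (Fin n) (Fin n) F) = (1 : Matrix (Fin n) (Fin n) F) +
        Matrix.single i0 i1 (1 : F) + Matrix.single i1 i2 (1 : F) := ⟨⟨_, hdet⟩, rfl⟩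
  refine ⟨x, ?_, ?_, ?_⟩
  · rw [Matrix.SpecialLinearGroup.coe_pow, hx]
    rw [hX, add_pow_char_of_commute p (Commute.one_left N),
      one_pow, pow_eq_zero_of_le hp3 hN3, add_zero]
  · intro z hz
    rw [hx] at hz
    have h1 := congrFun (congrFun hz i0) i1
    simp [Matrix.single_apply, Matrix.one_apply, h01, Ne.symm h01] at h1
  · rw [hx]
    exact not_sympSim_unip i0 i1 i2 h01 h02 h12

theorem exists_diag_derangement (hn : 4 ≤ n) (r : ℕ) (hr : r.Prime) (hr2 : r ≠ 2)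
    (hgap : ¬ (n = 6 ∧ r = 3)) (lam : F) (hlam : orderOf lam = r) :
    ∃ x : Matrix.SpecialLinearGroup (Fin n) F,
      ((x ^ r : Matrix.SpecialLinearGroup (Fin n) F) : Matrix (Fin n) (Fin n) F) = 1 ∧
      (∀ z : F, (x : Matrix (Fin n) (Fin n) F) ≠ z • (1 : Matrix (Fin n) (Fin n) F)) ∧
      ¬ IsSympSim (x : Matrix (Fin n) (Fin n) F) := by
  obtain ⟨i0, hi0⟩ : ∃ i0 : Fin n, i0 = ⟨0, by omega⟩ := ⟨_, rfl⟩
  obtain ⟨i1, hi1⟩ : ∃ i1 : Fin n, i1 = ⟨1, by omega⟩ := ⟨_, rfl⟩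
  obtain ⟨i2, hi2⟩ : ∃ i2 : Fin n, i2 = ⟨2, by omega⟩ := ⟨_, rfl⟩
  obtain ⟨i3, hi3⟩ : ∃ i3 : Fin n, i3 = ⟨3, by omega⟩ := ⟨_, rfl⟩
  have h01 : i0 ≠ i1 := by rw [hi0, hi1]; intro h; simpa using congrArg Fin.val h
  have h02 : i0 ≠ i2 := by rw [hi0, hi2]; intro h; simpa using congrArg Fin.val h
  have h03 : i0 ≠ i3 := by rw [hi0, hi3]; intro h; simpa using congrArg Fin.val h
  have h12 : i1 ≠ i2 := by rw [hi1, hi2]; intro h; simpa using congrArg Fin.val h
  have h13 : i1 ≠ i3 := by rw [hi1, hi3]; intro h; simpa using congrArg Fin.val h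
  have h23 : i2 ≠ i3 := by rw [hi2, hi3]; intro h; simpa using congrArg Fin.val h
  have hr3 : 3 ≤ r := by
    have := hr.two_le
    omega
  have hlamr : lam ^ r = 1 := by rw [← hlam]; exact pow_orderOf_eq_one lam
  have hlam0 : lam ≠ 0 := by
    rintro rfl
    rw [zero_pow (by omega)] at hlamr
    exact zero_ne_one hlamr
  have hpow : ∀ k, k ≠ 0 → k < r → lam ^ k ≠ 1 := by
    intro k hk0 hk
    exact pow_ne_one_of_lt_orderOf hk0 (by rw [hlam]; exact hk)
  have hlam1 : lam ≠ 1 := by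
    have := hpow 1 one_ne_zero (by omega)
    rwa [pow_one] at this
  obtain ⟨nu, hnu⟩ : ∃ nu : F, nu = lam⁻¹ ^ 2 := ⟨_, rfl⟩
  have hnu1 : lam ^ 2 * nu = 1 := by
    rw [hnu, ← mul_pow, mul_inv_cancel₀ hlam0, one_pow]
  have hnur : nu ^ r = 1 := by
    rw [hnu, ← pow_mul, mul_comm, pow_mul, inv_pow, hlamr, inv_one, one_pow]
  have hdet : (Matrix.diagonal (dvec i0 i1 i2 lam nu)).det = 1 := by
    rw [Matrix.det_diagonal, prod_dvec, ← hnu1]
    ring
  have hdr : ∀ i, dvec i0 i1 i2 lam nu i ^ r = 1 := by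
    intro i
    rcases dvec_cases h01 h02 h12 lam nu i with ⟨-, e⟩ | ⟨-, e⟩ | ⟨-, e⟩ | ⟨-, -, -, e⟩
    · rw [e, hlamr]
    · rw [e, hlamr]
    · rw [e, hnur]
    · rw [e, one_pow]
  obtain ⟨x, hx⟩ : ∃ x : Matrix.SpecialLinearGroup (Fin n) F,
      (x : Matrix (Fin n) (Fin n) F) = Matrix.diagonal (dvec i0 i1 i2 lam nu) :=
    ⟨⟨_, hdet⟩, rfl⟩
  refine ⟨x, ?_, ?_, ?_⟩
  · rw [Matrix.SpecialLinearGroup.coe_pow, hx]
    rw [Matrix.diagonal_pow, ← Matrix.diagonal_one]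
    congr 1
    funext i
    exact hdr i
  · intro z hz
    have hz' : Matrix.diagonal (dvec i0 i1 i2 lam nu) = z • (1 : Matrix (Fin n) (Fin n) F) := by
      rw [← hx]; exact hz
    have e0 := congrFun (congrFun hz' i0) i0
    have e3 := congrFun (congrFun hz' i3) i3
    simp only [Matrix.diagonal_apply_eq, Matrix.smul_apply, Matrix.one_apply_eq, smul_eq_mul,
      mul_one] at e0 e3
    rw [dvec_i0 h01 h02] at e0
    rw [dvec_other lam nu i3 (Ne.symm h03) (Ne.symm h13) (Ne.symm h23)] at e3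
    exact hlam1 (e0.trans e3.symm)
  · rw [hx]
    by_cases hr3' : r = 3
    · have hn6 : n ≠ 6 := fun h => hgap ⟨h, hr3'⟩
      have h3 : lam ^ 3 = 1 := by rw [← hr3']; exact hlamr
      have hnul : nu = lam := by
        have h5 : lam ^ 2 * (nu - lam) = 0 := by linear_combination hnu1 - h3
        have h6 := (mul_eq_zero.mp h5).resolve_left (pow_ne_zero 2 hlam0)
        exact sub_eq_zero.mp h6
      rw [hnul]
      exact not_sympSim_diag3 i0 i1 i2 i3 h01 h02 h03 h12 h13 h23 hn6 lam h3 hlam1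
    · have hr5 : 5 ≤ r := by
        by_contra hlt
        have hr4 : r = 4 := by omega
        rw [hr4] at hr
        exact absurd hr (by norm_num)
      exact not_sympSim_diag5 i0 i1 i2 i3 h01 h02 h03 h12 h13 h23 lam nu hnu1 hlam1
        (hpow 2 (by norm_num) (by omega)) (hpow 3 (by norm_num) (by omega))
        (hpow 4 (by norm_num) (by omega))

end SpDerA

end Cfsg.Agent.H42
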