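import Mathlib
import Cfsg.Agent.H42.SpDerA
import Cfsg.Agent.H42.OInv

/-!
# A field-extension block is not a symplectic similarity (helper42)
-/

set_option autoImplicit false

namespace Cfsg.Agent.H42

open Matrix

section SpDerB

variable {F : Type*} [Field F]

theorem ext_derangement_aux {K : Type*} [Field K] [Algebra F K] [Module.Finite F K]
    (n m : ℕ) (hm : Odd m) (hnm : Module.finrank F K + m = n)
    (lam : K) (r : ℕ) (hlamr : lam ^ r = 1) (hlam1 : lam ≠ 1)
    (hlamF : ∀ c : F, lam ≠ algebraMap F K c) (hnorm : Algebra.norm F lam = 1) :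
    ∃ x : Matrix.SpecialLinearGroup (Fin n) F,
      ((x ^ r : Matrix.SpecialLinearGroup (Fin n) F) : Matrix (Fin n) (Fin n) F) = 1 ∧
      (∀ z : F, (x : Matrix (Fin n) (Fin n) F) ≠ z • (1 : Matrix (Fin n) (Fin n) F)) ∧
      ¬ IsSympSim (x : Matrix (Fin n) (Fin n) F) := by
  classical
  have hfr : Module.finrank F (Fin n → F) = Module.finrank F (K × (Fin m → F)) := by
    rw [Module.finrank_prod, Module.finrank_fintype_fun_eq_card,
      Module.finrank_fintype_fun_eq_card, Fintype.card_fin, Fintype.card_fin, hnm]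
  obtain ⟨Ψ⟩ : Nonempty ((Fin n → F) ≃ₗ[F] K × (Fin m → F)) :=
    ⟨LinearEquiv.ofFinrankEq _ _ hfr⟩
  obtain ⟨L, hL⟩ : ∃ L : K × (Fin m → F) →ₗ[F] K × (Fin m → F),
      L = LinearMap.prodMap (Algebra.lmul F K lam) LinearMap.id := ⟨_, rfl⟩
  have hLapp : ∀ z : K × (Fin m → F), L z = (lam * z.1, z.2) := by
    intro z
    rw [hL]
    rfl
  obtain ⟨xl, hxl⟩ : ∃ xl : (Fin n → F) →ₗ[F] (Fin n → F),
      xl = (Ψ.symm : K × (Fin m → F) →ₗ[F] (Fin n → F)) ∘ₗ L ∘ₗ
        (Ψ.symm.symm : (Fin n → F) →ₗ[F] K × (Fin m → F)) := ⟨_, rfl⟩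
  have hdetL : LinearMap.det L = 1 := by
    rw [hL, LinearMap.det_prodMap, LinearMap.det_id, mul_one, ← Algebra.norm_apply, hnorm]
  have hdetxl : LinearMap.det xl = 1 := by
    rw [hxl, LinearMap.det_conj, hdetL]
  obtain ⟨X, hX⟩ : ∃ X : Matrix (Fin n) (Fin n) F, X = LinearMap.toMatrix' xl := ⟨_, rfl⟩
  have hdetX : X.det = 1 := by rw [hX, LinearMap.det_toMatrix', hdetxl]
  have hXv : ∀ v, X *ᵥ v = xl v := by
    intro v
    rw [hX, ← Matrix.toLin'_apply, Matrix.toLin'_toMatrix']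
  have hΨ : ∀ v, Ψ (X *ᵥ v) = (lam * (Ψ v).1, (Ψ v).2) := by
    intro v
    rw [hXv, hxl]
    simp only [LinearMap.comp_apply, LinearEquiv.coe_coe, LinearEquiv.symm_symm,
      LinearEquiv.apply_symm_apply]
    exact hLapp _
  have hpow : ∀ (k : ℕ) v, Ψ ((X ^ k) *ᵥ v) = (lam ^ k * (Ψ v).1, (Ψ v).2) := by
    intro k
    induction k with
    | zero => intro v; simp
    | succ k ih =>
      intro v
      rw [pow_succ, ← Matrix.mulVec_mulVec, ih, hΨ]
      simp only
      rw [pow_succ, mul_assoc]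
  -- the two embeddings
  have hX2 : ∀ a : Fin m → F, X *ᵥ (Ψ.symm (0, a)) = Ψ.symm (0, a) := by
    intro a
    apply Ψ.injective
    rw [hΨ, LinearEquiv.apply_symm_apply, mul_zero]
  have hX1 : ∀ k : K, X *ᵥ (Ψ.symm (k, 0)) = Ψ.symm (lam * k, 0) := by
    intro k
    apply Ψ.injective
    rw [hΨ, LinearEquiv.apply_symm_apply, LinearEquiv.apply_symm_apply]
  have hmpos : 0 < m := hm.pos
  obtain ⟨e, he⟩ : ∃ e : Fin m → F, e = Pi.single ⟨0, hmpos⟩ 1 := ⟨_, rfl⟩
  have he0 : e ≠ 0 := by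
    intro h
    have := congrFun h ⟨0, hmpos⟩
    rw [he] at this
    simp at this
  have hv1 : Ψ.symm ((0 : K), e) ≠ 0 := by
    intro h
    have h1 := congrArg Ψ h
    rw [LinearEquiv.apply_symm_apply, map_zero] at h1
    exact he0 (congrArg Prod.snd h1)
  obtain ⟨x, hx⟩ : ∃ x : Matrix.SpecialLinearGroup (Fin n) F,
      (x : Matrix (Fin n) (Fin n) F) = X := ⟨⟨X, hdetX⟩, rfl⟩
  refine ⟨x, ?_, ?_, ?_⟩
  · rw [Matrix.SpecialLinearGroup.coe_pow, hx]
    apply mat_ext_mulVecG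
    intro v
    apply Ψ.injective
    rw [hpow, hlamr, one_mul, Matrix.one_mulVec]
  · intro z hz
    rw [hx] at hz
    have h1 := hX2 e
    rw [hz, Matrix.smul_mulVec, Matrix.one_mulVec] at h1
    have hz1 : z = 1 := by
      by_contra hne
      have h2 : (z - 1) • Ψ.symm ((0 : K), e) = 0 := by
        rw [sub_smul, one_smul, h1, sub_self]
      rcases smul_eq_zero.mp h2 with h3 | h3
      · exact hne (sub_eq_zero.mp h3)
      · exact hv1 h3
    have h4 := hX1 1
    rw [hz, hz1, one_smul, Matrix.one_mulVec, mul_one] at h4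
    have h5 := congrArg (fun w => (Ψ w).1) h4
    simp only [LinearEquiv.apply_symm_apply] at h5
    exact hlam1 h5.symm
  · rw [hx]
    rintro ⟨B, c, hB, hnd, hc0, hXB⟩
    -- the multiplier is one
    have hc1 : c = 1 := by
      by_contra hc1
      obtain ⟨w, hw⟩ := hnd _ hv1
      apply hw
      have hlc : lam - algebraMap F K c ≠ 0 := sub_ne_zero.mpr (hlamF c)
      have h1c : (1 : F) - c ≠ 0 := sub_ne_zero.mpr (Ne.symm hc1)
      obtain ⟨v, hv⟩ : ∃ v : Fin n → F,
          v = Ψ.symm ((lam - algebraMap F K c)⁻¹ * (Ψ w).1, (1 - c)⁻¹ • (Ψ w).2) := ⟨_, rfl⟩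
      have e1 : lam * ((lam - algebraMap F K c)⁻¹ * (Ψ w).1) -
          c • ((lam - algebraMap F K c)⁻¹ * (Ψ w).1) = (Ψ w).1 := by
        rw [Algebra.smul_def, ← sub_mul, ← mul_assoc, mul_inv_cancel₀ hlc, one_mul]
      have e2 : (1 - c)⁻¹ • (Ψ w).2 - c • ((1 - c)⁻¹ • (Ψ w).2) = (Ψ w).2 := by
        rw [smul_smul, ← sub_smul]
        have : (1 - c)⁻¹ - c * (1 - c)⁻¹ = 1 := by
          rw [← one_sub_mul, mul_inv_cancel₀ h1c]
        rw [this, one_smul]
      have hw' : w = X *ᵥ v - c • v := by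
        apply Ψ.injective
        rw [map_sub, map_smul, hΨ, hv, LinearEquiv.apply_symm_apply]
        exact Prod.ext e1.symm e2.symm
      have h2 := hXB (Ψ.symm ((0 : K), e)) v
      rw [hX2] at h2
      rw [hw', map_sub, map_smul, h2, smul_eq_mul, sub_self]
    subst hc1
    -- the fixed space is orthogonal to the moved space
    have horth : ∀ (a : Fin m → F) (k : K), B (Ψ.symm ((0 : K), a)) (Ψ.symm (k, (0 : Fin m → F))) = 0 := by
      intro a k
      have hl1 : lam - 1 ≠ 0 := sub_ne_zero.mpr hlam1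
      have h2 := hXB (Ψ.symm ((0 : K), a)) (Ψ.symm ((lam - 1)⁻¹ * k, (0 : Fin m → F)))
      rw [hX2, hX1, one_mul] at h2
      have e3 : lam * ((lam - 1)⁻¹ * k) - (lam - 1)⁻¹ * k = k := by
        rw [← sub_one_mul, ← mul_assoc, mul_inv_cancel₀ hl1, one_mul]
      have h3 : Ψ.symm (k, (0 : Fin m → F)) =
          Ψ.symm (lam * ((lam - 1)⁻¹ * k), (0 : Fin m → F)) -
            Ψ.symm ((lam - 1)⁻¹ * k, (0 : Fin m → F)) := by
        rw [← map_sub]
        congr 1
        exact Prod.ext e3.symm (sub_zero _).symm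
      rw [h3, map_sub, h2, sub_self]
    obtain ⟨ι₂, hι₂⟩ : ∃ ι₂ : (Fin m → F) →ₗ[F] (Fin n → F),
        ι₂ = (Ψ.symm : K × (Fin m → F) →ₗ[F] (Fin n → F)) ∘ₗ LinearMap.inr F K (Fin m → F) :=
      ⟨_, rfl⟩
    have hι₂app : ∀ a, ι₂ a = Ψ.symm ((0 : K), a) := by
      intro a
      rw [hι₂]
      rfl
    obtain ⟨B₂, hB₂⟩ : ∃ B₂ : LinearMap.BilinForm F (Fin m → F), B₂ = B.compl₁₂ ι₂ ι₂ :=
      ⟨_, rfl⟩
    have hB₂app : ∀ a b, B₂ a b = B (Ψ.symm ((0 : K), a)) (Ψ.symm ((0 : K), b)) := by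
      intro a b
      rw [hB₂, LinearMap.compl₁₂_apply, hι₂app, hι₂app]
    have hB₂alt : B₂.IsAlt := by
      intro a
      rw [hB₂app]
      exact hB _
    have hB₂nd : ∀ a : Fin m → F, a ≠ 0 → ∃ b, B₂ a b ≠ 0 := by
      intro a ha
      have ha' : Ψ.symm ((0 : K), a) ≠ 0 := by
        intro h
        have h1 := congrArg Ψ h
        rw [LinearEquiv.apply_symm_apply, map_zero] at h1
        exact ha (congrArg Prod.snd h1)
      obtain ⟨w, hw⟩ := hnd _ ha'
      refine ⟨(Ψ w).2, ?_⟩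
      rw [hB₂app]
      intro h0
      apply hw
      have h3 : w = Ψ.symm ((Ψ w).1, (0 : Fin m → F)) + Ψ.symm ((0 : K), (Ψ w).2) := by
        rw [← map_add]
        apply Ψ.injective
        rw [LinearEquiv.apply_symm_apply]
        ext1 <;> simp
      rw [h3, map_add, horth, h0, add_zero]
    obtain ⟨I, _, _, ee, ff, hee, hff, hef, hexp⟩ := Cfsg.Agent.H99.exists_hyp_basis B₂ hB₂alt hB₂nd
    have hcard := Cfsg.Agent.H99.hyp_card B₂ hB₂alt ee ff hee hff hef hexp
    rw [Module.finrank_fintype_fun_eq_card, Fintype.card_fin] at hcard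
    obtain ⟨t, ht⟩ := hm
    omega

theorem root_unity_trivial [Fintype F] {q : ℕ} (hq : Fintype.card F = q) (r : ℕ) (hr : r.Prime)
    (hrq : ¬ r ∣ q - 1) (c : F) (hc : c ^ r = 1) : c = 1 := by
  by_contra hne
  haveI : Fact r.Prime := ⟨hr⟩
  have hc0 : c ≠ 0 := by
    rintro rfl
    rw [zero_pow hr.ne_zero] at hc
    exact zero_ne_one hc
  have h1 : orderOf c = r := orderOf_eq_prime hc hne
  have h2 : c ^ (q - 1) = 1 := by
    rw [← hq]
    exact FiniteField.pow_card_sub_one_eq_one c hc0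
  apply hrq
  rw [← h1]
  exact orderOf_dvd_of_pow_eq_one h2

theorem exists_ext_derangement [Fintype F] (p : ℕ) [Fact p.Prime] [CharP F p] {q : ℕ}
    (hq : Fintype.card F = q) (n j : ℕ) (hjodd : Odd j) (hjn : j < n) (hne : Even n)
    (r : ℕ) (hr : r.Prime) (hrq : ¬ r ∣ q - 1) (hrj : r ∣ q ^ j - 1) :
    ∃ x : Matrix.SpecialLinearGroup (Fin n) F,
      ((x ^ r : Matrix.SpecialLinearGroup (Fin n) F) : Matrix (Fin n) (Fin n) F) = 1 ∧
      (∀ z : F, (x : Matrix (Fin n) (Fin n) F) ≠ z • (1 : Matrix (Fin n) (Fin n) F)) ∧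
      ¬ IsSympSim (x : Matrix (Fin n) (Fin n) F) := by
  haveI : NeZero j := ⟨by
    rintro rfl
    simp at hjodd⟩
  haveI : Fact r.Prime := ⟨hr⟩
  have hcardK : Nat.card (FiniteField.Extension F p j) = q ^ j := by
    rw [FiniteField.natCard_extension, Nat.card_eq_fintype_card, hq]
  have hunits : Nat.card (FiniteField.Extension F p j)ˣ = q ^ j - 1 := by
    rw [Nat.card_units, hcardK]
  obtain ⟨g, hg⟩ := exists_prime_orderOf_dvd_card' (G := (FiniteField.Extension F p j)ˣ) r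
    (by rw [hunits]; exact hrj)
  obtain ⟨lam, hlam⟩ : ∃ lam : FiniteField.Extension F p j, lam = (g : FiniteField.Extension F p j) :=
    ⟨_, rfl⟩
  have hlamr : lam ^ r = 1 := by
    rw [hlam, ← Units.val_pow_eq_pow_val, ← hg, pow_orderOf_eq_one, Units.val_one]
  have hlam1 : lam ≠ 1 := by
    intro h
    have h1 : g = 1 := Units.ext (by rw [← hlam, h, Units.val_one])
    rw [h1, orderOf_one] at hg
    exact hr.one_lt.ne hg
  have hlamF : ∀ c : F, lam ≠ algebraMap F (FiniteField.Extension F p j) c := by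
    intro c h
    have h1 : algebraMap F (FiniteField.Extension F p j) (c ^ r) =
        algebraMap F (FiniteField.Extension F p j) 1 := by
      rw [map_pow, ← h, hlamr, map_one]
    have h2 : c ^ r = 1 := (algebraMap F (FiniteField.Extension F p j)).injective h1
    have h3 := root_unity_trivial hq r hr hrq c h2
    rw [h3, map_one] at h
    exact hlam1 h
  have hnorm : Algebra.norm F lam = 1 := by
    apply root_unity_trivial hq r hr hrq
    rw [← map_pow, hlamr, map_one]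
  have hm : Odd (n - j) := by
    obtain ⟨a, ha⟩ := hjodd
    obtain ⟨b, hb⟩ := hne
    exact ⟨b - a - 1, by omega⟩
  exact ext_derangement_aux n (n - j) hm
    (by rw [FiniteField.finrank_extension]; omega) lam r hlamr hlam1 hlamF hnorm

end SpDerB

end Cfsg.Agent.H42
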