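import Mathlib
import Cfsg.Prelude.Def_Classical
import Cfsg.Prelude.Def_ClassicalGeometry
import Cfsg.Prelude.Def_GeometricClasses
import Cfsg.Agent.H17.Symp
import Cfsg.Agent.H42.ElusSpA
import Cfsg.Agent.H99.SympType
import Cfsg.Agent.H7.Basic

set_option autoImplicit false

/-! The index of a symplectic-type subgroup of `SL_{2d}(q)`: standardization of symplectic forms,
the order of the isometry group, the primes dividing the index (helper42). -/

namespace Cfsg.Agent.H42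

open Module Matrix

section Std

variable {F : Type*} [Field F] {d : ℕ}

theorem sympForm_single_ll (i j : Fin d) :
    Cfsg.sympForm d F (Pi.single (Sum.inl i) 1) (Pi.single (Sum.inl j) 1) = 0 := by
  rw [Cfsg.Agent.H17.sympForm_eq_sum]
  simp

theorem sympForm_single_rr (i j : Fin d) :
    Cfsg.sympForm d F (Pi.single (Sum.inr i) 1) (Pi.single (Sum.inr j) 1) = 0 := by
  rw [Cfsg.Agent.H17.sympForm_eq_sum]
  simp

theorem sympForm_single_rl (i j : Fin d) :
    Cfsg.sympForm d F (Pi.single (Sum.inr i) 1) (Pi.single (Sum.inl j) 1) =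
      if i = j then 1 else 0 := by
  classical
  rw [Cfsg.Agent.H17.sympForm_eq_sum]
  simp only [Pi.single_apply, Sum.inr.injEq, Sum.inl.injEq, reduceCtorEq, if_false,
    sub_zero, mul_ite, mul_one, mul_zero]
  by_cases h : i = j
  · subst h
    simp
  · rw [if_neg h]
    apply Finset.sum_eq_zero
    intro k _
    by_cases hk : k = i
    · subst hk
      simp [h]
    · simp [hk]

theorem sympForm_single_lr (i j : Fin d) :
    Cfsg.sympForm d F (Pi.single (Sum.inl i) 1) (Pi.single (Sum.inr j) 1) =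
      if i = j then -1 else 0 := by
  rw [Cfsg.Agent.H17.sympForm_swap, sympForm_single_rl]
  by_cases h : i = j
  · subst h
    simp
  · have h' : ¬ j = i := fun h' => h h'.symm
    simp [h, h']

/-- Every symplectic form on `F^(2d)` is equivalent to the standard one. -/
theorem exists_std_equiv (f : (Fin (d + d) → F) → (Fin (d + d) → F) → F)
    (hf : Cfsg.Geo.IsSymplecticForm f) :
    ∃ Φ : (Fin d ⊕ Fin d → F) ≃ₗ[F] (Fin (d + d) → F),
      ∀ a b, f (Φ a) (Φ b) = Cfsg.sympForm d F a b := by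
  classical
  obtain ⟨B, hBdef⟩ : ∃ B : LinearMap.BilinForm F (Fin (d + d) → F),
      B = Cfsg.Agent.H99.bilinOfForm f hf.bilinear := ⟨_, rfl⟩
  have hBf : ∀ u v, B u v = f u v := by
    intro u v
    rw [hBdef]
    rfl
  have hB : B.IsAlt := fun v => by rw [hBf]; exact hf.alternating v
  have hnd : ∀ s : Fin (d + d) → F, s ≠ 0 → ∃ w, B s w ≠ 0 := by
    intro s hs
    obtain ⟨w, hw⟩ := (hf.nondegenerate s hs).2
    exact ⟨w, by rw [hBf]; exact hw⟩
  obtain ⟨I, _, _, e, f', hee, hff, hef, hexp⟩ := Cfsg.Agent.H99.exists_hyp_basis B hB hnd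
  have hcard := Cfsg.Agent.H99.hyp_card B hB e f' hee hff hef hexp
  rw [Module.finrank_pi, Fintype.card_fin] at hcard
  have hcardI : Fintype.card I = Fintype.card (Fin d) := by
    rw [Fintype.card_fin]
    omega
  obtain ⟨σ⟩ : Nonempty (I ≃ Fin d) := Fintype.card_eq.mp hcardI
  have hfe : ∀ i j, B (f' i) (e j) = if i = j then -1 else 0 := by
    intro i j
    rw [← hB.neg_eq (e j) (f' i), hef]
    by_cases h : i = j
    · subst h
      simp
    · have h' : ¬ j = i := fun h' => h h'.symm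
      simp [h, h']
  obtain ⟨b, hb⟩ : ∃ b : Basis (I ⊕ I) F (Fin (d + d) → F), ∀ x, b x = Sum.elim e f' x := by
    refine ⟨Basis.mk (Cfsg.Agent.H99.hyp_linearIndependent B hB e f' hee hff hef)
      (by rw [Cfsg.Agent.H99.hyp_span_top B e f' hexp]), fun x => ?_⟩
    rw [Basis.mk_apply]
  obtain ⟨τ, hτl, hτr⟩ : ∃ τ : (Fin d ⊕ Fin d) ≃ (I ⊕ I),
      (∀ k, τ (Sum.inl k) = Sum.inr (σ.symm k)) ∧ (∀ k, τ (Sum.inr k) = Sum.inl (σ.symm k)) :=
    ⟨(Equiv.sumComm _ _).trans (Equiv.sumCongr σ.symm σ.symm), fun k => rfl, fun k => rfl⟩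
  obtain ⟨Φ, hΦ⟩ : ∃ Φ : (Fin d ⊕ Fin d → F) ≃ₗ[F] (Fin (d + d) → F),
      ∀ x, Φ (Pi.single x 1) = b (τ x) := by
    refine ⟨(Pi.basisFun F (Fin d ⊕ Fin d)).equiv b τ, fun x => ?_⟩
    rw [← Pi.basisFun_apply F (Fin d ⊕ Fin d) x, Basis.equiv_apply]
  refine ⟨Φ, ?_⟩
  have key : (B.comp (Φ : (Fin d ⊕ Fin d → F) →ₗ[F] (Fin (d + d) → F))
      (Φ : (Fin d ⊕ Fin d → F) →ₗ[F] (Fin (d + d) → F))) = Cfsg.Agent.H17.sympBilin d F := by
    apply LinearMap.BilinForm.ext_basis (Pi.basisFun F (Fin d ⊕ Fin d))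
    intro x y
    rw [LinearMap.BilinForm.comp_apply, Cfsg.Agent.H17.sympBilin_apply, Pi.basisFun_apply,
      Pi.basisFun_apply, LinearEquiv.coe_coe, hΦ, hΦ, hb, hb]
    rcases x with i | i <;> rcases y with j | j
    · rw [hτl, hτl, Sum.elim_inr, Sum.elim_inr, hff, sympForm_single_ll]
    · rw [hτl, hτr, Sum.elim_inr, Sum.elim_inl, hfe, sympForm_single_lr]
      simp
    · rw [hτr, hτl, Sum.elim_inl, Sum.elim_inr, hef, sympForm_single_rl]
      simp
    · rw [hτr, hτr, Sum.elim_inl, Sum.elim_inl, hee, sympForm_single_rr]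
  intro a b'
  have h1 := LinearMap.congr_fun₂ key a b'
  rw [LinearMap.BilinForm.comp_apply, Cfsg.Agent.H17.sympBilin_apply, LinearEquiv.coe_coe,
    hBf] at h1
  exact h1

end Std

section PresTransport

variable {F : Type*} [Field F] {ι₁ ι : Type} [Fintype ι₁] [DecidableEq ι₁] [Fintype ι]
  [DecidableEq ι]

theorem mem_pres_iff (f : (ι → F) → (ι → F) → F) (x : Matrix.GeneralLinearGroup ι F) :
    x ∈ Cfsg.preserving (Cfsg.glToMat ι F) f ↔
      ∀ u v, f ((x : Matrix ι ι F) *ᵥ u) ((x : Matrix ι ι F) *ᵥ v) = f u v :=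
  Iff.rfl

/-- Transport of a form-preserving matrix along an isometric linear equivalence. -/
theorem pres_transport (f₁ : (ι₁ → F) → (ι₁ → F) → F) (f : (ι → F) → (ι → F) → F)
    (Φ : (ι₁ → F) ≃ₗ[F] (ι → F)) (hΦ : ∀ a b, f (Φ a) (Φ b) = f₁ a b)
    (a : Matrix.GeneralLinearGroup ι₁ F) (ha : a ∈ Cfsg.preserving (Cfsg.glToMat ι₁ F) f₁) :
    ∃ b : Matrix.GeneralLinearGroup ι F, b ∈ Cfsg.preserving (Cfsg.glToMat ι F) f ∧
      (∀ v, (b : Matrix ι ι F) *ᵥ v = Φ ((a : Matrix ι₁ ι₁ F) *ᵥ Φ.symm v)) ∧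
      (b : Matrix ι ι F).det = (a : Matrix ι₁ ι₁ F).det := by
  obtain ⟨U, hU⟩ := gl_transport Φ a
  refine ⟨U, ?_, hU, ?_⟩
  · rw [mem_pres_iff]
    intro u v
    rw [hU, hU, hΦ, (mem_pres_iff f₁ a).1 ha, ← hΦ, LinearEquiv.apply_symm_apply,
      LinearEquiv.apply_symm_apply]
  · have h1 : Matrix.toLin' (U : Matrix ι ι F) =
        (Φ : (ι₁ → F) →ₗ[F] (ι → F)) ∘ₗ Matrix.toLin' (a : Matrix ι₁ ι₁ F) ∘ₗ
          (Φ.symm : (ι → F) →ₗ[F] (ι₁ → F)) := by
      apply LinearMap.ext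
      intro v
      rw [Matrix.toLin'_apply, hU]
      simp only [LinearMap.comp_apply, LinearEquiv.coe_coe, Matrix.toLin'_apply]
    rw [← LinearMap.det_toLin' (U : Matrix ι ι F), h1, LinearMap.det_conj, LinearMap.det_toLin']

theorem card_pres_le [Finite F] (f₁ : (ι₁ → F) → (ι₁ → F) → F) (f : (ι → F) → (ι → F) → F)
    (Φ : (ι₁ → F) ≃ₗ[F] (ι → F)) (hΦ : ∀ a b, f (Φ a) (Φ b) = f₁ a b) :
    Nat.card ↥(Cfsg.preserving (Cfsg.glToMat ι₁ F) f₁) ≤
      Nat.card ↥(Cfsg.preserving (Cfsg.glToMat ι F) f) := by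
  classical
  have hfin : Finite ↥(Cfsg.preserving (Cfsg.glToMat ι F) f) := inferInstance
  apply Nat.card_le_card_of_injective
    (fun a : ↥(Cfsg.preserving (Cfsg.glToMat ι₁ F) f₁) =>
      (⟨(pres_transport f₁ f Φ hΦ a.1 a.2).choose,
        (pres_transport f₁ f Φ hΦ a.1 a.2).choose_spec.1⟩ :
        ↥(Cfsg.preserving (Cfsg.glToMat ι F) f)))
  intro a a' h
  have h1 := (pres_transport f₁ f Φ hΦ a.1 a.2).choose_spec.2.1
  have h2 := (pres_transport f₁ f Φ hΦ a'.1 a'.2).choose_spec.2.1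
  have h' : (pres_transport f₁ f Φ hΦ a.1 a.2).choose =
      (pres_transport f₁ f Φ hΦ a'.1 a'.2).choose := congrArg Subtype.val h
  rw [h'] at h1
  apply Subtype.ext
  apply Units.ext
  apply mat_ext_mulVecG
  intro x
  have h3 := (h1 (Φ x)).symm.trans (h2 (Φ x))
  rw [LinearEquiv.symm_apply_apply] at h3
  exact Φ.injective h3

theorem card_pres_congr [Finite F] (f₁ : (ι₁ → F) → (ι₁ → F) → F) (f : (ι → F) → (ι → F) → F)
    (Φ : (ι₁ → F) ≃ₗ[F] (ι → F)) (hΦ : ∀ a b, f (Φ a) (Φ b) = f₁ a b) :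
    Nat.card ↥(Cfsg.preserving (Cfsg.glToMat ι₁ F) f₁) =
      Nat.card ↥(Cfsg.preserving (Cfsg.glToMat ι F) f) := by
  apply le_antisymm (card_pres_le f₁ f Φ hΦ)
  apply card_pres_le f f₁ Φ.symm
  intro a b
  rw [← hΦ, LinearEquiv.apply_symm_apply, LinearEquiv.apply_symm_apply]

end PresTransport

section Index

variable {F : Type*} [Field F] {d : ℕ}

/-- Matrices preserving a symplectic form have determinant one. -/
theorem det_one_of_pres (f : (Fin (d + d) → F) → (Fin (d + d) → F) → F)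
    (hf : Cfsg.Geo.IsSymplecticForm f) (g : Matrix.GeneralLinearGroup (Fin (d + d)) F)
    (hg : g ∈ Cfsg.preserving (Cfsg.glToMat (Fin (d + d)) F) f) :
    (g : Matrix (Fin (d + d)) (Fin (d + d)) F).det = 1 := by
  obtain ⟨Φ, hΦ⟩ := exists_std_equiv f hf
  obtain ⟨a, ha, -, hdet⟩ := pres_transport f (Cfsg.sympForm d F) Φ.symm
    (by intro a b; rw [← hΦ, LinearEquiv.apply_symm_apply, LinearEquiv.apply_symm_apply]) g hg
  rw [← hdet]
  exact SymplecticGroup.det_eq_one
    ((Cfsg.Agent.H17.mem_symplecticGroup_iff_form d _).2 ((mem_pres_iff _ a).1 ha))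

theorem card_pres_symp [Fintype F] {q : ℕ} (hq : Fintype.card F = q)
    (f : (Fin (d + d) → F) → (Fin (d + d) → F) → F) (hf : Cfsg.Geo.IsSymplecticForm f) :
    Nat.card ↥(Cfsg.preserving (Cfsg.glToMat (Fin (d + d)) F) f) =
      q ^ (d ^ 2) * ∏ i ∈ Finset.range d, (q ^ (2 * (i + 1)) - 1) := by
  obtain ⟨Φ, hΦ⟩ := exists_std_equiv f hf
  rw [← card_pres_congr (Cfsg.sympForm d F) f Φ hΦ]
  exact card_spGL hq d

/-- A matrix preserving a symplectic form, as an element of the special linear group. -/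
noncomputable def presToSL (f : (Fin (d + d) → F) → (Fin (d + d) → F) → F)
    (hf : Cfsg.Geo.IsSymplecticForm f)
    (g : ↥(Cfsg.preserving (Cfsg.glToMat (Fin (d + d)) F) f)) :
    Matrix.SpecialLinearGroup (Fin (d + d)) F :=
  ⟨((g : Matrix.GeneralLinearGroup (Fin (d + d)) F) : Matrix (Fin (d + d)) (Fin (d + d)) F),
    det_one_of_pres f hf g.1 g.2⟩

theorem presToSL_coe (f : (Fin (d + d) → F) → (Fin (d + d) → F) → F)
    (hf : Cfsg.Geo.IsSymplecticForm f)
    (g : ↥(Cfsg.preserving (Cfsg.glToMat (Fin (d + d)) F) f)) :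
    ((presToSL f hf g : Matrix.SpecialLinearGroup (Fin (d + d)) F) :
      Matrix (Fin (d + d)) (Fin (d + d)) F) =
    ((g : Matrix.GeneralLinearGroup (Fin (d + d)) F) : Matrix (Fin (d + d)) (Fin (d + d)) F) :=
  rfl

/-- The isometry group of a symplectic form embeds in its determinant-one similarity group. -/
theorem card_pres_dvd_card_sim [Finite F] (f : (Fin (d + d) → F) → (Fin (d + d) → F) → F)
    (hf : Cfsg.Geo.IsSymplecticForm f) :
    Nat.card ↥(Cfsg.preserving (Cfsg.glToMat (Fin (d + d)) F) f) ∣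
      Nat.card ↥((Cfsg.Geo.similarityGroup f).comap
        (Matrix.SpecialLinearGroup.toGL :
          Matrix.SpecialLinearGroup (Fin (d + d)) F →* GL (Fin (d + d)) F)) := by
  classical
  have hmem : ∀ g : ↥(Cfsg.preserving (Cfsg.glToMat (Fin (d + d)) F) f),
      presToSL f hf g ∈ (Cfsg.Geo.similarityGroup f).comap
        (Matrix.SpecialLinearGroup.toGL :
          Matrix.SpecialLinearGroup (Fin (d + d)) F →* GL (Fin (d + d)) F) := by
    intro g
    refine Subgroup.mem_comap.2 ⟨1, fun u v => ?_⟩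
    rw [Units.val_one, one_mul]
    exact (mem_pres_iff f g.1).1 g.2 u v
  let ψ : ↥(Cfsg.preserving (Cfsg.glToMat (Fin (d + d)) F) f) →*
      ↥((Cfsg.Geo.similarityGroup f).comap
        (Matrix.SpecialLinearGroup.toGL :
          Matrix.SpecialLinearGroup (Fin (d + d)) F →* GL (Fin (d + d)) F)) :=
    { toFun := fun g => ⟨presToSL f hf g, hmem g⟩
      map_one' := by
        apply Subtype.ext
        apply Subtype.ext
        rfl
      map_mul' := fun a b => by
        apply Subtype.ext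
        apply Subtype.ext
        rfl }
  apply Subgroup.card_dvd_of_injective ψ
  intro a b hab
  apply Subtype.ext
  apply Units.ext
  have h1 : presToSL f hf a = presToSL f hf b := congrArg Subtype.val hab
  have h2 := congrArg (fun z : Matrix.SpecialLinearGroup (Fin (d + d)) F =>
    (z : Matrix (Fin (d + d)) (Fin (d + d)) F)) h1
  exact h2

theorem prod_range_double (g : ℕ → ℕ) (d : ℕ) :
    ∏ j ∈ Finset.range (d + d), g j =
      (∏ i ∈ Finset.range d, g (2 * i + 1)) * ∏ i ∈ Finset.range d, g (2 * i) := by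
  induction d with
  | zero => simp
  | succ d ih =>
    have h1 : d + 1 + (d + 1) = (d + d) + 1 + 1 := by ring
    rw [h1, Finset.prod_range_succ, Finset.prod_range_succ, ih, Finset.prod_range_succ,
      Finset.prod_range_succ]
    have h2 : d + d = 2 * d := by ring
    rw [h2]
    ring

/-- The primes dividing the index of a symplectic-type subgroup of `SL_{2d}(q)`. -/
theorem index_cases [Fintype F] {q : ℕ} (hq : Fintype.card F = q)
    (f : (Fin (d + d) → F) → (Fin (d + d) → F) → F) (hf : Cfsg.Geo.IsSymplecticForm f)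
    (hd : 0 < d) (r : ℕ) (hr : r.Prime)
    (hΩ : r ∣ ((Cfsg.Geo.similarityGroup f).comap
        (Matrix.SpecialLinearGroup.toGL :
          Matrix.SpecialLinearGroup (Fin (d + d)) F →* GL (Fin (d + d)) F)).index) :
    r ∣ q ∨ ∃ i, i < d ∧ r ∣ q ^ (2 * i + 1) - 1 := by
  classical
  have hq1 : 1 < q := by rw [← hq]; exact Fintype.one_lt_card
  obtain ⟨H, hH⟩ : ∃ H : Subgroup (Matrix.SpecialLinearGroup (Fin (d + d)) F),
      H = (Cfsg.Geo.similarityGroup f).comap
        (Matrix.SpecialLinearGroup.toGL :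
          Matrix.SpecialLinearGroup (Fin (d + d)) F →* GL (Fin (d + d)) F) := ⟨_, rfl⟩
  rw [← hH] at hΩ
  have h1 : Nat.card ↥H * H.index = Nat.card (Matrix.SpecialLinearGroup (Fin (d + d)) F) :=
    Subgroup.card_mul_index H
  have h2 := card_pres_dvd_card_sim f hf
  rw [card_pres_symp hq f hf, ← hH] at h2
  obtain ⟨A, hA⟩ : ∃ A : ℕ, A = ∏ i ∈ Finset.range d, (q ^ (2 * (i + 1)) - 1) := ⟨_, rfl⟩
  obtain ⟨B, hB⟩ : ∃ B : ℕ, B = ∏ i ∈ Finset.range d, (q ^ (2 * i + 1) - 1) := ⟨_, rfl⟩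
  rw [← hA] at h2
  have h3 : q ^ (d ^ 2) * A * r ∣ Nat.card (Matrix.SpecialLinearGroup (Fin (d + d)) F) := by
    rw [← h1]
    exact mul_dvd_mul h2 hΩ
  have : Nonempty (Fin (d + d)) := ⟨⟨0, by omega⟩⟩
  have h4 := Cfsg.Agent.H7.card_GL_eq_card_SL_mul (Fin (d + d)) F
  have h5 := Cfsg.Agent.H7.card_GL_factored (F := F) (d + d)
  rw [hq] at h5
  have hrefl : ∏ i ∈ Finset.range (d + d), (q ^ (d + d - i) - 1) =
      ∏ j ∈ Finset.range (d + d), (q ^ (j + 1) - 1) := by
    rw [← Finset.prod_range_reflect (fun j => q ^ (j + 1) - 1) (d + d)]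
    apply Finset.prod_congr rfl
    intro i hi
    have hi' := Finset.mem_range.1 hi
    have e : d + d - 1 - i + 1 = d + d - i := by omega
    show q ^ (d + d - i) - 1 = q ^ (d + d - 1 - i + 1) - 1
    rw [e]
  have h6 : ∏ i : Fin (d + d), (q ^ (d + d - (i : ℕ)) - 1) = A * B := by
    rw [Fin.prod_univ_eq_prod_range (fun i => q ^ (d + d - i) - 1) (d + d), hrefl,
      prod_range_double, hA, hB]
    rfl
  rw [h6] at h5
  have h7 : q ^ (d ^ 2) * A * r ∣ q ^ ((d + d) * (d + d - 1) / 2) * (A * B) := by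
    rw [← h5, h4]
    exact Dvd.dvd.mul_right h3 _
  have hApos : 0 < A := by
    rw [hA]
    apply Finset.prod_pos
    intro i _
    have : 1 < q ^ (2 * (i + 1)) := Nat.one_lt_pow (by omega) hq1
    omega
  have h8 : r ∣ q ^ ((d + d) * (d + d - 1) / 2) * B := by
    have h9 : A * (q ^ (d ^ 2) * r) ∣ A * (q ^ ((d + d) * (d + d - 1) / 2) * B) := by
      have e1 : A * (q ^ (d ^ 2) * r) = q ^ (d ^ 2) * A * r := by ring
      have e2 : A * (q ^ ((d + d) * (d + d - 1) / 2) * B) =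
          q ^ ((d + d) * (d + d - 1) / 2) * (A * B) := by ring
      rw [e1, e2]
      exact h7
    exact (dvd_mul_left r _).trans (Nat.dvd_of_mul_dvd_mul_left hApos h9)
  rcases (Nat.Prime.dvd_mul hr).1 h8 with h | h
  · left
    exact hr.dvd_of_dvd_pow h
  · right
    rw [hB] at h
    obtain ⟨i, hi, hdvd⟩ := (Prime.dvd_finsetProd_iff hr.prime _).1 h
    exact ⟨i, Finset.mem_range.1 hi, hdvd⟩

end Index

end Cfsg.Agent.H42
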