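import Cfsg.Agent.H42.SpDerB
import Cfsg.Agent.H42.SpDerC

set_option autoImplicit false

/-! Derangements of odd prime order of `PSL_n(q)` on the cosets of a symplectic-type subgroup:
assembly (helper42). -/

namespace Cfsg.Agent.H42

open Module Matrix

theorem sp_odd_derangement {F : Type*} [Field F] [Fintype F] {p : ℕ} [Fact p.Prime] [CharP F p]
    {q : ℕ} (hq : Fintype.card F = q) (n : ℕ) (hn : 4 ≤ n) (he : Even n)
    (f : (Fin n → F) → (Fin n → F) → F) (hf : Cfsg.Geo.IsSymplecticForm f)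
    (r : ℕ) (hr : r.Prime) (hr2 : r ≠ 2) (hgap : ¬ (n = 6 ∧ r = 3))
    (hΩ : r ∣ ((Cfsg.Geo.similarityGroup f).comap
      (Matrix.SpecialLinearGroup.toGL :
        Matrix.SpecialLinearGroup (Fin n) F →* GL (Fin n) F)).index) :
    ∃ x : Matrix.SpecialLinearGroup (Fin n) F,
      (∃ z : F, ((x ^ r : Matrix.SpecialLinearGroup (Fin n) F) : Matrix (Fin n) (Fin n) F) =
        z • (1 : Matrix (Fin n) (Fin n) F)) ∧
      (∀ z : F, (x : Matrix (Fin n) (Fin n) F) ≠ z • (1 : Matrix (Fin n) (Fin n) F)) ∧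
      ∀ P : Matrix.SpecialLinearGroup (Fin n) F, P⁻¹ * x * P ∉
        ((Cfsg.Geo.similarityGroup f).comap
          (Matrix.SpecialLinearGroup.toGL :
            Matrix.SpecialLinearGroup (Fin n) F →* GL (Fin n) F)) := by
  suffices h : ∃ x : Matrix.SpecialLinearGroup (Fin n) F,
      ((x ^ r : Matrix.SpecialLinearGroup (Fin n) F) : Matrix (Fin n) (Fin n) F) = 1 ∧
      (∀ z : F, (x : Matrix (Fin n) (Fin n) F) ≠ z • (1 : Matrix (Fin n) (Fin n) F)) ∧
      ¬ IsSympSim (x : Matrix (Fin n) (Fin n) F) by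
    obtain ⟨x, h1, h2, h3⟩ := h
    exact ⟨x, ⟨1, by rw [h1, one_smul]⟩, h2, fun P hP => h3 (sympSim_of_conj f hf x P hP)⟩
  have hpp : p.Prime := Fact.out
  have : Fact r.Prime := ⟨hr⟩
  by_cases hrp : r ∣ q
  · obtain ⟨k, hk, hcard⟩ := Cfsg.Agent.H7.card_field_eq_prime_pow F p
    rw [hq] at hcard
    have hrp' : r = p := by
      rw [hcard] at hrp
      exact (Nat.prime_dvd_prime_iff_eq hr hpp).1 (hr.dvd_of_dvd_pow hrp)
    have hp2 : p ≠ 2 := by rw [← hrp']; exact hr2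
    rw [hrp']
    exact exists_unip_derangement p hp2 hn
  by_cases hr1 : r ∣ q - 1
  · have hcu : Nat.card Fˣ = q - 1 := by rw [Nat.card_units, Nat.card_eq_fintype_card, hq]
    obtain ⟨u, hu⟩ := exists_prime_orderOf_dvd_card' (G := Fˣ) r (by rw [hcu]; exact hr1)
    refine exists_diag_derangement hn r hr hr2 hgap (u : F) ?_
    rw [← hu, orderOf_units]
  · obtain ⟨d, rfl⟩ := he
    have hd : 0 < d := by omega
    rcases index_cases hq f hf hd r hr hΩ with h | ⟨i, hi, hdvd⟩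
    · exact absurd h hrp
    · exact exists_ext_derangement p hq (d + d) (2 * i + 1) ⟨i, rfl⟩ (by omega) ⟨d, rfl⟩ r hr
        hr1 hdvd

end Cfsg.Agent.H42
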