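import Mathlib
import Cfsg.Prelude.Def_ClassicalGeometry

set_option autoImplicit false

namespace Cfsg.Agent.H42
open Matrix

section SpTorus
variable {F : Type*} [Field F] {m : ℕ}

/-- the swap of the two halves. -/
abbrev sgm (m : ℕ) : Equiv.Perm (Fin m ⊕ Fin m) := Equiv.sumComm (Fin m) (Fin m)

/-- the sign `J k (σ k)`. -/
def cJ (F : Type*) [Field F] {m : ℕ} : Fin m ⊕ Fin m → F := Sum.elim (fun _ => -1) (fun _ => 1)

lemma J_apply_sgm (k l : Fin m ⊕ Fin m) :
    Matrix.J (Fin m) F k l = if l = sgm m k then cJ F k else 0 := by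
  rcases k with k | k <;> rcases l with l | l <;>
    simp [Matrix.J, cJ, Matrix.one_apply, eq_comm]
  split_ifs <;> simp

lemma cJ_sgm (k : Fin m ⊕ Fin m) : cJ F (sgm m k) = - cJ F k := by
  rcases k with k | k <;> simp [cJ]

lemma cJ_mul_self (k : Fin m ⊕ Fin m) : cJ F k * cJ F k = 1 := by
  rcases k with k | k <;> simp [cJ]

lemma cJ_ne_zero (k : Fin m ⊕ Fin m) : cJ F k ≠ 0 := by
  intro h
  have := cJ_mul_self (F := F) k
  rw [h] at this
  simp at this

lemma sgm_sgm (k : Fin m ⊕ Fin m) : sgm m (sgm m k) = k := by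
  rcases k with k | k <;> simp

lemma sgm_ne (k : Fin m ⊕ Fin m) : sgm m k ≠ k := by
  rcases k with k | k <;> simp

/-- the diagonal torus of `Sp_2m`. -/
def spTorus (m : ℕ) (F : Type*) [Field F] : Subgroup (Matrix.symplecticGroup (Fin m) F) :=
  ⨅ i : Fin m ⊕ Fin m, Cfsg.stabilizing (Cfsg.spToMat m F)
    ((Submodule.span F {(Pi.single i (1 : F) : Fin m ⊕ Fin m → F)} :
      Submodule F (Fin m ⊕ Fin m → F)) : Set (Fin m ⊕ Fin m → F))

lemma mem_span_single_iff {ι : Type*} [Fintype ι] [DecidableEq ι] (i : ι) (v : ι → F) :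
    v ∈ Submodule.span F {(Pi.single i (1 : F) : ι → F)} ↔ ∀ k, k ≠ i → v k = 0 := by
  rw [Submodule.mem_span_singleton]
  constructor
  · rintro ⟨c, rfl⟩ k hk
    simp [hk]
  · intro h
    refine ⟨v i, ?_⟩
    ext k
    by_cases hk : k = i
    · subst hk; simp
    · simp [hk, h k hk]

lemma sp_coe_inv_mul (g : Matrix.symplecticGroup (Fin m) F) :
    ((g⁻¹ : Matrix.symplecticGroup (Fin m) F) : Matrix (Fin m ⊕ Fin m) (Fin m ⊕ Fin m) F) *
      (g : Matrix (Fin m ⊕ Fin m) (Fin m ⊕ Fin m) F) = 1 := by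
  have h : g⁻¹ * g = 1 := inv_mul_cancel g
  exact congrArg Subtype.val h

lemma sp_coe_mul_inv (g : Matrix.symplecticGroup (Fin m) F) :
    (g : Matrix (Fin m ⊕ Fin m) (Fin m ⊕ Fin m) F) *
      ((g⁻¹ : Matrix.symplecticGroup (Fin m) F) : Matrix (Fin m ⊕ Fin m) (Fin m ⊕ Fin m) F) = 1 := by
  have h : g * g⁻¹ = 1 := mul_inv_cancel g
  exact congrArg Subtype.val h

/-- a column of a symplectic matrix is nonzero. -/
lemma sp_col_ne_zero (g : Matrix.symplecticGroup (Fin m) F) (i : Fin m ⊕ Fin m) :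
    ∃ k, (g : Matrix (Fin m ⊕ Fin m) (Fin m ⊕ Fin m) F) k i ≠ 0 := by
  by_contra hcon
  push Not at hcon
  have h1 := congrFun (congrFun (sp_coe_inv_mul g) i) i
  rw [Matrix.mul_apply, Matrix.one_apply_eq] at h1
  simp [hcon] at h1

lemma mem_spTorus_iff (g : Matrix.symplecticGroup (Fin m) F) :
    g ∈ spTorus m F ↔ ∀ i k, k ≠ i → (g : Matrix (Fin m ⊕ Fin m) (Fin m ⊕ Fin m) F) k i = 0 := by
  simp only [spTorus, Subgroup.mem_iInf]
  constructor
  · intro h i k hk
    have h1 := (h i (Pi.single i 1)).mp (Submodule.subset_span rfl)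
    have h2 := (mem_span_single_iff i _).mp h1 k hk
    simpa [Matrix.mulVec_single_one] using h2
  · intro h i v
    show v ∈ Submodule.span F _ ↔ (g : Matrix (Fin m ⊕ Fin m) (Fin m ⊕ Fin m) F) *ᵥ v ∈ Submodule.span F _
    rw [mem_span_single_iff, mem_span_single_iff]
    have hmv : ∀ k, ((g : Matrix (Fin m ⊕ Fin m) (Fin m ⊕ Fin m) F) *ᵥ v) k =
        (g : Matrix (Fin m ⊕ Fin m) (Fin m ⊕ Fin m) F) k k * v k := by
      intro k
      rw [Matrix.mulVec, dotProduct, Finset.sum_eq_single k]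
      · intro l _ hl
        rw [h l k (Ne.symm hl), zero_mul]
      · simp
    have hd : ∀ k, (g : Matrix (Fin m ⊕ Fin m) (Fin m ⊕ Fin m) F) k k ≠ 0 := by
      intro k
      obtain ⟨l, hl⟩ := sp_col_ne_zero g k
      by_cases hlk : l = k
      · subst hlk; exact hl
      · exact absurd (h k l hlk) hl
    constructor
    · intro hv k hk
      rw [hmv, hv k hk, mul_zero]
    · intro hv k hk
      have := hv k hk
      rw [hmv] at this
      exact (mul_eq_zero.mp this).resolve_left (hd k)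

/-- entry formula for `gᵀ J g` when the columns of `g` are supported on `p`. -/
lemma mono_tJ_apply (g : Matrix (Fin m ⊕ Fin m) (Fin m ⊕ Fin m) F) (p : Fin m ⊕ Fin m → Fin m ⊕ Fin m)
    (hp : ∀ i k, k ≠ p i → g k i = 0) (i i' : Fin m ⊕ Fin m) :
    (gᵀ * Matrix.J (Fin m) F * g) i i' =
      g (p i) i * Matrix.J (Fin m) F (p i) (p i') * g (p i') i' := by
  rw [Matrix.mul_apply, Finset.sum_eq_single (p i')]
  · rw [Matrix.mul_apply, Finset.sum_eq_single (p i)]
    · rw [Matrix.transpose_apply]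
    · intro k _ hk
      rw [Matrix.transpose_apply, hp i k hk, zero_mul]
    · simp
  · intro l _ hl
    rw [hp i' l hl, mul_zero]
  · simp

lemma sp_of_mono (g : Matrix (Fin m ⊕ Fin m) (Fin m ⊕ Fin m) F) (p : Fin m ⊕ Fin m → Fin m ⊕ Fin m)
    (hp : ∀ i k, k ≠ p i → g k i = 0)
    (hinj : Function.Injective p) (hcomm : ∀ i, p (sgm m i) = sgm m (p i))
    (hc : ∀ i, g (p i) i * cJ F (p i) * g (p (sgm m i)) (sgm m i) = cJ F i) :
    g ∈ Matrix.symplecticGroup (Fin m) F := by
  rw [SymplecticGroup.mem_iff']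
  ext i i'
  rw [mono_tJ_apply g p hp, J_apply_sgm, J_apply_sgm]
  by_cases h : i' = sgm m i
  · subst h
    rw [if_pos (hcomm i), if_pos rfl]
    exact hc i
  · rw [if_neg h, if_neg, mul_zero, zero_mul]
    intro h2
    rw [← hcomm] at h2
    exact h (hinj h2)

lemma mono_of_sp (g : Matrix.symplecticGroup (Fin m) F) (p : Fin m ⊕ Fin m → Fin m ⊕ Fin m)
    (hp : ∀ i k, k ≠ p i → (g : Matrix (Fin m ⊕ Fin m) (Fin m ⊕ Fin m) F) k i = 0)
    (i : Fin m ⊕ Fin m) :
    p (sgm m i) = sgm m (p i) ∧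
      (g : Matrix (Fin m ⊕ Fin m) (Fin m ⊕ Fin m) F) (p i) i * cJ F (p i) *
        (g : Matrix (Fin m ⊕ Fin m) (Fin m ⊕ Fin m) F) (p (sgm m i)) (sgm m i) = cJ F i := by
  have h1 : (g : Matrix (Fin m ⊕ Fin m) (Fin m ⊕ Fin m) F)ᵀ * Matrix.J (Fin m) F *
      (g : Matrix (Fin m ⊕ Fin m) (Fin m ⊕ Fin m) F) = Matrix.J (Fin m) F :=
    SymplecticGroup.mem_iff'.mp g.2
  have h2 := congrFun (congrFun h1 i) (sgm m i)
  rw [mono_tJ_apply _ p hp, J_apply_sgm, J_apply_sgm, if_pos rfl] at h2
  by_cases h : p (sgm m i) = sgm m (p i)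
  · rw [if_pos h] at h2
    exact ⟨h, h2⟩
  · rw [if_neg h, mul_zero, zero_mul] at h2
    exact absurd h2.symm (cJ_ne_zero i)

/-- the diagonal matrix `diag(a, a⁻¹)`. -/
def torD (a : Fin m → Fˣ) : Matrix (Fin m ⊕ Fin m) (Fin m ⊕ Fin m) F :=
  Matrix.diagonal (Sum.elim (fun j => ((a j : Fˣ) : F)) (fun j => (((a j)⁻¹ : Fˣ) : F)))

lemma torD_mem (a : Fin m → Fˣ) : torD a ∈ Matrix.symplecticGroup (Fin m) F := by
  refine sp_of_mono (torD a) id (fun i k hk => Matrix.diagonal_apply_ne _ hk)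
    Function.injective_id (fun i => rfl) ?_
  intro i
  rcases i with i | i <;> simp [torD, cJ]

lemma torD_mem_torus (a : Fin m → Fˣ) :
    (⟨torD a, torD_mem a⟩ : Matrix.symplecticGroup (Fin m) F) ∈ spTorus m F := by
  rw [mem_spTorus_iff]
  intro i k hk
  exact Matrix.diagonal_apply_ne _ hk

lemma card_spTorus [Fintype F] : Nat.card (spTorus m F) = (Fintype.card F - 1) ^ m := by
  have hbij : Function.Bijective (fun a : Fin m → Fˣ =>
      (⟨⟨torD a, torD_mem a⟩, torD_mem_torus a⟩ : spTorus m F)) := by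
    constructor
    · intro a b hab
      have h1 : torD a = torD b := congrArg (fun x : spTorus m F =>
        ((x : Matrix.symplecticGroup (Fin m) F) : Matrix (Fin m ⊕ Fin m) (Fin m ⊕ Fin m) F)) hab
      funext j
      have h2 := congrFun (congrFun h1 (Sum.inl j)) (Sum.inl j)
      simp only [torD, Matrix.diagonal_apply_eq, Sum.elim_inl] at h2
      exact Units.ext h2
    · rintro ⟨t, ht⟩
      have ht' := (mem_spTorus_iff t).mp ht
      have h2 : ∀ i : Fin m ⊕ Fin m, (t : Matrix (Fin m ⊕ Fin m) (Fin m ⊕ Fin m) F) i i *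
          (t : Matrix (Fin m ⊕ Fin m) (Fin m ⊕ Fin m) F) (sgm m i) (sgm m i) = 1 := by
        intro i
        have h3 := (mono_of_sp t id (fun i k hk => ht' i k hk) i).2
        simp only [id] at h3
        have h4 : cJ F i * ((t : Matrix (Fin m ⊕ Fin m) (Fin m ⊕ Fin m) F) i i *
          (t : Matrix (Fin m ⊕ Fin m) (Fin m ⊕ Fin m) F) (sgm m i) (sgm m i)) = cJ F i * 1 := by
          linear_combination h3
        exact mul_left_cancel₀ (cJ_ne_zero i) h4
      have hne : ∀ j : Fin m, (t : Matrix (Fin m ⊕ Fin m) (Fin m ⊕ Fin m) F) (Sum.inl j) (Sum.inl j) ≠ 0 := by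
        intro j h0
        have := h2 (Sum.inl j)
        rw [h0, zero_mul] at this
        exact zero_ne_one this
      refine ⟨fun j => Units.mk0 _ (hne j), ?_⟩
      apply Subtype.ext
      apply Subtype.ext
      show torD _ = (t : Matrix (Fin m ⊕ Fin m) (Fin m ⊕ Fin m) F)
      ext k i
      by_cases hki : k = i
      · subst hki
        rcases k with k | k
        · simp [torD]
        · have h5 := h2 (Sum.inl k)
          simp only [torD, Matrix.diagonal_apply_eq, Sum.elim_inr, Units.val_inv_eq_inv_val,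
            Units.val_mk0]
          have h6 : sgm m (Sum.inl k) = Sum.inr k := rfl
          rw [h6] at h5
          exact (eq_inv_of_mul_eq_one_right h5).symm
      · rw [ht' i k hki]
        exact Matrix.diagonal_apply_ne _ hki
  rw [← Nat.card_eq_of_bijective _ hbij, Nat.card_fun, Nat.card_units, Nat.card_eq_fintype_card,
    Nat.card_eq_fintype_card, Fintype.card_fin]

lemma exists_sq_ne_one [Fintype F] (hq : 4 ≤ Fintype.card F) : ∃ a : Fˣ, (a : F) * a ≠ 1 := by
  classical
  by_contra hcon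
  push Not at hcon
  have h1 : ∀ a : Fˣ, a = 1 ∨ a = -1 := by
    intro a
    have h2 : ((a : F) - 1) * ((a : F) + 1) = 0 := by
      have := hcon a
      linear_combination this
    rcases mul_eq_zero.mp h2 with h | h
    · left; apply Units.ext; simpa [sub_eq_zero] using h
    · right; apply Units.ext; simpa using eq_neg_of_add_eq_zero_left h
  have h3 : (Finset.univ : Finset Fˣ) ⊆ {1, -1} := by
    intro a _
    rcases h1 a with h | h <;> simp [h]
  have h4 := Finset.card_le_card h3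
  have h5 : ({1, -1} : Finset Fˣ).card ≤ 2 := Finset.card_le_two
  rw [Finset.card_univ, Fintype.card_units] at h4
  omega

lemma exists_torus_sep [Fintype F] (hq : 4 ≤ Fintype.card F) (k l : Fin m ⊕ Fin m) (hkl : k ≠ l) :
    ∃ t : Matrix.symplecticGroup (Fin m) F, t ∈ spTorus m F ∧
      (t : Matrix (Fin m ⊕ Fin m) (Fin m ⊕ Fin m) F) k k ≠
        (t : Matrix (Fin m ⊕ Fin m) (Fin m ⊕ Fin m) F) l l := by
  classical
  obtain ⟨a, ha⟩ := exists_sq_ne_one hq
  have ha0 : (a : F) ≠ 0 := a.ne_zero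
  have ha1 : (a : F) ≠ 1 := by
    intro h; rw [h] at ha; simp at ha
  have ha2 : (a : F)⁻¹ ≠ 1 := by
    intro h; exact ha1 (inv_eq_one.mp h)
  have ha3 : (a : F) ≠ (a : F)⁻¹ := by
    intro h
    apply ha
    have h' : (a : F) * a = a * (a : F)⁻¹ := by rw [← h]
    rw [h', mul_inv_cancel₀ ha0]
  refine ⟨⟨torD (Function.update 1 (Sum.elim id id k) a), torD_mem _⟩, torD_mem_torus _, ?_⟩
  show torD (Function.update 1 (Sum.elim id id k) a) k k ≠
    torD (Function.update 1 (Sum.elim id id k) a) l l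
  rcases k with x | x <;> rcases l with y | y
  · have hxy : y ≠ x := fun h => hkl (by rw [h])
    simp [torD, Function.update_apply, hxy, ha1]
  · by_cases hxy : y = x
    · subst hxy; simp [torD, ha3]
    · simp [torD, Function.update_apply, hxy, ha1]
  · by_cases hxy : y = x
    · subst hxy; simp [torD, Ne.symm ha3]
    · simp [torD, Function.update_apply, hxy, ha2]
  · have hxy : y ≠ x := fun h => hkl (by rw [h])
    simp [torD, Function.update_apply, hxy, ha2]


lemma mul_diag_apply' {ι : Type*} [Fintype ι] [DecidableEq ι] (A D : Matrix ι ι F)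
    (hD : ∀ i k, k ≠ i → D k i = 0) (k i : ι) :
    (A * D) k i = A k i * D i i := by
  rw [Matrix.mul_apply, Finset.sum_eq_single i]
  · intro l _ hl; rw [hD i l hl, mul_zero]
  · simp

lemma diag_mul_apply' {ι : Type*} [Fintype ι] [DecidableEq ι] (A D : Matrix ι ι F)
    (hD : ∀ i k, k ≠ i → D k i = 0) (k i : ι) :
    (D * A) k i = D k k * A k i := by
  rw [Matrix.mul_apply, Finset.sum_eq_single k]
  · intro l _ hl; rw [hD l k (Ne.symm hl), zero_mul]
  · simp

lemma normalizer_mono [Fintype F] (hq : 4 ≤ Fintype.card F) (g : Matrix.symplecticGroup (Fin m) F)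
    (hg : g ∈ Subgroup.normalizer (spTorus m F : Set (Matrix.symplecticGroup (Fin m) F)))
    (i : Fin m ⊕ Fin m) :
    ∃! k, (g : Matrix (Fin m ⊕ Fin m) (Fin m ⊕ Fin m) F) k i ≠ 0 := by
  obtain ⟨k, hk⟩ := sp_col_ne_zero g i
  refine ⟨k, hk, fun l hl => ?_⟩
  by_contra hlk
  obtain ⟨t, ht, htkl⟩ := exists_torus_sep hq k l (Ne.symm hlk)
  have h1 : g⁻¹ * t * g ∈ spTorus m F := (Subgroup.mem_normalizer_iff''.mp hg t).mp ht
  have h2 : (g : Matrix (Fin m ⊕ Fin m) (Fin m ⊕ Fin m) F) *
      ((g⁻¹ * t * g : Matrix.symplecticGroup (Fin m) F) : Matrix (Fin m ⊕ Fin m) (Fin m ⊕ Fin m) F) =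
      (t : Matrix (Fin m ⊕ Fin m) (Fin m ⊕ Fin m) F) *
        (g : Matrix (Fin m ⊕ Fin m) (Fin m ⊕ Fin m) F) := by
    have : g * (g⁻¹ * t * g) = t * g := by group
    exact congrArg Subtype.val this
  have hd1 := (mem_spTorus_iff _).mp h1
  have hd2 := (mem_spTorus_iff _).mp ht
  have e1 := congrFun (congrFun h2 k) i
  have e2 := congrFun (congrFun h2 l) i
  rw [mul_diag_apply' _ _ hd1, diag_mul_apply' _ _ hd2] at e1 e2
  have e1' := mul_left_cancel₀ hk (e1.trans (mul_comm _ _))
  have e2' := mul_left_cancel₀ hl (e2.trans (mul_comm _ _))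
  exact htkl (e1'.symm.trans e2')

lemma mem_normalizer_of_mono [Finite F] (g : Matrix.symplecticGroup (Fin m) F)
    (π : Equiv.Perm (Fin m ⊕ Fin m))
    (hπ : ∀ i k, k ≠ π i → (g : Matrix (Fin m ⊕ Fin m) (Fin m ⊕ Fin m) F) k i = 0) :
    g ∈ Subgroup.normalizer (spTorus m F : Set (Matrix.symplecticGroup (Fin m) F)) := by
  apply Subgroup.mem_normalizer_fintype
  intro t ht
  have hd := (mem_spTorus_iff t).mp ht
  show g * t * g⁻¹ ∈ spTorus m F
  rw [mem_spTorus_iff]
  have h1 : (g : Matrix (Fin m ⊕ Fin m) (Fin m ⊕ Fin m) F) * t =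
      Matrix.diagonal (fun k => (t : Matrix (Fin m ⊕ Fin m) (Fin m ⊕ Fin m) F) (π.symm k) (π.symm k)) *
        (g : Matrix (Fin m ⊕ Fin m) (Fin m ⊕ Fin m) F) := by
    ext k i
    rw [mul_diag_apply' _ _ hd, Matrix.diagonal_mul]
    by_cases hk : k = π i
    · subst hk; simp [mul_comm]
    · rw [hπ i k hk]; simp
  have h2 : ((g * t * g⁻¹ : Matrix.symplecticGroup (Fin m) F) :
      Matrix (Fin m ⊕ Fin m) (Fin m ⊕ Fin m) F) =
      Matrix.diagonal (fun k => (t : Matrix (Fin m ⊕ Fin m) (Fin m ⊕ Fin m) F) (π.symm k) (π.symm k)) := by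
    show (g : Matrix (Fin m ⊕ Fin m) (Fin m ⊕ Fin m) F) * t *
      ((g⁻¹ : Matrix.symplecticGroup (Fin m) F) : Matrix (Fin m ⊕ Fin m) (Fin m ⊕ Fin m) F) = _
    rw [h1, Matrix.mul_assoc, sp_coe_mul_inv, Matrix.mul_one]
  intro i k hk
  rw [h2]
  exact Matrix.diagonal_apply_ne _ hk

/-- the permutation induced by an element of the normalizer. -/
noncomputable def monoPerm [Fintype F] (hq : 4 ≤ Fintype.card F)
    (g : Subgroup.normalizer (spTorus m F : Set (Matrix.symplecticGroup (Fin m) F)))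
    (i : Fin m ⊕ Fin m) : Fin m ⊕ Fin m :=
  Classical.choose (normalizer_mono hq g.1 g.2 i).exists

lemma monoPerm_spec [Fintype F] (hq : 4 ≤ Fintype.card F)
    (g : Subgroup.normalizer (spTorus m F : Set (Matrix.symplecticGroup (Fin m) F)))
    (i : Fin m ⊕ Fin m) :
    ((g : Matrix.symplecticGroup (Fin m) F) : Matrix (Fin m ⊕ Fin m) (Fin m ⊕ Fin m) F)
      (monoPerm hq g i) i ≠ 0 :=
  Classical.choose_spec (normalizer_mono hq g.1 g.2 i).exists

lemma monoPerm_eq [Fintype F] (hq : 4 ≤ Fintype.card F)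
    (g : Subgroup.normalizer (spTorus m F : Set (Matrix.symplecticGroup (Fin m) F)))
    (i k : Fin m ⊕ Fin m)
    (hk : ((g : Matrix.symplecticGroup (Fin m) F) : Matrix (Fin m ⊕ Fin m) (Fin m ⊕ Fin m) F) k i ≠ 0) :
    k = monoPerm hq g i :=
  (normalizer_mono hq g.1 g.2 i).unique hk (monoPerm_spec hq g i)

lemma monoPerm_zero [Fintype F] (hq : 4 ≤ Fintype.card F)
    (g : Subgroup.normalizer (spTorus m F : Set (Matrix.symplecticGroup (Fin m) F)))
    (i k : Fin m ⊕ Fin m) (hk : k ≠ monoPerm hq g i) :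
    ((g : Matrix.symplecticGroup (Fin m) F) : Matrix (Fin m ⊕ Fin m) (Fin m ⊕ Fin m) F) k i = 0 := by
  by_contra h
  exact hk (monoPerm_eq hq g i k h)

lemma monoPerm_one [Fintype F] (hq : 4 ≤ Fintype.card F) (i : Fin m ⊕ Fin m) :
    monoPerm hq (1 : Subgroup.normalizer (spTorus m F : Set (Matrix.symplecticGroup (Fin m) F))) i = i := by
  symm
  apply monoPerm_eq
  show (1 : Matrix (Fin m ⊕ Fin m) (Fin m ⊕ Fin m) F) i i ≠ 0
  simp

lemma monoPerm_mul [Fintype F] (hq : 4 ≤ Fintype.card F)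
    (g h : Subgroup.normalizer (spTorus m F : Set (Matrix.symplecticGroup (Fin m) F)))
    (i : Fin m ⊕ Fin m) :
    monoPerm hq (g * h) i = monoPerm hq g (monoPerm hq h i) := by
  symm
  apply monoPerm_eq
  show (((g : Matrix.symplecticGroup (Fin m) F) : Matrix (Fin m ⊕ Fin m) (Fin m ⊕ Fin m) F) *
    ((h : Matrix.symplecticGroup (Fin m) F) : Matrix (Fin m ⊕ Fin m) (Fin m ⊕ Fin m) F)) _ _ ≠ 0
  rw [Matrix.mul_apply, Finset.sum_eq_single (monoPerm hq h i)]
  · exact mul_ne_zero (monoPerm_spec hq g _) (monoPerm_spec hq h _)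
  · intro l _ hl
    rw [monoPerm_zero hq h i l hl, mul_zero]
  · simp

/-- the homomorphism from the normalizer to the permutations of the coordinates. -/
noncomputable def monoHom [Fintype F] (hq : 4 ≤ Fintype.card F) :
    ↥(Subgroup.normalizer (spTorus m F : Set (Matrix.symplecticGroup (Fin m) F))) →*
      Equiv.Perm (Fin m ⊕ Fin m) :=
  letI : MulAction ↥(Subgroup.normalizer (spTorus m F : Set (Matrix.symplecticGroup (Fin m) F)))
      (Fin m ⊕ Fin m) :=
    { smul := fun g i => monoPerm hq g i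
      one_smul := fun i => monoPerm_one hq i
      mul_smul := fun g h i => monoPerm_mul hq g h i }
  MulAction.toPermHom _ _

lemma monoHom_apply [Fintype F] (hq : 4 ≤ Fintype.card F)
    (g : Subgroup.normalizer (spTorus m F : Set (Matrix.symplecticGroup (Fin m) F)))
    (i : Fin m ⊕ Fin m) : monoHom hq g i = monoPerm hq g i := rfl

lemma monoHom_ker [Fintype F] (hq : 4 ≤ Fintype.card F) :
    (monoHom (m := m) (F := F) hq).ker = (spTorus m F).subgroupOf
      (Subgroup.normalizer (spTorus m F : Set (Matrix.symplecticGroup (Fin m) F))) := by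
  ext g
  rw [MonoidHom.mem_ker, Subgroup.mem_subgroupOf, mem_spTorus_iff]
  constructor
  · intro h i k hk
    apply monoPerm_zero hq g i k
    rw [← monoHom_apply, h]
    exact hk
  · intro h
    ext i
    rw [monoHom_apply, Equiv.Perm.one_apply]
    symm
    apply monoPerm_eq
    obtain ⟨l, hl⟩ := sp_col_ne_zero g.1 i
    by_cases hli : l = i
    · subst hli; exact hl
    · exact absurd (h i l hli) hl

/-- the signed permutation matrix. -/
def monoM (F : Type*) [Field F] {m : ℕ} (π : Equiv.Perm (Fin m ⊕ Fin m)) :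
    Matrix (Fin m ⊕ Fin m) (Fin m ⊕ Fin m) F :=
  Matrix.of fun k i => if k = π i then
    Sum.elim (fun _ => (1 : F)) (fun j => cJ F (π (Sum.inr j))) i else 0

lemma monoM_mem (π : Equiv.Perm (Fin m ⊕ Fin m)) (hcomm : ∀ i, π (sgm m i) = sgm m (π i)) :
    monoM F π ∈ Matrix.symplecticGroup (Fin m) F := by
  refine sp_of_mono (monoM F π) π (fun i k hk => by simp [monoM, hk]) π.injective hcomm ?_
  intro i
  rcases i with j | j
  · have h1 : π (Sum.inr j) = sgm m (π (Sum.inl j)) := hcomm (Sum.inl j)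
    have h2 : sgm m (Sum.inl j) = Sum.inr j := rfl
    simp only [monoM, Matrix.of_apply, if_true, Sum.elim_inl, Sum.elim_inr, h2, one_mul]
    rw [h1, cJ_sgm, mul_neg, cJ_mul_self]
    simp [cJ]
  · have h2 : sgm m (Sum.inr j) = Sum.inl j := rfl
    simp only [monoM, Matrix.of_apply, if_true, Sum.elim_inl, Sum.elim_inr, h2, mul_one]
    rw [cJ_mul_self]
    simp [cJ]

lemma monoHom_range [Fintype F] (hq : 4 ≤ Fintype.card F) :
    (monoHom (m := m) (F := F) hq).range = Subgroup.centralizer {sgm m} := by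
  ext π
  constructor
  · rintro ⟨g, rfl⟩
    rw [Subgroup.mem_centralizer_iff]
    intro τ hτ
    rw [Set.mem_singleton_iff] at hτ
    subst hτ
    ext i
    simp only [Equiv.Perm.mul_apply, monoHom_apply]
    exact ((mono_of_sp g.1 (monoPerm hq g) (monoPerm_zero hq g) i).1).symm
  · intro hπ
    have hcomm : ∀ i, π (sgm m i) = sgm m (π i) := by
      intro i
      have := Subgroup.mem_centralizer_iff.mp hπ (sgm m) rfl
      have h2 := congrArg (fun τ : Equiv.Perm (Fin m ⊕ Fin m) => τ i) this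
      simpa [Equiv.Perm.mul_apply] using h2.symm
    have hz : ∀ i k, k ≠ π i → monoM F π k i = 0 := fun i k hk => by simp [monoM, hk]
    refine ⟨⟨⟨monoM F π, monoM_mem π hcomm⟩, mem_normalizer_of_mono _ π hz⟩, ?_⟩
    ext i
    rw [monoHom_apply]
    symm
    apply monoPerm_eq
    show monoM F π (π i) i ≠ 0
    rcases i with j | j
    · simp [monoM]
    · simp [monoM, cJ_ne_zero]

lemma sgm_cycleType (m : ℕ) : (sgm m).cycleType = Multiset.replicate m 2 := by
  rcases Nat.eq_zero_or_pos m with rfl | hm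
  · have : sgm 0 = 1 := Subsingleton.elim _ _
    rw [this]; simp
  · have hne : sgm m ≠ 1 := by
      intro h
      have := congrArg (fun τ : Equiv.Perm (Fin m ⊕ Fin m) => τ (Sum.inl ⟨0, hm⟩)) h
      simp at this
    have hsq : sgm m ^ 2 = 1 := by
      ext i
      rw [pow_two, Equiv.Perm.mul_apply, sgm_sgm, Equiv.Perm.one_apply]
    have hord : orderOf (sgm m) = 2 := orderOf_eq_prime hsq hne
    obtain ⟨n, hn⟩ := Equiv.Perm.cycleType_prime_order (σ := sgm m) (by rw [hord]; exact Nat.prime_two)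
    rw [hord] at hn
    have hsum := Equiv.Perm.sum_cycleType (sgm m)
    have hsupp : (sgm m).support = Finset.univ := by
      ext i
      simp only [Equiv.Perm.mem_support, Finset.mem_univ, iff_true]
      exact sgm_ne i
    rw [hsupp, hn, Multiset.sum_replicate, Finset.card_univ, Fintype.card_sum, Fintype.card_fin] at hsum
    have : n + 1 = m := by
      simp only [smul_eq_mul] at hsum
      omega
    rw [hn, this]

lemma card_centralizer_sgm (m : ℕ) :
    Nat.card (Subgroup.centralizer {sgm m}) = 2 ^ m * m.factorial := by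
  rcases Nat.eq_zero_or_pos m with rfl | hm
  · simp
  · rw [Equiv.Perm.nat_card_centralizer, sgm_cycleType, Multiset.sum_replicate,
      Multiset.prod_replicate, Multiset.toFinset_replicate, if_neg (by omega),
      Finset.prod_singleton, Multiset.count_replicate_self, Fintype.card_sum, Fintype.card_fin]
    have h0 : m + m - m • 2 = 0 := by rw [smul_eq_mul]; omega
    rw [h0]
    simp

theorem card_sp_normalizer_torus' [Fintype F] (hq : 4 ≤ Fintype.card F) :
    Nat.card ↥(Subgroup.normalizer (spTorus m F : Set (Matrix.symplecticGroup (Fin m) F))) =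
      2 ^ m * m.factorial * (Fintype.card F - 1) ^ m := by
  have h1 := Subgroup.card_mul_index (monoHom (m := m) (F := F) hq).ker
  rw [Subgroup.index_ker, monoHom_range, monoHom_ker] at h1
  have h2 : Nat.card ((spTorus m F).subgroupOf
      (Subgroup.normalizer (spTorus m F : Set (Matrix.symplecticGroup (Fin m) F)))) =
      Nat.card (spTorus m F) :=
    Nat.card_congr (Subgroup.subgroupOfEquivOfLe Subgroup.le_normalizer).toEquiv
  rw [h2, card_spTorus, card_centralizer_sgm] at h1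
  rw [← h1]
  ring


theorem card_sp_normalizer_torus'' [Fintype F] (hq : 4 ≤ Fintype.card F) :
    Nat.card ↥(Subgroup.normalizer (⨅ i : Fin m ⊕ Fin m, Cfsg.stabilizing (Cfsg.spToMat m F)
      ((Submodule.span F {(Pi.single i (1 : F) : Fin m ⊕ Fin m → F)} :
        Submodule F (Fin m ⊕ Fin m → F)) : Set (Fin m ⊕ Fin m → F)) :
          Set (Matrix.symplecticGroup (Fin m) F))) =
      2 ^ m * m.factorial * (Fintype.card F - 1) ^ m := by
  have e : (⨅ i : Fin m ⊕ Fin m, Cfsg.stabilizing (Cfsg.spToMat m F)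
      ((Submodule.span F {(Pi.single i (1 : F) : Fin m ⊕ Fin m → F)} :
        Submodule F (Fin m ⊕ Fin m → F)) : Set (Fin m ⊕ Fin m → F)) :
          Set (Matrix.symplecticGroup (Fin m) F)) =
      (spTorus m F : Set (Matrix.symplecticGroup (Fin m) F)) := by
    rw [spTorus, Subgroup.coe_iInf, Set.iInf_eq_iInter]
  rw [e]
  exact card_sp_normalizer_torus' hq


end SpTorus

end Cfsg.Agent.H42
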