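import Cfsg.Agent.H42.SqDefs

/-!
# S2945: assembly of the pieces of `SqDefs`
-/

set_option autoImplicit false
open Cfsg

namespace Cfsg.Agent.H42.Sq

universe u

theorem isElementaryAbelian_of_le {G : Type u} [Group G] {V V' : Subgroup G}
    (hV : IsElementaryAbelian 2 V) (h : V' ≤ V) : IsElementaryAbelian 2 V' := by
  obtain ⟨hVc, hVe⟩ := hV
  refine ⟨⟨⟨fun a b => ?_⟩⟩, fun a ha => hVe a (h ha)⟩
  apply Subtype.ext
  have h0 := congrArg Subtype.val (mul_comm' (⟨a.1, h a.2⟩ : ↥V) ⟨b.1, h b.2⟩)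
  simpa using h0

theorem isElementaryAbelian_sup {G : Type u} [Group G] {V' B' : Subgroup G}
    (hV : IsElementaryAbelian 2 V') (hB : IsElementaryAbelian 2 B')
    (hc : B' ≤ Subgroup.centralizer (V' : Set G)) : IsElementaryAbelian 2 (V' ⊔ B') := by
  obtain ⟨hVc, hVe⟩ := hV
  obtain ⟨hBc, hBe⟩ := hB
  have hVcomm : ∀ x ∈ V', ∀ y ∈ V', x * y = y * x := fun x hx y hy =>
    congrArg Subtype.val (mul_comm' (⟨x, hx⟩ : ↥V') ⟨y, hy⟩)
  have hBcomm : ∀ x ∈ B', ∀ y ∈ B', x * y = y * x := fun x hx y hy =>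
    congrArg Subtype.val (mul_comm' (⟨x, hx⟩ : ↥B') ⟨y, hy⟩)
  have hVB : ∀ x ∈ V', ∀ y ∈ B', x * y = y * x := fun x hx y hy =>
    (Subgroup.mem_centralizer_iff.mp (hc hy)) x hx
  have hgen : V' ⊔ B' = Subgroup.closure ((V' : Set G) ∪ B') := by
    rw [Subgroup.closure_union, Subgroup.closure_eq, Subgroup.closure_eq]
  have hS : ∀ x ∈ (V' : Set G) ∪ B', ∀ y ∈ (V' : Set G) ∪ B', x * y = y * x := by
    rintro x (hx | hx) y (hy | hy)
    · exact hVcomm x hx y hy
    · exact hVB x hx y hy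
    · exact (hVB y hy x hx).symm
    · exact hBcomm x hx y hy
  have h1 : Subgroup.closure ((V' : Set G) ∪ B') ≤
      Subgroup.centralizer ((V' : Set G) ∪ B') :=
    (Subgroup.closure_le_centralizer_centralizer _).trans
      (Subgroup.centralizer_le (fun x hx => Subgroup.mem_centralizer_iff.mpr
        (fun y hy => hS y hy x hx)))
  have hall : ∀ x ∈ V' ⊔ B', ∀ y ∈ V' ⊔ B', x * y = y * x := by
    intro x hx y hy
    rw [hgen] at hx hy
    have hx' := Subgroup.closure_le_centralizer_centralizer _ hx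
    exact ((Subgroup.mem_centralizer_iff.mp hx') y (h1 hy)).symm
  refine ⟨⟨⟨fun a b => Subtype.ext (hall a.1 a.2 b.1 b.2)⟩⟩, ?_⟩
  intro x hx
  have hx0 := hx
  rw [hgen] at hx
  induction hx using Subgroup.closure_induction with
  | mem x hx =>
    rcases hx with hx | hx
    · exact hVe x hx
    · exact hBe x hx
  | one => simp
  | mul x y hx hy ihx ihy =>
    have hx1 : x ∈ V' ⊔ B' := by rw [hgen]; exact hx
    have hy1 : y ∈ V' ⊔ B' := by rw [hgen]; exact hy
    have hcm : Commute x y := hall x hx1 y hy1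
    rw [hcm.mul_pow, ihx hx1, ihy hy1, one_mul]
  | inv x hx ihx =>
    have hx1 : x ∈ V' ⊔ B' := by rw [hgen]; exact hx
    rw [inv_pow, ihx hx1, inv_one]

theorem thompsonSubgroupOf_le {G : Type u} [Group G] (T : Subgroup G) :
    thompsonSubgroupOf 2 T ≤ T := by
  unfold thompsonSubgroupOf
  rintro _ ⟨y, _, rfl⟩
  exact y.2

theorem pCoreOf_le {G : Type u} [Group G] (K : Subgroup G) : pCoreOf 2 K ≤ K := by
  unfold pCoreOf
  rintro _ ⟨y, _, rfl⟩
  exact y.2

/-- The assembly: S2945 from S2944 and the four pieces. -/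
theorem main (h44 : St2944.{u}) (hEA : StEA.{u}) (hV : StV.{u}) (hComm : StComm.{u})
    (hCnt : StCnt.{u}) : StMain5.{u} := by
  intro G _ _ hL hN hZ T hT hT1 L hLT K hKL hKsn g hKg
  have hT' : IsPGroup 2 ↥(T.map (MulAut.conj g).toMonoidHom) := hT.map _
  have hT'1 : T.map (MulAut.conj g).toMonoidHom ≠ ⊥ := by
    intro h
    apply hT1
    exact (Subgroup.map_eq_bot_iff_of_injective T (MulAut.conj g).injective).mp h
  obtain ⟨-, h2⟩ := h44 hL hN hZ _ hT' hT'1 K hKg
  have hTT : (T.map (MulAut.conj g).toMonoidHom).map (MulAut.conj g⁻¹).toMonoidHom = T := by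
    rw [Subgroup.map_map]
    have : (MulAut.conj g⁻¹).toMonoidHom.comp (MulAut.conj g).toMonoidHom = MonoidHom.id G := by
      ext x
      simp [MulAut.conj_apply, mul_assoc]
    rw [this, Subgroup.map_id]
  have key : thompsonSubgroupOf 2 T ≤ Subgroup.normalizer (wOf K : Set G) := by
    obtain ⟨hgen, -, hidx, -, hcard, hexp⟩ := hKg.1
    obtain ⟨hVea, hVle, hHV, hOV, hVK⟩ := hV K (thompsonSubgroupOf 2 T) hgen hidx hcard hexp hKsn
    have hJT : thompsonSubgroupOf 2 T ≤ T := thompsonSubgroupOf_le T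
    have hTL : T ≤ L := hLT.1.1
    have hHL : K ⊔ thompsonSubgroupOf 2 T ≤ L := sup_le hKL (hJT.trans hTL)
    have hOK : pCoreOf 2 K ≤ K := pCoreOf_le K
    have hcard' : Nat.card ↥⁅omegaCenterOf (pCoreOf 2 (K ⊔ thompsonSubgroupOf 2 T)), K⁆ = 4 := by
      rw [hVK]; exact hcard
    have hstep : ∀ A ∈ maxElementaryAbelianSubgroups 2 ↥T,
        A.map T.subtype ≤ Subgroup.normalizer (wOf K : Set G) := by
      intro A hA
      have hA'J : A.map T.subtype ≤ thompsonSubgroupOf 2 T := by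
        unfold thompsonSubgroupOf thompsonSubgroup
        exact Subgroup.map_mono (le_sSup hA)
      have hA'H : A.map T.subtype ≤ K ⊔ thompsonSubgroupOf 2 T := hA'J.trans le_sup_right
      have hA'ea : IsElementaryAbelian 2 (A.map T.subtype) := by
        obtain ⟨⟨hAc, hAe⟩, -⟩ := hA
        refine ⟨?_, ?_⟩
        · have := hAc
          exact Subgroup.map_isMulCommutative A _
        · rintro _ ⟨a, ha, rfl⟩
          rw [← map_pow, hAe a ha, map_one]
      have hcardA : Nat.card ↥(A.map T.subtype) = Nat.card ↥A :=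
        (Nat.card_congr (A.equivMapOfInjective _ T.subtype_injective).toEquiv).symm
      have h5 := hCnt (omegaCenterOf (pCoreOf 2 (K ⊔ thompsonSubgroupOf 2 T))) K (pCoreOf 2 K)
        (A.map T.subtype) hVea hA'ea (hA'H.trans hHV) (le_sup_left.trans hHV) hOK hOV hidx hcard'
        (fun a ha => hComm (K ⊔ thompsonSubgroupOf 2 T) _ K (pCoreOf 2 K) hVea hHV le_sup_left
          hKsn hOK hOV hidx hcard' a (hA'H ha))
        (fun V' B' hV' hB' hc => by
          rw [hcardA]
          exact hEA T L hLT.1 A hA (V' ⊔ B')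
            (sup_le ((hV'.trans hVle).trans hHL) ((hB'.trans hA'H).trans hHL))
            (isElementaryAbelian_sup (isElementaryAbelian_of_le hVea hV')
              (isElementaryAbelian_of_le hA'ea hB') hc))
      rw [hVK] at h5
      exact h5
    have hJeq : thompsonSubgroupOf 2 T ≤ Subgroup.normalizer (wOf K : Set G) := by
      unfold thompsonSubgroupOf thompsonSubgroup
      rw [Subgroup.map_le_iff_le_comap]
      apply sSup_le
      intro A hA
      rw [← Subgroup.map_le_iff_le_comap]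
      exact hstep A hA
    exact hJeq
  have h3 := h2 g⁻¹ (by rw [hTT]; exact key)
  rwa [hTT] at h3

end Cfsg.Agent.H42.Sq
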