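import Mathlib
import Cfsg.Agent.H42.UnBase
import Cfsg.Agent.H42.SpnMain
import Cfsg.Agent.H99.ElKUM

/-!
# S5954: assembly from the pieces of `UnDefs`
-/

set_option autoImplicit false

namespace Cfsg.Agent.H42.Un

open Cfsg.Agent.H45 Cfsg.Agent.H42.Spd Module Matrix

universe u

section Aux

variable {F : Type u} [Field F]

theorem toLin_pow_scalar_su (n : ℕ) (x : Matrix.SpecialLinearGroup (Fin n) F) (k : ℕ) (z : F)
    (hz : ((x ^ k : Matrix.SpecialLinearGroup (Fin n) F) : Matrix (Fin n) (Fin n) F) =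
      z • (1 : Matrix (Fin n) (Fin n) F)) :
    Matrix.toLin' (x : Matrix (Fin n) (Fin n) F) ^ k = z • (1 : Module.End F (Fin n → F)) := by
  rw [← Matrix.toLin'_pow, ← Matrix.SpecialLinearGroup.coe_pow, hz, map_smul, Matrix.toLin'_one]
  rfl

theorem toLin_pow_one_su (n : ℕ) (x : Matrix.SpecialLinearGroup (Fin n) F) (k : ℕ)
    (hx : x ^ k = 1) : Matrix.toLin' (x : Matrix (Fin n) (Fin n) F) ^ k = 1 := by
  rw [← Matrix.toLin'_pow, ← Matrix.SpecialLinearGroup.coe_pow, hx,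
    Matrix.SpecialLinearGroup.coe_one]
  exact Matrix.toLin'_one

theorem finrank_stdu (n : ℕ) : Module.finrank F (Fin n → F) = n := by
  rw [Module.finrank_fintype_fun_eq_card, Fintype.card_fin]

theorem exists_hermB_ne (σ : F →+* F) (n : ℕ) (hn : 0 < n) :
    ∃ u v : Fin n → F, hermB σ n u v ≠ 0 := by
  classical
  have hne : (Pi.single (⟨0, hn⟩ : Fin n) 1 : Fin n → F) ≠ 0 := by
    intro h
    have := congrFun h ⟨0, hn⟩
    rw [Pi.single_eq_same, Pi.zero_apply] at this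
    exact one_ne_zero this
  by_contra hcon
  push Not at hcon
  exact hne (hermB_nondeg n _ (fun y => hcon _ y))

theorem exists_root_norm_one (q k : ℕ) (hq : 1 ≤ q) (hk : Nat.Coprime k (q + 1)) (z : F)
    (hz : z ^ (q + 1) = 1) : ∃ μ₀ : F, μ₀ ^ (q + 1) = 1 ∧ μ₀ ^ k = z := by
  obtain ⟨e, -, he⟩ := Nat.exists_mul_mod_eq_one_of_coprime hk (by omega)
  refine ⟨z ^ e, ?_, ?_⟩
  · rw [← pow_mul, mul_comm, pow_mul, hz, one_pow]
  · rw [← pow_mul, mul_comm, ← Nat.div_add_mod (k * e) (q + 1), he, pow_add, pow_mul, hz, one_pow,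
      one_mul, pow_one]

theorem scalar_entry (n : ℕ) (hn : 0 < n) (a b : F)
    (h : a • (1 : Matrix (Fin n) (Fin n) F) = b • (1 : Matrix (Fin n) (Fin n) F)) : a = b := by
  have h6 := congrFun (congrFun h ⟨0, hn⟩) ⟨0, hn⟩
  rw [Matrix.smul_apply, Matrix.smul_apply, Matrix.one_apply_eq, smul_eq_mul, smul_eq_mul,
    mul_one, mul_one] at h6
  exact h6

theorem not_dvd_of_order_ne_two (q r : ℕ) (hr : r.Prime) (hr2 : r ≠ 2)
    (hi : orderOf (q : ZMod r) ≠ 2) : ¬ r ∣ q + 1 := by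
  intro h
  have : Fact r.Prime := ⟨hr⟩
  have h1 : ((q : ℕ) : ZMod r) = -1 := by
    have h2 := (ZMod.natCast_eq_zero_iff (q + 1) r).mpr h
    rw [Nat.cast_add, Nat.cast_one] at h2
    exact eq_neg_of_add_eq_zero_left h2
  apply hi
  rw [h1, orderOf_neg_one, if_neg]
  rw [ZMod.ringChar_zmod_n]
  exact hr2

theorem dvd_of_order_two (q r : ℕ) (hr : r.Prime) (hi : orderOf (q : ZMod r) = 2) :
    r ∣ q + 1 := by
  have : Fact r.Prime := ⟨hr⟩
  have h1 : (q : ZMod r) ^ 2 = 1 := by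
    rw [← hi]
    exact pow_orderOf_eq_one _
  have h2 : (q : ZMod r) ≠ 1 := by
    intro h
    rw [h, orderOf_one] at hi
    omega
  have h3 : ((q : ZMod r) - 1) * ((q : ZMod r) + 1) = 0 := by linear_combination h1
  rcases mul_eq_zero.mp h3 with h | h
  · exact absurd (sub_eq_zero.mp h) h2
  · rw [← ZMod.natCast_eq_zero_iff, Nat.cast_add, Nat.cast_one]
    exact h

theorem cu_eq_one (q r : ℕ) (hi : orderOf (q : ZMod r) = 2) : cu q r = 1 := by
  unfold cu
  rw [hi]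
  simp

theorem cu_pos (q r : ℕ) (hi : 0 < orderOf (q : ZMod r)) : 0 < cu q r := by
  unfold cu
  split_ifs <;> omega

theorem orderOf_q_pos (q r : ℕ) (hr : r.Prime) (hrq : ¬ r ∣ q) : 0 < orderOf (q : ZMod r) := by
  have : Fact r.Prime := ⟨hr⟩
  have h0 : (q : ZMod r) ≠ 0 := fun h => hrq ((ZMod.natCast_eq_zero_iff q r).mp h)
  rw [orderOf_pos_iff]
  exact isOfFinOrder_iff_pow_eq_one.mpr ⟨r - 1, by have := hr.two_le; omega,
    ZMod.pow_card_sub_one_eq_one h0⟩

end Aux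

section Cases

variable {F : Type u} [Field F] [Fintype F]

theorem coprime_char {p : ℕ} [Fact p.Prime] [CharP F p] {q : ℕ}
    (hF : Fintype.card F = q ^ 2) : Nat.Coprime p (q + 1) := by
  have hp : p.Prime := Fact.out
  have h1 : ((q ^ 2 : ℕ) : F) = 0 := by
    rw [← hF]
    exact Nat.cast_card_eq_zero F
  have h2 : p ∣ q ^ 2 := (CharP.cast_eq_zero_iff F p _).mp h1
  have h3 : p ∣ q := hp.dvd_of_dvd_pow h2
  have h4 : Nat.Coprime q (q + 1) := by simp
  exact Nat.Coprime.coprime_dvd_left h3 h4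

theorem q_eq_pow {p : ℕ} [Fact p.Prime] [hC : CharP F p] {q : ℕ}
    (hF : Fintype.card F = q ^ 2) : ∃ k : ℕ, q = p ^ k := by
  obtain ⟨p', k, hp', hc', hq⟩ := Cfsg.Agent.H7.exists_char_pow hF
  have hpp : p' = p := CharP.eq F hc' hC
  exact ⟨k, by rw [hq, hpp]⟩

theorem not_dvd_q {p : ℕ} [Fact p.Prime] [CharP F p] {q : ℕ}
    (hF : Fintype.card F = q ^ 2) (r : ℕ) (hr : r.Prime) (hrp : r ≠ p) : ¬ r ∣ q := by
  intro h
  have hp : p.Prime := Fact.out
  obtain ⟨k, hq⟩ := q_eq_pow (p := p) hF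
  rw [hq] at h
  exact hrp ((Nat.prime_dvd_prime_iff_eq hr hp).mp (hr.dvd_of_dvd_pow h))

theorem odd_q {p : ℕ} [Fact p.Prime] [CharP F p] (hp2 : p ≠ 2) {q : ℕ}
    (hF : Fintype.card F = q ^ 2) : Odd q := by
  have hp : p.Prime := Fact.out
  obtain ⟨k, hq⟩ := q_eq_pow (p := p) hF
  rw [hq]
  rcases hp.eq_two_or_odd' with h | h
  · exact absurd h hp2
  · exact h.pow

/-- Normalisation: an element of `SU_n(q)` with `x ^ k` scalar, `k` prime to `q + 1`, becomes an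
isometry of order dividing `k` after multiplication by a scalar of norm one. -/
theorem normalize_u {q : ℕ} (hF : Fintype.card F = q ^ 2) (σ : F →+* F) (hσq : ∀ x, σ x = x ^ q)
    (n : ℕ) (hn : 0 < n) (k : ℕ) (hk : Nat.Coprime k (q + 1))
    (x : Matrix.SpecialLinearGroup (Fin n) F) (hx : x ∈ Cfsg.SU n F q) (z : F)
    (hz : ((x ^ k : Matrix.SpecialLinearGroup (Fin n) F) : Matrix (Fin n) (Fin n) F) =
      z • (1 : Matrix (Fin n) (Fin n) F)) :
    ∃ T' : Module.End F (Fin n → F), UIso (hermB σ n) T' ∧ T' ^ k = 1 ∧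
      ∀ U : Submodule F (Fin n → F), U ∈ T'.invtSubmodule →
        U.map (Matrix.toLin' (x : Matrix (Fin n) (Fin n) F)) ≤ U := by
  have hq := Cfsg.Agent.H7.two_le_of_card_sq hF
  have hI := uiso_std hF σ hσq n _ ((mem_SU_iff n x).mp hx)
  have hTr := toLin_pow_scalar_su n x k z hz
  have hzn : z * σ z = 1 := (hI.pow k).scalar_norm z hTr (exists_hermB_ne σ n hn)
  have hz1 : z ^ (q + 1) = 1 := by
    rw [pow_succ', ← hσq]
    exact hzn
  have hz0 : z ≠ 0 := by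
    rintro rfl
    rw [zero_pow (by omega)] at hz1
    exact zero_ne_one hz1
  obtain ⟨μ₀, hμ1, hμk⟩ := exists_root_norm_one q k (by omega) hk z hz1
  have hμ0 : μ₀ ≠ 0 := by
    rintro rfl
    rw [zero_pow (by omega)] at hμ1
    exact zero_ne_one hμ1
  have hc : μ₀⁻¹ * σ μ₀⁻¹ = 1 := by
    rw [map_inv₀, ← mul_inv, hσq, ← pow_succ', hμ1, inv_one]
  refine ⟨μ₀⁻¹ • Matrix.toLin' (x : Matrix (Fin n) (Fin n) F), hI.smul _ hc, ?_, ?_⟩
  · rw [smul_pow, hTr, smul_smul, inv_pow, hμk, inv_mul_cancel₀ hz0, one_smul]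
  · intro U hU
    exact Spn.map_le_of_invt_smul _ μ₀⁻¹ (inv_ne_zero hμ0) U hU

/-- `x` fixes a nondegenerate `m`-space. -/
def FixesU (q n m : ℕ) (x : Matrix.SpecialLinearGroup (Fin n) F) : Prop :=
  ∃ W : Submodule F (Fin n → F), Module.finrank F ↥W = m ∧
    (∀ u ∈ W, u ≠ 0 → ∃ v ∈ W, Cfsg.hermForm n F q u v ≠ 0) ∧
    W.map (Matrix.toLin' (x : Matrix (Fin n) (Fin n) F)) ≤ W

theorem fixes_of_und {q : ℕ} (hF : Fintype.card F = q ^ 2) (σ : F →+* F)
    (hσq : ∀ x, σ x = x ^ q) (n m : ℕ) (x : Matrix.SpecialLinearGroup (Fin n) F)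
    (T' : Module.End F (Fin n → F))
    (htr : ∀ U : Submodule F (Fin n → F), U ∈ T'.invtSubmodule →
      U.map (Matrix.toLin' (x : Matrix (Fin n) (Fin n) F)) ≤ U)
    (U : Submodule F (Fin n → F)) (hU : UNd (hermB σ n) T' U)
    (hf : Module.finrank F U = m) : FixesU q n m x :=
  ⟨U, hf, (nd_std_iff hF σ hσq n U).mp hU.2, htr U hU.1⟩

/-- The Jordan type of a unipotent isometry of the standard space. -/
theorem uni_type_top (hType : StUUType.{u, u}) {p : ℕ} [Fact p.Prime] [CharP F p]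
    (σ : F →+* F) (n : ℕ) (T' : Module.End F (Fin n → F)) (hI : UIso (hermB σ n) T')
    (hT' : T' ^ p = 1) :
    ∃ μ : Multiset ℕ, (∀ a ∈ μ, 0 < a ∧ a ≤ p) ∧ μ.sum = n ∧
      ∀ ν : Multiset ℕ, ν ≤ μ → ∃ U : Submodule F (Fin n → F),
        UNd (hermB σ n) T' U ∧ Module.finrank F U = ν.sum := by
  have hnil : (T' - 1) ^ p = 0 := by
    rw [Spn.sub_one_pow_char, hT', sub_self]
  obtain ⟨μ, hpos, hkd, hsel⟩ := hType F σ _ (hermB σ n) T' hI ⟨p, hnil⟩ ⊤ hI.und_top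
  have hkd' : ∀ e, p ≤ e → (μ.map (fun s => min e s)).sum = n := by
    intro e he
    rw [← hkd e]
    have h1 : (T' - 1) ^ e = 0 := by
      obtain ⟨k, rfl⟩ := Nat.exists_eq_add_of_le he
      rw [pow_add, hnil, zero_mul]
    rw [h1, LinearMap.ker_zero, inf_top_eq, finrank_top, finrank_stdu]
  have hsum : μ.sum = n := by
    rw [← hkd' (p + μ.sum) (Nat.le_add_right _ _)]
    exact (Spn.ms_sum_min_of_le μ _ (fun e he =>
      (Multiset.le_sum_of_mem he).trans (Nat.le_add_left _ _))).symm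
  have hle : ∀ s ∈ μ, s ≤ p := Spn.ms_le_of_sum_min μ p (by rw [hkd' p le_rfl, hsum])
  refine ⟨μ, fun a ha => ⟨hpos a ha, hle a ha⟩, hsum, ?_⟩
  intro ν hν
  obtain ⟨U, -, hUnd, hUf⟩ := hsel ν hν
  exact ⟨U, hUnd, hUf⟩

/-- Case `r = p`, backward direction (both `p` odd and `p = 2`). -/
theorem case1_back (hType : StUUType.{u, u}) {p : ℕ} [Fact p.Prime] [CharP F p] {q : ℕ}
    (hF : Fintype.card F = q ^ 2) (n m : ℕ) (hn : 0 < n)
    (hpart : ∀ μ : Multiset ℕ, (∀ a ∈ μ, 0 < a ∧ a ≤ p) → μ.sum = n →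
      ∃ ν : Multiset ℕ, ν ≤ μ ∧ ν.sum = m)
    (x : Matrix.SpecialLinearGroup (Fin n) F) (hx : x ∈ Cfsg.SU n F q) (z : F)
    (hz : ((x ^ p : Matrix.SpecialLinearGroup (Fin n) F) : Matrix (Fin n) (Fin n) F) =
      z • (1 : Matrix (Fin n) (Fin n) F)) : FixesU q n m x := by
  obtain ⟨σ, hσq⟩ := Cfsg.Agent.H7.exists_frobQ hF
  obtain ⟨T', hI, hT'k, htr⟩ := normalize_u hF σ hσq n hn p (coprime_char hF) x hx z hz
  obtain ⟨μ, hμ, hsum, hsel⟩ := uni_type_top hType σ n T' hI hT'k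
  obtain ⟨ν, hν, hνsum⟩ := hpart μ hμ hsum
  obtain ⟨U, hUnd, hUf⟩ := hsel ν hν
  exact fixes_of_und hF σ hσq n m x T' htr U hUnd (by rw [hUf, hνsum])

/-- Case `r = p` odd, forward direction. -/
theorem case1_fwd (hType : StUUType.{u, u}) (hKerAdd : Spn.StKerAdd.{u, u}) (hUniq : Spn.StUniq)
    (hUniEx : StUUniEx.{u}) (hCompl : StUCompl.{u, u})
    {p : ℕ} [Fact p.Prime] [CharP F p] (hp2 : p ≠ 2) {q : ℕ} (hF : Fintype.card F = q ^ 2)
    (n m : ℕ) (hn : 0 < n) (hmn : m ≤ n)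
    (hL : ∀ x : Matrix.SpecialLinearGroup (Fin n) F, x ∈ Cfsg.SU n F q →
      (∃ z : F, ((x ^ p : Matrix.SpecialLinearGroup (Fin n) F) : Matrix (Fin n) (Fin n) F) =
        z • (1 : Matrix (Fin n) (Fin n) F)) →
      (∀ z : F, (x : Matrix (Fin n) (Fin n) F) ≠ z • (1 : Matrix (Fin n) (Fin n) F)) →
      FixesU q n m x)
    (μ : Multiset ℕ) (hμ : ∀ a ∈ μ, 0 < a ∧ a ≤ p) (hsum : μ.sum = n) :
    ∃ ν : Multiset ℕ, ν ≤ μ ∧ ν.sum = m := by
  classical
  obtain ⟨σ, hσq⟩ := Cfsg.Agent.H7.exists_frobQ hF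
  by_cases hall : ∀ e ∈ μ, e = 1
  · have hrep : μ = Multiset.replicate (Multiset.card μ) 1 := Multiset.eq_replicate_card.mpr hall
    have hcard : Multiset.card μ = n := by
      rw [← hsum]
      conv_rhs => rw [hrep]
      simp
    refine ⟨Multiset.replicate m 1, ?_, ?_⟩
    · rw [hrep, hcard]
      exact (Multiset.replicate_le_replicate 1).mpr hmn
    · simp
  · push Not at hall
    obtain ⟨e₀, he₀, hne⟩ := hall
    obtain ⟨x, hxSU, hxp, hxkd⟩ := hUniEx F p q hF hp2 n μ hμ hsum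
    have hT := toLin_pow_one_su n x p hxp
    have hI := uiso_std hF σ hσq n _ ((mem_SU_iff n x).mp hxSU)
    have hnil : (Matrix.toLin' (x : Matrix (Fin n) (Fin n) F) - 1) ^ p = 0 := by
      rw [Spn.sub_one_pow_char, hT, sub_self]
    have hcardlt : Multiset.card μ < n := by
      rw [← hsum]
      exact Spn.ms_card_lt_sum μ (fun e he => (hμ e he).1) e₀ he₀ hne
    have hcardpos : 0 < Multiset.card μ := Multiset.card_pos_iff_exists_mem.mpr ⟨e₀, he₀⟩
    have hns : ∀ z : F, (x : Matrix (Fin n) (Fin n) F) ≠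
        z • (1 : Matrix (Fin n) (Fin n) F) := by
      intro z hz
      have h1 := hxkd 1
      rw [Spn.ms_sum_min_one μ (fun e he => (hμ e he).1), pow_one] at h1
      have hTz : Matrix.toLin' (x : Matrix (Fin n) (Fin n) F) - 1 =
          (z - 1) • (1 : Module.End F (Fin n → F)) := by
        rw [hz, map_smul, Matrix.toLin'_one]
        apply LinearMap.ext
        intro v
        show z • v - v = (z - 1) • v
        rw [sub_smul, one_smul]
      rw [hTz] at h1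
      by_cases hz1 : z = 1
      · subst hz1
        rw [sub_self, zero_smul, LinearMap.ker_zero, finrank_top, finrank_stdu] at h1
        omega
      · have hk : LinearMap.ker ((z - 1) • (1 : Module.End F (Fin n → F))) = ⊥ := by
          rw [LinearMap.ker_eq_bot']
          intro v hv
          rw [LinearMap.smul_apply, Module.End.one_apply] at hv
          rcases smul_eq_zero.mp hv with h | h
          · exact absurd (sub_eq_zero.mp h) hz1
          · exact h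
        rw [hk, finrank_bot] at h1
        omega
    obtain ⟨W, hWf, hWnd, hWinv⟩ := hL x hxSU
      ⟨1, by rw [hxp, one_smul, Matrix.SpecialLinearGroup.coe_one]⟩ hns
    have hWNd : UNd (hermB σ n) (Matrix.toLin' (x : Matrix (Fin n) (Fin n) F)) W :=
      ⟨Spn.invt_of_map_le _ W hWinv, (nd_std_iff hF σ hσq n W).mpr hWnd⟩
    obtain ⟨hW'Nd, hsup, -⟩ := hCompl F σ _ (hermB σ n) _ hI W ⊤ hWNd hI.und_top le_top
    obtain ⟨W', hW'⟩ : ∃ W' : Submodule F (Fin n → F),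
        W' = ⊤ ⊓ perp (hermB σ n) W := ⟨_, rfl⟩
    rw [← hW'] at hW'Nd hsup
    have hdisj : W ⊓ W' = ⊥ := by
      rw [hW', top_inf_eq]
      exact hWNd.2
    obtain ⟨μW, hposW, hkdW, -⟩ := hType F σ _ (hermB σ n) _ hI ⟨p, hnil⟩ W hWNd
    obtain ⟨μW', hposW', hkdW', -⟩ := hType F σ _ (hermB σ n) _ hI ⟨p, hnil⟩ W' hW'Nd
    have hall : ∀ e : ℕ, (μ.map (fun s => min e s)).sum =
        ((μW + μW').map (fun s => min e s)).sum := by
      intro e
      have h1 := hKerAdd F _ ((Matrix.toLin' (x : Matrix (Fin n) (Fin n) F) - 1) ^ e)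
        W W' (Spn.invt_pow_sub_one _ W hWNd.1 e) (Spn.invt_pow_sub_one _ W' hW'Nd.1 e) hdisj
      rw [hsup, top_inf_eq, hxkd e, hkdW e, hkdW' e] at h1
      rw [Multiset.map_add, Multiset.sum_add]
      exact h1
    have hμeq : μ = μW + μW' := hUniq μ (μW + μW') (fun a ha => (hμ a ha).1) (by
      intro a ha
      rcases Multiset.mem_add.mp ha with h | h
      · exact hposW a h
      · exact hposW' a h) hall
    refine ⟨μW, ?_, ?_⟩
    · rw [hμeq]
      exact Multiset.le_add_right _ _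
    · have h1 := hkdW (p + μW.sum)
      have h3 : (Matrix.toLin' (x : Matrix (Fin n) (Fin n) F) - 1) ^ (p + μW.sum) = 0 := by
        rw [pow_add, hnil, zero_mul]
      rw [h3, LinearMap.ker_zero, inf_top_eq, hWf, Spn.ms_sum_min_of_le μW _ (fun e he =>
        (Multiset.le_sum_of_mem he).trans (Nat.le_add_left _ _))] at h1
      exact h1.symm

/-- Case `r = p = 2`, forward direction. -/
theorem case2_fwd (hInv2Ex : StUInv2Ex.{u}) (h2 : (2 : F) = 0) {q : ℕ}
    (hF : Fintype.card F = q ^ 2) (n m : ℕ) (hn : 0 < n)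
    (hL : ∀ x : Matrix.SpecialLinearGroup (Fin n) F, x ∈ Cfsg.SU n F q →
      (∃ z : F, ((x ^ 2 : Matrix.SpecialLinearGroup (Fin n) F) : Matrix (Fin n) (Fin n) F) =
        z • (1 : Matrix (Fin n) (Fin n) F)) →
      (∀ z : F, (x : Matrix (Fin n) (Fin n) F) ≠ z • (1 : Matrix (Fin n) (Fin n) F)) →
      FixesU q n m x) : Odd n ∨ Even m := by
  by_contra hcon
  have hn1 : ¬ Odd n := fun h => hcon (Or.inl h)
  have hm1 : ¬ Even m := fun h => hcon (Or.inr h)
  have hne : Even n := Nat.not_odd_iff_even.mp hn1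
  obtain ⟨x, hxSU, hxx, hx1, hprop⟩ := hInv2Ex F q hF h2 n hne hn
  have hfix := hL x hxSU
    ⟨1, by rw [pow_two, hxx, one_smul, Matrix.SpecialLinearGroup.coe_one]⟩ (by
    intro z hz
    have h3 : ((x * x : Matrix.SpecialLinearGroup (Fin n) F) : Matrix (Fin n) (Fin n) F) =
        (z * z) • (1 : Matrix (Fin n) (Fin n) F) := by
      rw [Matrix.SpecialLinearGroup.coe_mul, hz, smul_mul_smul_comm, mul_one]
    rw [hxx, Matrix.SpecialLinearGroup.coe_one, ← one_smul F (1 : Matrix (Fin n) (Fin n) F),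
      smul_smul, mul_one] at h3
    have h4 : z * z = 1 := (scalar_entry n hn _ _ h3).symm
    have hz1 := Spn.eq_one_of_sq_char_two h2 z h4
    apply hx1
    apply Subtype.ext
    rw [hz, hz1, one_smul]
    rfl)
  obtain ⟨W, hWf, hWnd, hWinv⟩ := hfix
  have h6 := hprop W hWinv hWnd
  rw [hWf] at h6
  exact hm1 h6

/-- Case `r = 2 ≠ p`, backward direction. -/
theorem case3_back (hSqrt : StUSqrt.{u}) (hInvSq : StUInvSq.{u, u}) (hInvNs : StUInvNs.{u, u})
    (hInvNec : StUInvNec.{u}) (h2 : (2 : F) ≠ 0) {q : ℕ} (hF : Fintype.card F = q ^ 2)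
    (hqodd : Odd q) (n m : ℕ) (hn : 0 < n) (hmn : m ≤ n)
    (hcond : Odd n ∨ Even m ∨ (padicValNat 2 n ≤ padicValNat 2 (q + 1) ∧ q % 4 = 3))
    (x : Matrix.SpecialLinearGroup (Fin n) F) (hx : x ∈ Cfsg.SU n F q) (z : F)
    (hz : ((x ^ 2 : Matrix.SpecialLinearGroup (Fin n) F) : Matrix (Fin n) (Fin n) F) =
      z • (1 : Matrix (Fin n) (Fin n) F)) : FixesU q n m x := by
  obtain ⟨σ, hσq⟩ := Cfsg.Agent.H7.exists_frobQ hF
  have hI := uiso_std hF σ hσq n _ ((mem_SU_iff n x).mp hx)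
  have hTr := toLin_pow_scalar_su n x 2 z hz
  have hzn : z * σ z = 1 := (hI.pow 2).scalar_norm z hTr (exists_hermB_ne σ n hn)
  have hz1 : z ^ (q + 1) = 1 := by
    rw [pow_succ', ← hσq]
    exact hzn
  obtain ⟨ν, hν⟩ := hSqrt F q hF hqodd z hz1
  rw [pow_two, ← hν] at hTr
  have hs : (ν * σ ν) * (ν * σ ν) = 1 := by
    have h3 : (ν * σ ν) * (ν * σ ν) = (ν * ν) * σ (ν * ν) := by
      rw [map_mul]
      ring
    rw [h3, hν, hzn]
  have hs' : ν * σ ν = 1 ∨ ν * σ ν = -1 := by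
    have h3 : (ν * σ ν - 1) * (ν * σ ν + 1) = 0 := by linear_combination hs
    rcases mul_eq_zero.mp h3 with h | h
    · left
      exact sub_eq_zero.mp h
    · right
      exact eq_neg_of_add_eq_zero_left h
  rcases hs' with h1 | h1
  · obtain ⟨U, hUnd, hUf⟩ := hInvSq F σ _ (hermB σ n) _ hI h2 ν h1 hTr m
      (by rw [finrank_stdu]; exact hmn)
    exact fixes_of_und hF σ hσq n m x _ (fun U hU => Spn.map_le_of_invt _ U hU) U hUnd hUf
  · have hνq : ν ^ (q + 1) = -1 := by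
      rw [pow_succ', ← hσq]
      exact h1
    have hxx : ((x * x : Matrix.SpecialLinearGroup (Fin n) F) : Matrix (Fin n) (Fin n) F) =
        (ν * ν) • (1 : Matrix (Fin n) (Fin n) F) := by
      rw [← pow_two, hz, hν]
    obtain ⟨hne, hc2⟩ := hInvNec F q hF hqodd n x ν hn hx hνq hxx
    have hme : Even m := by
      rcases hcond with h | h | ⟨h, h'⟩
      · exact absurd hne (Nat.not_even_iff_odd.mpr h)
      · exact h
      · rcases hc2 with h3 | h3 <;> omega
    obtain ⟨k, hk⟩ := hme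
    obtain ⟨U, hUnd, hUf⟩ := hInvNs F σ _ (hermB σ n) _ hI h2 ν h1 hTr k
      (by rw [finrank_stdu]; omega)
    exact fixes_of_und hF σ hσq n m x _ (fun U hU => Spn.map_le_of_invt _ U hU) U hUnd
      (by rw [hUf]; omega)

/-- Case `r = 2 ≠ p`, forward direction. -/
theorem case3_fwd (hInvEven : StUInvEven.{u, u}) (hInvEx : StUInvEx.{u}) (h2 : (2 : F) ≠ 0)
    {q : ℕ} (hF : Fintype.card F = q ^ 2) (hqodd : Odd q) (n m : ℕ) (hn : 0 < n)
    (hL : ∀ x : Matrix.SpecialLinearGroup (Fin n) F, x ∈ Cfsg.SU n F q →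
      (∃ z : F, ((x ^ 2 : Matrix.SpecialLinearGroup (Fin n) F) : Matrix (Fin n) (Fin n) F) =
        z • (1 : Matrix (Fin n) (Fin n) F)) →
      (∀ z : F, (x : Matrix (Fin n) (Fin n) F) ≠ z • (1 : Matrix (Fin n) (Fin n) F)) →
      FixesU q n m x) :
    Odd n ∨ Even m ∨ (padicValNat 2 n ≤ padicValNat 2 (q + 1) ∧ q % 4 = 3) := by
  by_contra hcon
  have hn1 : ¬ Odd n := fun h => hcon (Or.inl h)
  have hm1 : ¬ Even m := fun h => hcon (Or.inr (Or.inl h))
  have h3 : ¬ (padicValNat 2 n ≤ padicValNat 2 (q + 1) ∧ q % 4 = 3) :=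
    fun h => hcon (Or.inr (Or.inr h))
  have hne : Even n := Nat.not_odd_iff_even.mp hn1
  have hq4 : q % 4 = 1 ∨ padicValNat 2 (q + 1) < padicValNat 2 n := by
    by_cases h : q % 4 = 3
    · right
      by_contra h'
      exact h3 ⟨by omega, h⟩
    · left
      obtain ⟨t, ht⟩ := hqodd
      omega
  obtain ⟨σ, hσq⟩ := Cfsg.Agent.H7.exists_frobQ hF
  obtain ⟨x, ν, hxSU, hνq, hxx⟩ := hInvEx F q hF hqodd n hne hn hq4
  have hI := uiso_std hF σ hσq n _ ((mem_SU_iff n x).mp hxSU)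
  have hνσ : ν * σ ν = -1 := by
    rw [hσq, ← pow_succ']
    exact hνq
  have hTT : Matrix.toLin' (x : Matrix (Fin n) (Fin n) F) *
      Matrix.toLin' (x : Matrix (Fin n) (Fin n) F) =
      (ν * ν) • (1 : Module.End F (Fin n → F)) := by
    have h5 := congrArg Matrix.toLin' hxx
    rw [Matrix.SpecialLinearGroup.coe_mul, Matrix.toLin'_mul, map_smul, Matrix.toLin'_one] at h5
    exact h5
  have hns : ∀ z : F, (x : Matrix (Fin n) (Fin n) F) ≠
      z • (1 : Matrix (Fin n) (Fin n) F) := by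
    intro z hz
    have hTz : Matrix.toLin' (x : Matrix (Fin n) (Fin n) F) =
        z • (1 : Module.End F (Fin n → F)) := by
      rw [hz, map_smul, Matrix.toLin'_one]
      rfl
    have hzn : z * σ z = 1 := hI.scalar_norm z hTz (exists_hermB_ne σ n hn)
    have h4 : z * z = ν * ν := by
      have h5 : ((x * x : Matrix.SpecialLinearGroup (Fin n) F) : Matrix (Fin n) (Fin n) F) =
          (z * z) • (1 : Matrix (Fin n) (Fin n) F) := by
        rw [Matrix.SpecialLinearGroup.coe_mul, hz, smul_mul_smul_comm, mul_one]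
      rw [hxx] at h5
      exact (scalar_entry n hn _ _ h5).symm
    have h7 : (z - ν) * (z + ν) = 0 := by linear_combination h4
    rcases mul_eq_zero.mp h7 with h | h
    · have h8 : z = ν := sub_eq_zero.mp h
      rw [h8, hνσ] at hzn
      exact h2 (by linear_combination -hzn)
    · have h8 : z = -ν := eq_neg_of_add_eq_zero_left h
      rw [h8, map_neg, neg_mul_neg, hνσ] at hzn
      exact h2 (by linear_combination -hzn)
  obtain ⟨W, hWf, hWnd, hWinv⟩ := hL x hxSU ⟨ν * ν, by rw [pow_two, hxx]⟩ hns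
  have hWNd : UNd (hermB σ n) (Matrix.toLin' (x : Matrix (Fin n) (Fin n) F)) W :=
    ⟨Spn.invt_of_map_le _ W hWinv, (nd_std_iff hF σ hσq n W).mpr hWnd⟩
  have h6 := hInvEven F σ _ (hermB σ n) _ hI h2 ν hνσ hTT W hWNd
  rw [hWf] at h6
  exact hm1 h6

/-- Case `r ≠ p` odd, `i ≠ 2`, backward direction. -/
theorem case4a_back (hSub : StUSub.{u, u}) (hModc : StUModc.{u, u})
    {p : ℕ} [Fact p.Prime] [CharP F p] {q : ℕ} (hF : Fintype.card F = q ^ 2)
    (n m : ℕ) (hn : 0 < n) (hmn : m ≤ n) (r : ℕ) (hr : r.Prime) (hr2 : r ≠ 2) (hrp : r ≠ p)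
    (hi : orderOf (q : ZMod r) ≠ 2) (hmod : m % cu q r ≤ n % cu q r)
    (x : Matrix.SpecialLinearGroup (Fin n) F) (hx : x ∈ Cfsg.SU n F q) (z : F)
    (hz : ((x ^ r : Matrix.SpecialLinearGroup (Fin n) F) : Matrix (Fin n) (Fin n) F) =
      z • (1 : Matrix (Fin n) (Fin n) F)) : FixesU q n m x := by
  have hp : p.Prime := Fact.out
  have hpr : ¬ p ∣ r := fun h => hrp ((Nat.prime_dvd_prime_iff_eq hp hr).mp h).symm
  have hrF : (r : F) ≠ 0 := fun h0 => hpr ((CharP.cast_eq_zero_iff F p r).mp h0)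
  obtain ⟨σ, hσq⟩ := Cfsg.Agent.H7.exists_frobQ hF
  have hcop : Nat.Coprime r (q + 1) :=
    (Nat.Prime.coprime_iff_not_dvd hr).mpr (not_dvd_of_order_ne_two q r hr hr2 hi)
  obtain ⟨T', hI, hT'k, htr⟩ := normalize_u hF σ hσq n hn r hcop x hx z hz
  have hctx : UCtx r (hermB σ n) T' :=
    ⟨hr, hr2, hrF, hI, isSemisimple_of_pow_eq_one p T' r hpr hT'k, hT'k⟩
  obtain ⟨s, hs⟩ := hModc F q σ _ r (hermB σ n) T' hF hσq hctx ⊤ hI.und_top
  rw [finrank_top, finrank_stdu] at hs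
  obtain ⟨c, hcdef⟩ : ∃ c, c = cu q r := ⟨_, rfl⟩
  rw [← hcdef] at hs hmod
  have hkmod : n % c = kk T' ⊤ % c := by
    conv_lhs => rw [hs, Nat.add_mul_mod_self_left]
  have hkle : kk T' ⊤ % c ≤ kk T' ⊤ := Nat.mod_le _ _
  have hdm := Nat.div_add_mod m c
  by_cases hsj : s ≤ m / c
  · have h1 : c * s ≤ c * (m / c) := Nat.mul_le_mul_left c hsj
    obtain ⟨U, -, hUnd, hUf, -⟩ := hSub F q σ _ r (hermB σ n) T' hF hσq hctx ⊤ hI.und_top s
      (m - c * s) (by rw [finrank_top, finrank_stdu, ← hcdef]; omega) (by omega)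
    refine fixes_of_und hF σ hσq n m x T' htr U hUnd ?_
    rw [hUf, ← hcdef]
    omega
  · have h1 : c * (m / c) ≤ c * s := Nat.mul_le_mul_left c (by omega)
    obtain ⟨U, -, hUnd, hUf, -⟩ := hSub F q σ _ r (hermB σ n) T' hF hσq hctx ⊤ hI.und_top
      (m / c) (m % c) (by rw [finrank_top, finrank_stdu, ← hcdef]; omega) (by omega)
    refine fixes_of_und hF σ hσq n m x T' htr U hUnd ?_
    rw [hUf, ← hcdef]
    omega

/-- Case `r ≠ p` odd, `i ≠ 2`, forward direction. -/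
theorem case4a_fwd (hModc : StUModc.{u, u}) (hEx : StUEx.{u}) (hNdCnt : StUNdCnt.{u})
    {p : ℕ} [Fact p.Prime] [CharP F p] {q : ℕ} (hF : Fintype.card F = q ^ 2)
    (n m : ℕ) (hn : 0 < n) (hmn : m ≤ n) (r : ℕ) (hr : r.Prime) (hr2 : r ≠ 2) (hrp : r ≠ p)
    (hi : orderOf (q : ZMod r) ≠ 2)
    (hrΩ : r ∣ Nat.card {W : Submodule F (Fin n → F) // Module.finrank F ↥W = m ∧
      (∀ u ∈ W, u ≠ 0 → ∃ v ∈ W, Cfsg.hermForm n F q u v ≠ 0)})
    (hL : ∀ x : Matrix.SpecialLinearGroup (Fin n) F, x ∈ Cfsg.SU n F q →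
      (∃ z : F, ((x ^ r : Matrix.SpecialLinearGroup (Fin n) F) : Matrix (Fin n) (Fin n) F) =
        z • (1 : Matrix (Fin n) (Fin n) F)) →
      (∀ z : F, (x : Matrix (Fin n) (Fin n) F) ≠ z • (1 : Matrix (Fin n) (Fin n) F)) →
      FixesU q n m x) :
    cu q r ≤ m ∧ m % cu q r ≤ n % cu q r := by
  have hp : p.Prime := Fact.out
  have hpr : ¬ p ∣ r := fun h => hrp ((Nat.prime_dvd_prime_iff_eq hp hr).mp h).symm
  have hrF : (r : F) ≠ 0 := fun h0 => hpr ((CharP.cast_eq_zero_iff F p r).mp h0)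
  obtain ⟨σ, hσq⟩ := Cfsg.Agent.H7.exists_frobQ hF
  have hrq : ¬ r ∣ q := not_dvd_q (p := p) hF r hr hrp
  have hcpos : 0 < cu q r := cu_pos q r (orderOf_q_pos q r hr hrq)
  obtain ⟨j, hj1, hj2, hjdvd⟩ := hNdCnt F q hF n m r hr hr2 hrF hmn hrΩ
  obtain ⟨c, hcdef⟩ : ∃ c, c = cu q r := ⟨_, rfl⟩
  rw [← hcdef] at hcpos hjdvd ⊢
  have hcn : c ≤ n := by
    have := Nat.le_of_dvd (by omega) hjdvd
    omega
  obtain ⟨x, hxSU, hxr, hxf⟩ := hEx F p q hF r hr hr2 hrp hi n (n / c)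
    (by rw [← hcdef]; exact Nat.mul_div_le _ _)
  rw [← hcdef] at hxf
  have hdm := Nat.div_add_mod n c
  have hmodlt : n % c < c := Nat.mod_lt _ hcpos
  have hxf' : Module.finrank F ↥(LinearMap.ker
      (Matrix.toLin' (x : Matrix (Fin n) (Fin n) F) - 1)) = n % c := by
    omega
  have hT := toLin_pow_one_su n x r hxr
  have hI := uiso_std hF σ hσq n _ ((mem_SU_iff n x).mp hxSU)
  have hctx : UCtx r (hermB σ n) (Matrix.toLin' (x : Matrix (Fin n) (Fin n) F)) :=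
    ⟨hr, hr2, hrF, hI, isSemisimple_of_pow_eq_one p _ r hpr hT, hT⟩
  have hcop : Nat.Coprime r (q + 1) :=
    (Nat.Prime.coprime_iff_not_dvd hr).mpr (not_dvd_of_order_ne_two q r hr hr2 hi)
  have hns : ∀ z : F, (x : Matrix (Fin n) (Fin n) F) ≠
      z • (1 : Matrix (Fin n) (Fin n) F) := by
    intro z hz
    have hTz : Matrix.toLin' (x : Matrix (Fin n) (Fin n) F) =
        z • (1 : Module.End F (Fin n → F)) := by
      rw [hz, map_smul, Matrix.toLin'_one]
      rfl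
    have hzn : z * σ z = 1 := hI.scalar_norm z hTz (exists_hermB_ne σ n hn)
    have hzq : z ^ (q + 1) = 1 := by
      rw [pow_succ', ← hσq]
      exact hzn
    have hzr : z ^ r = 1 := by
      have h5 : ((x ^ r : Matrix.SpecialLinearGroup (Fin n) F) : Matrix (Fin n) (Fin n) F) =
          (z ^ r) • (1 : Matrix (Fin n) (Fin n) F) := by
        rw [Matrix.SpecialLinearGroup.coe_pow, hz, smul_pow, one_pow]
      rw [hxr, Matrix.SpecialLinearGroup.coe_one, ← one_smul F (1 : Matrix (Fin n) (Fin n) F),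
        smul_smul, mul_one] at h5
      exact (scalar_entry n hn _ _ h5).symm
    have hz1 : z = 1 := by
      have h3 : z ^ Nat.gcd r (q + 1) = 1 := pow_gcd_eq_one.mpr ⟨hzr, hzq⟩
      rw [Nat.Coprime] at hcop
      rw [hcop, pow_one] at h3
      exact h3
    have hker : LinearMap.ker (Matrix.toLin' (x : Matrix (Fin n) (Fin n) F) - 1) = ⊤ := by
      rw [hTz, hz1, one_smul, sub_self, LinearMap.ker_zero]
    rw [hker, finrank_top, finrank_stdu] at hxf'
    omega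
  obtain ⟨W, hWf, hWnd, hWinv⟩ := hL x hxSU
    ⟨1, by rw [hxr, one_smul, Matrix.SpecialLinearGroup.coe_one]⟩ hns
  have hWNd : UNd (hermB σ n) (Matrix.toLin' (x : Matrix (Fin n) (Fin n) F)) W :=
    ⟨Spn.invt_of_map_le _ W hWinv, (nd_std_iff hF σ hσq n W).mpr hWnd⟩
  obtain ⟨sW, hsW⟩ := hModc F q σ _ r (hermB σ n) _ hF hσq hctx W hWNd
  rw [hWf, ← hcdef] at hsW
  have hkW : kk (Matrix.toLin' (x : Matrix (Fin n) (Fin n) F)) W ≤ n % c := by
    rw [← hxf']
    exact Submodule.finrank_mono inf_le_right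
  have hmm : m % c = kk (Matrix.toLin' (x : Matrix (Fin n) (Fin n) F)) W := by
    rw [hsW, Nat.add_mul_mod_self_left, Nat.mod_eq_of_lt (by omega)]
  refine ⟨?_, by omega⟩
  by_contra hcon
  have hmc : m % c = m := Nat.mod_eq_of_lt (by omega)
  obtain ⟨w, hw⟩ := hjdvd
  rcases Nat.lt_or_ge (n / c) w with hlt | hge
  · have h1 : c * (n / c + 1) ≤ c * w := Nat.mul_le_mul_left c hlt
    rw [mul_add, mul_one] at h1
    omega
  · have h1 : c * w ≤ c * (n / c) := Nat.mul_le_mul_left c hge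
    omega

/-- Case `r ≠ p` odd, `i = 2`, backward direction. -/
theorem case4b_back (hSub : StUSub.{u, u}) (hKumNT : StUKumNT.{u})
    (hKumPeel : StUKumPeel.{u, u}) (hKumNec : StUKumNec.{u})
    {p : ℕ} [Fact p.Prime] [CharP F p] {q : ℕ} (hF : Fintype.card F = q ^ 2)
    (n m : ℕ) (hn : 0 < n) (hmn : m ≤ n) (r : ℕ) (hr : r.Prime) (hr2 : r ≠ 2) (hrp : r ≠ p)
    (hi : orderOf (q : ZMod r) = 2)
    (hcond : r ∣ m ∨ padicValNat r n ≤ padicValNat r (q + 1))
    (x : Matrix.SpecialLinearGroup (Fin n) F) (hx : x ∈ Cfsg.SU n F q) (z : F)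
    (hz : ((x ^ r : Matrix.SpecialLinearGroup (Fin n) F) : Matrix (Fin n) (Fin n) F) =
      z • (1 : Matrix (Fin n) (Fin n) F)) : FixesU q n m x := by
  have hp : p.Prime := Fact.out
  have hpr : ¬ p ∣ r := fun h => hrp ((Nat.prime_dvd_prime_iff_eq hp hr).mp h).symm
  have hrF : (r : F) ≠ 0 := fun h0 => hpr ((CharP.cast_eq_zero_iff F p r).mp h0)
  have hq := Cfsg.Agent.H7.two_le_of_card_sq hF
  obtain ⟨σ, hσq⟩ := Cfsg.Agent.H7.exists_frobQ hF
  have hrd : r ∣ q + 1 := dvd_of_order_two q r hr hi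
  have hI := uiso_std hF σ hσq n _ ((mem_SU_iff n x).mp hx)
  have hTr := toLin_pow_scalar_su n x r z hz
  have hzn : z * σ z = 1 := (hI.pow r).scalar_norm z hTr (exists_hermB_ne σ n hn)
  have hz1 : z ^ (q + 1) = 1 := by
    rw [pow_succ', ← hσq]
    exact hzn
  have hz0 : z ≠ 0 := by
    rintro rfl
    rw [zero_pow (by omega)] at hz1
    exact zero_ne_one hz1
  by_cases hμ : ∃ μ₀ : F, μ₀ ^ (q + 1) = 1 ∧ μ₀ ^ r = z
  · obtain ⟨μ₀, hμ1, hμr⟩ := hμ
    have hμ0 : μ₀ ≠ 0 := by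
      rintro rfl
      rw [zero_pow (by omega)] at hμ1
      exact zero_ne_one hμ1
    have hc : μ₀⁻¹ * σ μ₀⁻¹ = 1 := by
      rw [map_inv₀, ← mul_inv, hσq, ← pow_succ', hμ1, inv_one]
    have hI' := hI.smul _ hc
    have hT'k : (μ₀⁻¹ • Matrix.toLin' (x : Matrix (Fin n) (Fin n) F)) ^ r = 1 := by
      rw [smul_pow, hTr, smul_smul, inv_pow, hμr, inv_mul_cancel₀ hz0, one_smul]
    have hctx : UCtx r (hermB σ n) (μ₀⁻¹ • Matrix.toLin' (x : Matrix (Fin n) (Fin n) F)) :=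
      ⟨hr, hr2, hrF, hI', isSemisimple_of_pow_eq_one p _ r hpr hT'k, hT'k⟩
    have hc1 : cu q r = 1 := cu_eq_one q r hi
    obtain ⟨k, hk⟩ : ∃ k, k = kk (μ₀⁻¹ • Matrix.toLin' (x : Matrix (Fin n) (Fin n) F)) ⊤ :=
      ⟨_, rfl⟩
    have hkn : k ≤ n := by
      rw [hk]
      exact (Submodule.finrank_le _).trans_eq (finrank_stdu n)
    have htr : ∀ U : Submodule F (Fin n → F),
        U ∈ Module.End.invtSubmodule (μ₀⁻¹ • Matrix.toLin' (x : Matrix (Fin n) (Fin n) F)) →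
        U.map (Matrix.toLin' (x : Matrix (Fin n) (Fin n) F)) ≤ U :=
      fun U hU => Spn.map_le_of_invt_smul _ μ₀⁻¹ (inv_ne_zero hμ0) U hU
    by_cases hmk : m ≤ k
    · obtain ⟨U, -, hUnd, hUf, -⟩ := hSub F q σ _ r (hermB σ n) _ hF hσq hctx ⊤ hI'.und_top 0 m
        (by rw [finrank_top, finrank_stdu, hc1, ← hk]; omega) (by rw [← hk]; exact hmk)
      refine fixes_of_und hF σ hσq n m x _ htr U hUnd ?_
      rw [hUf, hc1]
      omega
    · obtain ⟨U, -, hUnd, hUf, -⟩ := hSub F q σ _ r (hermB σ n) _ hF hσq hctx ⊤ hI'.und_top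
        (m - k) k (by rw [finrank_top, finrank_stdu, hc1, ← hk]; omega) (by rw [← hk])
      refine fixes_of_und hF σ hσq n m x _ htr U hUnd ?_
      rw [hUf, hc1]
      omega
  · have hb := hKumNT F q hF r hr hr2 hrd z hz1 hμ
    have hlt := hKumNec F q hF r hr hr2 hrd n x z hn hx hb hz
    have hrm : r ∣ m := by
      rcases hcond with h | h
      · exact h
      · omega
    obtain ⟨j, hj⟩ := hrm
    obtain ⟨U, hUnd, hUf⟩ := hKumPeel F q σ _ (hermB σ n) _ hF hσq hI r hr hrF z hzn hb hTr j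
      (by rw [finrank_stdu, ← hj]; exact hmn)
    exact fixes_of_und hF σ hσq n m x _ (fun U hU => Spn.map_le_of_invt _ U hU) U hUnd
      (by rw [hUf, hj])

/-- Case `r ≠ p` odd, `i = 2`, forward direction. -/
theorem case4b_fwd (hKumEx : StUKumEx.{u}) {q : ℕ} (hF : Fintype.card F = q ^ 2)
    (n m : ℕ) (hn : 0 < n) (r : ℕ) (hr : r.Prime) (hr2 : r ≠ 2)
    (hi : orderOf (q : ZMod r) = 2)
    (hL : ∀ x : Matrix.SpecialLinearGroup (Fin n) F, x ∈ Cfsg.SU n F q →
      (∃ z : F, ((x ^ r : Matrix.SpecialLinearGroup (Fin n) F) : Matrix (Fin n) (Fin n) F) =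
        z • (1 : Matrix (Fin n) (Fin n) F)) →
      (∀ z : F, (x : Matrix (Fin n) (Fin n) F) ≠ z • (1 : Matrix (Fin n) (Fin n) F)) →
      FixesU q n m x) :
    r ∣ m ∨ padicValNat r n ≤ padicValNat r (q + 1) := by
  by_contra hcon
  have hrm : ¬ r ∣ m := fun h => hcon (Or.inl h)
  have hlt : padicValNat r (q + 1) < padicValNat r n := by
    by_contra h
    exact hcon (Or.inr (by omega))
  have hrd := dvd_of_order_two q r hr hi
  obtain ⟨x, z, hxSU, hb, hxr⟩ := hKumEx F q hF r hr hr2 hrd n hlt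
  have hTr := toLin_pow_scalar_su n x r z hxr
  have hns : ∀ w : F, (x : Matrix (Fin n) (Fin n) F) ≠
      w • (1 : Matrix (Fin n) (Fin n) F) := by
    intro w hw
    apply hb w
    have h5 : ((x ^ r : Matrix.SpecialLinearGroup (Fin n) F) : Matrix (Fin n) (Fin n) F) =
        (w ^ r) • (1 : Matrix (Fin n) (Fin n) F) := by
      rw [Matrix.SpecialLinearGroup.coe_pow, hw, smul_pow, one_pow]
    rw [hxr] at h5
    exact (scalar_entry n hn _ _ h5).symm
  obtain ⟨W, hWf, -, hWinv⟩ := hL x hxSU ⟨z, hxr⟩ hns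
  have h7 := Cfsg.Agent.H99.Kum.kummer_dvd_finrank
    (Matrix.toLin' (x : Matrix (Fin n) (Fin n) F)) r hr z hb hTr W
    (fun v hv => hWinv (Submodule.mem_map_of_mem hv))
  rw [hWf] at h7
  exact hrm h7

/-- The main statement, modulo the pieces. -/
theorem un_main (hType : StUUType.{u, u}) (hKerAdd : Spn.StKerAdd.{u, u}) (hUniq : Spn.StUniq)
    (hUniEx : StUUniEx.{u}) (hCompl : StUCompl.{u, u}) (hSub2 : StSub2)
    (hInv2Ex : StUInv2Ex.{u}) (hSqrt : StUSqrt.{u}) (hInvSq : StUInvSq.{u, u})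
    (hInvNs : StUInvNs.{u, u}) (hInvEven : StUInvEven.{u, u}) (hInvEx : StUInvEx.{u})
    (hInvNec : StUInvNec.{u}) (hModc : StUModc.{u, u}) (hSub : StUSub.{u, u})
    (hEx : StUEx.{u}) (hNdCnt : StUNdCnt.{u}) (hKumNT : StUKumNT.{u})
    (hKumPeel : StUKumPeel.{u, u}) (hKumEx : StUKumEx.{u}) (hKumNec : StUKumNec.{u})
    {p : ℕ} [Fact p.Prime] [CharP F p] {q : ℕ} (hF : Fintype.card F = q ^ 2)
    (n m : ℕ) (hn : 3 ≤ n) (hmn : 2 * m < n) (r : ℕ) [Fact r.Prime]
    (hrΩ : r ∣ Nat.card {W : Submodule F (Fin n → F) // Module.finrank F ↥W = m ∧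
      (∀ u ∈ W, u ≠ 0 → ∃ v ∈ W, Cfsg.hermForm n F q u v ≠ 0)}) :
    (∀ x : Matrix.SpecialLinearGroup (Fin n) F, x ∈ Cfsg.SU n F q →
      (∃ z : F, ((x ^ r : Matrix.SpecialLinearGroup (Fin n) F) : Matrix (Fin n) (Fin n) F) =
        z • (1 : Matrix (Fin n) (Fin n) F)) →
      (∀ z : F, (x : Matrix (Fin n) (Fin n) F) ≠ z • (1 : Matrix (Fin n) (Fin n) F)) →
      ∃ W : Submodule F (Fin n → F), Module.finrank F ↥W = m ∧
        (∀ u ∈ W, u ≠ 0 → ∃ v ∈ W, Cfsg.hermForm n F q u v ≠ 0) ∧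
        W.map (Matrix.toLin' (x : Matrix (Fin n) (Fin n) F)) ≤ W) ↔
    ((r = p ∧ 2 < p ∧ (∀ μ : Multiset ℕ, (∀ a ∈ μ, 0 < a ∧ a ≤ p) → μ.sum = n →
        ∃ ν : Multiset ℕ, ν ≤ μ ∧ ν.sum = m)) ∨
     (r = p ∧ p = 2 ∧ (Odd n ∨ Even m)) ∨
     (r = 2 ∧ p ≠ 2 ∧ (Odd n ∨ Even m ∨
        (padicValNat 2 n ≤ padicValNat 2 (q + 1) ∧ q % 4 = 3))) ∨
     (r ≠ p ∧ 2 < r ∧ ((orderOf (q : ZMod r) ≠ 2 ∧ cu q r ≤ m ∧ m % cu q r ≤ n % cu q r) ∨
        (orderOf (q : ZMod r) = 2 ∧ (r ∣ m ∨ padicValNat r n ≤ padicValNat r (q + 1)))))) := by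
  have hp : p.Prime := Fact.out
  have hr : r.Prime := Fact.out
  have hn0 : 0 < n := by omega
  have hmn' : m ≤ n := by omega
  by_cases hrp : r = p
  · subst hrp
    by_cases hp2 : r = 2
    · -- Case II
      subst hp2
      have h2 : (2 : F) = 0 := by exact_mod_cast CharP.cast_eq_zero F 2
      constructor
      · intro hL
        right; left
        exact ⟨rfl, rfl, case2_fwd hInv2Ex h2 hF n m hn0 hL⟩
      · rintro (⟨-, h, -⟩ | ⟨-, -, h⟩ | ⟨-, h, -⟩ | ⟨h, -⟩)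
        · omega
        · intro x hx ⟨z, hz⟩ _
          refine case1_back hType hF n m hn0 ?_ x hx z hz
          intro μ hμ hsum
          exact hSub2 μ m (fun a ha => by have := hμ a ha; omega) (by rw [hsum]; exact hmn')
            (by rw [hsum]; exact h)
        · exact absurd rfl h
        · exact absurd rfl h
    · -- Case I
      constructor
      · intro hL
        left
        refine ⟨rfl, ?_, ?_⟩
        · have := hr.two_le
          omega
        · intro μ hμ hsum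
          exact case1_fwd hType hKerAdd hUniq hUniEx hCompl hp2 hF n m hn0 hmn' hL μ hμ hsum
      · rintro (⟨-, -, h⟩ | ⟨-, h, -⟩ | ⟨h, -⟩ | ⟨h, -⟩)
        · intro x hx ⟨z, hz⟩ _
          exact case1_back hType hF n m hn0 h x hx z hz
        · exact absurd h hp2
        · exact absurd h hp2
        · exact absurd rfl h
  · by_cases hr2 : r = 2
    · -- Case III
      subst hr2
      have hp2 : p ≠ 2 := fun h => hrp h.symm
      have h2 : (2 : F) ≠ 0 := by
        intro h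
        have h1 : ((2 : ℕ) : F) = 0 := by exact_mod_cast h
        have h3 := (CharP.cast_eq_zero_iff F p 2).mp h1
        exact hp2 ((Nat.prime_dvd_prime_iff_eq hp Nat.prime_two).mp h3)
      have hqodd : Odd q := odd_q (p := p) hp2 hF
      constructor
      · intro hL
        right; right; left
        exact ⟨rfl, hp2, case3_fwd hInvEven hInvEx h2 hF hqodd n m hn0 hL⟩
      · rintro (⟨h, -⟩ | ⟨h, -⟩ | ⟨-, -, h⟩ | ⟨-, h, -⟩)
        · exact absurd h hrp
        · exact absurd h hrp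
        · intro x hx ⟨z, hz⟩ _
          exact case3_back hSqrt hInvSq hInvNs hInvNec h2 hF hqodd n m hn0 hmn' h x hx z hz
        · omega
    · -- Case IV
      by_cases hi : orderOf (q : ZMod r) = 2
      · constructor
        · intro hL
          right; right; right
          have h2 := hr.two_le
          exact ⟨hrp, by omega, Or.inr ⟨hi, case4b_fwd hKumEx hF n m hn0 r hr hr2 hi hL⟩⟩
        · rintro (⟨h, -⟩ | ⟨h, -⟩ | ⟨h, -⟩ | ⟨-, -, ⟨h, -⟩ | ⟨-, h⟩⟩)
          · exact absurd h hrp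
          · exact absurd h hrp
          · exact absurd h hr2
          · exact absurd hi h
          · intro x hx ⟨z, hz⟩ _
            exact case4b_back hSub hKumNT hKumPeel hKumNec hF n m hn0 hmn' r hr hr2 hrp hi h
              x hx z hz
      · constructor
        · intro hL
          right; right; right
          have h2 := hr.two_le
          have h := case4a_fwd hModc hEx hNdCnt hF n m hn0 hmn' r hr hr2 hrp hi hrΩ hL
          exact ⟨hrp, by omega, Or.inl ⟨hi, h.1, h.2⟩⟩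
        · rintro (⟨h, -⟩ | ⟨h, -⟩ | ⟨h, -⟩ | ⟨-, -, ⟨-, -, h⟩ | ⟨h, -⟩⟩)
          · exact absurd h hrp
          · exact absurd h hrp
          · exact absurd h hr2
          · intro x hx ⟨z, hz⟩ _
            exact case4a_back hSub hModc hF n m hn0 hmn' r hr hr2 hrp hi h x hx z hz
          · exact absurd h hi

end Cases

end Cfsg.Agent.H42.Un
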