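import Mathlib
import Cfsg.Agent.H42.UtDefs
import Cfsg.Agent.H42.UnMain

/-!
# S5953: assembly from the pieces of `UtDefs`
-/

set_option autoImplicit false

namespace Cfsg.Agent.H42.Ut

open Cfsg.Agent.H45 Cfsg.Agent.H42.Spd Cfsg.Agent.H42.Un Cfsg.Agent.H42.Ti Module Matrix

universe u

section Cases

variable {F : Type u} [Field F] [Fintype F]

omit [Field F] in
/-- `b`, the order of `q ^ 2` modulo `r`, in terms of `i = ord_r(q)`. -/
theorem ii_eq {q : ℕ} (hF : Fintype.card F = q ^ 2) (r : ℕ) :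
    ii F r = if Even (orderOf (q : ZMod r)) then orderOf (q : ZMod r) / 2
      else orderOf (q : ZMod r) := by
  unfold ii
  rw [hF, Nat.cast_pow, orderOf_pow' _ two_ne_zero]
  split_ifs with h
  · rw [Nat.gcd_eq_right (even_iff_two_dvd.mp h)]
  · have h1 : Nat.gcd (orderOf (q : ZMod r)) 2 = 1 := by
      rw [Nat.not_even_iff_odd] at h
      exact Nat.coprime_two_right.mpr h
    rw [h1, Nat.div_one]

omit [Field F] in
theorem cu_eq_of_eq {q : ℕ} (hF : Fintype.card F = q ^ 2) (r : ℕ)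
    (h : orderOf (q : ZMod r) % 4 = 2) : cu q r = ii F r := by
  rw [ii_eq hF r]
  unfold cu
  have he : Even (orderOf (q : ZMod r)) := by
    rw [Nat.even_iff]
    omega
  rw [if_pos he, if_neg (by omega), if_pos h]

omit [Field F] in
theorem cu_eq_of_ne {q : ℕ} (hF : Fintype.card F = q ^ 2) (r : ℕ)
    (h : orderOf (q : ZMod r) % 4 ≠ 2) : cu q r = 2 * ii F r := by
  rw [ii_eq hF r]
  unfold cu
  by_cases h0 : orderOf (q : ZMod r) % 4 = 0
  · have he : Even (orderOf (q : ZMod r)) := by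
      rw [Nat.even_iff]
      omega
    rw [if_pos h0, if_pos he]
    omega
  · have he : ¬ Even (orderOf (q : ZMod r)) := by
      rw [Nat.even_iff]
      omega
    rw [if_neg h0, if_neg h, if_neg he]

/-- `x` fixes a totally isotropic `m`-space. -/
def FixesUt (q n m : ℕ) (x : Matrix.SpecialLinearGroup (Fin n) F) : Prop :=
  ∃ W : Submodule F (Fin n → F), Module.finrank F ↥W = m ∧
    (∀ u ∈ W, ∀ v ∈ W, Cfsg.hermForm n F q u v = 0) ∧
    W.map (Matrix.toLin' (x : Matrix (Fin n) (Fin n) F)) ≤ W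

omit [Fintype F] in
theorem fixes_of_uti {q : ℕ} (σ : F →+* F) (hσq : ∀ x, σ x = x ^ q) (n m : ℕ)
    (x : Matrix.SpecialLinearGroup (Fin n) F) (T' : Module.End F (Fin n → F))
    (htr : ∀ U : Submodule F (Fin n → F), U ∈ T'.invtSubmodule →
      U.map (Matrix.toLin' (x : Matrix (Fin n) (Fin n) F)) ≤ U)
    (U : Submodule F (Fin n → F)) (hU : U ∈ T'.invtSubmodule) (hti : UTI (hermB σ n) U)
    (hf : Module.finrank F U = m) : FixesUt q n m x :=
  ⟨U, hf, fun u hu v hv => by rw [← hermB_eq_hermForm σ hσq]; exact hti u hu v hv, htr U hU⟩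

omit [Fintype F] in
theorem uti_of_fixes {q : ℕ} (σ : F →+* F) (hσq : ∀ x, σ x = x ^ q) (n : ℕ)
    (W : Submodule F (Fin n → F))
    (h : ∀ u ∈ W, ∀ v ∈ W, Cfsg.hermForm n F q u v = 0) : UTI (hermB σ n) W :=
  fun u hu v hv => by rw [hermB_eq_hermForm σ hσq]; exact h u hu v hv

/-- An element of `SU_n(q)` with `x ^ r = 1`, `r` prime to `q + 1`, which is not the identity is
not scalar. -/
theorem not_scalar_of_kk_u {q : ℕ} (hF : Fintype.card F = q ^ 2) (σ : F →+* F)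
    (hσq : ∀ x, σ x = x ^ q) (n : ℕ) (hn : 0 < n) (r : ℕ) (hcop : Nat.Coprime r (q + 1))
    (x : Matrix.SpecialLinearGroup (Fin n) F) (hx : x ∈ Cfsg.SU n F q) (hxr : x ^ r = 1)
    (hk : Module.finrank F ↥(LinearMap.ker
      (Matrix.toLin' (x : Matrix (Fin n) (Fin n) F) - 1)) < n) :
    ∀ z : F, (x : Matrix (Fin n) (Fin n) F) ≠ z • (1 : Matrix (Fin n) (Fin n) F) := by
  intro z hz
  have hI := uiso_std hF σ hσq n _ ((mem_SU_iff n x).mp hx)
  have hTz : Matrix.toLin' (x : Matrix (Fin n) (Fin n) F) =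
      z • (1 : Module.End F (Fin n → F)) := by
    rw [hz, map_smul, Matrix.toLin'_one]
    rfl
  have hzn : z * σ z = 1 := hI.scalar_norm z hTz (exists_hermB_ne σ n hn)
  have hzq : z ^ (q + 1) = 1 := by
    rw [pow_succ', ← hσq]
    exact hzn
  have hzr : z ^ r = 1 := by
    have h5 : ((x ^ r : Matrix.SpecialLinearGroup (Fin n) F) : Matrix (Fin n) (Fin n) F) =
        (z ^ r) • (1 : Matrix (Fin n) (Fin n) F) := by
      rw [Matrix.SpecialLinearGroup.coe_pow, hz, smul_pow, one_pow]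
    rw [hxr, Matrix.SpecialLinearGroup.coe_one, ← one_smul F (1 : Matrix (Fin n) (Fin n) F),
      smul_smul, mul_one] at h5
    exact (scalar_entry n hn _ _ h5).symm
  have hz1 : z = 1 := by
    have h3 : z ^ Nat.gcd r (q + 1) = 1 := pow_gcd_eq_one.mpr ⟨hzr, hzq⟩
    rw [Nat.Coprime] at hcop
    rw [hcop, pow_one] at h3
    exact h3
  have hker : LinearMap.ker (Matrix.toLin' (x : Matrix (Fin n) (Fin n) F) - 1) = ⊤ := by
    rw [hTz, hz1, one_smul, sub_self, LinearMap.ker_zero]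
  rw [hker, finrank_top, finrank_stdu] at hk
  omega

/-- Case `r = 2 ≠ p`, backward direction. -/
theorem caseB_back (hSqrt : StUSqrt.{u}) (hInvSq : StUtInvSq.{u, u}) (hInvNs : StUtInvNs.{u, u})
    (hInvNec : StUtInvNec.{u}) (h2 : (2 : F) ≠ 0) {q : ℕ} (hF : Fintype.card F = q ^ 2)
    (hqodd : Odd q) (n m : ℕ) (hn : 0 < n) (hmn : 2 * m ≤ n)
    (hcond : 2 * m < n ∨ padicValNat 2 (q + 1) ≤ padicValNat 2 n)
    (x : Matrix.SpecialLinearGroup (Fin n) F) (hx : x ∈ Cfsg.SU n F q) (z : F)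
    (hz : ((x ^ 2 : Matrix.SpecialLinearGroup (Fin n) F) : Matrix (Fin n) (Fin n) F) =
      z • (1 : Matrix (Fin n) (Fin n) F)) : FixesUt q n m x := by
  obtain ⟨σ, hσq⟩ := Cfsg.Agent.H7.exists_frobQ hF
  have hI := uiso_std hF σ hσq n _ ((mem_SU_iff n x).mp hx)
  have hTr := toLin_pow_scalar_su n x 2 z hz
  have hzn : z * σ z = 1 := (hI.pow 2).scalar_norm z hTr (exists_hermB_ne σ n hn)
  have hz1 : z ^ (q + 1) = 1 := by
    rw [pow_succ', ← hσq]
    exact hzn
  obtain ⟨ν, hν⟩ := hSqrt F q hF hqodd z hz1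
  rw [pow_two, ← hν] at hTr
  have hs : (ν * σ ν) * (ν * σ ν) = 1 := by
    have h3 : (ν * σ ν) * (ν * σ ν) = (ν * ν) * σ (ν * ν) := by
      rw [map_mul]
      ring
    rw [h3, hν, hzn]
  have hs' : ν * σ ν = 1 ∨ ν * σ ν = -1 := by
    have h3 : (ν * σ ν - 1) * (ν * σ ν + 1) = 0 := by linear_combination hs
    rcases mul_eq_zero.mp h3 with h | h
    · left
      exact sub_eq_zero.mp h
    · right
      exact eq_neg_of_add_eq_zero_left h
  rcases hs' with h1 | h1
  · have hνq : ν ^ (q + 1) = 1 := by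
      rw [pow_succ', ← hσq]
      exact h1
    have hxx : ((x * x : Matrix.SpecialLinearGroup (Fin n) F) : Matrix (Fin n) (Fin n) F) =
        (ν * ν) • (1 : Matrix (Fin n) (Fin n) F) := by
      rw [← pow_two, hz, hν]
    obtain ⟨U, hUinv, hUti, hUf⟩ := hInvSq F σ _ (hermB σ n) _ hI h2 ν h1 hTr m
      (by rw [finrank_stdu]; exact hmn) (by
        intro h2m
        rw [finrank_stdu] at h2m
        by_contra hodd
        rw [Nat.not_even_iff_odd] at hodd
        have h5 := hInvNec F q hF hqodd n x ν hn hx hνq hxx hodd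
        rcases hcond with h | h <;> omega)
    exact fixes_of_uti σ hσq n m x _ (fun U hU => Spn.map_le_of_invt _ U hU) U hUinv hUti hUf
  · obtain ⟨U, hUinv, hUti, hUf⟩ := hInvNs F σ _ (hermB σ n) _ hI h2 ν h1 hTr m
      (by rw [finrank_stdu]; exact hmn)
    exact fixes_of_uti σ hσq n m x _ (fun U hU => Spn.map_le_of_invt _ U hU) U hUinv hUti hUf

/-- Case `r = 2 ≠ p`, forward direction. -/
theorem caseB_fwd (hInvEx : StUtInvEx.{u}) {q : ℕ} (hF : Fintype.card F = q ^ 2)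
    (hqodd : Odd q) (n m : ℕ) (hn : 0 < n) (hmn : 2 * m ≤ n)
    (hL : ∀ x : Matrix.SpecialLinearGroup (Fin n) F, x ∈ Cfsg.SU n F q →
      (∃ z : F, ((x ^ 2 : Matrix.SpecialLinearGroup (Fin n) F) : Matrix (Fin n) (Fin n) F) =
        z • (1 : Matrix (Fin n) (Fin n) F)) →
      (∀ z : F, (x : Matrix (Fin n) (Fin n) F) ≠ z • (1 : Matrix (Fin n) (Fin n) F)) →
      FixesUt q n m x) :
    2 * m < n ∨ padicValNat 2 (q + 1) ≤ padicValNat 2 n := by
  by_contra hcon
  push Not at hcon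
  obtain ⟨h1, h2⟩ := hcon
  obtain ⟨x, hxSU, hxz, hns, hprop⟩ := hInvEx F q hF hqodd n ⟨m, by omega⟩ hn h2
  obtain ⟨W, hWf, hWti, hWinv⟩ := hL x hxSU hxz hns
  have h3 := hprop W hWinv hWti
  rw [hWf] at h3
  omega

/-- From the numerical conditions to an invariant totally isotropic `m`-space of a semisimple
isometry of order `r`. -/
theorem exists_ti_of_ctx (hBuild : StUtBuild.{u, u}) (hModc : StUModc.{u, u}) {q : ℕ}
    (hF : Fintype.card F = q ^ 2) (σ : F →+* F) (hσq : ∀ x, σ x = x ^ q) (n m : ℕ)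
    (hmn : 2 * m ≤ n) (r : ℕ) (T' : Module.End F (Fin n → F)) (hctx : UCtx r (hermB σ n) T')
    (hipos : 0 < ii F r) (h2 : 2 * (m % ii F r) ≤ n % cu q r)
    (h3 : orderOf (q : ZMod r) % 4 ≠ 2 ∨ (orderOf (q : ZMod r) % 4 = 2 ∧
      (r - 1) / ii F r + 2 * (m / ii F r) ≤ n / ii F r)) :
    ∃ U : Submodule F (Fin n → F), U ∈ T'.invtSubmodule ∧ UTI (hermB σ n) U ∧
      Module.finrank F U = m := by
  have hI := hctx.iso
  obtain ⟨s, hs⟩ := hModc F q σ _ r (hermB σ n) T' hF hσq hctx ⊤ hI.und_top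
  rw [finrank_top, finrank_stdu] at hs
  obtain ⟨i, hi⟩ : ∃ i, i = ii F r := ⟨_, rfl⟩
  obtain ⟨K, hK⟩ : ∃ K, K = kk T' ⊤ := ⟨_, rfl⟩
  rw [← hi] at h2 h3 hipos
  rw [← hK] at hs
  have hdm := Nat.div_add_mod m i
  suffices hsuff : ∃ s₁ j, i * s₁ + j = m ∧ 2 * j ≤ K ∧
      (orderOf (q : ZMod r) % 4 ≠ 2 → K + 2 * i * s₁ ≤ n) ∧
      (orderOf (q : ZMod r) % 4 = 2 → s₁ = 0 ∨ K + i * ((r - 1) / i + 2 * s₁ - 1) ≤ n) by
    obtain ⟨s₁, j, hm', hj, ho, he⟩ := hsuff
    obtain ⟨U, hUinv, hUti, hUf⟩ := hBuild F q σ _ r (hermB σ n) T' hF hσq hctx s₁ j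
      (by rw [← hK]; exact hj) (by rw [← hi, ← hK, finrank_stdu]; exact ho)
      (by rw [← hi, ← hK, finrank_stdu]; exact he)
    exact ⟨U, hUinv, hUti, by rw [hUf, ← hi]; exact hm'⟩
  by_cases h4 : orderOf (q : ZMod r) % 4 = 2
  · -- self-dual types, `c = b`
    have hcu : cu q r = i := by
      rw [hi]
      exact cu_eq_of_eq hF r h4
    rw [hcu] at hs h2
    have h3' : (r - 1) / i + 2 * (m / i) ≤ n / i := by
      rcases h3 with h | h
      · exact absurd h4 h
      · exact h.2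
    obtain ⟨t, ht⟩ : ∃ t, t = (r - 1) / i := ⟨_, rfl⟩
    rw [← ht] at h3' ⊢
    have hKdm := Nat.div_add_mod K i
    have hdiv : n / i = s + K / i := by
      rw [hs, add_comm K, Nat.mul_add_div hipos]
    have hmod : n % i = K % i := by
      rw [hs, add_comm K, Nat.mul_add_mod]
    rw [hdiv] at h3'
    rw [hmod] at h2
    have e1 : i * (t + 2 * (m / i)) ≤ i * (s + K / i) := Nat.mul_le_mul_left i h3'
    have e2 : i * (t + 2 * (m / i)) = i * t + 2 * (i * (m / i)) := by ring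
    have e3 : i * (s + K / i) = i * s + i * (K / i) := by ring
    by_cases hcase : t + 2 * (m / i) ≤ s + 1
    · refine ⟨m / i, m % i, hdm, by omega, fun ho => absurd h4 ho, fun _ => ?_⟩
      by_cases h0 : m / i = 0
      · left
        exact h0
      · right
        have e4 : i * (t + 2 * (m / i) - 1) ≤ i * s := Nat.mul_le_mul_left i (by omega)
        omega
    · have hcase' : s + 2 ≤ t + 2 * (m / i) := by omega
      by_cases hst : s < t
      · refine ⟨0, m, by omega, ?_, fun ho => absurd h4 ho, fun _ => Or.inl rfl⟩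
        have e4 : i * s ≤ i * t := Nat.mul_le_mul_left i (by omega)
        omega
      · have hs1 : (s - t + 1) / 2 ≤ m / i := by omega
        have e4 : i * ((s - t + 1) / 2) ≤ i * (m / i) := Nat.mul_le_mul_left i hs1
        have e5 : i * (t + 2 * ((s - t + 1) / 2) - 1) ≤ i * s := Nat.mul_le_mul_left i (by omega)
        have e6 : i * s ≤ i * (t + 2 * ((s - t + 1) / 2)) := Nat.mul_le_mul_left i (by omega)
        have e7 : i * (t + 2 * ((s - t + 1) / 2)) = i * t + 2 * (i * ((s - t + 1) / 2)) := by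
          ring
        refine ⟨(s - t + 1) / 2, m - i * ((s - t + 1) / 2), by omega, by omega,
          fun ho => absurd h4 ho, fun _ => Or.inr (by omega)⟩
  · -- no self-dual type, `c = 2 b`
    have hcu : cu q r = 2 * i := by
      rw [hi]
      exact cu_eq_of_ne hF r h4
    rw [hcu] at hs h2
    have hmod : n % (2 * i) = K % (2 * i) := by
      rw [hs, add_comm K, Nat.mul_add_mod]
    rw [hmod] at h2
    have hKle : K % (2 * i) ≤ K := Nat.mod_le _ _
    by_cases hcase : m / i ≤ s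
    · have e1 : 2 * i * (m / i) ≤ 2 * i * s := Nat.mul_le_mul_left (2 * i) hcase
      refine ⟨m / i, m % i, hdm, by omega, fun _ => by omega, fun he => absurd he h4⟩
    · have e1 : i * s ≤ i * (m / i) := Nat.mul_le_mul_left i (by omega)
      have e2 : 2 * i * s = 2 * (i * s) := by ring
      refine ⟨s, m - i * s, by omega, by omega, fun _ => by omega, fun he => absurd he h4⟩

/-- Case `r ≠ p` odd, `i ≠ 2`, backward direction. -/
theorem caseC_back (hBuild : StUtBuild.{u, u}) (hModc : StUModc.{u, u})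
    {p : ℕ} [Fact p.Prime] [CharP F p] {q : ℕ} (hF : Fintype.card F = q ^ 2)
    (n m : ℕ) (hn : 0 < n) (hmn : 2 * m ≤ n) (r : ℕ) (hr : r.Prime) (hr2 : r ≠ 2) (hrp : r ≠ p)
    (hi : orderOf (q : ZMod r) ≠ 2) (h2 : 2 * (m % ii F r) ≤ n % cu q r)
    (h3 : orderOf (q : ZMod r) % 4 ≠ 2 ∨ (orderOf (q : ZMod r) % 4 = 2 ∧
      (r - 1) / ii F r + 2 * (m / ii F r) ≤ n / ii F r))
    (x : Matrix.SpecialLinearGroup (Fin n) F) (hx : x ∈ Cfsg.SU n F q) (z : F)
    (hz : ((x ^ r : Matrix.SpecialLinearGroup (Fin n) F) : Matrix (Fin n) (Fin n) F) =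
      z • (1 : Matrix (Fin n) (Fin n) F)) : FixesUt q n m x := by
  have hp : p.Prime := Fact.out
  have hpr : ¬ p ∣ r := fun h => hrp ((Nat.prime_dvd_prime_iff_eq hp hr).mp h).symm
  have hrF : (r : F) ≠ 0 := fun h0 => hpr ((CharP.cast_eq_zero_iff F p r).mp h0)
  obtain ⟨σ, hσq⟩ := Cfsg.Agent.H7.exists_frobQ hF
  have hcop : Nat.Coprime r (q + 1) :=
    (Nat.Prime.coprime_iff_not_dvd hr).mpr (not_dvd_of_order_ne_two q r hr hr2 hi)
  obtain ⟨T', hI, hT'k, htr⟩ := normalize_u hF σ hσq n hn r hcop x hx z hz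
  have hctx : UCtx r (hermB σ n) T' :=
    ⟨hr, hr2, hrF, hI, isSemisimple_of_pow_eq_one p T' r hpr hT'k, hT'k⟩
  have hipos : 0 < ii F r := Cfsg.Agent.H99.El.orderOf_card_pos r hr hrF
  obtain ⟨U, hUinv, hUti, hUf⟩ := exists_ti_of_ctx hBuild hModc hF σ hσq n m hmn r T' hctx hipos
    h2 h3
  exact fixes_of_uti σ hσq n m x T' htr U hUinv hUti hUf

/-- Uniqueness of division with remainder. -/
theorem div_mod_unique_u (i m s w : ℕ) (h : m = i * s + w) (hw : w < i) :
    s = m / i ∧ w = m % i := by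
  have hi : 0 < i := by omega
  constructor
  · rw [h, Nat.mul_add_div hi, Nat.div_eq_of_lt hw, add_zero]
  · rw [h, Nat.mul_add_mod, Nat.mod_eq_of_lt hw]

/-- Case `r ≠ p` odd, `i ≠ 2`, forward direction. -/
theorem caseC_fwd (hCnt : StUtCnt.{u}) (hCyc : StCycSet.{u}) (hUpper : StUtUpper.{u, u})
    (hUpperSd : StUtUpperSd.{u, u}) (hExSd : StUtExSd.{u}) (hEx : StUEx.{u})
    {p : ℕ} [Fact p.Prime] [CharP F p] {q : ℕ} (hF : Fintype.card F = q ^ 2)
    (n m : ℕ) (hn : 0 < n) (hmn : 2 * m ≤ n) (r : ℕ) (hr : r.Prime) (hr2 : r ≠ 2) (hrp : r ≠ p)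
    (hi2 : orderOf (q : ZMod r) ≠ 2)
    (hrΩ : r ∣ Nat.card {W : Submodule F (Fin n → F) // Module.finrank F ↥W = m ∧
      (∀ u ∈ W, ∀ v ∈ W, Cfsg.hermForm n F q u v = 0)})
    (hL : ∀ x : Matrix.SpecialLinearGroup (Fin n) F, x ∈ Cfsg.SU n F q →
      (∃ z : F, ((x ^ r : Matrix.SpecialLinearGroup (Fin n) F) : Matrix (Fin n) (Fin n) F) =
        z • (1 : Matrix (Fin n) (Fin n) F)) →
      (∀ z : F, (x : Matrix (Fin n) (Fin n) F) ≠ z • (1 : Matrix (Fin n) (Fin n) F)) →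
      FixesUt q n m x) :
    ii F r ≤ m ∧ 2 * (m % ii F r) ≤ n % cu q r ∧
      (orderOf (q : ZMod r) % 4 ≠ 2 ∨ (orderOf (q : ZMod r) % 4 = 2 ∧
        (r - 1) / ii F r + 2 * (m / ii F r) ≤ n / ii F r)) := by
  have hp : p.Prime := Fact.out
  have hpr : ¬ p ∣ r := fun h => hrp ((Nat.prime_dvd_prime_iff_eq hp hr).mp h).symm
  have hrF : (r : F) ≠ 0 := fun h0 => hpr ((CharP.cast_eq_zero_iff F p r).mp h0)
  obtain ⟨σ, hσq⟩ := Cfsg.Agent.H7.exists_frobQ hF
  have hcop : Nat.Coprime r (q + 1) :=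
    (Nat.Prime.coprime_iff_not_dvd hr).mpr (not_dvd_of_order_ne_two q r hr hr2 hi2)
  have hipos : 0 < ii F r := Cfsg.Agent.H99.El.orderOf_card_pos r hr hrF
  obtain ⟨j₀, hj1, hj2, hjdvd⟩ := hCnt F q hF n m r hr hr2 hrF hmn hrΩ
  obtain ⟨i, hi⟩ : ∃ i, i = ii F r := ⟨_, rfl⟩
  obtain ⟨c, hc⟩ : ∃ c, c = cu q r := ⟨_, rfl⟩
  rw [← hi] at hipos
  rw [← hc] at hjdvd
  rw [← hi, ← hc]
  have hcpos : 0 < c := by
    rw [hc]
    exact cu_pos q r (orderOf_q_pos q r hr (not_dvd_q (p := p) hF r hr hrp))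
  have hcn : c ≤ n := by
    have := Nat.le_of_dvd (by omega) hjdvd
    omega
  have hdm := Nat.div_add_mod n c
  have hmodlt : n % c < c := Nat.mod_lt _ hcpos
  have hdivpos : 0 < n / c := Nat.div_pos hcn hcpos
  -- the general consequence of the hypothesis for an element of order `r`
  have key : ∀ x : Matrix.SpecialLinearGroup (Fin n) F, x ∈ Cfsg.SU n F q → x ^ r = 1 →
      Module.finrank F ↥(LinearMap.ker
        (Matrix.toLin' (x : Matrix (Fin n) (Fin n) F) - 1)) < n →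
      ∃ W : Submodule F (Fin n → F), Module.finrank F W = m ∧
        W ∈ Module.End.invtSubmodule (Matrix.toLin' (x : Matrix (Fin n) (Fin n) F)) ∧
        UTI (hermB σ n) W ∧
        UCtx r (hermB σ n) (Matrix.toLin' (x : Matrix (Fin n) (Fin n) F)) := by
    intro x hxSU hxr hk
    obtain ⟨W, hWf, hWti, hWinv⟩ := hL x hxSU
      ⟨1, by rw [hxr, one_smul, Matrix.SpecialLinearGroup.coe_one]⟩
      (not_scalar_of_kk_u hF σ hσq n hn r hcop x hxSU hxr hk)
    have hT := toLin_pow_one_su n x r hxr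
    have hI := uiso_std hF σ hσq n _ ((mem_SU_iff n x).mp hxSU)
    exact ⟨W, hWf, Spn.invt_of_map_le _ W hWinv, uti_of_fixes σ hσq n W hWti,
      ⟨hr, hr2, hrF, hI, isSemisimple_of_pow_eq_one p _ r hpr hT, hT⟩⟩
  -- the contradiction from the count when `2 m ≤ n % c`
  have hcnt : ¬ (2 * m ≤ n % c) := by
    intro hcon
    obtain ⟨w₀, hw₀⟩ := hjdvd
    rcases Nat.lt_or_ge (n / c) w₀ with hlt | hge
    · have h1 : c * (n / c + 1) ≤ c * w₀ := Nat.mul_le_mul_left c hlt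
      rw [mul_add, mul_one] at h1
      omega
    · have h1 : c * w₀ ≤ c * (n / c) := Nat.mul_le_mul_left c hge
      omega
  by_cases h4 : orderOf (q : ZMod r) % 4 = 2
  · -- self-dual types, `c = b`
    have hci : c = i := by
      rw [hc, hi]
      exact cu_eq_of_eq hF r h4
    rw [hci] at hdm hmodlt hdivpos hcnt hcn ⊢
    obtain ⟨⟨Φs, hΦ⟩, hcyc2⟩ := hCyc F r hr hrF
    obtain ⟨t, ht⟩ : ∃ t, t = (r - 1) / i := ⟨_, rfl⟩
    have htpos : 0 < t := by
      have h1 := (hcyc2 Φs hΦ).1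
      rw [← hi] at h1
      have h2 := hr.two_le
      rw [ht, ← h1, Nat.mul_div_cancel _ hipos]
      rcases Nat.eq_zero_or_pos Φs.card with h0 | h0
      · rw [h0, zero_mul] at h1
        omega
      · exact h0
    rw [← ht]
    obtain ⟨n', hn'⟩ : ∃ n', n' = n / i := ⟨_, rfl⟩
    rw [← hn'] at hdm hdivpos ⊢
    -- the element with `n'` blocks
    obtain ⟨x, hxSU, hxr, hxk, hxs⟩ := hExSd F p q hF r hr hr2 hrp h4 hi2 Φs hΦ n n'
      (by rw [← hi]; omega)
    rw [← hi, ← ht] at hxs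
    rw [← hi] at hxk
    obtain ⟨W, hWf, hWinv, hWti, hctx⟩ := key x hxSU hxr (by
      have : 0 < i * n' := Nat.mul_pos hipos hdivpos
      omega)
    obtain ⟨s, w, hsw, hw, hsle⟩ := hUpperSd F q σ _ r (hermB σ n) _ hF hσq hctx h4
      Φs hΦ W hWinv hWti
    rw [kk_top] at hw
    rw [hWf, ← hi] at hsw
    rw [← hi] at hsle
    have hwlt : w < i := by omega
    obtain ⟨hs', hw'⟩ := div_mod_unique_u i m s w hsw hwlt
    have hmod : 2 * (m % i) ≤ n % i := by omega
    have him : i ≤ m := by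
      by_contra hlt
      have h1 : m % i = m := Nat.mod_eq_of_lt (by omega)
      exact hcnt (by omega)
    have hmi : 0 < m / i := Nat.div_pos him hipos
    refine ⟨him, hmod, Or.inr ⟨h4, ?_⟩⟩
    have hsle' := hsle.trans hxs
    by_cases hnt : n' ≤ t
    · rw [if_pos hnt] at hsle'
      omega
    · rw [if_neg hnt] at hsle'
      by_contra hcon
      -- then `t + 2 (m / i) = n' + 1`; use the element with `n' - 1` blocks
      have heq : t + 2 * (m / i) = n' + 1 := by omega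
      have e1 : i * (n' - 1) + i = i * n' := by
        rw [← Nat.mul_succ]
        congr 1
        omega
      obtain ⟨x', hxSU', hxr', hxk', hxs'⟩ := hExSd F p q hF r hr hr2 hrp h4 hi2 Φs hΦ
        n (n' - 1) (by rw [← hi]; omega)
      rw [← hi, ← ht] at hxs'
      rw [← hi] at hxk'
      have e2 : 0 < i * (n' - 1) := Nat.mul_pos hipos (by omega)
      obtain ⟨W', hWf', hWinv', hWti', hctx'⟩ := key x' hxSU' hxr' (by omega)
      obtain ⟨s', w', hsw', hw2, hsle2⟩ := hUpperSd F q σ _ r (hermB σ n) _ hF hσq hctx' h4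
        Φs hΦ W' hWinv' hWti'
      rw [kk_top] at hw2
      rw [hWf', ← hi] at hsw'
      rw [← hi] at hsle2
      have hsle3 := hsle2.trans hxs'
      have hs'le : s' + 1 ≤ m / i := by
        by_cases hnt' : n' - 1 ≤ t
        · rw [if_pos hnt'] at hsle3
          omega
        · rw [if_neg hnt'] at hsle3
          omega
      have e3 : i * (s' + 1) ≤ i * (m / i) := Nat.mul_le_mul_left i hs'le
      rw [mul_add, mul_one] at e3
      have e4 := Nat.div_add_mod m i
      omega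
  · -- no self-dual type, `c = 2 b`
    have hci : c = 2 * i := by
      rw [hc, hi]
      exact cu_eq_of_ne hF r h4
    obtain ⟨x, hxSU, hxr, hxk⟩ := hEx F p q hF r hr hr2 hrp hi2 n (n / c)
      (by rw [← hc]; exact Nat.mul_div_le _ _)
    rw [← hc] at hxk
    have e0 : 0 < c * (n / c) := Nat.mul_pos hcpos hdivpos
    obtain ⟨W, hWf, hWinv, hWti, hctx⟩ := key x hxSU hxr (by omega)
    obtain ⟨s, w, hsw, hw⟩ := hUpper F σ _ r (hermB σ n) _ hctx W hWinv hWti
    rw [kk_top] at hw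
    rw [hWf, ← hi] at hsw
    have hwlt : w < i := by omega
    obtain ⟨hs', hw'⟩ := div_mod_unique_u i m s w hsw hwlt
    have hmod : 2 * (m % i) ≤ n % c := by omega
    refine ⟨?_, hmod, Or.inl h4⟩
    by_contra hlt
    have h1 : m % i = m := Nat.mod_eq_of_lt (by omega)
    exact hcnt (by omega)

/-- Case `r ≠ p` odd, `i = 2`, backward direction. -/
theorem caseD_back (hBuild : StUtBuild.{u, u}) (hModc : StUModc.{u, u}) (hKumNT : StUKumNT.{u})
    (hKumNec : StUKumNec.{u}) (hKumTi : StUtKumTi.{u, u})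
    {p : ℕ} [Fact p.Prime] [CharP F p] {q : ℕ} (hF : Fintype.card F = q ^ 2)
    (n m : ℕ) (hn : 0 < n) (hmn : 2 * m ≤ n) (r : ℕ) (hr : r.Prime) (hr2 : r ≠ 2) (hrp : r ≠ p)
    (hi : orderOf (q : ZMod r) = 2) (h2 : 2 * (m % ii F r) ≤ n % cu q r)
    (h3 : (r - 1) / ii F r + 2 * (m / ii F r) ≤ n / ii F r)
    (hcond : r ∣ m ∨ padicValNat r n ≤ padicValNat r (q + 1))
    (x : Matrix.SpecialLinearGroup (Fin n) F) (hx : x ∈ Cfsg.SU n F q) (z : F)
    (hz : ((x ^ r : Matrix.SpecialLinearGroup (Fin n) F) : Matrix (Fin n) (Fin n) F) =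
      z • (1 : Matrix (Fin n) (Fin n) F)) : FixesUt q n m x := by
  have hp : p.Prime := Fact.out
  have hpr : ¬ p ∣ r := fun h => hrp ((Nat.prime_dvd_prime_iff_eq hp hr).mp h).symm
  have hrF : (r : F) ≠ 0 := fun h0 => hpr ((CharP.cast_eq_zero_iff F p r).mp h0)
  have hq := Cfsg.Agent.H7.two_le_of_card_sq hF
  obtain ⟨σ, hσq⟩ := Cfsg.Agent.H7.exists_frobQ hF
  have hrd : r ∣ q + 1 := dvd_of_order_two q r hr hi
  have hI := uiso_std hF σ hσq n _ ((mem_SU_iff n x).mp hx)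
  have hTr := toLin_pow_scalar_su n x r z hz
  have hzn : z * σ z = 1 := (hI.pow r).scalar_norm z hTr (exists_hermB_ne σ n hn)
  have hz1 : z ^ (q + 1) = 1 := by
    rw [pow_succ', ← hσq]
    exact hzn
  have hz0 : z ≠ 0 := by
    rintro rfl
    rw [zero_pow (by omega)] at hz1
    exact zero_ne_one hz1
  have hipos : 0 < ii F r := Cfsg.Agent.H99.El.orderOf_card_pos r hr hrF
  by_cases hμ : ∃ μ₀ : F, μ₀ ^ (q + 1) = 1 ∧ μ₀ ^ r = z
  · obtain ⟨μ₀, hμ1, hμr⟩ := hμ
    have hμ0 : μ₀ ≠ 0 := by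
      rintro rfl
      rw [zero_pow (by omega)] at hμ1
      exact zero_ne_one hμ1
    have hc : μ₀⁻¹ * σ μ₀⁻¹ = 1 := by
      rw [map_inv₀, ← mul_inv, hσq, ← pow_succ', hμ1, inv_one]
    have hI' := hI.smul _ hc
    have hT'k : (μ₀⁻¹ • Matrix.toLin' (x : Matrix (Fin n) (Fin n) F)) ^ r = 1 := by
      rw [smul_pow, hTr, smul_smul, inv_pow, hμr, inv_mul_cancel₀ hz0, one_smul]
    have hctx : UCtx r (hermB σ n) (μ₀⁻¹ • Matrix.toLin' (x : Matrix (Fin n) (Fin n) F)) :=
      ⟨hr, hr2, hrF, hI', isSemisimple_of_pow_eq_one p _ r hpr hT'k, hT'k⟩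
    have htr : ∀ U : Submodule F (Fin n → F),
        U ∈ Module.End.invtSubmodule (μ₀⁻¹ • Matrix.toLin' (x : Matrix (Fin n) (Fin n) F)) →
        U.map (Matrix.toLin' (x : Matrix (Fin n) (Fin n) F)) ≤ U :=
      fun U hU => Spn.map_le_of_invt_smul _ μ₀⁻¹ (inv_ne_zero hμ0) U hU
    obtain ⟨U, hUinv, hUti, hUf⟩ := exists_ti_of_ctx hBuild hModc hF σ hσq n m hmn r _ hctx
      hipos h2 (Or.inr ⟨by rw [hi], h3⟩)
    exact fixes_of_uti σ hσq n m x _ htr U hUinv hUti hUf
  · have hb := hKumNT F q hF r hr hr2 hrd z hz1 hμ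
    have hlt := hKumNec F q hF r hr hr2 hrd n x z hn hx hb hz
    have hrm : r ∣ m := by
      rcases hcond with h | h
      · exact h
      · omega
    obtain ⟨j, hj⟩ := hrm
    have hss : Module.End.IsSemisimple (Matrix.toLin' (x : Matrix (Fin n) (Fin n) F)) := by
      apply isSemisimple_of_pow_eq_one p _ (r * (q + 1))
      · intro hd
        rcases (Nat.Prime.dvd_mul hp).mp hd with h | h
        · exact hpr h
        · have h5 : Nat.Coprime p (q + 1) := coprime_char hF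
          have h6 := Nat.eq_one_of_dvd_coprimes h5 (dvd_refl p) h
          exact hp.one_lt.ne' h6
      · rw [pow_mul, hTr, smul_pow, one_pow, hz1, one_smul]
    obtain ⟨U, hUinv, hUti, hUf⟩ := hKumTi F σ _ (hermB σ n) _ hI hss r hr z hb hTr j
      (by rw [finrank_stdu, ← hj]; exact hmn)
    exact fixes_of_uti σ hσq n m x _ (fun U hU => Spn.map_le_of_invt _ U hU) U hUinv hUti
      (by rw [hUf, hj])

/-- Case `r ≠ p` odd, `i = 2`, forward direction. -/
theorem caseD_fwd (hCyc : StCycSet.{u}) (hUpperSd : StUtUpperSd.{u, u})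
    (hExTwo : StUtExTwo.{u}) (hKumEx : StUKumEx.{u})
    {p : ℕ} [Fact p.Prime] [CharP F p] {q : ℕ} (hF : Fintype.card F = q ^ 2)
    (n m : ℕ) (hn : 2 ≤ n) (hm : 1 ≤ m) (r : ℕ) (hr : r.Prime) (hr2 : r ≠ 2) (hrp : r ≠ p)
    (hi : orderOf (q : ZMod r) = 2)
    (hL : ∀ x : Matrix.SpecialLinearGroup (Fin n) F, x ∈ Cfsg.SU n F q →
      (∃ z : F, ((x ^ r : Matrix.SpecialLinearGroup (Fin n) F) : Matrix (Fin n) (Fin n) F) =
        z • (1 : Matrix (Fin n) (Fin n) F)) →
      (∀ z : F, (x : Matrix (Fin n) (Fin n) F) ≠ z • (1 : Matrix (Fin n) (Fin n) F)) →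
      FixesUt q n m x) :
    (r - 1) / ii F r + 2 * (m / ii F r) ≤ n / ii F r ∧
      (r ∣ m ∨ padicValNat r n ≤ padicValNat r (q + 1)) := by
  have hp : p.Prime := Fact.out
  have hpr : ¬ p ∣ r := fun h => hrp ((Nat.prime_dvd_prime_iff_eq hp hr).mp h).symm
  have hrF : (r : F) ≠ 0 := fun h0 => hpr ((CharP.cast_eq_zero_iff F p r).mp h0)
  obtain ⟨σ, hσq⟩ := Cfsg.Agent.H7.exists_frobQ hF
  have hrd := dvd_of_order_two q r hr hi
  have hii : ii F r = 1 := by
    rw [ii_eq hF r, hi]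
    simp
  constructor
  · obtain ⟨⟨Φs, hΦ⟩, -⟩ := hCyc F r hr hrF
    obtain ⟨x, hxSU, hxr, hns, hkk, hφ⟩ := hExTwo F q hF r hr hr2 hrd Φs hΦ n hn
    obtain ⟨W, hWf, hWti, hWinv⟩ := hL x hxSU
      ⟨1, by rw [hxr, one_smul, Matrix.SpecialLinearGroup.coe_one]⟩ hns
    have hT := toLin_pow_one_su n x r hxr
    have hI := uiso_std hF σ hσq n _ ((mem_SU_iff n x).mp hxSU)
    have hctx : UCtx r (hermB σ n) (Matrix.toLin' (x : Matrix (Fin n) (Fin n) F)) :=
      ⟨hr, hr2, hrF, hI, isSemisimple_of_pow_eq_one p _ r hpr hT, hT⟩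
    obtain ⟨s, w, hsw, hw, hsle⟩ := hUpperSd F q σ _ r (hermB σ n) _ hF hσq hctx (by rw [hi])
      Φs hΦ W (Spn.invt_of_map_le _ W hWinv) (uti_of_fixes σ hσq n W hWti)
    rw [kk_top] at hw
    rw [hWf, hii] at hsw
    rw [hii] at hsle
    have hs0 : s = 0 := by
      have h5 : ∑ φ ∈ Φs, Module.finrank F ↥(LinearMap.ker
          (Polynomial.aeval (Matrix.toLin' (x : Matrix (Fin n) (Fin n) F)) φ)) / (2 * 1) = 0 := by
        apply Finset.sum_eq_zero
        intro φ hφm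
        have h6 := hφ φ hφm
        omega
      omega
    rw [hii, Nat.div_one, Nat.div_one, Nat.div_one]
    have h2r := hr.two_le
    rcases hkk with h | h
    · omega
    · omega
  · by_contra hcon
    have hrm : ¬ r ∣ m := fun h => hcon (Or.inl h)
    have hlt : padicValNat r (q + 1) < padicValNat r n := by
      by_contra h
      exact hcon (Or.inr (by omega))
    obtain ⟨x, z, hxSU, hb, hxr⟩ := hKumEx F q hF r hr hr2 hrd n hlt
    have hTr := toLin_pow_scalar_su n x r z hxr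
    have hns : ∀ w : F, (x : Matrix (Fin n) (Fin n) F) ≠
        w • (1 : Matrix (Fin n) (Fin n) F) := by
      intro w hw
      apply hb w
      have h5 : ((x ^ r : Matrix.SpecialLinearGroup (Fin n) F) : Matrix (Fin n) (Fin n) F) =
          (w ^ r) • (1 : Matrix (Fin n) (Fin n) F) := by
        rw [Matrix.SpecialLinearGroup.coe_pow, hw, smul_pow, one_pow]
      rw [hxr] at h5
      exact (scalar_entry n (by omega) _ _ h5).symm
    obtain ⟨W, hWf, -, hWinv⟩ := hL x hxSU ⟨z, hxr⟩ hns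
    have h7 := Cfsg.Agent.H99.Kum.kummer_dvd_finrank
      (Matrix.toLin' (x : Matrix (Fin n) (Fin n) F)) r hr z hb hTr W
      (fun v hv => hWinv (Submodule.mem_map_of_mem hv))
    rw [hWf] at h7
    exact hrm h7

/-- The main statement, modulo the pieces. -/
theorem ut_main (hCntP : StUtCntP.{u}) (hCnt : StUtCnt.{u}) (hSqrt : StUSqrt.{u})
    (hInvSq : StUtInvSq.{u, u}) (hInvNs : StUtInvNs.{u, u}) (hInvNec : StUtInvNec.{u})
    (hInvEx : StUtInvEx.{u}) (hCyc : StCycSet.{u}) (hUpper : StUtUpper.{u, u})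
    (hUpperSd : StUtUpperSd.{u, u}) (hBuild : StUtBuild.{u, u}) (hExSd : StUtExSd.{u})
    (hExTwo : StUtExTwo.{u}) (hEx : StUEx.{u}) (hModc : StUModc.{u, u})
    (hKumNT : StUKumNT.{u}) (hKumNec : StUKumNec.{u}) (hKumEx : StUKumEx.{u})
    (hKumTi : StUtKumTi.{u, u})
    {p : ℕ} [Fact p.Prime] [CharP F p] {q : ℕ} (hF : Fintype.card F = q ^ 2)
    (n m : ℕ) (hn : 3 ≤ n) (hm : 1 ≤ m) (hmn : 2 * m ≤ n) (r : ℕ) [Fact r.Prime]
    (hrΩ : r ∣ Nat.card {W : Submodule F (Fin n → F) // Module.finrank F ↥W = m ∧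
      (∀ u ∈ W, ∀ v ∈ W, Cfsg.hermForm n F q u v = 0)}) :
    (∀ x : Matrix.SpecialLinearGroup (Fin n) F, x ∈ Cfsg.SU n F q →
      (∃ z : F, ((x ^ r : Matrix.SpecialLinearGroup (Fin n) F) : Matrix (Fin n) (Fin n) F) =
        z • (1 : Matrix (Fin n) (Fin n) F)) →
      (∀ z : F, (x : Matrix (Fin n) (Fin n) F) ≠ z • (1 : Matrix (Fin n) (Fin n) F)) →
      ∃ W : Submodule F (Fin n → F), Module.finrank F ↥W = m ∧
        (∀ u ∈ W, ∀ v ∈ W, Cfsg.hermForm n F q u v = 0) ∧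
        W.map (Matrix.toLin' (x : Matrix (Fin n) (Fin n) F)) ≤ W) ↔
    ((r = 2 ∧ p ≠ 2 ∧ (2 * m < n ∨ padicValNat 2 (q + 1) ≤ padicValNat 2 n)) ∨
     (r ≠ p ∧ 2 < r ∧ ii F r ≤ m ∧ 2 * (m % ii F r) ≤ n % cu q r ∧
       (orderOf (q : ZMod r) % 4 ≠ 2 ∨ (orderOf (q : ZMod r) % 4 = 2 ∧
         (r - 1) / ii F r + 2 * (m / ii F r) ≤ n / ii F r ∧
         (2 < orderOf (q : ZMod r) ∨ (orderOf (q : ZMod r) = 2 ∧
           (r ∣ m ∨ padicValNat r n ≤ padicValNat r (q + 1)))))))) := by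
  have hp : p.Prime := Fact.out
  have hr : r.Prime := Fact.out
  have hn0 : 0 < n := by omega
  by_cases hrp : r = p
  · -- `r = p`: impossible
    subst hrp
    exact absurd hrΩ (hCntP F r q hF n m hmn)
  · by_cases hr2 : r = 2
    · -- `r = 2 ≠ p`
      subst hr2
      have hp2 : p ≠ 2 := fun h => hrp h.symm
      have h2 : (2 : F) ≠ 0 := by
        intro h
        have h1 : ((2 : ℕ) : F) = 0 := by exact_mod_cast h
        have h3 := (CharP.cast_eq_zero_iff F p 2).mp h1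
        exact hp2 ((Nat.prime_dvd_prime_iff_eq hp Nat.prime_two).mp h3)
      have hqodd : Odd q := odd_q (p := p) hp2 hF
      constructor
      · intro hL
        left
        exact ⟨rfl, hp2, caseB_fwd hInvEx hF hqodd n m hn0 hmn hL⟩
      · rintro (⟨-, -, h⟩ | ⟨-, h, -⟩)
        · intro x hx ⟨z, hz⟩ _
          exact caseB_back hSqrt hInvSq hInvNs hInvNec h2 hF hqodd n m hn0 hmn h x hx z hz
        · omega
    · -- `r ≠ p` odd
      have h2r := hr.two_le
      by_cases hi : orderOf (q : ZMod r) = 2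
      · have hpr : ¬ p ∣ r := fun h => hrp ((Nat.prime_dvd_prime_iff_eq hp hr).mp h).symm
        have hrF : (r : F) ≠ 0 := fun h0 => hpr ((CharP.cast_eq_zero_iff F p r).mp h0)
        have hii : ii F r = 1 := by
          rw [ii_eq hF r, hi]
          simp
        constructor
        · intro hL
          right
          have h := caseD_fwd hCyc hUpperSd hExTwo hKumEx hF n m (by omega) hm r hr hr2 hrp hi hL
          refine ⟨hrp, by omega, by rw [hii]; exact hm, ?_, Or.inr ⟨by rw [hi], h.1,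
            Or.inr ⟨hi, h.2⟩⟩⟩
          rw [hii, Nat.mod_one]
          omega
        · rintro (⟨h, -⟩ | ⟨-, -, -, h2, h3⟩)
          · exact absurd h hr2
          · intro x hx ⟨z, hz⟩ _
            rcases h3 with h3 | ⟨-, h3a, h3b⟩
            · rw [hi] at h3
              omega
            · rcases h3b with h3b | ⟨-, hcond⟩
              · omega
              · exact caseD_back hBuild hModc hKumNT hKumNec hKumTi hF n m hn0 hmn r hr hr2 hrp
                  hi h2 h3a hcond x hx z hz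
      · constructor
        · intro hL
          right
          have h := caseC_fwd hCnt hCyc hUpper hUpperSd hExSd hEx hF n m hn0 hmn r hr hr2 hrp hi
            hrΩ hL
          refine ⟨hrp, by omega, h.1, h.2.1, ?_⟩
          rcases h.2.2 with h3 | ⟨h3, h3a⟩
          · exact Or.inl h3
          · exact Or.inr ⟨h3, h3a, Or.inl (by omega)⟩
        · rintro (⟨h, -⟩ | ⟨-, -, -, h2, h3⟩)
          · exact absurd h hr2
          · intro x hx ⟨z, hz⟩ _
            refine caseC_back hBuild hModc hF n m hn0 hmn r hr hr2 hrp hi h2 ?_ x hx z hz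
            rcases h3 with h3 | ⟨h3, h3a, -⟩
            · exact Or.inl h3
            · exact Or.inr ⟨h3, h3a⟩

end Cases

end Cfsg.Agent.H42.Ut
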